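import Cfsg.Statements.S0765
import Cfsg.Agent.H4.Disc

set_option autoImplicit false
open Cfsg

namespace Cfsg.Agent.S0765


/-- Generation of the symplectic group by symplectic transvections: the subgroup of Sp_2m(F) generated by all matrices of maps x ↦ x + c f(x, w) w is the whole group. -/
theorem result {F : Type*} [Field F] (m : ℕ) : Subgroup.closure {A : Matrix.symplecticGroup (Fin m) F | ∃ (w : Fin m ⊕ Fin m → F) (c : F), (A : Matrix (Fin m ⊕ Fin m) (Fin m ⊕ Fin m) F) = Cfsg.sympTransvection m w c} = ⊤ := by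
  refine H4.closure_eq_top_of_equiv (H4.spEquiv m F)
    (T := {g | ∃ u t, (H4.spForm m F).IsEich g u 0 t}) ?_ ?_
  · rintro g ⟨u, t, hg⟩
    refine ⟨u, -t, H4.matrix_ext_mulVec fun x => ?_⟩
    rw [H4.spEquiv_symm_mulVec, H4.sympTransvection_mulVec, hg.app, ← H4.spForm_B,
      H4.alt_symm _ u x]
    simp [sub_eq_add_neg]
  · exact H4.alt_eq_top_of_transv (H4.spForm_ND m F) fun g u t _ hg =>
      Subgroup.subset_closure ⟨u, t, hg⟩

end Cfsg.Agent.S0765
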