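import Cfsg.Statements.S0780
import Cfsg.Agent.H4.Disc

set_option autoImplicit false
open Cfsg

namespace Cfsg.Agent.S0780


/-- Generation of SU_n(q), n ≥ 3, (n, q) ≠ (3, 2), by unitary transvections: the subgroup generated by the elements whose matrix is x ↦ x + c h(x, v) v with v isotropic is all of SU_n(q). -/
theorem result {F : Type*} [Field F] [Fintype F] {q : ℕ} (hF : Fintype.card F = q ^ 2) (n : ℕ) (hn : 3 ≤ n) (h32 : ¬ (n = 3 ∧ q = 2)) : Subgroup.closure {A : ↥(Cfsg.SU n F q) | ∃ (v : Fin n → F) (c : F), Cfsg.hermForm n F q v v = 0 ∧ ((A : Matrix.SpecialLinearGroup (Fin n) F) : Matrix (Fin n) (Fin n) F) = Cfsg.unitaryTransvection n q v c} = ⊤ := by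
  let f := H4.uForm hF n
  have hf : f.ND := H4.uForm_ND hF n
  have hn' : 3 ≤ Module.finrank F (Fin n → F) := by simpa using hn
  have h32' : ¬ (Module.finrank F (Fin n → F) = 3 ∧ q = 2) := by simpa using h32
  have hE := H4.u_E_eq_SI hf hn'
  refine H4.closure_eq_top_of_equiv ((H4.suEquiv hF n).trans (MulEquiv.subgroupCongr hE.symm))
    (T := {g | ∃ u t, f.IsEich g.1 u 0 t}) ?_ ?_
  · rintro g ⟨u, t, hg⟩
    refine ⟨u, -t, hg.Qu, H4.matrix_ext_mulVec fun x => ?_⟩
    rw [H4.unitaryTransvection_mulVec, ← H4.uForm_B hF]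
    refine (H4.suEquiv_symm_mulVec hF n ⟨g.1, hE ▸ g.2⟩ x).trans ?_
    rw [hg.app]
    simp [sub_eq_add_neg, f]
  · obtain ⟨u, w, h⟩ := H4.u_exists_hyp hf (by omega)
    have : (Subgroup.closure {g : f.E | ∃ u t, f.IsEich g.1 u 0 t}).Normal := by
      refine ⟨fun x hx a => ?_⟩
      have : Subgroup.closure {g : f.E | ∃ u t, f.IsEich g.1 u 0 t} ≤
          (Subgroup.closure {g : f.E | ∃ u t, f.IsEich g.1 u 0 t}).comap
            (MulAut.conj a).toMonoidHom := by
        rw [Subgroup.closure_le]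
        rintro g ⟨u, t, hg⟩
        exact Subgroup.subset_closure ⟨_, t, by simpa using hg.conj a.1⟩
      exact this hx
    refine (H4.Form.normal_E hf H4.u_wrich H4.u_prim h (H4.u_perfect hf hn' h32') _).resolve_left
      fun hs => ?_
    obtain ⟨t, ht, ht'⟩ := H4.exists_trace_zero hF
    obtain ⟨g, hg⟩ := H4.Form.exists_isEich (f := f) (v := 0) (t := t) h.Qu (by simp)
      (by rw [f.Q_zero]; exact ht')
    obtain ⟨c, hc⟩ := hs ⟨g, hg.mem_E⟩ (Subgroup.subset_closure ⟨u, t, hg⟩)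
    have := congrArg (f.B w) (hc w)
    rw [hg.app] at this
    simp [h.Bww, h.Buw, h.Bwu, ht] at this

end Cfsg.Agent.S0780
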