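import Cfsg.Statements.S0305
import Cfsg.Agent.H4.Dihed

set_option autoImplicit false
open Cfsg

namespace Cfsg.Agent.S0305


/-- GO^+_2(q) is dihedral of order 2(q-1). -/
theorem result {F : Type*} [Field F] [Fintype F] {q : ℕ} (hF : Fintype.card F = q) : Nonempty (Cfsg.isometryGroup F (Cfsg.quadFormPlus 1 F) ≃* DihedralGroup (q - 1)) := by
  obtain ⟨e⟩ := H4.orth2_equiv_dihedral (H4.plusForm_ND F 1) (by simp) (k := q - 1) (by
    rw [H4.plus_card_Isom 0 _ _ (H4.plusForm_ND F 1) (by simp) (H4.plusForm_hasTS 1),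
      Nat.card_eq_fintype_card, hF]; simp)
  exact ⟨(H4.isometryEquiv (H4.plusForm F 1)).trans e⟩

end Cfsg.Agent.S0305
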