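import Cfsg.Statements.S0707
import Mathlib

set_option autoImplicit false
open Cfsg

namespace Cfsg.Agent.S0707

/-- In a primitive permutation group, distinct points have distinct stabilisers unless the group is regular of prime degree. -/
theorem result {α : Type*} (G : Subgroup (Equiv.Perm α)) [MulAction.IsPreprimitive G α] (h : ¬ (Nat.card α).Prime ∨ ∃ a : α, MulAction.stabilizer G a ≠ ⊥) {a b : α} (hab : a ≠ b) : MulAction.stabilizer G a ≠ MulAction.stabilizer G b := by
  intro hst
  have : Nontrivial α := ⟨a, b, hab⟩
  have hco : IsCoatom (MulAction.stabilizer G a) :=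
    MulAction.IsPreprimitive.isCoatom_stabilizer_of_isPreprimitive G a
  obtain ⟨g, hg⟩ := MulAction.exists_smul_eq G a b
  have hgn : g ∈ Subgroup.normalizer (MulAction.stabilizer G a : Set G) := by
    rw [Subgroup.mem_normalizer_iff]
    intro h
    conv_rhs => rw [hst, ← hg]
    simp only [MulAction.mem_stabilizer_iff, mul_smul, inv_smul_smul, smul_left_cancel_iff]
  have hlt : MulAction.stabilizer G a < Subgroup.normalizer (MulAction.stabilizer G a : Set G) := by
    refine lt_of_le_of_ne Subgroup.le_normalizer fun e => hab ?_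
    rw [← e, MulAction.mem_stabilizer_iff] at hgn
    rw [← hg, hgn]
  have hnorm : (MulAction.stabilizer G a).Normal :=
    Subgroup.normalizer_eq_top_iff.mp (hco.2 _ hlt)
  have hbot : ∀ x : α, MulAction.stabilizer G x = ⊥ := by
    intro x
    have ha : MulAction.stabilizer G a = ⊥ := by
      rw [eq_bot_iff]
      intro h hh
      rw [Subgroup.mem_bot]
      ext y
      obtain ⟨k, rfl⟩ := MulAction.exists_smul_eq G a y
      have := hnorm.conj_mem h hh k⁻¹
      rw [MulAction.mem_stabilizer_iff, mul_smul, mul_smul, inv_inv, inv_smul_eq_iff] at this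
      exact this
    obtain ⟨k, rfl⟩ := MulAction.exists_smul_eq G a x
    rw [MulAction.stabilizer_smul_eq_stabilizer_map_conj, ha, Subgroup.map_bot]
  rcases h with h | ⟨x, hx⟩
  · apply h
    rw [hbot a] at hco
    have hsimple : ∀ H : Subgroup G, H = ⊥ ∨ H = ⊤ := by
      intro H
      by_cases hH : H = ⊥
      · exact Or.inl hH
      · exact Or.inr (hco.2 H (bot_lt_iff_ne_bot.mpr hH))
    have hnt : Nontrivial G := by
      refine ⟨g, 1, fun e => hab ?_⟩
      rw [← hg, e, one_smul]
    have hcyc : IsCyclic G := by
      obtain ⟨x, hx⟩ := exists_ne (1 : G)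
      rw [isCyclic_iff_exists_zpowers_eq_top]
      exact ⟨x, (hsimple _).resolve_left (by simpa using hx)⟩
    letI : CommGroup G := IsCyclic.commGroup
    have : IsSimpleGroup G := ⟨fun H _ => hsimple H⟩
    have hp : (Nat.card G).Prime := IsSimpleGroup.prime_card
    have := MulAction.index_stabilizer_of_transitive G a
    rw [hbot a, Subgroup.index_bot] at this
    rwa [← this]
  · exact hx (hbot x)

end Cfsg.Agent.S0707
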