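import Cfsg.Statements.S0014
import Cfsg.Agent.H1.U2
import Cfsg.Agent.H8.Basis

set_option autoImplicit false
open Cfsg

namespace Cfsg.Agent.S0014

open H7 H1B Subgroup

theorem card_le {E : Type*} [Group E] [Finite E] {p : ℕ} (h : EA p (⊤ : Subgroup E)) {ι : Type*} (f : ι → E)
    (T : Finset ι) : ord (closure (f '' T)) ∣ p ^ T.card := by
  classical
  induction T using Finset.induction_on with
  | empty => simp
  | insert a T ha ih =>
    rw [Finset.coe_insert, Set.image_insert_eq, Set.insert_eq, Subgroup.closure_union, Finset.card_insert_of_notMem ha,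
      pow_succ', ← zpowers_eq_closure]
    refine (card_sup_dvd (le_top.trans (h.le_nrm le_top))).trans (mul_dvd_mul ?_ ih)
    rw [Nat.card_zpowers]; exact orderOf_dvd_of_pow_eq_one (h.pow (mem_top _))

/-- Burnside's basis Theorem: in a finite p-group whose Frattini quotient has order p ^ n, every generating set contains n elements that already generate, and no set with fewer than n elements generates. -/
theorem result {G : Type*} [Group G] [Finite G] (p n : ℕ) [Fact p.Prime]
    (hG : IsPGroup p G) (hn : (frattini G).index = p ^ n) :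
    (∀ S : Finset G, Subgroup.closure (S : Set G) = ⊤ → ∃ T : Finset G, T ⊆ S ∧ T.card = n ∧ Subgroup.closure (T : Set G) = ⊤) ∧
    (∀ T : Finset G, Subgroup.closure (T : Set G) = ⊤ → n ≤ T.card) := by
  classical
  have hp : 1 < p := (Fact.out : p.Prime).one_lt
  have e : EA p (⊤ : Subgroup (G ⧸ frattini G)) := ⟨comm_top'.2 (H8.isMulCommutative_frattini_quotient hG),
    fun a _ => by
      obtain ⟨a, rfl⟩ := QuotientGroup.mk_surjective a
      rw [← QuotientGroup.mk_pow, QuotientGroup.eq_one_iff, ← Phi_top]
      exact pow_mem_Phi (pg_top hG) (mem_top a)⟩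
  have o : ord (⊤ : Subgroup (G ⧸ frattini G)) = p ^ n := by rw [card_top, ← hn, index]
  refine ⟨fun S hS => ?_, fun T hT => ?_⟩; swap
  · have := card_le e (QuotientGroup.mk' _) T
    rwa [(H8.closure_eq_top_iff_frattini _).2 hT, o, Nat.pow_dvd_pow_iff_le_right hp] at this
  suffices ∀ k ≤ n, ∃ T ⊆ S, T.card = k ∧ p ^ k ≤ ord (closure (QuotientGroup.mk' (frattini G) '' T)) by
    obtain ⟨T, a, b, c⟩ := this n le_rfl
    exact ⟨T, a, b, (H8.closure_eq_top_iff_frattini _).1 (eq_of_le_of_card_le le_top (o ▸ c))⟩
  intro k hk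
  induction k with
  | zero => exact ⟨∅, by simp, rfl, by simp⟩
  | succ k ih =>
    obtain ⟨T, a, b, c⟩ := ih (by omega)
    obtain ⟨s, hs, d⟩ : ∃ s ∈ S, QuotientGroup.mk' (frattini G) s ∉
        closure (QuotientGroup.mk' (frattini G) '' T) := by
      by_contra! h
      have := card_le e (QuotientGroup.mk' _) T
      rw [show closure (QuotientGroup.mk' (frattini G) '' T) = ⊤ from top_le_iff.1
        (((H8.closure_eq_top_iff_frattini _).2 hS).ge.trans ((closure_le _).2 (by
        rintro _ ⟨s, hs, rfl⟩; exact h s hs))), o, Nat.pow_dvd_pow_iff_le_right hp] at this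
      omega
    refine ⟨insert s T, Finset.insert_subset hs a, by
      rw [Finset.card_insert_of_notMem fun h => d (subset_closure ⟨s, h, rfl⟩), b], ?_⟩
    rw [pow_succ']
    refine (Nat.mul_le_mul_left p c).trans (mul_card_le_of_lt (e.isPGroup.to_le le_top) (lt_of_le_of_ne
      (closure_mono (Set.image_mono (by simp))) fun e => d (e ▸ subset_closure ⟨s, by simp, rfl⟩)))

end Cfsg.Agent.S0014
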