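import Cfsg.Statements.S0018
import Cfsg.Agent.H1.Fitting

set_option autoImplicit false
open Cfsg

namespace Cfsg.Agent.S0018

/-- A finite solvable group whose Sylow p-subgroups are abelian has p-length one: a Sylow p-subgroup together with the largest normal subgroup of order prime to p generates a normal subgroup. -/
theorem result {G : Type*} [Group G] [Finite G] [Group.IsSolvable G]
    (p : ℕ) [Fact p.Prime] (P : Sylow p G) (hP : IsMulCommutative P) :
    ((P : Subgroup G) ⊔ Cfsg.pPrimeCore p G).Normal := by
  set f := QuotientGroup.mk' (Cfsg.pPrimeCore p G)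
  have hf : Function.Surjective f := QuotientGroup.mk'_surjective _
  have h1 := H1.centralizer_pCore_le_of_isSolvable (p := p)
    (H1.pPrimeCore_quotient_pPrimeCore (G := G) (p := p))
  have h2 := H1.pCore_le_sylow (P.mapSurjective hf)
  have h3 : (P : Subgroup G).map f = Cfsg.pCore p _ :=
    le_antisymm ((((P : Subgroup G).map f).le_centralizer.trans (Subgroup.centralizer_le h2)).trans h1) h2
  have h4 := congrArg (Subgroup.comap f) h3
  rw [Subgroup.comap_map_eq, QuotientGroup.ker_mk'] at h4
  rw [h4]
  infer_instance

end Cfsg.Agent.S0018
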