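import Cfsg.Statements.S0020
import Cfsg.Agent.H1.U2

set_option autoImplicit false
open Pointwise
open Cfsg

namespace Cfsg.Agent.S0020

open H7 H1B Subgroup

/-- A finite solvable group admits a Sylow system: Sylow subgroups, one for each prime, that pairwise permute as sets. -/
theorem result {G : Type*} [Group G] [Finite G] [Group.IsSolvable G] :
    ∃ S : (p : Nat.Primes) → Sylow (p : ℕ) G,
      ∀ p q : Nat.Primes, (S p : Set G) * (S q : Set G) = (S q : Set G) * (S p : Set G) := by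
  classical
  obtain ⟨K, hK⟩ := H1.exists_complementSystem (G := G)
  have hK := fun p => hall_top_iff.1 (H1.isComplementSystem_iff.1 hK p)
  have ix : ∀ p : Nat.Primes, PiN {p.1} (K p).index := fun p => by simpa using (hK p).idx
  set T := H1.primesOf (Nat.card G)
  have pi : ∀ S : Finset Nat.Primes, PiN {q | q ∣ Nat.card G → ∀ p ∈ S, q ≠ p.1} (ord (⨅ p ∈ S, K p)) :=
    fun S q hq d _ p hp e => (hK p).pi q hq (d.trans (card_dvd_of_le (biInf_le _ hp))) e
  have id : ∀ p : Nat.Primes, PiN {p.1}ᶜ (⨅ q ∈ T.erase p, K q).index := fun p => by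
    rw [H1.index_biInf_of_coprime _ _ fun i _ j _ n => H1.coprime_of_piNum_singleton n (ix i) (ix j)]
    intro r hr d e
    obtain ⟨q, hq, d⟩ := (Prime.dvd_finset_prod_iff hr.prime _).1 d
    exact (Finset.mem_erase.1 hq).1 (Subtype.ext ((ix q r hr d).symm.trans e))
  have mem : ∀ r (hr : r.Prime), r ∣ Nat.card G → ⟨r, hr⟩ ∈ T := fun r hr d =>
    (H1.mem_primesOf Nat.card_pos.ne').2 d
  have sy : ∀ p : Nat.Primes, H2.IsSylowIn p (⨅ q ∈ T.erase p, K q) ⊤ := fun p => by
    haveI := Fact.mk p.2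
    refine hall_single.1 ⟨le_top, fun r hr d => by_contra fun e => ?_, by simpa using id p⟩
    have d' := d.trans (card_subgroup_dvd_card _)
    exact pi _ r hr d d' ⟨r, hr⟩ (Finset.mem_erase.2 ⟨fun e' => e (congrArg Subtype.val e'), mem r hr d'⟩) rfl
  refine ⟨fun p => haveI := Fact.mk p.2; (sy p).toSylowTop, fun p q => H1.perm_iff_mul_comm.1 ?_⟩
  by_cases n : p = q
  · subst n; exact H1.perm_of_le_normalizer (le_nrm_self _)
  refine (H1.perm_of_coprime_relIndex (U := ⨅ r ∈ (T.erase p).erase q, K r)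
    (biInf_mono fun r hr => Finset.mem_of_mem_erase hr) (biInf_mono fun r hr => ?_) ?_).1
  · rw [Finset.erase_right_comm] at hr; exact Finset.mem_of_mem_erase hr
  refine Nat.coprime_of_dvd fun r hr d d' => ?_
  have k : ∀ p : Nat.Primes, ∀ U, (⨅ q ∈ T.erase p, K q) ≤ U → r ∣ (⨅ q ∈ T.erase p, K q).relIndex U →
    r ≠ p := fun p U a b => id p r hr (b.trans (relIndex_dvd_index_of_le a))
  have d2 := d.trans (relIndex_dvd_card' _ _)
  have d3 := d2.trans (card_subgroup_dvd_card _)
  refine pi _ r hr d2 d3 ⟨r, hr⟩ (Finset.mem_erase.2 ⟨fun e => ?_, Finset.mem_erase.2 ⟨fun e => ?_, mem r hr d3⟩⟩) rfl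
  · refine k q _ (biInf_mono fun r hr => ?_) d' (congrArg Subtype.val e)
    rw [Finset.erase_right_comm] at hr; exact Finset.mem_of_mem_erase hr
  · exact k p _ (biInf_mono fun r hr => Finset.mem_of_mem_erase hr) d (congrArg Subtype.val e)

end Cfsg.Agent.S0020
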