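import Cfsg.Statements.S0021
import Cfsg.Agent.H1.U2

set_option autoImplicit false
open Pointwise
open Cfsg

namespace Cfsg.Agent.S0021

open H7 H1B Subgroup

/-- A finite group with a family of pairwise permuting Sylow subgroups, one for each prime, is solvable (this direction rests on Burnside's two-prime Theorem). -/
theorem result {G : Type*} [Group G] [Finite G]
    (S : (p : Nat.Primes) → Sylow (p : ℕ) G)
    (hS : ∀ p q : Nat.Primes, (S p : Set G) * (S q : Set G) = (S q : Set G) * (S p : Set G)) :
    Group.IsSolvable G := by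
  classical
  have k : ∀ T : Finset Nat.Primes, PiN {q | ∃ p ∈ T, q = p.1} (ord (⨆ p ∈ T, (S p : Subgroup G))) := fun T => by
    induction T using Finset.induction_on with
    | empty => simpa using piN_one _
    | insert p T _ ih =>
      haveI := Fact.mk p.2
      rw [Finset.iSup_insert, sup_comm]
      refine PiN.dvd (PiN.mul (ih.mono fun q ⟨r, a, b⟩ => ⟨r, Finset.mem_insert_of_mem a, b⟩)
        (piN_of_isPGroup (p := p) ?_ (S p).2)) (H1.Perm.card_dvd ?_)
      · exact ⟨p, Finset.mem_insert_self _ _, rfl⟩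
      exact H1.perm_iSup fun q => H1.perm_iSup fun _ => H1.perm_iff_mul_comm.2 (hS q p)
  refine H1.isSolvable_of_complements fun p hp => ⟨⨆ q ∈ (H1.primesOf (Nat.card G)).erase ⟨p, hp⟩, S q,
    fun q hq d e => ?_, fun q hq e d => ?_⟩
  · obtain ⟨r, a, b⟩ := k _ q hq d
    exact (Finset.mem_erase.1 a).1 (Subtype.ext (b.symm.trans e))
  haveI := Fact.mk hq
  refine (S ⟨q, hq⟩).not_dvd_index (d.trans (index_dvd_of_le (le_biSup (fun q : Nat.Primes => (S q : Subgroup G))
    (Finset.mem_erase.2 ⟨fun e' => e (congrArg Subtype.val e'), ?_⟩))))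
  exact (H1.mem_primesOf Nat.card_pos.ne').2 (d.trans (index_dvd_card _))

end Cfsg.Agent.S0021
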