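import Cfsg.Statements.S0033
import Cfsg.Agent.H1.BG3a
import Cfsg.Agent.H1.Top

set_option autoImplicit false
open Cfsg

namespace Cfsg.Agent.S0033

open H7 H1B

/-- Thompson's Theorem on fixed-point-free automorphisms: a finite group with an automorphism of prime order fixing only the identity is nilpotent. -/
theorem result {G : Type*} [Group G] [Finite G] (φ : G ≃* G)
    (hφ : MonoidHom.FixedPointFree (φ : G →* G)) (p : ℕ) (hp : p.Prime) (hord : orderOf φ = p) :
    Group.IsNilpotent G := by
  open Subgroup in
  have h := nilp_of_fpf (K := hL ⊤) (R := hR (zpowers (φ : MulAut G))) (hR_le_nrm _ _)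
    (by rwa [hR, H1.sdR, card_map_of_injective SemidirectProduct.inr_injective, Nat.card_zpowers, hord])
    (by
      rw [eq_bot_iff]
      rintro _ ⟨⟨x, -, rfl⟩, hx⟩
      have := hR_le_cen.1 (show hR (zpowers (φ : MulAut G)) ≤ cen (hL (zpowers x)) from
        le_cen_symm (by rwa [hL, H1.sdL, MonoidHom.map_zpowers, zpowers_le])) φ (mem_zpowers _) x
        (mem_zpowers x)
      rw [hφ x this, map_one]; exact one_mem _)
  exact Group.nilpotent_of_mulEquiv ((equivMapOfInjective ⊤ _
    SemidirectProduct.inl_injective).symm.trans topEquiv) (_h := h)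

end Cfsg.Agent.S0033
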