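import Cfsg.Statements.S0038
import Cfsg.Agent.H1.BG3a
import Cfsg.Agent.H1.FrobK

set_option autoImplicit false
open Pointwise
open Cfsg

namespace Cfsg.Agent.S0038

open H7 H1B Subgroup
open scoped Pointwise

theorem aux {G : Type*} [Group G] [Finite G] {H H₀ : Subgroup G}
    (hH : Cfsg.IsFrobeniusComplement H) (hH₀ : Cfsg.IsFrobeniusComplement H₀) (h : H₀ ≤ H) : H₀ = H := by
  obtain ⟨N, h1, h2, h3⟩ := H1.FrobC.exists_kernel hH
  obtain ⟨N₀, k1, k2, k3⟩ := H1.FrobC.exists_kernel hH₀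
  have f := H1.FrobC.fpf hH (disjoint_iff.1 h3.symm.disjoint)
  have hn : Group.IsNilpotent N₀ :=
    Reg.nilp (H1.FrobC.fpf hH₀ (disjoint_iff.1 k3.symm.disjoint)) (le_nrm_of_normal _ _) hH₀.1
  have hN : N ≤ N₀ := fun x hx => by
    rw [← SetLike.mem_coe, k1, H1.mem_frobeniusKernel_iff]
    rw [← SetLike.mem_coe, h1, H1.mem_frobeniusKernel_iff] at hx
    exact hx.imp_right fun e g hg => e g (h hg)
  have hb : N ≠ ⊥ := fun e => hH.2.1 (by have := h3.sup_eq_top; rwa [e, bot_sup_eq] at this)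
  have e : H ⊓ N₀ = ⊥ := by_contra fun e => by
    obtain ⟨x, hx, h1⟩ := exists_ne_one e
    have := nilp_cen_of_coprime hn hN inf_le_right (coprime_mono
      (Reg.coprime f (le_nrm_of_normal _ _)).symm le_rfl inf_le_left)
    exact hb (by rw [← f x hx.1 h1, inf_eq_left.2 (this.trans (cen_le_cen1 hx))])
  have := modular (A := H₀) (B := N₀) (C := H) (le_nrm_of_normal _ _) h
  rw [k3.symm.sup_eq_top, top_inf_eq, inf_comm, e, sup_bot_eq] at this
  exact this.symm

/-- All Frobenius complements of a finite group are conjugate to one another. -/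
theorem result {G : Type*} [Group G] [Finite G] (H H₀ : Subgroup G)
    (hH : Cfsg.IsFrobeniusComplement H) (hH₀ : Cfsg.IsFrobeniusComplement H₀) :
    ∃ g : G, MulAut.conj g • H₀ = H := by
  rcases le_total (Nat.card H₀) (Nat.card H) with e | e
  · obtain ⟨g, hg⟩ := H1.FrobC.exists_le_conj_of_card_le hH hH₀ e
    exact ⟨g⁻¹, by rw [aux (H1.FrobC.conj_smul hH g) hH₀ hg, map_inv, inv_smul_smul]⟩
  · obtain ⟨g, hg⟩ := H1.FrobC.exists_le_conj_of_card_le hH₀ hH e
    exact ⟨g, (aux (H1.FrobC.conj_smul hH₀ g) hH hg).symm⟩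

end Cfsg.Agent.S0038
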