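import Cfsg.Statements.S0040
import Cfsg.Agent.H1.Two4
import Cfsg.Agent.H1.BG3a

set_option autoImplicit false
open Cfsg

namespace Cfsg.Agent.S0040

open H7 H1B Subgroup

/-- Sylow subgroups of Frobenius complements: if H complements a nontrivial normal subgroup K and every nonidentity element of H has trivial centraliser in K, then each Sylow subgroup of H is cyclic or isomorphic to a generalized quaternion group. -/
theorem result {G : Type*} [Group G] [Finite G] (K H : Subgroup G) [K.Normal]
    (hc : Subgroup.IsComplement' K H) (hK : K ≠ ⊥) (hfpf : ∀ h ∈ H, h ≠ 1 → K ⊓ Subgroup.centralizer {h} = ⊥)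
    (p : ℕ) [Fact p.Prime] (P : Sylow p H) :
    IsCyclic P ∨ ∃ n : ℕ, Nonempty (P ≃* QuaternionGroup (2 ^ n)) := by
  have e := equivMapOfInjective (P : Subgroup H) _ H.subtype_injective
  rcases cyc_or_quat (syl_sub P).isPGroup (rk1_of_cyc fun A hA hc => H1B.Reg.cyc_of_comm (R := H) hfpf
    (le_nrm_of_normal _ _) hK (hA.trans (map_subtype_le _)) hc) with h | ⟨h2, a, n, h, h'⟩
  · exact .inl (isCyclic_of_surjective _ e.symm.surjective)
  · obtain ⟨b, hb, hba⟩ := h.ex
    obtain ⟨e'⟩ := h.quat rfl hb hba (h' b hb hba)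
    exact .inr ⟨_, ⟨e.trans e'⟩⟩

end Cfsg.Agent.S0040
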