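import Cfsg.Statements.S0041
import Cfsg.Agent.H1.Frob

set_option autoImplicit false
open Cfsg

namespace Cfsg.Agent.S0041

/-- A group acting on a nontrivial abelian group so that no nonidentity element has a nonidentity fixed point is cyclic, provided it is abelian or its order is a product of two (possibly equal) primes. -/
theorem result {G : Type*} [Group G] [Finite G] (A V : Subgroup G) [IsMulCommutative V]
    (hV : V ≠ ⊥) (hAV : A ≤ Subgroup.normalizer (V : Set G)) (hfpf : ∀ a ∈ A, a ≠ 1 → V ⊓ Subgroup.centralizer {a} = ⊥)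
    (hA : IsMulCommutative A ∨ ∃ p q : ℕ, p.Prime ∧ q.Prime ∧ Nat.card A = p * q) : IsCyclic A := by
  rcases hA with h | ⟨p, q, hp, hq, h⟩
  · exact H1.isCyclic_of_fpf hAV hV hfpf
  suffices IsMulCommutative A from H1.isCyclic_of_fpf hAV hV hfpf
  wlog hpq : p ≤ q generalizing p q
  · exact this q p hq hp (h.trans (mul_comm _ _)) (by omega)
  obtain ⟨x, hx, hxq⟩ := H1.exists_mem_orderOf_eq_prime hq (h ▸ dvd_mul_left q p)
  have h1 : (Subgroup.zpowers x).relIndex A = p := by
    have := H1.card_mul_relIndex (Subgroup.zpowers_le.2 hx)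
    rw [Nat.card_zpowers, hxq, h, mul_comm p q] at this
    exact Nat.eq_of_mul_eq_mul_left hq.pos this
  have h2 : A ≤ Subgroup.normalizer (Subgroup.zpowers x : Set G) := by
    rw [← Subgroup.normal_subgroupOf_iff_le_normalizer (Subgroup.zpowers_le.2 hx)]
    apply Subgroup.normal_of_index_eq_minFac_card
    rw [← Subgroup.relIndex, h1, h]
    rcases (Nat.Prime.dvd_mul (Nat.minFac_prime (n := p * q) (by nlinarith [hp.one_lt, hq.one_lt]))).1
      (Nat.minFac_dvd _) with h3 | h3
    · exact ((Nat.prime_dvd_prime_iff_eq (Nat.minFac_prime (by nlinarith [hp.one_lt, hq.one_lt])) hp).1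
        h3).symm
    · have := (Nat.prime_dvd_prime_iff_eq (Nat.minFac_prime (by nlinarith [hp.one_lt, hq.one_lt])) hq).1
        h3
      have := Nat.minFac_le_of_dvd hp.two_le (dvd_mul_right p q)
      omega
  rcases hpq.eq_or_lt with rfl | hlt
  · have := Fact.mk hp
    exact IsPGroup.isMulCommutative_of_card_eq_prime_sq (p := p) (by rw [h, sq])
  obtain ⟨y, hy, hyp⟩ := H1.exists_mem_orderOf_eq_prime hp (h ▸ dvd_mul_right p q)
  have h3 := H1.fpf_centralizes_of_prime hAV hV hfpf (Subgroup.zpowers_le.2 hy)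
    (Subgroup.zpowers_le.2 hx) (by rwa [Nat.card_zpowers, hyp]) (by rwa [Nat.card_zpowers, hxq])
    ((Subgroup.zpowers_le.2 hy).trans h2)
  rw [← H1.sup_zpowers_eq_of_relIndex_prime (h1 ▸ hp) (Subgroup.zpowers_le.2 hx) hy fun h4 => by
    have := (Subgroup.zpowers x).orderOf_dvd_natCard h4
    rw [Nat.card_zpowers, hxq, hyp, Nat.prime_dvd_prime_iff_eq hp hq] at this
    omega]
  exact H1.isMulCommutative_sup (Subgroup.le_centralizer_iff.1 h3)

end Cfsg.Agent.S0041
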