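import Cfsg.Statements.S0054
import Cfsg.Agent.H1.U2

set_option autoImplicit false
open Cfsg

namespace Cfsg.Agent.S0054

open H7 H1B Subgroup

/-- A regular normal subgroup of a finite 2-transitive group is elementary abelian: it is commutative and all its elements have order dividing one prime. -/
theorem result {G : Type*} [Group G] [Finite G]
    {X : Type*} [Nonempty X] [MulAction G X] (h2 : MulAction.IsMultiplyPretransitive G X 2)
    (N : Subgroup G) [N.Normal] (htrans : MulAction.IsPretransitive N X) (hreg : ∀ x : X, MulAction.stabilizer N x = ⊥) :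
    IsMulCommutative N ∧ ∃ p : ℕ, p.Prime ∧ ∀ n ∈ N, n ^ p = 1 := by
  by_cases e : N = ⊥
  · subst e; exact ⟨isComm_bot, 2, Nat.prime_two, fun n hn => by simp [mem_bot.1 hn]⟩
  obtain ⟨x⟩ := ‹Nonempty X›
  have r : ∀ n ∈ N, n • x = x → n = 1 := fun n a b =>
    congrArg Subtype.val (mem_bot.1 ((hreg x).le (show (⟨n, a⟩ : N) ∈ MulAction.stabilizer N x from b)))
  have c : ∀ n ∈ N, ∀ m ∈ N, n ≠ 1 → m ≠ 1 → ∃ g, g * n * g⁻¹ = m := fun n a m b n1 m1 => by
    obtain ⟨g, c, d⟩ := MulAction.is_two_pretransitive_iff.1 h2 (fun e => n1 (r n a e.symm))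
      (fun e => m1 (r m b e.symm))
    refine ⟨g, (inv_mul_eq_one.1 (r _ (mul_mem (inv_mem b) (conj_mem (top_nrm N) (mem_top g) a)) ?_)).symm⟩
    rw [mul_smul, mul_smul, mul_smul, inv_smul_eq_iff.2 c.symm, d, inv_smul_smul]
  obtain ⟨p, hp, d⟩ := exists_prime_dvd e
  haveI := Fact.mk hp
  obtain ⟨y, hy, o⟩ := exists_orderOf_eq hp d
  have pw : ∀ n ∈ N, n ^ p = 1 := fun n a => by
    by_cases e : n = 1
    · simp [e]
    obtain ⟨g, rfl⟩ := c y hy n a (ne_one_of_orderOf o) e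
    rw [conj_pow, ← o, pow_orderOf_eq_one]; simp
  obtain ⟨z, hz, z1⟩ := exists_ne_one (nilp_inf_cen_ne_bot (nilp_of_isPGroup (p := p) (isPGroup_iff_mem.2
    fun a ha => ⟨1, by simpa using pw a ha⟩)) le_rfl (le_nrm_self N) e)
  refine ⟨isComm_iff.2 fun n a => ?_, p, hp, pw⟩
  by_cases e : n = 1
  · exact e ▸ one_mem _
  obtain ⟨g, rfl⟩ := c z hz.1 n a z1 e
  exact conj_mem (nrm_cen (top_nrm N)) (mem_top g) hz.2

end Cfsg.Agent.S0054
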