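import Cfsg.Statements.S0063
import Cfsg.Agent.H1.Misc

set_option autoImplicit false
open Cfsg

namespace Cfsg.Agent.S0063

universe u
theorem aux (p : ℕ) [hp : Fact p.Prime] (m : ℕ) : ∀ (G : Type u) [Group G] [Finite G],
    Nat.card G = p ^ m → 1 < m → Group.nilpotencyClass G ≤ m - 1 := by
  induction m using Nat.strong_induction_on with | _ m ih =>
  intro G _ _ hG hm
  have h1 : IsPGroup p G := IsPGroup.of_card hG
  have := h1.isNilpotent
  obtain ⟨k, hk⟩ := IsPGroup.iff_card.1 (h1.to_quotient (Subgroup.center G))
  have : Nontrivial G := Finite.one_lt_card_iff_nontrivial.1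
    (hG ▸ Nat.one_lt_pow (by omega) hp.out.one_lt)
  have h2 := H1.card_quotient_lt (Group.IsNilpotent.center_ne_bot (G := G))
  rw [hk, hG, Nat.pow_lt_pow_iff_right hp.out.one_lt] at h2
  by_cases h3 : 1 < k
  · have := ih k h2 _ hk h3
    rw [Group.nilpotencyClass_eq_quotient_center_plus_one]
    omega
  · have : IsCyclic (G ⧸ Subgroup.center G) := by
      apply isCyclic_of_card_dvd_prime (p := p)
      rw [hk]
      exact (pow_dvd_pow p (by omega : k ≤ 1)).trans (by simp)
    have := Group.IsNilpotent.nilpotencyClass_le_one_iff.2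
      (isMulCommutative_of_isCyclic_quotient_center_self G)
    omega

/-- A finite group of prime-power order p ^ m with m > 1 is nilpotent of class at most m - 1. -/
theorem result {G : Type*} [Group G] [Finite G] (p m : ℕ) [Fact p.Prime]
    (hG : Nat.card G = p ^ m) (hm : 1 < m) : Group.nilpotencyClass G ≤ m - 1 := by
  exact aux p m G hG hm

end Cfsg.Agent.S0063
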