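import Cfsg.Statements.S0064
import Cfsg.Agent.H1.Misc

set_option autoImplicit false
open Cfsg

namespace Cfsg.Agent.S0064

/-- A finite group is nilpotent exactly when each of its subgroups is subnormal. -/
theorem result {G : Type*} [Group G] [Finite G] :
    Group.IsNilpotent G ↔ ∀ H : Subgroup G, H.IsSubnormal := by
  constructor
  · intro hG H
    induction H using WellFoundedGT.induction with | ind H ih =>
    by_cases h : H = ⊤
    · rw [h]; exact .top
    · exact .step H _ Subgroup.le_normalizer
        (ih _ (normalizerCondition_of_isNilpotent H (lt_top_iff_ne_top.2 h))) inferInstance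
  · intro h
    refine (Group.isNilpotent_of_finite_tfae.out 1 0).1 ?_
    intro H hH
    rcases Subgroup.IsSubnormal.iff_eq_top_or_exists.1 (h H) with h1 | ⟨K, h1, -, h2⟩
    · exact absurd h1 hH.ne
    · exact h1.trans_le ((Subgroup.normal_subgroupOf_iff_le_normalizer h1.le).1 h2)

end Cfsg.Agent.S0064
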