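import Cfsg.Statements.S0068
import Cfsg.Agent.H1.Frob

set_option autoImplicit false
open Cfsg

namespace Cfsg.Agent.S0068

/-- Frobenius complements of even order: if H complements a nontrivial normal subgroup K, each nonidentity element of H has trivial centraliser in K, and H has even order, then H contains a unique involution s, K is abelian, and s inverts every element of K. -/
theorem result {G : Type*} [Group G] [Finite G] (K H : Subgroup G) [K.Normal]
    (hc : Subgroup.IsComplement' K H) (hK : K ≠ ⊥) (hfpf : ∀ h ∈ H, h ≠ 1 → K ⊓ Subgroup.centralizer {h} = ⊥)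
    (heven : 2 ∣ Nat.card H) :
    (∃ s ∈ H, orderOf s = 2 ∧ (∀ t ∈ H, orderOf t = 2 → t = s) ∧ ∀ k ∈ K, s * k * s⁻¹ = k⁻¹) ∧ IsMulCommutative K := by
  obtain ⟨s, hs, h2⟩ := H1.exists_mem_orderOf_eq_prime Nat.prime_two heven
  have key : ∀ t ∈ H, orderOf t = 2 → ∀ k ∈ K, t * k * t⁻¹ = k⁻¹ := fun t ht h k hk =>
    H1.inverts_of_fpf_involution (by rw [← sq, ← h, pow_orderOf_eq_one]; exact one_mem _)
      (Subgroup.le_normalizer_of_normal (Subgroup.mem_top t))
      (hfpf t ht (by rintro rfl; simp at h)) hk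
  refine ⟨⟨s, hs, h2, fun t ht h => ?_, key s hs h2⟩, H1.isMulCommutative_of_inverts (key s hs h2)⟩
  by_contra hne
  refine hK (eq_bot_iff.2 fun k hk => ?_)
  rw [← hfpf (s⁻¹ * t) (H.mul_mem (H.inv_mem hs) ht) (by rwa [Ne, inv_mul_eq_one, eq_comm])]
  refine ⟨hk, Subgroup.mem_centralizer_singleton_iff.2 ?_⟩
  calc k * (s⁻¹ * t) = s⁻¹ * (s * k * s⁻¹) * t := by group
    _ = s⁻¹ * (t * k * t⁻¹) * t := by rw [key s hs h2 k hk, key t ht h k hk]
    _ = _ := by group

end Cfsg.Agent.S0068
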