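import Cfsg.Statements.S0069
import Cfsg.Agent.H1.Two4
import Cfsg.Agent.FT.G9
import Cfsg.Agent.FT.Main
import Cfsg.Agent.H8.SylowCount
import Cfsg.Agent.H1.Frob

set_option autoImplicit false
open Cfsg

namespace Cfsg.Agent.S0069

open H7 H1B Subgroup

/-- A Frobenius complement has nontrivial centre: if H ≠ 1 complements a nontrivial normal subgroup K and every nonidentity element of H has trivial centraliser in K, then the centre of H is nontrivial. -/
theorem result {G : Type*} [Group G] [Finite G] (K H : Subgroup G) [K.Normal]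
    (hc : Subgroup.IsComplement' K H) (hK : K ≠ ⊥) (hH : H ≠ ⊥) (hfpf : ∀ h ∈ H, h ≠ 1 → K ⊓ Subgroup.centralizer {h} = ⊥) :
    Subgroup.center H ≠ ⊥ := by
  suffices ∃ t ∈ H, t ≠ 1 ∧ H ≤ cen1 t by
    obtain ⟨t, ht, t1, h⟩ := this
    exact fun e => t1 (congrArg Subtype.val (mem_bot.1 (e.le (show (⟨t, ht⟩ : H) ∈ center H from
      mem_center_iff.2 fun g => Subtype.ext (mem_cen1.1 (h g.2))))))
  rcases Nat.even_or_odd (ord H) with he | ho
  · obtain ⟨t, ht, ot⟩ := exists_inv he
    have inv : ∀ s ∈ H, orderOf s = 2 → ∀ k ∈ K, s * k * s⁻¹ = k⁻¹ := fun s hs os k hk =>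
      H1.inverts_of_fpf_involution (by rw [(ord2.1 os).1]; exact one_mem _) (le_nrm_of_normal ⊤ K trivial)
        (hfpf s hs (ord2.1 os).2) hk
    refine ⟨t, ht, (ord2.1 ot).2, fun g hg => mem_cen1.2 ?_⟩
    have m := mul_mem (mul_mem hg ht) (inv_mem hg)
    by_contra hne
    refine hK (eq_bot_iff.2 ((hfpf _ (mul_mem (inv_mem ht) m) fun e => hne ?_).symm ▸
      le_inf le_rfl fun k hk => mem_cen1.2 ?_))
    · rw [inv_mul_eq_one] at e; rw [← mul_inv_eq_iff_eq_mul, ← e]
    · have e1 := inv _ m ((ord_conj g t).trans ot) k hk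
      rw [← inv t ht ot k hk] at e1
      generalize g * t * g⁻¹ = s at e1
      calc k * (t⁻¹ * s) = t⁻¹ * (t * k * t⁻¹) * s := by group
        _ = _ := by rw [← e1]; group
  · have h1 : ord H ≠ 1 := by rwa [Ne, card_eq_one]
    have pp := Nat.minFac_prime h1
    haveI := Fact.mk pp
    obtain ⟨x, ox⟩ := exists_prime_orderOf_dvd_card' (G := H) _ (Nat.minFac_dvd _)
    have cx : ord (zpowers x.1) = (ord H).minFac := by rw [Nat.card_zpowers, orderOf_coe, ox]
    have n := H9F.reg_nrm_prime (H := K) hfpf (le_nrm_of_normal _ _) hK (odd_iff_coprime.1 ho)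
      (FT.odd_solvable ho) (zpowers_le.2 x.2) (cx ▸ pp)
    refine ⟨x, x.2, fun e => pp.one_lt.ne' (by rw [← ox, ← orderOf_coe, e, orderOf_one]), ?_⟩
    rw [← cen_zpowers, ← relIndex_eq_one]
    by_contra hne
    have d1 := (H1.relIndex_dvd_of_le_right (nrm_cen le_rfl) n).trans
      (H8.relIndex_centralizer_normalizer_dvd_of_prime _ pp cx)
    have d2 := relIndex_dvd_card (cen (zpowers x.1)) H
    have := Nat.minFac_le_of_dvd (Nat.minFac_prime hne).two_le ((Nat.minFac_dvd _).trans d2)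
    have h3 := Nat.le_of_dvd (by have := pp.two_le; omega) ((Nat.minFac_dvd _).trans d1)
    have := pp.two_le
    omega

end Cfsg.Agent.S0069
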