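import Cfsg.Statements.S0073
import Cfsg.Agent.H1.V1

set_option autoImplicit false
open Cfsg

namespace Cfsg.Agent.S0073

open H7 H1B Subgroup

/-- For a finite non-abelian simple group, either the cube of the least prime divisor of the order divides the order, or 12 does. -/
theorem result {G : Type*} [Group G] [Finite G] [IsSimpleGroup G] (hG : ∃ x y : G, x * y ≠ y * x) : (Nat.card G).minFac ^ 3 ∣ Nat.card G ∨ 12 ∣ Nat.card G := by
  have hp : (Nat.card G).minFac.Prime := Nat.minFac_prime Finite.one_lt_card.ne'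
  generalize e : (Nat.card G).minFac = p at hp
  haveI := Fact.mk hp
  by_contra h
  push Not at h
  obtain ⟨P, hP⟩ := exists_syl p (⊤ : Subgroup G)
  obtain ⟨k, hk⟩ := card_pgroup hP.isPGroup
  have h1 : ord P ≤ p ^ 2 := by
    rw [hk]
    refine Nat.pow_le_pow_right hp.pos (not_lt.1 fun h3 => h.1 ?_)
    exact (pow_dvd_pow p h3).trans (hk ▸ card_subgroup_dvd_card P)
  refine not_npc_of_simple (p := p) (fun hc => ?_) (e ▸ Nat.minFac_dvd _)
    (npc_of_min_prime hP (comm_of_card_le hP.isPGroup h1) ((card_le_of_le (H7.Om_le _ _)).trans h1)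
      (fun q hq hd => e ▸ Nat.minFac_le_of_dvd hq.two_le (card_top (G := G) ▸ hd)) (card_top (G := G) ▸ h.2))
  obtain ⟨x, y, h⟩ := hG
  exact h (hc.is_comm.comm x y)

end Cfsg.Agent.S0073
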