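import Cfsg.Statements.S0076
import Cfsg.Agent.H2.Abel

set_option autoImplicit false
open Cfsg

namespace Cfsg.Agent.S0076

open Subgroup H2


/-- Two P-invariant subsets of a Sylow p-subgroup P that are conjugate in G are conjugate under the normalizer of P. -/
theorem result {G : Type*} [Group G] [Finite G] {p : ℕ} [Fact p.Prime] (P : Sylow p G) (X Y : Set G) (hXP : X ⊆ P) (hYP : Y ⊆ P) (hX : ∀ x ∈ P, (fun y => x * y * x⁻¹) '' X = X) (hY : ∀ x ∈ P, (fun y => x * y * x⁻¹) '' Y = Y) (g : G) (hg : (fun y => g * y * g⁻¹) '' X = Y) : ∃ n ∈ Subgroup.normalizer (P : Set G), (fun y => n * y * n⁻¹) '' X = Y := by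
  -- work with the setwise stabiliser of `Y` under conjugation
  let S : Subgroup G := open scoped Pointwise in
    MulAction.stabilizer (ConjAct G) Y |>.comap ConjAct.toConjAct.toMonoidHom
  have hS : ∀ x : G, x ∈ S ↔ (fun y => x * y * x⁻¹) '' Y = Y := fun x => Iff.rfl
  have h1 : (P : Subgroup G) ≤ S := fun x hx => (hS x).2 (hY x hx)
  have h2 : cj g P ≤ S := by
    rw [cj_le_iff]
    intro x hx
    rw [hS, ← hg]
    conv_rhs => rw [← hX x hx]
    simp [Set.image_image, mul_assoc]
  have h3 : IsSylowIn p (cj g P) S := by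
    have := (sylow_isSylowIn_top P).cj g
    rw [cj_top] at this
    exact this.mono h2 le_top
  obtain ⟨s, hs, e⟩ := h3.exists_cj_eq (sylow_isSylowIn P h1)
  rw [cj_cj] at e
  refine ⟨s * g, mem_normalizer_iff_cj.2 e, ?_⟩
  rw [← (hS s).1 hs, ← hg]
  simp [Set.image_image, mul_assoc]

end Cfsg.Agent.S0076
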