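import Cfsg.Statements.S0078
import Cfsg.Agent.H2.Abel

set_option autoImplicit false
open Cfsg

namespace Cfsg.Agent.S0078

open Subgroup H2


/-- In a p-normal group, a Sylow p-subgroup P meets O^p(G) exactly where it meets O^p(V), for any subgroup V containing the normalizer of the centre of P. -/
theorem result {G : Type*} [Group G] [Finite G] {p : ℕ} [Fact p.Prime] (P : Sylow p G) (hn : ∀ Q : Sylow p G, (P : Subgroup G) ⊓ Subgroup.centralizer (P : Set G) ≤ (Q : Subgroup G) → (Q : Subgroup G) ⊓ Subgroup.centralizer (Q : Set G) = (P : Subgroup G) ⊓ Subgroup.centralizer (P : Set G)) (V : Subgroup G) (hV : Subgroup.normalizer (((P : Subgroup G) ⊓ Subgroup.centralizer (P : Set G) : Subgroup G) : Set G) ≤ V) : (P : Subgroup G) ⊓ Cfsg.pResidual p G = (P : Subgroup G) ⊓ (Cfsg.pResidual p V).map V.subtype := by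
  set Z : Subgroup G := (P : Subgroup G) ⊓ Subgroup.centralizer (P : Set G) with hZ
  have hW : Cfsg.IsWeaklyClosed Z P := by
    refine ⟨inf_le_left, fun g hg => ?_⟩
    have hg' : Z ≤ ((g⁻¹ • P : Sylow p G) : Subgroup G) := by
      rw [coe_smul_sylow, ← cj_le_iff_le_cj_inv]; exact hg
    have := hn _ hg'
    rw [show ((g⁻¹ • P : Sylow p G) : Set G) = (cj g⁻¹ P : Subgroup G) from rfl, coe_smul_sylow,
      centralizer_cj, ← cj_inf] at this
    show cj g Z = Z
    conv_lhs => rw [← this]
    exact cj_cj_inv _ _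
  have hPN : (P : Subgroup G) ≤ normalizer (Z : Set G) :=
    (le_centralizer_iff.1 inf_le_right).trans (centralizer_le_normalizer _)
  have h1 := grun P inf_le_right hW
  have h2 := tate_of_commutator P (hPN.trans hV)
    (h1.le.trans (inf_le_left.trans (commutator_mono hV hV)))
  rw [map_pResidual_subtype, ← h2, ← inf_assoc, inf_of_le_left (hPN.trans hV)]

end Cfsg.Agent.S0078
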