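import Cfsg.Statements.S0079
import Cfsg.Agent.H1.V1

set_option autoImplicit false
open Cfsg

namespace Cfsg.Agent.S0079

open H7 H1B Subgroup
open scoped commutatorElement

/-- A nilpotent Hall subgroup has a normal complement exactly when elements of it that are conjugate in the whole group are already conjugate inside it. -/
theorem result {G : Type*} [Group G] [Finite G] (H : Subgroup G) (hH : Group.IsNilpotent H) (hHall : Nat.Coprime (Nat.card H) H.index) : (∃ N : Subgroup G, N.Normal ∧ N.IsComplement' H) ↔ ∀ x ∈ H, ∀ y ∈ H, (∃ g : G, g * x * g⁻¹ = y) → ∃ h ∈ H, h * x * h⁻¹ = y := by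
  constructor
  · rintro ⟨N, hN, h⟩ x hx y hy ⟨g, rfl⟩
    obtain ⟨h1, h2⟩ := compl_iff.1 h
    obtain ⟨n, hn, u, hu, rfl⟩ := (mem_sup_nrm' (le_nrm_of_normal H N)).1
      (show g ∈ N ⊔ H by rw [sup_comm, h1]; trivial)
    refine ⟨u, hu, ?_⟩
    have h3 : u * x * u⁻¹ ∈ H := mul_mem (mul_mem hu hx) (inv_mem hu)
    have : n * u * x * (n * u)⁻¹ * (u * x * u⁻¹)⁻¹ ∈ H ⊓ N := mem_inf.2 ⟨mul_mem hy (inv_mem h3), by
      have := mul_mem hn (hN.conj_mem _ (inv_mem hn) (u * x * u⁻¹))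
      convert this using 1
      group⟩
    rw [h2, mem_bot, mul_inv_eq_one] at this
    exact this.symm
  · intro h
    have h1 := hall_of_coprime_index hHall
    have h2 := hall_of_npcs (π := {p | p.Prime ∧ p ∣ ord H}) (H := (⊤ : Subgroup G)) fun p hp hp' => by
      haveI := Fact.mk hp
      have h3 := h1.syl hp' (nilp_sylow_Op hH)
      refine npc_top_iff.1 (H2.hasNPC_of_controls_fusion h3.toSylowTop fun x hx g hg => ?_)
      obtain ⟨u, hu, e⟩ := h x (Opi_le _ _ hx) _ (Opi_le _ _ hg) ⟨g, rfl⟩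
      rw [← nilp_Opi_sup hH {p}] at hu
      obtain ⟨a, ha, b, hb, rfl⟩ := (mem_sup_nrm (le_nrm_of_le_cen (Opi_le_cen _ _))).1 hu
      refine ⟨a, ha, ?_⟩
      rw [← e, ← conj_eq_of_mem_cen (Opi_le_cen' _ _ hb) hx]
      simp only [conj_eq_of_mem_cen (Opi_le_cen' _ _ hb) hx, mul_inv_rev]
      rw [mul_assoc a b, ← comm_of_le_cen (Opi_le_cen {p} H) hx hb]
      group
    haveI := normal_of (le_nrm_Opi {p | p.Prime ∧ p ∣ ord H}ᶜ (⊤ : Subgroup G))
    exact ⟨_, this, compl_iff.2 ⟨h1.sup_eq h2, h1.inf_eq_bot h2.2⟩⟩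

end Cfsg.Agent.S0079
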