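import Cfsg.Statements.S0081
import Cfsg.Agent.H2.Abel

set_option autoImplicit false
open Cfsg

namespace Cfsg.Agent.S0081

open Subgroup H2


/-- If a normal subgroup meets a Sylow p-subgroup P inside the Frattini subgroup of P, then it has a normal p-complement. -/
theorem result {G : Type*} [Group G] [Finite G] {p : ℕ} [Fact p.Prime] (P : Sylow p G) (N : Subgroup G) [N.Normal] (h : N ⊓ (P : Subgroup G) ≤ (frattini P).map (P : Subgroup G).subtype) : Cfsg.HasNormalPComplement p N := by
  set K := N ⊔ (P : Subgroup G) with hK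
  have hP := sylow_isSylowIn P (le_sup_right : (P : Subgroup G) ≤ K)
  suffices HasNormalPComplement p K from hasNPC_of_le this le_sup_left
  refine hasNPC_of_inf_le_frattini hP.toSylow ?_
  have hN : pRes p K ≤ N := by
    obtain ⟨k, hk⟩ := relIndex_eq_pow (Q := N) P.2
    refine pRes_le_of_relIndex le_normalizer_of_normal (k := k) ?_
    rw [hK, relIndex_sup_left, hk]
  let e : hP.toSylow ≃* P := subgroupOfEquivOfLe hP.le
  intro x hx
  have h1 : ((x : K) : G) ∈ N ⊓ (P : Subgroup G) := by
    refine ⟨hN ?_, x.2⟩
    rw [← map_pResidual_subtype]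
    exact mem_map_of_mem _ hx
  obtain ⟨y, hy, hy'⟩ := h h1
  have h2 := frattini_le_comap_frattini_of_surjective (φ := e.symm.toMonoidHom) e.symm.surjective hy
  have : e.symm y = x := by
    rw [MulEquiv.symm_apply_eq]; exact Subtype.ext hy'
  rwa [mem_comap, MulEquiv.coe_toMonoidHom, this] at h2

end Cfsg.Agent.S0081
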