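import Cfsg.Statements.S0083
import Cfsg.Agent.H2.Abel

set_option autoImplicit false
open Cfsg

namespace Cfsg.Agent.S0083

open Subgroup H2


/-- For an abelian Sylow p-subgroup P, a normal p-complement exists exactly when the normalizer of P is an internal direct product of P with some subgroup. -/
theorem result {G : Type*} [Group G] [Finite G] {p : ℕ} [Fact p.Prime] (P : Sylow p G) (hP : IsMulCommutative P) : Cfsg.HasNormalPComplement p G ↔ ∃ Q : Subgroup G, Q ≤ Subgroup.centralizer (P : Set G) ∧ Q ⊓ (P : Subgroup G) = ⊥ ∧ Q ⊔ (P : Subgroup G) = Subgroup.normalizer (P : Set G) := by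
  constructor
  · intro h
    obtain ⟨K, h1, h2, h3⟩ := H1.sz_exists_ambient (N := (P : Subgroup G)) le_normalizer le_rfl
      (sylow_coprime_relIndex (sylow_isSylowIn P le_normalizer))
    refine ⟨K, fun k hk => ?_, h2, h1⟩
    have hkN : k ∈ normalizer (P : Set G) := (h1 ▸ le_sup_left : K ≤ _) hk
    refine autIsP_of_hasNPC h P.2 k hkN (Nat.Coprime.coprime_dvd_left (orderOf_dvd_natCard K hk) ?_)
    rw [h3, Nat.coprime_comm, Nat.Prime.coprime_iff_not_dvd Fact.out]
    exact (sylow_isSylowIn P le_normalizer).not_dvd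
  · rintro ⟨Q, h1, -, h3⟩
    refine hasNPC_of_normalizer_le_centralizer P ?_
    rw [← h3]
    exact sup_le h1 (le_centralizer_of_comm hP)

end Cfsg.Agent.S0083
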