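import Cfsg.Statements.S0084
import Cfsg.Agent.H1.V1

set_option autoImplicit false
open Cfsg

namespace Cfsg.Agent.S0084

open H7 H1B Subgroup

/-- A group whose Sylow 2-subgroups are Klein four-groups and whose order is prime to 3 has a normal 2-complement. -/
theorem result {G : Type*} [Group G] [Finite G] (T : Sylow 2 G) (hT : IsKleinFour T) (h3 : ¬ 3 ∣ Nat.card G) : Cfsg.HasNormalPComplement 2 G := by
  refine npc_top_iff.2 (npc_of_comm_syl (syl_top T) (comm_of_card_le T.isPGroup' hT.card_four.le)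
    fun q i hq hd h1 h2 h4 => h3 ?_)
  have h5 : 2 ^ i ≤ 2 ^ 2 := (h2.trans (card_le_of_le (H7.Om_le _ _))).trans hT.card_four.le
  have := le_of_pow_le h5
  rw [card_top] at hd
  interval_cases i
  · exact absurd (Nat.dvd_one.1 h4) hq.one_lt.ne'
  · exact (Nat.prime_dvd_prime_iff_eq hq Nat.prime_three).1 h4 ▸ hd

end Cfsg.Agent.S0084
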