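import Cfsg.Statements.S0085
import Cfsg.Agent.H1.V1

set_option autoImplicit false
open Cfsg

namespace Cfsg.Agent.S0085

open H7 H1B Subgroup

/-- A group whose Sylow 2-subgroups are elementary abelian of order 8 and whose order is prime to 3 and to 7 has a normal 2-complement. -/
theorem result {G : Type*} [Group G] [Finite G] (T : Sylow 2 G) (h8 : Nat.card T = 8) (he : ∀ x : T, x * x = 1) (h3 : ¬ 3 ∣ Nat.card G) (h7 : ¬ 7 ∣ Nat.card G) : Cfsg.HasNormalPComplement 2 G := by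
  have hc : IsMulCommutative (T : Subgroup G) := ⟨⟨fun x y => by
    have h1 : ∀ x : T, x⁻¹ = x := fun x => inv_eq_of_mul_eq_one_right (he x)
    rw [← h1 (x * y), mul_inv_rev, h1, h1]⟩⟩
  refine npc_top_iff.2 (npc_of_comm_syl (syl_top T) hc fun q i hq hd h1 h2 h4 => ?_)
  have h5 : 2 ^ i ≤ 2 ^ 3 := (h2.trans (card_le_of_le (H7.Om_le _ _))).trans h8.le
  have := le_of_pow_le h5
  rw [card_top] at hd
  interval_cases i
  · exact absurd (Nat.dvd_one.1 h4) hq.one_lt.ne'
  · exact h3 ((Nat.prime_dvd_prime_iff_eq hq Nat.prime_three).1 h4 ▸ hd)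
  · exact h7 ((Nat.prime_dvd_prime_iff_eq hq (by norm_num : Nat.Prime 7)).1 h4 ▸ hd)

end Cfsg.Agent.S0085
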