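import Cfsg.Statements.S0087
import Cfsg.Agent.H1.V1
import Cfsg.Agent.S0079

set_option autoImplicit false
open Cfsg

namespace Cfsg.Agent.S0087

open H7 H1B Subgroup

/-- A Hall subgroup that is central in its normalizer has a normal complement. -/
theorem result {G : Type*} [Group G] [Finite G] (H : Subgroup G) (hHall : Nat.Coprime (Nat.card H) H.index) (h : Subgroup.normalizer (H : Set G) ≤ Subgroup.centralizer (H : Set G)) : ∃ N : Subgroup G, N.Normal ∧ N.IsComplement' H := by
  have hc : H ≤ cen H := (le_nrm_self H).trans h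
  have hn := nilp_of_comm (isComm_iff.2 hc)
  refine (Cfsg.Agent.S0079.result H hn hHall).2 ?_
  rintro x hx _ hy ⟨g, rfl⟩
  have h1 := (hall_of_coprime_index hHall).mono (le_cen1_iff.2 (hc hy)) le_top
  obtain ⟨u, hu, e⟩ := wielandt_hall (K := cj g H) h1 hn
    (by rw [← cj_cen1]; exact H7.cj_mono g (le_cen1_iff.2 (hc hx))) (H2.card_cj g H ▸ h1.2)
  rw [← cj_mul] at e
  have h2 := conj_eq_of_mem_cen (h (mem_nrm_of_cj_le e)) hx
  refine ⟨1, one_mem _, ?_⟩
  have h3 := mem_cen1.1 hu
  calc 1 * x * 1⁻¹ = u * g * x * (u * g)⁻¹ := by rw [h2]; simp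
    _ = u * (g * x * g⁻¹) * u⁻¹ := by group
    _ = _ := by rw [h3, mul_inv_cancel_right]

end Cfsg.Agent.S0087
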