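import Cfsg.Statements.S0089
import Cfsg.Agent.H2.Abel

set_option autoImplicit false
open Cfsg

namespace Cfsg.Agent.S0089

open Subgroup H2


/-- When all Sylow subgroups are abelian, the derived subgroup meets the centre trivially. -/
theorem result {G : Type*} [Group G] [Finite G] (h : ∀ p : ℕ, p.Prime → ∀ P : Sylow p G, IsMulCommutative P) : commutator G ⊓ Subgroup.center G = ⊥ := by
  by_contra hne
  obtain ⟨p, hp, hd⟩ := H1.exists_prime_dvd_card hne
  haveI := Fact.mk hp
  obtain ⟨x, hx, ho⟩ := H1.exists_mem_orderOf_eq_prime hp hd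
  obtain ⟨P, hP⟩ := (isPGroup_zpowers (p := p) (k := 1) (x := x)
    (by simp [← ho])).exists_le_sylow
  have := (hall_inf_commutator_inf_center (h p hp P) (sylow_coprime_index P)).le
    (x := x) ⟨⟨hP (mem_zpowers x), hx.1⟩, hx.2⟩
  rw [mem_bot.1 this, orderOf_one] at ho
  exact hp.ne_one ho.symm

end Cfsg.Agent.S0089
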