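import Cfsg.Statements.S0090
import Cfsg.Agent.H2.Abel

set_option autoImplicit false
open Cfsg

namespace Cfsg.Agent.S0090

open Subgroup H2


/-- An abelian normal Hall subgroup A splits as the internal direct product of G' ∩ A and Z(G) ∩ A, and [A, G] = G' ∩ A. -/
theorem result {G : Type*} [Group G] [Finite G] (A : Subgroup G) [A.Normal] (hc : IsMulCommutative A) (hHall : Nat.Coprime (Nat.card A) A.index) : ⁅A, (⊤ : Subgroup G)⁆ = commutator G ⊓ A ∧ (commutator G ⊓ A) ⊓ (Subgroup.center G ⊓ A) = ⊥ ∧ (commutator G ⊓ A) ⊔ (Subgroup.center G ⊓ A) = A := by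
  have hb := commutator_eq_bot_of_comm hc
  have h1 : ⁅A, (⊤ : Subgroup G)⁆ = commutator G ⊓ A := by
    rw [(hall_focal A (by rw [hb, relIndex_bot_left]; exact hHall.symm)).2.2, ← foc_top,
      foc_eq_commutator le_normalizer_of_normal]
  refine ⟨h1, ?_, ?_⟩
  · rw [eq_bot_iff, ← hall_inf_commutator_inf_center hc hHall]
    exact fun x hx => ⟨⟨hx.1.2, hx.1.1⟩, hx.2.1⟩
  · have := fitting_decomp_hall hc le_top le_normalizer_of_normal (by rwa [relIndex_top_right])
    rwa [h1, coe_top, centralizer_univ, inf_comm A] at this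

end Cfsg.Agent.S0090
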