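import Cfsg.Statements.S0091
import Cfsg.Agent.H2.Frobenius

set_option autoImplicit false
open Cfsg

namespace Cfsg.Agent.S0091

open Subgroup H2


/-- If a nontrivial Sylow p-subgroup controls its own fusion then it is not contained in the derived subgroup. -/
theorem result {G : Type*} [Group G] [Finite G] {p : ℕ} [Fact p.Prime] (P : Sylow p G) (hp : p ∣ Nat.card G) (h : ∀ x ∈ P, ∀ y ∈ P, (∃ g : G, g * x * g⁻¹ = y) → ∃ z ∈ P, z * x * z⁻¹ = y) : ¬ (P : Subgroup G) ≤ commutator G := by
  intro hle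
  have h1 : HasNormalPComplement p G :=
    hasNPC_of_controls_fusion P fun x hx g hc => h x hx _ hc ⟨g, rfl⟩
  have h2 := sylow_commutator_inf_eq_foc P
  rw [inf_eq_right.2 hle] at h2
  have h3 := commutator_lt_of_normalizes P.2 P.2 le_normalizer (P.ne_bot_of_dvd_card hp)
  refine h3.not_ge (h2.le.trans (foc_le_iff.2 fun x hx g _ hc => ?_))
  obtain ⟨u, hu, e⟩ := h x hx _ hc ⟨g, rfl⟩
  rw [← e]
  have := commutator_mem_commutator ((P : Subgroup G).inv_mem hx) (show u ∈ (P : Subgroup G) from hu)
  simpa [commutatorElement_def, mul_assoc] using this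

end Cfsg.Agent.S0091
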