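import Cfsg.Statements.S0092
import Cfsg.Agent.H1.V1

set_option autoImplicit false
open Cfsg

namespace Cfsg.Agent.S0092

open H7 H1B Subgroup

/-- If the Sylow p-subgroups of O^p(G) are abelian then G splits over O^p(G). -/
theorem result {G : Type*} [Group G] [Finite G] {p : ℕ} [Fact p.Prime] (h : ∀ Q : Sylow p (Cfsg.pResidual p G), IsMulCommutative Q) : ∃ K : Subgroup G, K.IsComplement' (Cfsg.pResidual p G) := by
  set K := pResidual p G with hK
  obtain ⟨Q, hQ⟩ := exists_syl p K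
  have ha : IsMulCommutative Q := by
    have := h hQ.toSylow
    exact isComm_iff'.2 fun a ha b hb => congrArg (fun x : hQ.toSylow => ((x : K) : G))
      (this.is_comm.comm ⟨⟨a, hQ.le ha⟩, ha⟩ ⟨⟨b, hQ.le hb⟩, hb⟩)
  have h1 := abel_syl_cen hQ ha
  rw [H2.pRes_pResidual] at h1
  have hQM : Q ≤ K ⊓ nrm Q := le_inf hQ.le (le_nrm_self _)
  have hS := hQ.mono hQM inf_le_left
  obtain ⟨L, hL1, hL2, hL3⟩ := exists_compl hQM inf_le_right (syl_coprime hS)
  have hLM : L ≤ K ⊓ nrm Q := hL1 ▸ le_sup_left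
  have hc : (ord L).Coprime (ord Q) := hL3 ▸ (syl_coprime hS).symm
  have h2 : Q ⊓ nrm L = ⊥ := by
    refine eq_bot_iff.2 (h1 ▸ le_inf (le_inf inf_le_left ?_) (inf_le_left.trans hQ.le))
    rw [← hL1]
    refine le_cen_sup (comm_eq_bot.1 (eq_bot_iff.2 (hL2 ▸ le_inf (comm_le_right inf_le_right) ?_)))
      (inf_le_left.trans (isComm_iff.1 ha))
    exact (commutator_mono inf_le_left le_rfl).trans (comm_le_left (hLM.trans inf_le_right))
  have h3 : nrm Q ≤ Q ⊔ nrm Q ⊓ nrm L := fun g hg => by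
    have hg' : g ∈ nrm (K ⊓ nrm Q) := nrm_inf (le_nrm_of_normal _ K) (nrm_nrm le_rfl) hg
    have h4 : cj g L ≤ K ⊓ nrm Q := cj_le_of_mem_nrm hg' hLM
    obtain ⟨n, hn, e⟩ := sz_conj_le (K := cj g L) (N := Q)
      ⟨h4.trans inf_le_right, H2.card_cj g L ▸ hc, Or.inr (solv_of_comm ha)⟩ (hLM.trans inf_le_right)
      (hL1 ▸ h4) hc
    rw [← cj_mul] at e
    rw [← inv_mul_cancel_left n g]
    exact mul_mem_sup (inv_mem hn) ⟨mul_mem (le_nrm_self _ hn) hg, mem_nrm_of_cj_le e⟩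
  obtain ⟨T, hT⟩ := exists_syl p (nrm Q ⊓ nrm L)
  refine ⟨T, (compl_iff.2 ⟨?_, ?_⟩).symm⟩
  · have h4 := syl_frattini hQ le_top (top_nrm K)
    have h5 := hT.pRes_sup
    rw [eq_top_iff, ← h4]
    refine sup_le ((inf_le_right.trans h3).trans (sup_le (hQ.le.trans le_sup_right) ?_)) le_sup_right
    rw [← h5]
    exact sup_le ((H2.pRes_le_pResidual _).trans le_sup_right) le_sup_left
  · refine eq_bot_iff.2 (h2 ▸ le_inf ?_ (inf_le_left.trans (hT.le.trans inf_le_right)))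
    exact hQ.le_of_le_normalizer (hT.isPGroup.to_le inf_le_left) inf_le_right
      (inf_le_left.trans (hT.le.trans inf_le_left))

end Cfsg.Agent.S0092
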