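import Cfsg.Statements.S0093
import Cfsg.Agent.H1.Top

set_option autoImplicit false
open Cfsg

namespace Cfsg.Agent.S0093

open H7 H1B

/-- Every finite p-group has a critical subgroup: a characteristic subgroup H whose Frattini subgroup and whose commutator with the whole group lie in the centre of H, and whose centralizer is contained in H. -/
theorem result {P : Type*} [Group P] [Finite P] {p : ℕ} [Fact p.Prime] (hP : IsPGroup p P) : ∃ H : Subgroup P, H.Characteristic ∧ (frattini H).map H.subtype ≤ Subgroup.centralizer (H : Set P) ∧ ⁅H, (⊤ : Subgroup P)⁆ ≤ H ⊓ Subgroup.centralizer (H : Set P) ∧ Subgroup.centralizer (H : Set P) ≤ H := by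
  open Subgroup in
  obtain ⟨K, h1, -, h3, h4, h5, h6⟩ := exists_critical (pg_hL (pg_top hP)) (hR_le_nrm ⊤ ⊤)
  obtain ⟨H, rfl⟩ := exists_hL h1
  rw [← hL_cen, H1.sdL_le_sdL] at h6
  rw [← hL_comm, le_inf_iff, H1.sdL_le_sdL, hL_le_cen] at h4
  refine ⟨H, char_of_hR h3, Phi_le_of_elem (Fact.out : p.Prime) ((commutator_mono le_rfl le_top).trans h4.2)
    fun x hx => zpowers_le.1 (hL_le_cen.1 ?_), le_inf h4.1 h4.2, h6⟩
  rw [hL, H1.sdL, MonoidHom.map_zpowers, zpowers_le, map_pow]
  exact h5 _ (mem_map_of_mem _ hx)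

end Cfsg.Agent.S0093
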