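import Cfsg.Statements.S0094
import Cfsg.Agent.H1.XS

set_option autoImplicit false
open Cfsg

namespace Cfsg.Agent.S0094

open H7 H1B Subgroup
open scoped commutatorElement

/-- In a special p-group every central element has order dividing p. -/
theorem result {P : Type*} [Group P] [Finite P] {p : ℕ} [Fact p.Prime] (h : Cfsg.IsSpecial p P) (z : P) (hz : z ∈ Subgroup.center P) : z ^ p = 1 := by
  have c := fun a b : P => mem_center_iff.1 (h.2.2.le (commutator_mem_commutator (mem_top a) (mem_top b)))
  refine (ea_iff.1 (ea_Om (show IsMulCommutative (center P) from inferInstance))).2 z (h.2.2.ge.trans (commutator_le.2 fun a _ b _ =>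
    mem_Om (mem_center_iff.2 (c a b)) ?_) hz)
  rw [← comm_pow_right (c a b b).symm, commutatorElement_eq_one_iff_mul_comm]
  exact mem_center_iff.1 (h.2.1.le (H2.pow_mem_frattini h.1 b)) a

end Cfsg.Agent.S0094
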