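import Cfsg.Statements.S0097
import Cfsg.Agent.H1.XS

set_option autoImplicit false
open Cfsg

namespace Cfsg.Agent.S0097

open H7 H1B Subgroup

/-- For odd p and E extraspecial, the subgroup generated by the elements of order dividing p has exponent dividing p and index at most p. -/
theorem result {E : Type*} [Group E] [Finite E] {p : ℕ} [Fact p.Prime] (hp : p ≠ 2) (h : Cfsg.IsExtraspecial p E) : (Subgroup.closure {x : E | x ^ p = 1}).index ≤ p ∧ ∀ g ∈ Subgroup.closure {x : E | x ^ p = 1}, g ^ p = 1 := by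
  obtain ⟨z, h, -⟩ := xs_top h
  have zp : ∀ c ∈ zpowers z, c ^ p = 1 := fun c hc =>
    orderOf_dvd_iff_pow_eq_one.1 (h.oz ▸ orderOf_dvd_of_mem_zpowers hc)
  let f : E →* E := MonoidHom.mk' (fun x => x ^ p) fun x y => mul_pow_of_class2 hp
    (h.der.trans (h.zle.trans inf_le_right)) trivial trivial (zp _ (h.comm _ trivial _ trivial))
  rw [show {x : E | x ^ p = 1} = f.ker from rfl, closure_eq, index_ker]
  refine ⟨(card_le_of_le (K := zpowers z) ?_).trans_eq ((Nat.card_zpowers z).trans h.oz), fun g hg => hg⟩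
  rintro _ ⟨x, rfl⟩; exact h.pow x trivial

end Cfsg.Agent.S0097
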