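import Cfsg.Statements.S0099
import Cfsg.Agent.H1.XS

set_option autoImplicit false
open Cfsg

namespace Cfsg.Agent.S0099

open H7 H1B Subgroup

theorem aux {G G' : Type*} [Group G] [Group G'] [Finite G] [Finite G'] {z : G} {z' : G'} {n : ℕ}
    (h : XS 2 ⊤ z) (h' : XS 2 ⊤ z') (c : ord (⊤ : Subgroup G) = 2 ^ (2 * n + 1))
    (c' : ord (⊤ : Subgroup G') = 2 ^ (2 * n + 1)) (e : nsq (⊤ : Subgroup G) = nsq (⊤ : Subgroup G')) :
    Nonempty (G ≃* G') :=
  ((h.gr_two h' c c' e).equiv (c.trans c'.symm)).map fun e => topEquiv.symm.trans (e.trans topEquiv)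

/-- Among three extraspecial 2-groups of equal order, some two are isomorphic. -/
theorem result {E₁ : Type*} {E₂ : Type*} {E₃ : Type*} [Group E₁] [Group E₂] [Group E₃] [Finite E₁] [Finite E₂] [Finite E₃] (h₁ : Cfsg.IsExtraspecial 2 E₁) (h₂ : Cfsg.IsExtraspecial 2 E₂) (h₃ : Cfsg.IsExtraspecial 2 E₃) (h12 : Nat.card E₁ = Nat.card E₂) (h23 : Nat.card E₂ = Nat.card E₃) : Nonempty (E₁ ≃* E₂) ∨ Nonempty (E₂ ≃* E₃) ∨ Nonempty (E₁ ≃* E₃) := by
  obtain ⟨z1, k1, -⟩ := xs_top h₁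
  obtain ⟨z2, k2, -⟩ := xs_top h₂
  obtain ⟨z3, k3, -⟩ := xs_top h₃
  obtain ⟨n, c1⟩ := k1.width
  have c2 := card_top.trans (h12.symm.trans (card_top.symm.trans c1))
  have c3 := card_top.trans (h23.symm.trans (card_top.symm.trans c2))
  have := k1.count c1
  have := k2.count c2
  have := k3.count c3
  by_contra! h
  have := mt (aux k1 k2 c1 c2) (not_nonempty_iff.2 h.1)
  have := mt (aux k2 k3 c2 c3) (not_nonempty_iff.2 h.2.1)
  have := mt (aux k1 k3 c1 c3) (not_nonempty_iff.2 h.2.2)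
  omega

end Cfsg.Agent.S0099
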