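import Cfsg.Statements.S0100
import Cfsg.Agent.H1.Top

set_option autoImplicit false
open Cfsg

namespace Cfsg.Agent.S0100

open H7 H1B

/-- For odd p, a p-group without normal elementary abelian subgroups of order p^3 has p-rank at most 2. -/
theorem result {P : Type*} [Group P] [Finite P] {p : ℕ} [Fact p.Prime] (hp : p ≠ 2) (hP : IsPGroup p P) (h : ∀ A : Subgroup P, A.Normal → IsMulCommutative A → (∀ a ∈ A, a ^ p = 1) → Nat.card A ≠ p ^ 3) (E : Subgroup P) (hE : IsMulCommutative E) (hEe : ∀ e ∈ E, e ^ p = 1) : Nat.card E ≤ p ^ 2 := by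
  open Subgroup in
  by_contra e
  obtain ⟨A, -, -, h1, h2, h3⟩ := exists_normal_EA3 hp (pg_top hP) le_rfl (le_nrm_self _)
    (fun h => e (h E le_top ⟨hE, hEe⟩)) bot_le (ea_bot p) (le_nrm_bot _)
  obtain ⟨k, hk⟩ := card_pgroup h1.isPGroup
  obtain ⟨U, h4, h5, h6⟩ := H1.exists_normal_card_eq_pow (pg_top hP) le_top h3 (k := 3) (by
    rw [hk] at h2 ⊢
    exact pow_dvd_pow p ((Nat.pow_le_pow_iff_right (Fact.out : p.Prime).one_lt).1 h2))
  exact h U (normal_iff_top_le_nrm.2 h6) (h1.of_le h4).1 (h1.of_le h4).2 h5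

end Cfsg.Agent.S0100
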