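import Cfsg.Statements.S0101
import Cfsg.Agent.H2.Abel

set_option autoImplicit false
open Cfsg

namespace Cfsg.Agent.S0101

open Subgroup H2


/-- In a perfect central extension, the kernel meets each Sylow p-subgroup P inside the Frattini subgroup of P. -/
theorem result {H : Type*} {G : Type*} [Group H] [Group G] [Finite H] (σ : H →* G) (hσ : Function.Surjective σ) (hc : σ.ker ≤ Subgroup.center H) (hH : commutator H = ⊤) {p : ℕ} [Fact p.Prime] (P : Sylow p H) : σ.ker ⊓ (P : Subgroup H) ≤ (frattini P).map (P : Subgroup H).subtype := by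
  refine le_trans ?_ (map_mono (commutator_le_frattini P.2))
  rw [map_subtype_commutator]
  rintro x ⟨hx1, hx2⟩
  by_contra hne
  obtain ⟨n, hn⟩ := isPGroup_iff_mem.1 P.2 x hx2
  obtain ⟨M, -, h1, -, h2⟩ := exists_normal_notMem_of_transfer (p := p) le_rfl P.not_dvd_index hx2
    hne (n := n) (by rw [hn]; exact one_mem _) fun k g _ => by
      have := mem_center_iff.1 ((center H).pow_mem (hc hx1) k) g
      simp [mul_assoc, ← this]
  exact h2 (h1 (hH ▸ mem_top x))

end Cfsg.Agent.S0101
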