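import Cfsg.Statements.S0102
import Cfsg.Agent.H1.Schur3

set_option autoImplicit false
open Cfsg

namespace Cfsg.Agent.S0102

open H1B Subgroup

/-- A finite perfect group with cyclic Sylow p-subgroups has no perfect central extension whose kernel has order divisible by p. -/
theorem result {G : Type*} {H : Type*} [Group G] [Group H] [Finite G] [Finite H] (hG : commutator G = ⊤) {p : ℕ} [Fact p.Prime] (hcyc : ∀ P : Sylow p G, IsCyclic P) (σ : H →* G) (hσ : Function.Surjective σ) (hz : σ.ker ≤ Subgroup.center H) (hH : commutator H = ⊤) : ¬ p ∣ Nat.card σ.ker := by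
  intro h
  obtain ⟨z, hz⟩ := exists_prime_orderOf_dvd_card' p h
  obtain ⟨P⟩ : Nonempty (Sylow p G) := inferInstance
  obtain ⟨a, ha⟩ := (hcyc P).exists_generator
  obtain ⟨b, hb⟩ := hσ a
  have h1 := H0.central_mem_commutator ((P : Subgroup G).comap σ) (‹σ.ker ≤ _› z.2) (hH.ge (mem_top _))
    (q := p) (by rw [← hz]; exact congrArg Subtype.val (pow_orderOf_eq_one z)) (by
      rw [index_comap_of_surjective _ hσ]
      exact ((Fact.out : p.Prime).coprime_iff_not_dvd.2 P.not_dvd_index).symm)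
  have h2 := H0.commutator_le_of_central (A := zpowers b) (B := (P : Subgroup G).comap σ) (fun x hx => by
    obtain ⟨k, hk⟩ := ha ⟨σ x, hx⟩
    refine ⟨b ^ k, ⟨k, rfl⟩, ‹σ.ker ≤ _› ?_⟩
    have := congrArg Subtype.val hk
    rw [MonoidHom.mem_ker, map_mul, map_inv, map_zpow, hb, inv_mul_eq_one]; exact this) h1
  have h3 : ⁅zpowers b, zpowers b⁆ = ⊥ := by
    rw [commutator_eq_bot_iff_le_centralizer]
    rintro _ ⟨i, rfl⟩ _ ⟨j, rfl⟩; exact zpow_mul_comm _ _ _
  rw [h3, mem_bot] at h2
  rw [show z = 1 from Subtype.ext h2, orderOf_one] at hz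
  exact (Fact.out : p.Prime).ne_one hz.symm

end Cfsg.Agent.S0102
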