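import Cfsg.Statements.S0104
import Cfsg.Agent.H2.Abel

set_option autoImplicit false
open Cfsg

namespace Cfsg.Agent.S0104

open Subgroup H2


/-- A subgroup Z of a Sylow p-subgroup P that is normalized by N_G(P) is weakly closed in P exactly when it is normal in every Sylow p-subgroup containing it. -/
theorem result {G : Type*} [Group G] [Finite G] {p : ℕ} [Fact p.Prime] (P : Sylow p G) (Z : Subgroup G) (hZP : Z ≤ (P : Subgroup G)) (hZN : Subgroup.normalizer (P : Set G) ≤ Subgroup.normalizer (Z : Set G)) : Cfsg.IsWeaklyClosed Z P ↔ ∀ R : Sylow p G, Z ≤ (R : Subgroup G) → (R : Subgroup G) ≤ Subgroup.normalizer (Z : Set G) := by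
  constructor
  · intro hW R hR r hr
    rw [mem_normalizer_iff_cj]
    exact weaklyClosed_eq_of_isPGroup hW
      (R.2.to_le (sup_le ((cj_mono r hR).trans (cj_eq_of_mem hr).le) hR))
  · intro h
    refine ⟨hZP, fun g hg => ?_⟩
    change cj g Z ≤ P at hg
    show cj g Z = Z
    have hg' : Z ≤ ((g⁻¹ • P : Sylow p G) : Subgroup G) := by
      rw [coe_smul_sylow, ← cj_le_iff_le_cj_inv]; exact hg
    obtain ⟨n, hn, e⟩ := (sylow_isSylowIn P (h P hZP)).exists_cj_eq (sylow_isSylowIn _ (h _ hg'))
    rw [coe_smul_sylow] at e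
    have h1 : g * n ∈ normalizer (P : Set G) :=
      mem_normalizer_iff_cj.2 (by rw [← cj_cj, e, cj_cj_inv])
    have := cj_eq_of_mem_normalizer (hZN h1)
    rwa [← cj_cj, cj_eq_of_mem_normalizer hn] at this

end Cfsg.Agent.S0104
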