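import Cfsg.Statements.S0105
import Cfsg.Agent.H1.V1

set_option autoImplicit false
open Cfsg

namespace Cfsg.Agent.S0105

open H7 H1B Subgroup

/-- With an abelian Sylow p-subgroup P, some quotient of G is isomorphic to the part of P central in N_G(P). -/
theorem result {G : Type*} [Group G] [Finite G] {p : ℕ} [Fact p.Prime] (P : Sylow p G) (hP : IsMulCommutative P) : ∃ (N : Subgroup G) (hN : N.Normal), Nonempty (G ⧸ N ≃* ((P : Subgroup G) ⊓ Subgroup.centralizer (Subgroup.normalizer (P : Set G) : Set G) : Subgroup G)) := by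
  refine ⟨pResidual p G, inferInstance, ⟨IsComplement'.QuotientMulEquiv (compl_iff.2 ⟨?_, ?_⟩).symm⟩⟩
  · rw [eq_top_iff, ← H2.pResidual_sup_sylow P]
    refine sup_le le_sup_right ?_
    conv_lhs => rw [← H2.abelian_sylow_decomp P hP, ← H2.abelian_sylow_inf_pResidual P hP]
    exact sup_le (inf_le_right.trans le_sup_right) le_sup_left
  · rw [eq_bot_iff, ← H2.abelian_sylow_disjoint P hP, ← H2.abelian_sylow_inf_pResidual P hP]
    exact le_inf (le_inf (inf_le_left.trans inf_le_left) inf_le_right) inf_le_left

end Cfsg.Agent.S0105
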