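import Cfsg.Statements.S0106
import Cfsg.Agent.H1.Two5

set_option autoImplicit false
open Cfsg

namespace Cfsg.Agent.S0106

open H7 H1B Subgroup

/-- A finite group with generalized quaternion Sylow 2-subgroups either has a normal 2-complement or has a section isomorphic to SL(2,3). -/
theorem result {G : Type*} [Group G] [Finite G] (T : Sylow 2 G) (n : ℕ) (hn : 1 ≤ n) (hT : Nonempty ((T : Subgroup G) ≃* QuaternionGroup (2 ^ n))) : Cfsg.HasNormalPComplement 2 G ∨ ∃ (H K : Subgroup G) (hK : (K.subgroupOf H).Normal), Nonempty ((H ⧸ K.subgroupOf H) ≃* Matrix.SpecialLinearGroup (Fin 2) (ZMod 3)) := by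
  obtain ⟨m, rfl⟩ := Nat.exists_eq_add_of_le' hn
  obtain ⟨e⟩ := hT
  obtain ⟨a, h, hq⟩ := mx_of_quat e
  refine or_iff_not_imp_left.2 fun np => ?_
  obtain ⟨p, pp, p2, Q, -, hQ, x, -, px, nx, cx⟩ := exists_of_not_npc (mt npc_top_iff.2 np)
  obtain ⟨g, -, hg⟩ := (syl_top T).exists_cj_le hQ le_top
  haveI := Fact.mk pp
  have ox : Odd (orderOf x) := by
    obtain ⟨k, hk⟩ := card_pgroup px
    rw [← Nat.card_zpowers, hk]; exact (pp.odd_of_ne_two p2).pow
  have n1 : g * x * g⁻¹ ∈ nrm (H2.cj g Q) := by rw [← cj_nrm]; exact conj_mem_cj.2 nx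
  have c1 : g * x * g⁻¹ ∉ cen (H2.cj g Q) := by rwa [← cj_cen, conj_mem_cj]
  have o1 := (ord_conj g x).symm ▸ ox
  rcases h.aut_cases hg n1 o1 c1 with k | ⟨⟨e⟩⟩
  · obtain ⟨t, ht, hta, h2, -⟩ := h.eq_four hg k
    exact (h.z_ne ((hq t ht hta).symm.trans h2)).elim
  obtain ⟨x, y, s, e1, -, r⟩ := exists_s23 e n1 o1 c1
  have os : Odd (orderOf s) := by rwa [← Nat.card_zpowers, e1, Nat.card_zpowers]
  have cn : zpowers x ⊔ zpowers y ⊔ zpowers s ≤ cen (zpowers (s ^ 3)) := sup_le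
    (le_centralizer_iff.1 (zpowers_le.2 r.cube)) ((isComm_iff.1 inferInstance).trans (cen_anti (zp_pow_le _ _)))
  haveI hK := normal_subgroupOf (cn.trans (cen_le_nrm _))
  refine ⟨_, _, hK, ?_⟩
  generalize hH : zpowers x ⊔ zpowers y ⊔ zpowers s = H at hK
  have mx : x ∈ H := hH ▸ mem_sup_left (mem_sup_left (mem_zpowers x))
  have my : y ∈ H := hH ▸ mem_sup_left (mem_sup_right (mem_zpowers y))
  have ms : s ∈ H := hH ▸ mem_sup_right (mem_zpowers s)
  have r' : S23 (⟨x, mx⟩ : H) ⟨y, my⟩ ⟨s, ms⟩ := ⟨Subtype.ext r.x4, Subtype.ext r.y2, Subtype.ext r.inv,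
    Subtype.ext r.gx, Subtype.ext r.gy, fun e => r.ne (congrArg Subtype.val e)⟩
  have t : zpowers (⟨x, mx⟩ : H) ⊔ zpowers ⟨y, my⟩ ⊔ zpowers ⟨s, ms⟩ = ⊤ := by
    rw [eq_iff_map, map_subtype_top]
    simp only [Subgroup.map_sup, MonoidHom.map_zpowers]; exact hH
  obtain ⟨e⟩ := (r'.map (QuotientGroup.mk' ((zpowers (s ^ 3)).subgroupOf H)) fun h' => r.ne
    (eq_one_of_odd (odd_of_mem_zpowers os (zp_pow_le _ _ (mem_subgroupOf.1 ((QuotientGroup.eq_one_iff _).1 h'))))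
      (by rw [← r.x4]; simp only [pow_succ, pow_zero, one_mul, mul_assoc]))).sl23
    (by rw [← map_pow]; exact (QuotientGroup.eq_one_iff _).2 (mem_subgroupOf.2 (mem_zpowers _)))
  refine ⟨(topEquiv.symm.trans (MulEquiv.subgroupCongr ?_)).trans e⟩
  rw [← map_top_of_surjective _ (QuotientGroup.mk'_surjective _), ← t]
  simp only [Subgroup.map_sup, MonoidHom.map_zpowers]

end Cfsg.Agent.S0106
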