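import Cfsg.Statements.S0107
import Cfsg.Agent.H1.Two4

set_option autoImplicit false
open Cfsg

namespace Cfsg.Agent.S0107

open H7 H1B Subgroup

/-- A finite group with no nontrivial 2-group quotient and dihedral Sylow 2-subgroups of order at least 8 has a single class of involutions. -/
theorem result {G : Type*} [Group G] [Finite G] (T : Sylow 2 G) (n : ℕ) (hn : 2 ≤ n) (hT : Nonempty ((T : Subgroup G) ≃* DihedralGroup (2 ^ n))) (hO : Cfsg.pResidual 2 G = ⊤) (x y : G) (hx : orderOf x = 2) (hy : orderOf y = 2) : ∃ g : G, g * x * g⁻¹ = y := by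
  obtain ⟨m, rfl⟩ := Nat.exists_eq_add_of_le' hn
  obtain ⟨e⟩ := hT
  obtain ⟨a, h⟩ := mx_of_dih e
  have s := syl_top T
  have r : ∀ b ∈ (T : Subgroup G), b ∉ zpowers a → IsConj (a ^ 2 ^ (m + 1)) b := fun b hb hba =>
    (h.1.mem_res_iff s hb hba (h.2 b hb hba)).1 (hO ▸ trivial)
  obtain ⟨b, hb, hba⟩ := h.1.ex
  have key : ∀ x, orderOf x = 2 → IsConj (a ^ 2 ^ (m + 1)) x := fun x hx =>
    (h.1.inv_cases s hb hba hx).elim id (Or.elim · (r b hb hba).trans
      (r _ (mul_mem h.1.mem hb) (h.1.mul_out hb hba (mem_zpowers a))).trans)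
  exact isConj_iff.1 ((key x hx).symm.trans (key y hy))

end Cfsg.Agent.S0107
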