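import Cfsg.Statements.S0618
import Cfsg.Agent.H7.FF4

set_option autoImplicit false
open Cfsg

namespace Cfsg.Agent.S0618
open H7
open scoped commutatorElement

/-- A p-separable group with trivial p'-core in which the Thompson factorization fails has p = 2 or 3, and J(G) induces on the normal closure of Ω₁(Z(S)) a group containing a normal SL(2, p). -/
theorem result {G : Type*} [Group G] [Finite G] {p : ℕ} [Fact p.Prime] (hsep : Cfsg.IsPSolvable p G) (hO : Cfsg.pPrimeCore p G = ⊥) (hnf : ¬ Cfsg.IsThompsonFactorizable p G) : (p = 2 ∨ p = 3) ∧ ∃ E : Subgroup G, Subgroup.centralizer ((⨆ S : Sylow p G, Cfsg.omegaOne p ((S : Subgroup G) ⊓ Subgroup.centralizer ((S : Subgroup G) : Set G))) : Set G) ≤ E ∧ E ≤ Cfsg.thompsonSubgroup p G ⊔ Subgroup.centralizer ((⨆ S : Sylow p G, Cfsg.omegaOne p ((S : Subgroup G) ⊓ Subgroup.centralizer ((S : Subgroup G) : Set G))) : Set G) ∧ Cfsg.thompsonSubgroup p G ⊔ Subgroup.centralizer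 ((⨆ S : Sylow p G, Cfsg.omegaOne p ((S : Subgroup G) ⊓ Subgroup.centralizer ((S : Subgroup G) : Set G))) : Set G) ≤ Subgroup.normalizer (E : Set G) ∧ ∃ hn : ((Subgroup.centralizer ((⨆ S : Sylow p G, Cfsg.omegaOne p ((S : Subgroup G) ⊓ Subgroup.centralizer ((S : Subgroup G) : Set G))) : Set G)).subgroupOf E).Normal, Nonempty ((↥E ⧸ (Subgroup.centralizer ((⨆ S : Sylow p G, Cfsg.omegaOne p ((S : Subgroup G) ⊓ Subgroup.centralizer ((S : Subgroup G) : Set G))) : Set G)).subgroupOf E) ≃* Matrix.SpecialLinearGroup (Fin 2) (ZMod p)) := by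
  open Subgroup in
  have e0 : Subgroup.centralizer (⨆ S : Sylow p G, (Cfsg.omegaOne p ((S : Subgroup G) ⊓ cen (S : Subgroup G)) : Set G)) =
      cen (VZ p (⊤ : Subgroup G)) := by
    rw [← VZ_top, cen_iSup]
    ext x
    simp only [mem_centralizer_iff, mem_iInf, Set.iSup_eq_iUnion, Set.mem_iUnion]
    exact ⟨fun h S y hy => h y ⟨S, hy⟩, fun h y ⟨S, hy⟩ => h S y hy⟩
  rw [e0, thompson_top]
  rw [pPrimeCore_eq] at hO
  have hs := ps_top.2 hsep
  have hV := ea_VZ (ps_chP hs hO)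
  have hn : ⊤ ≤ nrm (VZ p (⊤ : Subgroup G)) := nrm_VZ (le_nrm_self _)
  have nJ : ⊤ ≤ nrm (Cfsg.thompsonSubgroupOf p (⊤ : Subgroup G)) := H2.nrm_J (le_nrm_self _)
  obtain ⟨ι, φ, F⟩ := exists_fth (VZ p (⊤ : Subgroup G))
  have h := F.ffs hV hn hs (Omod_VZ hV) le_top nJ
  have hg := F.gen hV le_top hn h
  obtain ⟨B, hB, tB⟩ := h.exists_tv hg fun e => hnf (tf_top.2 ((tf_iff_J hO).2 (by
    rwa [im_eq_bot_iff (le_top.trans hn), F.ker] at e)))
  have lE := h.QE_le hB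
  refine ⟨h.p23 hB tB, pre φ _, F.ker ▸ kr_le_pre φ _, ?_, ?_, quot_equiv_im (f := φ) (pre_le _ _)
    (by rw [im_pre_of_le lE]; exact (h.main hB tB).1) (by rw [F.ker])⟩
  · rw [← F.ker, ← pre_im (le_top.trans hn)]; exact pre_mono _ lE
  · rw [← F.ker, ← pre_im (le_top.trans hn)]; exact pre_le_nrm_pre (h.nrm_E hg hB tB)

end Cfsg.Agent.S0618
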