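import Cfsg.Statements.S0109
import Cfsg.Agent.S0618

set_option autoImplicit false
open Cfsg

namespace Cfsg.Agent.S0109
open H7
open scoped commutatorElement

/-- The Thompson factorization Theorem for solvable groups states that, with p odd (and abelian Sylow 2-subgroups when p = 3) and no nontrivial normal subgroup of order prime to p, every element of G is a product of an element normalizing J(P) and an element centralizing the elements of order dividing p in the centre of P. -/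
theorem result {G : Type*} [Group G] [Finite G] {p : ℕ} [Fact p.Prime] (hp : p ≠ 2) (hs : Group.IsSolvable G) (h3 : p = 3 → ∀ T : Sylow 2 G, IsMulCommutative T) (hF : ∀ N : Subgroup G, N.Normal → Nat.Coprime (Nat.card N) p → N = ⊥) (P : Sylow p G) (g : G) : ∃ a ∈ Subgroup.normalizer (Cfsg.thompsonSubgroupOf p (P : Subgroup G) : Set G), ∃ c ∈ Subgroup.centralizer {x : G | x ∈ (P : Subgroup G) ∧ (∀ y ∈ (P : Subgroup G), x * y = y * x) ∧ x ^ p = 1}, g = a * c := by
  open Subgroup in
  have hO : Cfsg.pPrimeCore p G = ⊥ := by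
    rw [eq_bot_iff]
    exact sSup_le fun N hN => (hF N hN.1 hN.2).le
  have hps : Cfsg.IsPSolvable p G := H7.ps_top.1 (H7.ps_of_solv inferInstance)
  have htf : Cfsg.IsThompsonFactorizable p G := by
    by_contra hnf
    obtain ⟨h23, E, -, -, -, hn, ⟨e⟩⟩ := Cfsg.Agent.S0618.result hps hO hnf
    have hp3 := h23.resolve_left hp
    obtain ⟨Q, hQ, hQn⟩ := H7.exists_q8' (p := p) hp
    apply hQn
    let φ : E →* Matrix.SpecialLinearGroup (Fin 2) (ZMod p) := e.toMonoidHom.comp (QuotientGroup.mk' _)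
    have hφ : Function.Surjective φ := e.surjective.comp (QuotientGroup.mk'_surjective _)
    obtain ⟨T', hT'⟩ := hQ.exists_le_sylow
    obtain ⟨T, rfl⟩ := Sylow.mapSurjective_surjective hφ 2 T'
    obtain ⟨U, hU⟩ := (T.isPGroup'.map E.subtype).exists_le_sylow
    haveI := h3 hp3 U
    refine ⟨⟨fun a b => Subtype.ext ?_⟩⟩
    obtain ⟨x, hx, ex⟩ := hT' a.2
    obtain ⟨y, hy, ey⟩ := hT' b.2
    have := congrArg Subtype.val (mul_comm' (⟨x, hU ⟨x, hx, rfl⟩⟩ : (U : Subgroup G)) ⟨y, hU ⟨y, hy, rfl⟩⟩)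
    have h2 : x * y = y * x := Subtype.ext this
    show (a : Matrix.SpecialLinearGroup (Fin 2) (ZMod p)) * b = b * a
    rw [← ex, ← ey, ← map_mul, ← map_mul, h2]
  obtain ⟨x, hx, c, hc, n, hn, e⟩ := htf P g⁻¹
  rw [hO, Subgroup.mem_bot] at hx
  refine ⟨n⁻¹, inv_mem hn, c⁻¹, inv_mem ?_, by rw [← mul_inv_rev, ← one_mul c, ← hx, ← e, inv_inv]⟩
  refine Subgroup.centralizer_le ?_ hc
  rintro y ⟨h1, h2, h4⟩
  exact Subgroup.subset_closure ⟨⟨h1, fun z hz => (h2 z hz).symm⟩, h4⟩

end Cfsg.Agent.S0109
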