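import Cfsg.Statements.S0110
import Cfsg.Agent.H1.Top

set_option autoImplicit false
open Cfsg

namespace Cfsg.Agent.S0110

open H7 H1B

/-- In a p-group G, an extraspecial subgroup E with [G, E] ≤ Z(E) satisfies G = E C_G(E). -/
theorem result {G : Type*} [Group G] [Finite G] {p : ℕ} [Fact p.Prime] (hG : IsPGroup p G) (E : Subgroup G) (hE : Cfsg.IsExtraspecial p E) (h : ⁅(⊤ : Subgroup G), E⁆ ≤ E ⊓ Subgroup.centralizer (E : Set G)) : E ⊔ Subgroup.centralizer (E : Set G) = ⊤ := by
  open Subgroup in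
  have h1 : ord (E ⊓ cen E) = p := by rw [← center_map_subtype, card_map_subtype, hE.2]
  have h2 : ⊤ ≤ nrm E := le_nrm_of_comm_le (by rw [commutator_comm]; exact h.trans inf_le_left)
  have := sup_cen_eq hE.1.1 le_top h1.le h (cen_of_card_le (pg_top hG) (hG.to_subgroup _) (nrm_center h2) h1.le) h2
  rwa [top_inf_eq] at this

end Cfsg.Agent.S0110
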