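import Cfsg.Statements.S0112
import Cfsg.Agent.H1.Two4

set_option autoImplicit false
open Cfsg

namespace Cfsg.Agent.S0112

open H7 H1B Subgroup

/-- A p-group with a self-centralizing subgroup of order p^2 is of maximal class. -/
theorem result {X : Type*} [Group X] [Finite X] {p : ℕ} [Fact p.Prime] (n : ℕ) (hX : Nat.card X = p ^ n) (A : Subgroup X) (hA : Nat.card A = p ^ 2) (hC : Subgroup.centralizer (A : Set X) = A) : Group.nilpotencyClass X = n - 1 := by
  have pp : p.Prime := Fact.out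
  have hG := IsPGroup.of_card hX
  obtain ⟨m, rfl⟩ := Nat.exists_eq_add_of_le' ((Nat.pow_dvd_pow_iff_le_right pp.one_lt).1
    (hA ▸ hX ▸ card_subgroup_dvd_card A))
  by_cases hZ : A ≤ center X
  · refine class_of_cen hX (x := 1) (hA ▸ card_le_of_le fun g _ => hC.le (mem_cen.2 fun a ha => ?_))
    exact (mem_center_iff.1 (hZ ha) g).symm
  obtain ⟨x, hx, hxZ⟩ := SetLike.not_le_iff_exists.1 hZ
  have ZA : center X ≤ A := (center_le_centralizer _).trans hC.le
  haveI : Nontrivial X := ⟨x, 1, fun e => hxZ (e ▸ one_mem _)⟩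
  have l1 := mul_card_le_of_lt (hG.to_subgroup _) (bot_lt_iff_ne_bot.2
    ((nontrivial_iff_ne_bot _).1 hG.center_nontrivial))
  have l2 := mul_card_le_of_lt (hG.to_subgroup _)
    (left_lt_sup.2 fun h : zpowers x ≤ center X => hxZ (h (mem_zpowers x)))
  rw [card_bot, mul_one] at l1
  have e := eq_of_le_of_card_ge (sup_le ZA (zpowers_le.2 hx))
    (by rw [hA, pow_two]; exact (Nat.mul_le_mul_left p l1).trans l2)
  refine class_of_cen hX (x := x) (hA ▸ card_le_of_le (le_trans ?_ hC.le))
  show _ ≤ cen A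
  rw [← e, cen_sup, cen_zpowers]
  exact le_inf (fun g _ => mem_cen.2 fun z hz => (mem_center_iff.1 hz g).symm) le_rfl

end Cfsg.Agent.S0112
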