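import Cfsg.Statements.S0114
import Cfsg.Agent.H1.Two4
import Cfsg.Agent.H5.Tw3

set_option autoImplicit false
open Cfsg

namespace Cfsg.Agent.S0114

open H7 H1B Subgroup

/-- The central quotient of a 2-group of maximal class is dihedral. -/
theorem result {X : Type*} [Group X] [Finite X] (n : ℕ) (hn : 3 ≤ n) (hX : Nat.card X = 2 ^ n) (hc : Group.nilpotencyClass X = n - 1) : Nonempty (X ⧸ Subgroup.center X ≃* DihedralGroup (2 ^ (n - 2))) := by
  obtain ⟨m, rfl⟩ := Nat.exists_eq_add_of_le' hn
  obtain ⟨a, w, h⟩ := mx_of_lcs hX ((class_eq_iff (n := m + 1) hX).1 hc)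
  have hz : center X = zpowers (a ^ 2 ^ (m + 1)) := by rw [← h.ctr, top_inf_eq, coe_top, centralizer_univ]
  obtain ⟨b, hb, hba⟩ := h.ex
  have sq : ∀ c : X, c ∉ zpowers a → (c : X ⧸ center X) * c = 1 := fun c hc => by
    rw [← QuotientGroup.mk_mul, QuotientGroup.eq_one_iff, hz]
    rcases h.sq_out trivial hc with e | e <;> rw [e]
    exacts [one_mem _, mem_zpowers _]
  refine H5.Chev.exists_equiv_dihedral (n := 2 ^ (m + 1)) ((a * b : X) : X ⧸ center X) ((b⁻¹ : X) : X ⧸ center X)
    (sq _ (h.mul_out hb hba (mem_zpowers a))) (sq _ (by rwa [inv_mem_iff])) ?_ ?_ ?_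
  · rw [← QuotientGroup.mk_mul, ← QuotientGroup.mk_pow, QuotientGroup.eq_one_iff, hz,
      mul_inv_cancel_right]
    exact mem_zpowers _
  · rw [eq_top_iff, ← map_top_of_surjective _ (QuotientGroup.mk'_surjective (center X)),
      ← h.closure_eq hb hba, map_le_iff_le_comap, closure_le]
    have h1 := subset_closure (k := {((a * b : X) : X ⧸ center X), ((b⁻¹ : X) : X ⧸ center X)})
      (Set.mem_insert _ _)
    have h2 := subset_closure (k := {((a * b : X) : X ⧸ center X), ((b⁻¹ : X) : X ⧸ center X)})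
      (Set.mem_insert_of_mem _ rfl)
    rintro _ (rfl | rfl)
    · simpa using mul_mem h1 h2
    · simpa using h2
  · have := (center X).card_mul_index
    rw [hz, Nat.card_zpowers, h.z_ord, hX, ← hz] at this
    rw [← index_eq_card]
    rw [pow_succ, pow_succ] at this
    omega

end Cfsg.Agent.S0114
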