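import Cfsg.Statements.S0115
import Cfsg.Agent.H1.Two4

set_option autoImplicit false
open Cfsg

namespace Cfsg.Agent.S0115

open H7 H1B Subgroup

/-- A 2-group of order 2^n, n ≥ 3, is of maximal class exactly when its commutator quotient is a Klein four-group. -/
theorem result {X : Type*} [Group X] [Finite X] (n : ℕ) (hn : 3 ≤ n) (hX : Nat.card X = 2 ^ n) : Group.nilpotencyClass X = n - 1 ↔ IsKleinFour (X ⧸ commutator X) := by
  obtain ⟨m, rfl⟩ := Nat.exists_eq_add_of_le' hn
  refine (class_eq_iff (n := m + 1) hX).trans ⟨fun h => ?_, fun h => ?_⟩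
  · obtain ⟨a, w, h1⟩ := mx_of_lcs hX h
    refine H4.isKleinFour_of (index_der_of_lcs hX h).1 fun g => ?_
    obtain ⟨g, rfl⟩ := QuotientGroup.mk_surjective g
    rw [← QuotientGroup.mk_mul, QuotientGroup.eq_one_iff, ← der_top_eq, h1.der, ← pow_two]
    exact h1.sq_mem trivial
  · have i : (commutator X).index = 4 := h.card_four
    obtain ⟨a, w, k, h1⟩ := mx_of_der (IsPGroup.of_card hX) i.le fun hc => by
      rw [← der_top_eq, H2.commutator_eq_bot_of_comm (comm_top'.2 hc), index_bot, hX, pow_add] at i
      omega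
    have := h1.card
    rw [card_top, hX] at this
    obtain rfl : m = k := by simpa using this
    exact h1.lcs_ne

end Cfsg.Agent.S0115
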