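import Cfsg.Statements.S0116
import Cfsg.Agent.H7.Tk7

set_option autoImplicit false
open Cfsg

namespace Cfsg.Agent.S0116
open H7
open scoped commutatorElement

/-- The Alperin fusion Theorem states that conjugation between subsets of a Sylow p-subgroup P factors through normalizers of tame intersections P ∩ Q_i with other Sylow p-subgroups, carrying the subset along step by step. -/
theorem result {G : Type*} [Group G] [Finite G] {p : ℕ} [Fact p.Prime] (P : Sylow p G) (A : Set G) (g : G) (hA : A ⊆ (P : Set G)) (hAg : (fun a => g⁻¹ * a * g) '' A ⊆ (P : Set G)) : ∃ (n : ℕ) (Q : Fin n → Sylow p G) (x : Fin n → G), (List.ofFn x).prod = g ∧ (∀ i : Fin n, x i ∈ Subgroup.normalizer ((((P : Subgroup G) ⊓ (Q i : Subgroup G)) : Subgroup G) : Set G) ∧ ¬ p ∣ ((P : Subgroup G) ⊓ Subgroup.normalizer ((((P : Subgroup G) ⊓ (Q i : Subgroup G)) : Subgroup G) : Set G)).relIndex (Subgroup.normalizer ((((P : Subgroup G) ⊓ (Q i : Subgroup G)) : Subgroup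 G) : Set G)) ∧ ¬ p ∣ ((Q i : Subgroup G) ⊓ Subgroup.normalizer ((((P : Subgroup G) ⊓ (Q i : Subgroup G)) : Subgroup G) : Set G)).relIndex (Subgroup.normalizer ((((P : Subgroup G) ⊓ (Q i : Subgroup G)) : Subgroup G) : Set G))) ∧ (∀ h : 0 < n, A ⊆ (((P : Subgroup G) ⊓ (Q ⟨0, h⟩ : Subgroup G) : Subgroup G) : Set G)) ∧ ∀ i : Fin n, ∀ h : i.val + 1 < n, (fun a => (((List.ofFn x).take (i.val + 1)).prod)⁻¹ * a * ((List.ofFn x).take (i.val + 1)).prod) '' A ⊆ (((P : Subgroup G) ⊓ (Q ⟨i.val + 1, h⟩ : Subgroup G) : Subgroup G) : Set G) := by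
  open Subgroup in
  have hP := H2.sylow_isSylowIn_top P
  have hQ : closure A ≤ P := (closure_le _).2 hA
  obtain ⟨n, D, x, h1, h2, e⟩ := (alperin_tame hP (Ψ := Ch (Tame p P)) Ch.mono Ch.trans Ch.inv
    (fun x hx => ch_one (tame_self hP) le_rfl hx) (fun D a x b _ => ch_one a le_rfl b) hQ (g := g)
    (by rw [cj_closure, closure_le]; simpa using hAg)).exists_fin
  choose Q q1 q2 q3 q4 using fun i => (h1 i).1
  have k : ∀ j : Fin n, (fun a => (((List.ofFn x).take j).prod)⁻¹ * a * ((List.ofFn x).take j).prod) '' A ⊆ (D j : Set G) := by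
    rintro j _ ⟨a, ha, rfl⟩
    exact h2 j (mem_cj_inv.2 (by simpa [mul_assoc] using Subgroup.subset_closure ha))
  refine ⟨n, fun i => (q1 i).toSylowTop, x, e.symm, ?_⟩
  simp only [H2.IsSylowIn.coe_toSylowTop, q2]
  exact ⟨fun i => ⟨(h1 i).2, (q3 i).not_dvd, (q4 i).not_dvd⟩, fun h => by simpa using k ⟨0, h⟩, fun j h => k ⟨j + 1, h⟩⟩

end Cfsg.Agent.S0116
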