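import Cfsg.Statements.S0118
import Cfsg.Agent.H2.FS20

set_option autoImplicit false
open Cfsg

namespace Cfsg.Agent.S0118

open Subgroup H2 Cfsg.FusionSystem


/-- Glauberman's ZJ-Theorem, in the case of groups with no section isomorphic to SL(2,p), p odd: conjugation of subsets of a Sylow p-subgroup P inside P is always induced from the normalizer of Z(J(P)). -/
theorem result {G : Type*} [Group G] [Finite G] {p : ℕ} [Fact p.Prime] (hp : p ≠ 2) (hfree : ¬ ∃ (H K : Subgroup G) (hK : (K.subgroupOf H).Normal), Nonempty ((H ⧸ K.subgroupOf H) ≃* Matrix.SpecialLinearGroup (Fin 2) (ZMod p))) (P : Sylow p G) (A : Set G) (hA : A ⊆ (P : Set G)) (g : G) (hAg : (fun a => g⁻¹ * a * g) '' A ⊆ (P : Set G)) : ∃ n ∈ Subgroup.normalizer (Cfsg.centerThompsonOf p (P : Subgroup G) : Set G), ∀ a ∈ A, n⁻¹ * a * n = g⁻¹ * a * g := by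
  have hS := sylow_isSylowIn_top P
  have hG := isGF_group (P : Subgroup G)
  obtain ⟨n, h1, h2⟩ := (controlsStrongFusionOf_of_normal (normal_ZJ hp (Or.inr rfl)
    (secCl_free _) (pst_sl2free hp) hS.isPGroup (hG.saturated hS) (hG.loc hS (secCl_free _)
      fun k => hfree (inv_trans k (inv_subgroup _)))) A hA).2 g⁻¹ (by rwa [inv_inv])
  exact ⟨n⁻¹, Subgroup.inv_mem _ h1, fun a ha => by rw [inv_inv, ← h2 a ha, inv_inv]⟩

end Cfsg.Agent.S0118
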