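import Cfsg.Statements.S0119
import Cfsg.Agent.H1.V1

set_option autoImplicit false
open Cfsg

namespace Cfsg.Agent.S0119

open H7 H1B Subgroup
open scoped commutatorElement

/-- If a p'-group A of automorphisms of a p-group G satisfies G = [G, A] and acts trivially on every characteristic abelian subgroup, then G is special with centre equal to the fixed points of A. -/
theorem result {G : Type*} [Group G] [Finite G] {p : ℕ} [Fact p.Prime] (hG : IsPGroup p G) (A : Subgroup (MulAut G)) (hA : Nat.Coprime (Nat.card A) p) (hGA : Subgroup.closure {x : G | ∃ g : G, ∃ a ∈ A, x = g⁻¹ * a g} = ⊤) (hchar : ∀ H : Subgroup G, H.Characteristic → IsMulCommutative H → ∀ a ∈ A, ∀ h ∈ H, a h = h) : Cfsg.IsSpecial p G ∧ (∀ g : G, (g ∈ Subgroup.center G ↔ ∀ a ∈ A, a g = g)) := by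
  have h1 : ⁅hL (⊤ : Subgroup G), hR A⁆ = hL ⊤ := by
    rw [H1.commutator_sdL_sdR, eq_top_iff.2 (hGA.ge.trans (closure_mono ?_))]
    rintro _ ⟨g, a, ha, rfl⟩
    exact ⟨g⁻¹, trivial, a, ha, by simp⟩
  obtain ⟨h2, h3, h4⟩ := special_of_act (B := hR ⊤) (pg_hL (pg_top hG))
    (by rwa [hR, card_map_of_injective SemidirectProduct.inr_injective]) (hR_le_nrm A ⊤) (hR_le_nrm ⊤ ⊤) h1
    fun U hU hB _ hc => by
      obtain ⟨U, rfl⟩ := exists_hL hU
      exact hR_le_cen.2 (hchar U (char_of_hR hB) (isComm_iff.2 (hL_le_cen.1 (isComm_iff.1 hc))))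
  rw [← hL_cen] at h2 h3 h4
  rw [← hL_comm] at h3
  refine ⟨special_top.2 ⟨hG, ?_, map_injective SemidirectProduct.inl_injective h3⟩, fun g => ?_⟩
  · have h5 := im_Phi_of_pgroup (f := res (SemidirectProduct.inl : G →* Hol G) ⊤) (pg_top hG) le_rfl
    rw [im_top, im_top] at h5
    exact map_injective SemidirectProduct.inl_injective (h5.trans h2)
  · rw [← cen_top, ← zpowers_le, ← map_le_map_iff_of_injective (f := (SemidirectProduct.inl : G →* Hol G))
      SemidirectProduct.inl_injective]
    change hL _ ≤ hL _ ↔ _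
    rw [← h4, le_inf_iff, and_iff_right (map_mono le_top)]
    constructor
    · exact fun h a ha => hR_le_cen.1 (le_cen_symm h) a ha g (mem_zpowers g)
    · refine fun h => le_cen_symm (hR_le_cen.2 fun a ha => ?_)
      rintro _ ⟨k, rfl⟩
      simp [h a ha]

end Cfsg.Agent.S0119
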