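import Cfsg.Statements.S0120
import Cfsg.Agent.H1.Top

set_option autoImplicit false
open Cfsg

namespace Cfsg.Agent.S0120

open H7 H1B

/-- For odd p, a p'-automorphism of a p-group acting trivially on the elements of order dividing p is trivial. -/
theorem result {G : Type*} [Group G] [Finite G] {p : ℕ} [Fact p.Prime] (hp : p ≠ 2) (hG : IsPGroup p G) (a : MulAut G) (ha : Nat.Coprime (orderOf a) p) (h : ∀ x : G, x ^ p = 1 → a x = x) : a = 1 := by
  open Subgroup in
  rw [← zpowers_eq_bot, ← hR_le_cen_top]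
  refine cen_of_Om_le hp (pg_hL (pg_top hG)) (hR_le_nrm _ ⊤) (by rwa [H1.card_sdR, card_zpowers_eq]) ?_
  rw [Om_le_iff]
  rintro _ ⟨x, -, rfl⟩ hx
  rw [hR, H1.sdR, MonoidHom.map_zpowers, cen_zpowers, mem_cen1, eq_comm, H1.inl_mul_inr_comm_iff]
  exact h x (SemidirectProduct.inl_injective (by rwa [map_pow, map_one]))

end Cfsg.Agent.S0120
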