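import Cfsg.Statements.S0121
import Cfsg.Agent.H1.Top

set_option autoImplicit false
open Cfsg

namespace Cfsg.Agent.S0121

open H7 H1B

/-- A p'-automorphism of a p-group acting trivially on a critical subgroup is trivial. -/
theorem result {G : Type*} [Group G] [Finite G] {p : ℕ} [Fact p.Prime] (hG : IsPGroup p G) (H : Subgroup G) (hH : H.Characteristic) (h1 : (frattini H).map H.subtype ≤ Subgroup.centralizer (H : Set G)) (h2 : ⁅H, (⊤ : Subgroup G)⁆ ≤ H ⊓ Subgroup.centralizer (H : Set G)) (h3 : Subgroup.centralizer (H : Set G) ≤ H) (a : MulAut G) (ha : Nat.Coprime (orderOf a) p) (h : ∀ x ∈ H, a x = x) : a = 1 := by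
  open Subgroup in
  rw [← zpowers_eq_bot, ← hR_le_cen_top]
  refine cen_of_cen_critical (K := hL H) (pg_hL (pg_top hG)) (map_mono le_top) (by
    rwa [← hL_cen, H1.sdL_le_sdL]) (hR_le_nrm _ ⊤) (by rwa [H1.card_sdR, card_zpowers_eq]) ?_
  rw [hR, H1.sdR, MonoidHom.map_zpowers, zpowers_le]
  exact H1.inr_mem_centralizer_sdL.2 h

end Cfsg.Agent.S0121
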