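import Cfsg.Statements.S0125
import Cfsg.Agent.H2.Abel

set_option autoImplicit false
open Cfsg

namespace Cfsg.Agent.S0125

open Subgroup H2


/-- The centralizer of a self-centralizing normal subgroup A of a Sylow p-subgroup is the direct product of A with a normal p'-subgroup. -/
theorem result {G : Type*} [Group G] [Finite G] {p : ℕ} [Fact p.Prime] (R : Sylow p G) (A : Subgroup G) (hAR : A ≤ (R : Subgroup G)) (hAn : (R : Subgroup G) ≤ Subgroup.normalizer (A : Set G)) (hC : (R : Subgroup G) ⊓ Subgroup.centralizer (A : Set G) = A) : ∃ H : Subgroup G, H ≤ Subgroup.centralizer (A : Set G) ∧ Nat.Coprime (Nat.card H) p ∧ Subgroup.centralizer (A : Set G) ≤ Subgroup.normalizer (H : Set G) ∧ H ⊓ A = ⊥ ∧ H ⊔ A = Subgroup.centralizer (A : Set G) := by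
  set C := centralizer (A : Set G) with hCdef
  have hAC : A ≤ C := hC.ge.trans inf_le_right
  have hRC : (R : Subgroup G) ≤ normalizer (C : Set G) := H1.le_normalizer_centralizer hAn
  have h1 : IsSylowIn p A C := by
    have := (sylow_isSylowIn R (le_sup_left : _ ≤ (R : Subgroup G) ⊔ C)).inf_normal
      (sup_le hRC le_normalizer)
    rwa [hC, inf_of_le_right le_sup_right] at this
  have h2 : HasNormalPComplement p C := by
    refine hasNPC_of_normalizer_le_centralizer h1.toSylow fun x _ y hy => Subtype.ext (x.2 y hy)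
  have h3 : Nat.Coprime (Nat.card (pRes p C)) p :=
    coprime_card_subgroup_iff.2 (hasNPC_subgroup_iff.1 h2)
  refine ⟨pRes p C, pRes_le C, h3, le_normalizer.trans (normalizer_le_normalizer_pRes C), ?_,
    h1.pRes_sup⟩
  rw [eq_bot_iff]
  rintro x ⟨hx1, hx2⟩
  obtain ⟨k, hk⟩ := isPGroup_iff_mem.1 h1.isPGroup x hx2
  exact eq_one_of_coprime_of_pow hk (hasNPC_subgroup_iff.1 h2 x hx1)

end Cfsg.Agent.S0125
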