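import Cfsg.Statements.S0129
import Cfsg.Agent.H1.Top

set_option autoImplicit false
open Cfsg

namespace Cfsg.Agent.S0129

open H7 H1B

/-- The order of a p-group is bounded by p^(a(a+1)/2) when it has a maximal normal abelian subgroup of order p^a. -/
theorem result {G : Type*} [Group G] [Finite G] {p : ℕ} [Fact p.Prime] (hG : IsPGroup p G) (A : Subgroup G) [A.Normal] (hA : IsMulCommutative A) (hmax : ∀ B : Subgroup G, B.Normal → IsMulCommutative B → A ≤ B → B = A) (a : ℕ) (ha : Nat.card A = p ^ a) : Nat.card G ≤ p ^ (a * (a + 1) / 2) := by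
  open Subgroup in
  have h1 := relIndex_cen_le_pow (pg_top hG) le_top (le_nrm_of_normal _ A) ha.le
  have := nilp_of_isPGroup (pg_top hG)
  have h2 := H1.centralizer_le_of_maximal_abelian_normal (S := ⊤) (N := A) le_top (le_nrm_of_normal _ A) fun M _ h => hmax M (normal_iff_top_le_nrm.2 h)
  rw [top_inf_eq] at h2
  rw [le_antisymm h2 (isComm_iff.1 hA), relIndex_top_right] at h1
  rw [← A.index_mul_card, ha, show a * (a + 1) / 2 = a.choose 2 + a by
    rw [Nat.choose_two_right, ← Nat.add_mul_div_right _ _ two_pos]; congr 1; cases a <;> simp; ring, pow_add]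
  exact Nat.mul_le_mul_right _ h1

end Cfsg.Agent.S0129
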