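import Cfsg.Statements.S0130
import Cfsg.Agent.H1.Top

set_option autoImplicit false
open Cfsg

namespace Cfsg.Agent.S0130

open H7 H1B

/-- If A is maximal among the normal abelian subgroups of exponent dividing p^n of a p-group (p^n ≠ 2), then A contains every element of order dividing p^n in its centralizer. -/
theorem result {G : Type*} [Group G] [Finite G] {p : ℕ} [Fact p.Prime] (hG : IsPGroup p G) (n : ℕ) (hn : p ^ n ≠ 2) (A : Subgroup G) [A.Normal] (hA : IsMulCommutative A) (hAe : ∀ a ∈ A, a ^ p ^ n = 1) (hmax : ∀ B : Subgroup G, B.Normal → IsMulCommutative B → (∀ b ∈ B, b ^ p ^ n = 1) → A ≤ B → B = A) (x : G) (hx : x ∈ Subgroup.centralizer (A : Set G)) (hxn : x ^ p ^ n = 1) : x ∈ A := by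
  open Subgroup in
  rcases n.eq_zero_or_pos with rfl | h0
  · rw [pow_zero, pow_one] at hxn; exact hxn ▸ one_mem A
  refine alperin ?_ (pg_top hG) le_rfl (le_nrm_self _) le_top (le_nrm_of_normal _ A) hA hAe
    (fun B _ h => hmax B (normal_iff_top_le_nrm.2 h)) ⟨mem_top x, hx⟩ hxn
  obtain ⟨m, rfl⟩ := Nat.exists_eq_succ_of_ne_zero h0.ne'
  have hp : p.Prime := Fact.out
  rw [Nat.choose_two_right]
  rcases hp.eq_two_or_odd' with rfl | ho
  · cases m with
    | zero => simp at hn
    | succ m => rw [pow_succ', mul_assoc, Nat.mul_div_cancel_left _ two_pos, pow_succ', mul_assoc]; simp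
  · rw [Nat.mul_div_assoc _ (ho.pow.tsub_odd odd_one).two_dvd]
    exact (dvd_pow_self p (by simp)).mul_right _

end Cfsg.Agent.S0130
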