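import Cfsg.Statements.S0131
import Cfsg.Agent.H2.Abel

set_option autoImplicit false
open Cfsg

namespace Cfsg.Agent.S0131

open Subgroup H2


/-- P/P' has a normal complement in G exactly when the focal subgroup G' ∩ P is as small as possible, namely P'. -/
theorem result {G : Type*} [Group G] [Finite G] {p : ℕ} [Fact p.Prime] (P : Sylow p G) : (∃ N : Subgroup G, N.Normal ∧ N ⊓ (P : Subgroup G) = ⁅(P : Subgroup G), (P : Subgroup G)⁆ ∧ N ⊔ (P : Subgroup G) = ⊤) ↔ commutator G ⊓ (P : Subgroup G) = ⁅(P : Subgroup G), (P : Subgroup G)⁆ := by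
  constructor
  · rintro ⟨N, hN, h1, h2⟩
    refine le_antisymm ?_ (le_inf (commutator_mono le_top le_top) (le_normalizer_iff_commutator_le_left.1 le_normalizer))
    rw [← h1]
    refine inf_le_inf_right _ ?_
    set π := QuotientGroup.mk' N
    have h3 : (P : Subgroup G).map π = ⊤ := by
      have := congrArg (Subgroup.map π) h2
      rwa [Subgroup.map_sup, (Subgroup.map_eq_bot_iff _).2 (by simp [π]), bot_sup_eq,
        map_top_of_surjective _ (QuotientGroup.mk'_surjective _)] at this
    have h4 : (_root_.commutator G).map π ≤ (⁅(P : Subgroup G), (P : Subgroup G)⁆).map π := by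
      rw [map_commutator, h3, _root_.commutator_def, map_commutator]
      exact commutator_mono le_top le_top
    rw [map_le_iff_le_comap, comap_map_eq, QuotientGroup.ker_mk', ← h1] at h4
    exact h4.trans (sup_le inf_le_left le_rfl)
  · intro h
    obtain ⟨k, hk⟩ := relIndex_eq_pow (Q := ⁅(P : Subgroup G), (P : Subgroup G)⁆) P.2
    obtain ⟨h1, h2, h3⟩ := hall_focal (P : Subgroup G) (by
      rw [hk]
      exact (((Nat.Prime.coprime_iff_not_dvd Fact.out).2 P.not_dvd_index).pow_left k).symm)
    exact ⟨_, inferInstance, by rw [h1, ← h3, h], h2⟩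

end Cfsg.Agent.S0131
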