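import Cfsg.Statements.S0132
import Cfsg.Agent.H1.V1

set_option autoImplicit false
open Cfsg

namespace Cfsg.Agent.S0132

open H7 H1B Subgroup

/-- A minimal non-p-nilpotent finite group is a minimal non-nilpotent group with a normal Sylow p-subgroup. -/
theorem result {G : Type*} [Group G] [Finite G] {p : ℕ} [Fact p.Prime] (h1 : ¬ Cfsg.HasNormalPComplement p G) (h2 : ∀ H : Subgroup G, H ≠ ⊤ → Cfsg.HasNormalPComplement p H) : (∀ H : Subgroup G, H ≠ ⊤ → Group.IsNilpotent H) ∧ ¬ Group.IsNilpotent G ∧ ∀ P : Sylow p G, (P : Subgroup G).Normal := by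
  obtain ⟨q, hq, hqp, Q, -, hQ, x, -, hx, hx1, hx2⟩ := exists_of_not_npc fun h => h1 (npc_top_iff.2 h)
  haveI := Fact.mk hq
  have hc : ∀ {r} [Fact r.Prime] {R : Subgroup G}, IsPGroup r R → r ≠ p → (ord R).Coprime p := fun hR h =>
    (coprime_of_isPGroup hR ((Nat.coprime_primes Fact.out Fact.out).2 h.symm)).symm
  have e : zpowers x ⊔ Q = ⊤ := by
    by_contra h
    exact hx2 ((npc_iff.1 (h2 _ h)).le_cen hQ le_sup_right le_sup_left (hc hx hqp) (zpowers_le.2 hx1)
      (mem_zpowers x))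
  have hn : ⊤ ≤ nrm Q := e ▸ sup_le (zpowers_le.2 hx1) (le_nrm_self _)
  have hS : H2.IsSylowIn p Q ⊤ := e ▸ (syl_of_sup_pgroups hqp hx hQ (zpowers_le.2 hx1)).2
  refine ⟨fun H hH => ?_, fun h => h1 (npc_top_iff.2 (npc_of_nilp (nilp_top.2 h))), fun P => ?_⟩
  · by_contra h
    obtain ⟨r, s, hr, hs, hrs, R, hR, hR', y, hy, hy1, hy2, hy3⟩ := exists_of_not_nilp h
    haveI := Fact.mk hr
    haveI := Fact.mk hs
    have hb : R ≠ ⊥ := by rintro rfl; exact hy3 (le_cen_bot ⊤ trivial)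
    have hb' : zpowers y ≠ ⊥ := fun h => hy3 (by rw [zpowers_eq_bot.1 h]; exact one_mem _)
    have key : ∀ {t} [Fact t.Prime] {T : Subgroup G}, IsPGroup t T → T ≠ ⊥ → t = q ∨ t = p := fun hT hb =>
      prime_cases hx hQ (zpowers_le.2 hx1) Fact.out ((dvd_card_of_isPGroup hT hb).trans
        (card_dvd_of_le (e ▸ le_top)))
    rcases key hR' hb with rfl | rfl
    · obtain rfl := (key hy1 hb').resolve_left hrs
      have h3 : zpowers y ≤ Q := hS.le_of_le_normalizer hy1 le_top (le_top.trans hn)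
      refine hy3 (comm_eq_bot'.1 (eq_bot_iff.2 ?_) (mem_zpowers y))
      rw [← inf_eq_bot_of_isPGroup hQ (hc hR' hqp)]
      exact le_inf ((commutator_mono le_rfl h3).trans (comm_le_right (le_top.trans hn)))
        (comm_le_left (zpowers_le.2 hy2))
    · exact hy3 ((npc_iff.1 (h2 _ hH)).le_cen hR' hR (zpowers_le.2 hy) (hc hy1 hrs) (zpowers_le.2 hy2)
        (mem_zpowers y))
  · rw [syl_eq_of_normal (syl_top P) hS hn]
    exact normal_of hn

end Cfsg.Agent.S0132
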