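import Cfsg.Statements.S0138
import Cfsg.Agent.H3.Integral

set_option autoImplicit false
open Cfsg

namespace Cfsg.Agent.S0138
open H3

/-- A character value has absolute value equal to the degree exactly when the group element acts by a scalar. -/
theorem result {G : Type*} [Group G] [Finite G] {V : Type*} [AddCommGroup V] [Module ℂ V] [FiniteDimensional ℂ V] (ρ : Representation ℂ G V) (g : G) : ‖ρ.character g‖ = (Module.finrank ℂ V : ℝ) ↔ ∃ ω : ℂ, ρ g = ω • (LinearMap.id : V →ₗ[ℂ] V) := by
  refine ⟨fun h => ?_, fun ⟨ω, h⟩ => ?_⟩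
  · obtain ⟨ω, -, h⟩ := (norm_character_eq_iff ρ g).1 h
    exact ⟨ω, h⟩
  · rcases subsingleton_or_nontrivial V with hV | hV
    · exact (norm_character_eq_iff ρ g).2 ⟨1, by simp, Subsingleton.elim _ _⟩
    refine (norm_character_eq_iff ρ g).2 ⟨ω, ?_, h⟩
    have := congrArg (· ^ orderOf g) h
    simp only [← map_pow, pow_orderOf_eq_one, map_one, smul_pow] at this
    rw [← Module.End.one_eq_id, one_pow] at this
    have h2 := congrArg (LinearMap.trace ℂ V) this
    have h3 : (Module.finrank ℂ V : ℂ) ≠ 0 := by exact_mod_cast Module.finrank_pos.ne'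
    rw [map_smul, LinearMap.trace_one, smul_eq_mul, eq_comm, mul_eq_right₀ h3] at h2
    exact norm_eq_one_of_pow_eq_one (orderOf_pos g).ne' h2

end Cfsg.Agent.S0138
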