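import Cfsg.Statements.S0154
import Cfsg.Agent.H3.Perm

set_option autoImplicit false
open Cfsg

namespace Cfsg.Agent.S0154
open H3
export H3 (inner_add_left inner_add_right inner_sub_left inner_sub_right inner_neg_left inner_neg_right
  inner_zero_left inner_zero_right inner_smul_left inner_smul_right inner_conj_symm inner_self_eq_zero
  inner_self_im)

/-- A finite group has exactly as many irreducible complex characters of degree 1 as the index of its commutator subgroup. -/
theorem result {G : Type*} [Group G] [Finite G] : Nat.card {χ : Cfsg.IrrCharacter G // (χ : G → ℂ) 1 = 1} = (commutator G).index := by
  exact card_irr_deg_one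

end Cfsg.Agent.S0154
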