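import Cfsg.Statements.S0157
import Cfsg.Agent.H3.Cong

set_option autoImplicit false
open Cfsg

namespace Cfsg.Agent.S0157
open H3
export H3 (inner_add_left inner_add_right inner_sub_left inner_sub_right inner_neg_left inner_neg_right
  inner_zero_left inner_zero_right inner_smul_left inner_smul_right inner_conj_symm inner_self_eq_zero
  inner_self_im)

/-- For a transitive action of a finite group on a finite set with at least two points: the action is 2-transitive if and only if the function sending g to (number of fixed points of g) − 1 is an irreducible character. -/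
theorem result {G : Type*} [Group G] [Finite G] (X : Type*) [MulAction G X] [Finite X] [MulAction.IsPretransitive G X] (hX : 2 ≤ Nat.card X) : Cfsg.IsIrrCharacter G (fun g => (Nat.card (MulAction.fixedBy X g) : ℂ) - 1) ↔ MulAction.IsMultiplyPretransitive G X 2 := by
  classical
  haveI := Fintype.ofFinite G
  haveI : Nontrivial X := Finite.one_lt_card_iff_nontrivial.1 hX
  obtain ⟨x, y, hxy⟩ := exists_pair_ne X
  have h1 := inner_fixedBy_one (G := G) X
  have h2 : Nat.card (MulAction.orbitRel.Quotient G X) = 1 := by
    rw [Nat.card_eq_one_iff_unique]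
    exact ⟨MulAction.pretransitive_iff_subsingleton_quotient G X |>.1 inferInstance, ⟨Quotient.mk _ x⟩⟩
  rw [h2, Nat.cast_one] at h1
  have hπ := isCharacter_fixedBy (G := G) X
  set π := fun g : G => (Nat.card (MulAction.fixedBy X g) : ℂ) with hπd
  have h3 : Cfsg.IsCharacter G (π - fun _ => 1) :=
    hπ.sub_of_inner_ne_zero isIrrCharacter_one (by rw [h1]; exact one_ne_zero)
  have h4 : Cfsg.classInner π π = Nat.card (MulAction.orbitRel.Quotient G (X × X)) := by
    rw [← inner_fixedBy_one, inner_one_right, Cfsg.classInner]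
    congr 1
    refine Finset.sum_congr rfl (fun g _ => ?_)
    simp only [π, Complex.conj_natCast]
    rw [← Nat.cast_mul, ← Nat.card_prod]
    congr 1
    refine Nat.card_congr ((Equiv.Set.prod _ _).symm.trans (Equiv.setCongr ?_))
    ext p
    simp [Prod.ext_iff]
  have h5 : Cfsg.classInner (π - fun _ => 1) (π - fun _ => 1) =
      Nat.card (MulAction.orbitRel.Quotient G (X × X)) - 1 := by
    rw [inner_sub_left, inner_sub_right, inner_sub_right, h4, h1, inner_one_one,
      isCharacter_one.inner_comm hπ, h1]
    ring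
  change Cfsg.IsIrrCharacter G (π - fun _ => 1) ↔ _
  rw [isIrrCharacter_iff, h5, and_iff_right h3, sub_eq_iff_eq_add, one_add_one_eq_two]
  have h6 : ((Nat.card (MulAction.orbitRel.Quotient G (X × X)) : ℂ) = 2) ↔
      Nat.card (MulAction.orbitRel.Quotient G (X × X)) = 2 := by exact_mod_cast Iff.rfl
  rw [h6, Nat.card_eq_two_iff' (Quotient.mk _ (x, x)), MulAction.is_two_pretransitive_iff]
  have h7 : ∀ a b : X, (Quotient.mk _ (a, b) : MulAction.orbitRel.Quotient G (X × X)) ≠
      Quotient.mk _ (x, x) ↔ a ≠ b := by
    intro a b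
    rw [not_iff_not, Quotient.eq, MulAction.orbitRel_apply]
    constructor
    · rintro ⟨g, hg⟩
      simp only [Prod.smul_mk, Prod.mk.injEq] at hg
      rw [← hg.1, ← hg.2]
    · rintro rfl
      obtain ⟨g, hg⟩ := MulAction.exists_smul_eq G x a
      exact ⟨g, by simp [hg]⟩
  constructor
  · rintro ⟨q, -, hq⟩ a b c d hab hcd
    have := (hq _ ((h7 c d).2 hcd)).trans (hq _ ((h7 a b).2 hab)).symm
    rw [Quotient.eq, MulAction.orbitRel_apply] at this
    obtain ⟨g, hg⟩ := this
    exact ⟨g, by simpa using hg⟩
  · intro h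
    refine ⟨Quotient.mk _ (x, y), (h7 x y).2 hxy, ?_⟩
    intro q hq
    obtain ⟨⟨a, b⟩, rfl⟩ := Quotient.exists_rep q
    obtain ⟨g, hg⟩ := h hxy ((h7 a b).1 hq)
    rw [Quotient.eq, MulAction.orbitRel_apply]
    exact ⟨g, by simpa using hg⟩

end Cfsg.Agent.S0157
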