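import Cfsg.Statements.S0158
import Cfsg.Agent.H3.Perm

set_option autoImplicit false
open Cfsg

namespace Cfsg.Agent.S0158
open H3
export H3 (inner_add_left inner_add_right inner_sub_left inner_sub_right inner_neg_left inner_neg_right
  inner_zero_left inner_zero_right inner_smul_left inner_smul_right inner_conj_symm inner_self_eq_zero
  inner_self_im)

/-- The Frobenius–Schur indicator of an irreducible complex representation of a finite group — the average over s of the character at s * s — is 0, 1 or −1, and it vanishes exactly when some character value is not real. -/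
theorem result {G : Type*} [Group G] [Fintype G] {V : Type*} [AddCommGroup V] [Module ℂ V] [FiniteDimensional ℂ V] (ρ : Representation ℂ G V) [ρ.IsIrreducible] : ((Nat.card G : ℂ)⁻¹ * ∑ s : G, ρ.character (s * s) = 0 ∨ (Nat.card G : ℂ)⁻¹ * ∑ s : G, ρ.character (s * s) = 1 ∨ (Nat.card G : ℂ)⁻¹ * ∑ s : G, ρ.character (s * s) = -1) ∧ ((Nat.card G : ℂ)⁻¹ * ∑ s : G, ρ.character (s * s) = 0 ↔ ∃ s : G, (ρ.character s).im ≠ 0) := by
  have h := (isIrrCharacter_character ρ).fsInd_spec
  rw [Ne, conj_eq_iff_im] at h
  unfold fsInd at h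
  rcases h with ⟨h1, h2⟩ | ⟨h1, h2⟩
  · refine ⟨Or.inl h2, fun _ => by simpa using h1, fun _ => h2⟩
  · refine ⟨Or.inr h2, fun h3 => ?_, fun ⟨s, hs⟩ => absurd (h1 s) hs⟩
    rw [h3] at h2
    rcases h2 with h2 | h2 <;> simp at h2

end Cfsg.Agent.S0158
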