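import Cfsg.Statements.S0160
import Cfsg.Agent.H3.Perm

set_option autoImplicit false
open Cfsg

namespace Cfsg.Agent.S0160
open H3
export H3 (inner_add_left inner_add_right inner_sub_left inner_sub_right inner_neg_left inner_neg_right
  inner_zero_left inner_zero_right inner_smul_left inner_smul_right inner_conj_symm inner_self_eq_zero
  inner_self_im)

/-- A finite group has as many real-valued irreducible complex characters as conjugacy classes closed under taking inverses. -/
theorem result {G : Type*} [Group G] [Finite G] : Nat.card {χ : Cfsg.IrrCharacter G // ∀ g : G, ((χ : G → ℂ) g).im = 0} = Nat.card {C : ConjClasses G // ∀ g : G, ConjClasses.mk g = C → IsConj g g⁻¹} := by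
  rw [← card_fixed_irr (fun g => g⁻¹) (fun _ h => h.comp_inv) _ (fun g => ?_)]
  · refine Nat.card_congr (Equiv.subtypeEquivRight (fun χ => ?_))
    simp only [χ.2.isCharacter.map_inv]
    exact conj_eq_iff_im.symm
  · refine ⟨fun h => h g rfl, fun h x hx => ?_⟩
    rw [ConjClasses.mk_eq_mk_iff_isConj] at hx
    obtain ⟨c, rfl⟩ := isConj_iff.1 hx
    refine hx.trans (h.trans (isConj_iff.2 ⟨c⁻¹, by group⟩))

end Cfsg.Agent.S0160
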