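import Cfsg.Statements.S0162
import Cfsg.Agent.H3.Perm

set_option autoImplicit false
open Cfsg

namespace Cfsg.Agent.S0162
open H3
export H3 (inner_add_left inner_add_right inner_sub_left inner_sub_right inner_neg_left inner_neg_right
  inner_zero_left inner_zero_right inner_smul_left inner_smul_right inner_conj_symm inner_self_eq_zero
  inner_self_im)

/-- If a finite group has odd order, its order is congruent to its number of conjugacy classes modulo 16. -/
theorem result {G : Type*} [Group G] [Finite G] (hodd : Odd (Nat.card G)) : Nat.card G ≡ Nat.card (ConjClasses G) [MOD 16] := by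
  classical
  haveI := Fintype.ofFinite G
  choose d hd0 hd using fun χ : Cfsg.IrrCharacter G => χ.2.exists_deg
  have h1 : ∑ χ, d χ ^ 2 = Nat.card G := by
    have := sum_deg_sq (G := G)
    simp only [hd] at this
    exact_mod_cast this
  have h2 : ∀ χ, ∃ k, d χ ^ 2 = 8 * k + 1 := by
    intro χ
    obtain ⟨m, hm⟩ : Odd (d χ) := hodd.of_dvd_nat (χ.2.deg_dvd_card (hd χ))
    obtain ⟨k, hk⟩ : Even (m * (m + 1)) := Nat.even_mul_succ_self m
    exact ⟨k, by rw [hm]; nlinarith⟩
  choose k hk using h2
  have h3 : ∑ χ, (k χ : ZMod 2) = 0 := by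
    let c : Cfsg.IrrCharacter G → Cfsg.IrrCharacter G := fun χ => ⟨_, χ.2.conj⟩
    have hc : ∀ χ, k (c χ) = k χ := by
      intro χ
      have : d (c χ) = d χ := by
        have h4 := hd (c χ)
        simp only [c, hd χ] at h4
        rw [Complex.conj_natCast] at h4
        exact_mod_cast h4.symm
      have h5 := hk (c χ)
      rw [this, hk χ] at h5
      omega
    apply Finset.sum_involution (fun χ _ => c χ)
    · intro χ _
      rw [hc, CharTwo.add_self_eq_zero]
    · intro χ _ h0 h
      apply h0
      have h4 := χ.2.eq_one_of_real hodd (congrArg Subtype.val h)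
      have h5 := hd χ
      rw [h4] at h5
      have h6 : d χ = 1 := by simp only at h5; exact_mod_cast h5.symm
      have h7 := hk χ
      rw [h6] at h7
      rw [show k χ = 0 by omega, Nat.cast_zero]
    · intro χ _; exact Finset.mem_univ _
    · intro χ _
      apply Subtype.ext
      ext g
      simp [c]
  rw [← Nat.cast_sum, ZMod.natCast_eq_zero_iff] at h3
  obtain ⟨m, hm⟩ := h3
  rw [← card_irr, ← h1, Finset.sum_congr rfl (fun χ _ => hk χ), Finset.sum_add_distrib,
    ← Finset.mul_sum, hm, Nat.card_eq_fintype_card]
  simp only [Finset.sum_const, Finset.card_univ, smul_eq_mul, mul_one]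
  unfold Nat.ModEq
  omega

end Cfsg.Agent.S0162
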