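import Cfsg.Statements.S0163
import Cfsg.Agent.H3.Brauer

set_option autoImplicit false
open Cfsg

namespace Cfsg.Agent.S0163
open H3
export H3 (inner_add_left inner_add_right inner_sub_left inner_sub_right inner_neg_left inner_neg_right
  inner_zero_left inner_zero_right inner_smul_left inner_smul_right inner_conj_symm inner_self_eq_zero
  inner_self_im)

/-- Brauer's induction Theorem: every character of a finite group is a ℤ-linear combination of functions induced from linear characters (homomorphisms to ℂˣ) of elementary subgroups. -/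
theorem result {G : Type*} [Group G] [Fintype G] (χ : G → ℂ) (hχ : Cfsg.IsCharacter G χ) : ∃ l : List ((E : Subgroup G) × ((E →* ℂˣ) × ℤ)), (∀ t ∈ l, ∃ p : ℕ, p.Prime ∧ Cfsg.IsElementary p t.1) ∧ χ = (l.map fun t => (t.2.2 : ℂ) • Cfsg.indFun t.1 (fun e => (t.2.1 e : ℂ))).sum := by
  exact mem_of_elementary_lin (listSpan (ι := Subgroup G) (κ := fun E => E →* ℂˣ)
      (fun t => ∃ p : ℕ, p.Prime ∧ IsElementary p t.1) (fun _ _ _ _ h => h)
      (fun E lam => indFun E fun e => (lam e : ℂ))) (fun p E lam hp hE =>
        mem_listSpan_single _ _ (fun (E : Subgroup G) (lam : E →* ℂˣ) =>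
          indFun E fun e => (lam e : ℂ)) E lam ⟨p, hp, hE⟩) hχ.isGen

end Cfsg.Agent.S0163
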