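import Cfsg.Statements.S0165
import Cfsg.Agent.H3.Cong

set_option autoImplicit false
open Cfsg

namespace Cfsg.Agent.S0165
open H3
export H3 (inner_add_left inner_add_right inner_sub_left inner_sub_right inner_neg_left inner_neg_right
  inner_zero_left inner_zero_right inner_smul_left inner_smul_right inner_conj_symm inner_self_eq_zero
  inner_self_im)

/-- If p ^ n is the exact power of the prime p dividing the order of a finite group and p ^ n divides the degree of an irreducible complex representation, then its character vanishes at every element of order divisible by p. -/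
theorem result {G : Type*} [Group G] [Finite G] {V : Type*} [AddCommGroup V] [Module ℂ V] [FiniteDimensional ℂ V] (ρ : Representation ℂ G V) [ρ.IsIrreducible] (p n : ℕ) (hp : p.Prime) (hn : p ^ n ∣ Nat.card G) (hn' : ¬ p ^ (n + 1) ∣ Nat.card G) (hdeg : p ^ n ∣ Module.finrank ℂ V) (x : G) (hx : p ∣ orderOf x) : ρ.character x = 0 := by
  obtain ⟨m, hm⟩ := hn
  have h1 : ¬ p ∣ m := fun ⟨k, hk⟩ => hn' ⟨k, by rw [hm, hk]; ring⟩
  refine (isIrrCharacter_character ρ).eq_zero_of_defect_zero (m := p ^ n) (n := m)
    (Nat.Coprime.pow_left n ((Nat.Prime.coprime_iff_not_dvd hp).2 h1)) hm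
    (Representation.char_one ρ) hdeg (fun h => h1 (hx.trans h))

end Cfsg.Agent.S0165
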