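import Cfsg.Statements.S0166
import Cfsg.Agent.H3.Brauer
import Cfsg.Agent.H3.Perm

set_option autoImplicit false
open Cfsg

namespace Cfsg.Agent.S0166
open H3 Module
open scoped ComplexConjugate
set_option linter.style.haveILetI false
set_option linter.unusedVariables false
universe u

section
variable (K : Type) [Field K] [Algebra K ℂ] {G : Type u} [Group G] [Finite G]

def R (i : Prop) (χ : G → ℂ) : Prop := ∃ (V : Type u) (_ : AddCommGroup V) (_ : Module K V) (_ : FiniteDimensional K V)
  (τ : Representation K G V), (i → τ.IsIrreducible) ∧ ∀ g, χ g = algebraMap K ℂ (τ.character g)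

variable {K}

theorem R.mat {i : Prop} {χ : G → ℂ} (h : R K i χ) : ∃ (n : ℕ) (σ : Representation ℂ G (Fin n → ℂ)), σ.character = χ ∧
    ∀ g i j, LinearMap.toMatrix' (σ g) i j ∈ (algebraMap K ℂ).range := by
  obtain ⟨V, _, _, _, τ, -, e⟩ := h
  let b := Module.finBasis K V
  let σ : Representation ℂ G (Fin (finrank K V) → ℂ) := Matrix.toLinAlgEquiv'.toMulEquiv.toMonoidHom.comp
    ((algebraMap K ℂ).mapMatrix.toMonoidHom.comp ((LinearMap.toMatrixAlgEquiv b).toMulEquiv.toMonoidHom.comp τ))
  have s : ∀ g, LinearMap.toMatrix' (σ g) = (LinearMap.toMatrix b b (τ g)).map (algebraMap K ℂ) := fun g =>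
    LinearMap.toMatrix'_toLin' _
  refine ⟨_, σ, funext fun g => ?_, fun g i j => by rw [s]; exact ⟨_, rfl⟩⟩
  rw [character_eq_trace, s, e, Representation.character, LinearMap.trace_eq_matrix_trace K b,
    AddMonoidHom.map_trace]

theorem R.ch {i : Prop} {χ : G → ℂ} (h : R K i χ) : IsCharacter G χ := let ⟨n, σ, e, _⟩ := h.mat; ⟨n, σ, e⟩

theorem R.add {χ ψ : G → ℂ} (h : R K False χ) (h' : R K False ψ) : R K False (χ + ψ) := by
  obtain ⟨V, _, _, _, τ, -, e⟩ := h
  obtain ⟨W, _, _, _, τ', -, e'⟩ := h'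
  refine ⟨V × W, _, _, inferInstance, τ.prod τ', False.elim, fun g => ?_⟩
  rw [Pi.add_apply, e, e', ← map_add]
  exact congrArg _ (LinearMap.trace_prodMap' (τ g) (τ' g)).symm

theorem neZ : NeZero (Nat.card G : K) := ⟨fun e => (Nat.cast_ne_zero (R := ℂ)).2 (Nat.card_pos (α := G)).ne' (by
  rw [← map_natCast (algebraMap K ℂ), e, map_zero])⟩

theorem mem_aux (n : ℕ) : ∀ (V : Type u) [AddCommGroup V] [Module K V] [FiniteDimensional K V]
    (τ : Representation K G V), finrank K V = n →
    (fun g => algebraMap K ℂ (τ.character g)) ∈ AddSubgroup.closure {χ : G → ℂ | R K True χ} := by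
  induction n using Nat.strong_induction_on with
  | _ n ih =>
  intro V _ _ _ ρ hn
  by_cases hirr : ρ.IsIrreducible
  · exact AddSubgroup.subset_closure ⟨V, _, _, inferInstance, ρ, fun _ => hirr, fun _ => rfl⟩
  rcases subsingleton_or_nontrivial V with hV | hV
  · rw [show (fun g => algebraMap K ℂ (ρ.character g)) = 0 from funext fun g => by
      simp [Representation.character, Subsingleton.elim (ρ g) 0]]
    exact zero_mem _
  have nt : Nontrivial (Subrepresentation ρ) := ⟨⊥, ⊤, fun h =>
    bot_ne_top (α := Submodule K V) (congrArg Subrepresentation.toSubmodule h)⟩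
  obtain ⟨U, hb, ht⟩ : ∃ U : Subrepresentation ρ, U ≠ ⊥ ∧ U ≠ ⊤ := by
    by_contra H
    push Not at H
    exact hirr ⟨fun U => or_iff_not_imp_left.2 (H U)⟩
  haveI := neZ (K := K) (G := G)
  obtain ⟨U', hc⟩ := exists_isCompl U
  have hc' : IsCompl U.toSubmodule U'.toSubmodule :=
    ⟨disjoint_iff.2 (congrArg Subrepresentation.toSubmodule hc.inf_eq_bot),
      codisjoint_iff.2 (congrArg Subrepresentation.toSubmodule hc.sup_eq_top)⟩
  have hsum := Submodule.finrank_add_eq_of_isCompl hc'
  have h1 : finrank K U.toSubmodule < n :=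
    hn ▸ Submodule.finrank_lt fun e => ht (Subrepresentation.toSubmodule_injective e)
  have h2 : finrank K U.toSubmodule ≠ 0 := fun e =>
    hb (Subrepresentation.toSubmodule_injective (Submodule.finrank_eq_zero.1 e))
  have e : (U.toRepresentation.prod U'.toRepresentation).character = ρ.character :=
    Representation.char_iso (Representation.Equiv.mk (Submodule.prodEquivOfIsCompl _ _ hc') fun g => by
      ext v <;> simp [Representation.prod, Subrepresentation.toRepresentation])
  convert add_mem (ih _ h1 _ U.toRepresentation rfl) (ih (finrank K U'.toSubmodule) (by omega) _ U'.toRepresentation rfl)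
  rename_i g
  rw [Pi.add_apply, ← map_add, ← e]
  exact congrArg _ (LinearMap.trace_prodMap' _ _)

theorem R.orth [Fintype G] {a b : G → ℂ} (ha : R K True a) (hb : R K True b) : a = b ∨ classInner a b = 0 := by
  have c := hb.ch
  obtain ⟨V, _, _, _, τ, i, e⟩ := ha
  obtain ⟨W, _, _, _, τ', i', e'⟩ := hb
  haveI := i trivial
  haveI := i' trivial
  haveI := neZ (K := K) (G := G)
  haveI := invertibleOfNonzero (NeZero.ne (Nat.card G : K))
  rcases isEmpty_or_nonempty (τ'.Equiv τ) with h | ⟨⟨φ⟩⟩
  · right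
    have := congrArg (algebraMap K ℂ) (Representation.card_inv_mul_sum_char_mul_char_eq_finrank τ' τ)
    rw [finrank_zero_of_subsingleton] at this
    rw [classInner]
    simp only [← c.map_inv]
    simpa [e, e'] using this
  · exact Or.inl (funext fun g => by rw [e, e', Representation.char_iso φ])

theorem R.of_mem {χ : G → ℂ} (h : IsIrrCharacter G χ) (m : χ ∈ AddSubgroup.closure {χ : G → ℂ | R K True χ}) :
    R K True χ := by
  haveI := Fintype.ofFinite G
  obtain ⟨s, hs, ne⟩ : ∃ s, R K True s ∧ classInner s χ ≠ 0 := by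
    by_contra H
    push Not at H
    have : ∀ f ∈ AddSubgroup.closure {χ : G → ℂ | R K True χ}, classInner f χ = 0 := fun f hf => by
      induction hf using AddSubgroup.closure_induction with
      | mem f hf => exact H f hf
      | zero => exact H3.inner_zero_left _
      | add _ _ _ _ a b => rw [H3.inner_add_left, a, b, add_zero]
      | neg _ _ a => rw [H3.inner_neg_left, a, neg_zero]
    exact one_ne_zero (h.inner_self.symm.trans (this χ m))
  have : ∀ f ∈ AddSubgroup.closure {χ : G → ℂ | R K True χ}, ∃ z : ℤ, classInner f s = z * classInner s s := fun f hf => by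
    induction hf using AddSubgroup.closure_induction with
    | mem f hf => rcases R.orth hf hs with rfl | e; exacts [⟨1, by simp⟩, ⟨0, by simp [e]⟩]
    | zero => exact ⟨0, by simp [H3.inner_zero_left]⟩
    | add _ _ _ _ a b =>
      obtain ⟨x, a⟩ := a
      obtain ⟨y, b⟩ := b
      exact ⟨x + y, by rw [H3.inner_add_left, a, b]; push_cast; ring⟩
    | neg _ _ a => exact a.elim fun x a => ⟨-x, by rw [H3.inner_neg_left, a]; simp⟩
  obtain ⟨z, hz⟩ := this χ m
  obtain ⟨k, hk⟩ := hs.ch.inner_nat h.isCharacter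
  obtain ⟨N, hN⟩ := hs.ch.inner_nat hs.ch
  have hk' : classInner χ s = k := by rw [← H3.inner_conj_symm, hk]; simp
  obtain ⟨t, ht⟩ := (hs.ch.sub_inner_smul h).inner_nat (hs.ch.sub_inner_smul h)
  simp only [H3.inner_sub_left, H3.inner_sub_right, H3.inner_smul_left, H3.inner_smul_right, hk, hk', hN, h.inner_self,
    map_natCast] at ht
  have e1 : (N : ℤ) = k * k + t := by apply Int.cast_injective (α := ℂ); push_cast; linear_combination ht
  have e2 : (k : ℤ) = z * N := by apply Int.cast_injective (α := ℂ); push_cast; rw [← hk', hz, hN]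
  have k0 : 0 < k := Nat.pos_of_ne_zero fun e => ne (by rw [hk, e, Nat.cast_zero])
  have l : (N : ℤ) ≤ k := Int.le_of_dvd (by omega) ⟨z, by rw [e2, mul_comm]⟩
  have N1 : N = 1 := by
    have : (1 : ℤ) ≤ k := by omega
    have : (0 : ℤ) ≤ t := by omega
    have : (k : ℤ) = 1 := by nlinarith
    rw [this] at e1 l
    omega
  exact (hs.ch.isIrr_of_inner_self (by rw [hN, N1, Nat.cast_one])).eq_of_inner_ne_zero h ne ▸ hs

theorem R.ind [Fintype G] (H : Subgroup G) (l : H →* ℂˣ) (hl : ∀ h, (l h : ℂ) ∈ (algebraMap K ℂ).range) :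
    R K False (indFun H fun h => (l h : ℂ)) := by
  classical
  have hx : ∀ g, ∃ y, algebraMap K ℂ y = extendByZero H (fun h => (l h : ℂ)) g := fun g => by
    rw [ext0_apply]
    split_ifs
    exacts [hl _, ⟨0, map_zero _⟩]
  choose x hx using hx
  have inj := (algebraMap K ℂ).injective
  have x0 : ∀ g, g ∉ H → x g = 0 := fun g hg => inj (by rw [hx, ext0_of_not_mem _ hg, map_zero])
  have xm : ∀ a ∈ H, ∀ g, x (a * g) = x a * x g := fun a ha g => by
    by_cases hg : g ∈ H
    · apply inj
      rw [map_mul, hx, hx, hx, ext0_of_mem _ ha, ext0_of_mem _ hg, ext0_of_mem _ (mul_mem ha hg), ← Units.val_mul, ← map_mul]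
      rfl
    · rw [x0 g hg, x0 _ (by simpa [H.mul_mem_cancel_left ha] using hg), mul_zero]
  have x1 : x 1 = 1 := inj (by rw [hx, ext0_of_mem _ H.one_mem, map_one]; exact congrArg Units.val l.map_one)
  let A : G →* Matrix (G ⧸ H) (G ⧸ H) K :=
    { toFun := fun g => Matrix.of fun i j => x (i.out⁻¹ * g * j.out)
      map_one' := by
        ext i j
        by_cases e : i = j
        · subst e; simp [x1]
        · rw [Matrix.one_apply_ne e, Matrix.of_apply, mul_one]
          exact x0 _ fun h => e (by simpa using QuotientGroup.eq.2 h)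
      map_mul' := fun a b => by
        ext i j
        have k : ∀ k : G ⧸ H, i.out⁻¹ * a * k.out ∈ H ↔ k = (a⁻¹ * i.out : G) := fun k => by
          conv_rhs => rw [← k.out_eq', eq_comm, QuotientGroup.eq]
          simp
        simp only [Matrix.mul_apply, Matrix.of_apply]
        rw [Finset.sum_eq_single ((a⁻¹ * i.out : G) : G ⧸ H) (fun c _ hc => by rw [x0 _ (mt (k c).1 hc), zero_mul])
          (by simp), ← xm _ ((k _).2 rfl)]
        simp [mul_assoc] }
  refine ⟨G ⧸ H → K, _, _, inferInstance, Matrix.toLinAlgEquiv'.toMulEquiv.toMonoidHom.comp A, False.elim, fun g => ?_⟩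
  have : Representation.character (Matrix.toLinAlgEquiv'.toMulEquiv.toMonoidHom.comp A) g = (A g).trace :=
    Matrix.trace_toLin'_eq _
  rw [this, indFun_apply, inv_mul_eq_iff_eq_mul₀ (Nat.cast_ne_zero.2 Nat.card_pos.ne'),
    ← Finset.sum_fiberwise (g := fun y : G => (y : G ⧸ H)), Matrix.trace, map_sum, Finset.mul_sum]
  refine Finset.sum_congr rfl fun i _ => ?_
  rw [Finset.sum_congr rfl (g := fun _ => algebraMap K ℂ ((A g).diag i)), Finset.sum_const, nsmul_eq_mul]
  · congr 2
    rw [← Fintype.card_subtype, ← Nat.card_eq_fintype_card]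
    refine Nat.card_congr ⟨fun y => ⟨i.out⁻¹ * y.1, QuotientGroup.eq.1 (i.out_eq'.trans y.2.symm)⟩,
      fun h => ⟨i.out * h.1, by simp⟩, fun _ => by simp, fun _ => by simp⟩
  intro y hy
  have m : y⁻¹ * i.out ∈ H := QuotientGroup.eq.1 ((Finset.mem_filter.1 hy).2.trans i.out_eq'.symm)
  have := ext0_conj_mem (θ := fun h => (l h : ℂ)) (fun a b => by simp [mul_comm]) m (i.out⁻¹ * g * i.out)
  rw [← hx (i.out⁻¹ * g * i.out)] at this
  exact Eq.trans (by simp [mul_assoc]) this

end


/-- Brauer's splitting field Theorem: a complex representation of a finite group of exponent m is equivalent to a representation by matrices with entries in ℚ adjoined exp(2πi/m). -/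
theorem result {G : Type*} [Group G] [Finite G] (n : ℕ) (ρ : Representation ℂ G (Fin n → ℂ)) : ∃ σ : Representation ℂ G (Fin n → ℂ), Nonempty (ρ.Equiv σ) ∧ ∀ g : G, ∀ i j : Fin n, LinearMap.toMatrix' (σ g) i j ∈ Algebra.adjoin ℚ ({Complex.exp (2 * Real.pi * Complex.I / (Monoid.exponent G : ℂ))} : Set ℂ) := by
  classical
  haveI := Fintype.ofFinite G
  have m0 : Monoid.exponent G ≠ 0 := Monoid.exponent_ne_zero_of_finite
  have hζ := Complex.isPrimitiveRoot_exp _ m0
  set ζ := Complex.exp (2 * Real.pi * Complex.I / (Monoid.exponent G : ℂ))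
  let K := IntermediateField.adjoin ℚ ({ζ} : Set ℂ)
  have eK : K.toSubalgebra = Algebra.adjoin ℚ {ζ} :=
    IntermediateField.adjoin_simple_toSubalgebra_of_isAlgebraic (isAlgebraic_of_isIntegral_int (hζ.isIntegral m0.pos))
  have key : ∀ χ : G → ℂ, IsCharacter G χ → R K False χ := fun χ h => by
    refine h.induction (P := fun χ : G → ℂ => R K False χ)
      ⟨PUnit, _, _, inferInstance, 1, False.elim, fun g => by
        simp [Representation.character, Module.finrank_zero_of_subsingleton]⟩ fun η ψ a _ b => R.add ?_ b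
    obtain ⟨V, _, _, _, τ, -, e⟩ := R.of_mem (K := K) a (mem_of_elementary_lin _ (fun p E l _ _ => by
      obtain ⟨V, _, _, _, τ, -, e⟩ := R.ind (K := K) E l fun y => by
        haveI : NeZero (Monoid.exponent G) := ⟨m0⟩
        obtain ⟨i, -, hi⟩ := hζ.eq_pow_of_pow_eq_one (ξ := (l y : ℂ)) (by
          rw [← Units.val_pow_eq_pow_val, ← map_pow, show y ^ Monoid.exponent G = 1 from
            Subtype.ext (Monoid.pow_exponent_eq_one y.1), map_one, Units.val_one])
        exact ⟨⟨_, pow_mem (IntermediateField.mem_adjoin_simple_self ℚ ζ) i⟩, hi⟩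
      rw [funext e]
      exact mem_aux _ V τ rfl) a.isGen)
    exact ⟨V, _, _, inferInstance, τ, False.elim, e⟩
  obtain ⟨k, σ, e, h⟩ := (key _ ⟨n, ρ, rfl⟩).mat
  obtain rfl : k = n := by
    have := congrFun e 1
    rw [Representation.char_one, Representation.char_one] at this
    simpa using this
  refine ⟨σ, nonempty_equiv_of_character_eq ρ σ e.symm, fun g i j => ?_⟩
  obtain ⟨y, hy⟩ := h g i j
  exact hy ▸ eK.le y.2

end Cfsg.Agent.S0166
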