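import Cfsg.Statements.S0167
import Cfsg.Agent.H3.Perm

set_option autoImplicit false
open Cfsg

namespace Cfsg.Agent.S0167
open H3
export H3 (inner_add_left inner_add_right inner_sub_left inner_sub_right inner_neg_left inner_neg_right
  inner_zero_left inner_zero_right inner_smul_left inner_smul_right inner_conj_symm inner_self_eq_zero
  inner_self_im)

/-- An element g of a finite group is a commutator if and only if the sum over the irreducible characters χ of χ g / χ 1 is nonzero. -/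
theorem result {G : Type*} [Group G] [Finite G] (g : G) : (∃ a b : G, g = a * b * a⁻¹ * b⁻¹) ↔ ∑ᶠ χ : Cfsg.IrrCharacter G, (χ : G → ℂ) g / (χ : G → ℂ) 1 ≠ 0 := by
  classical
  haveI := Fintype.ofFinite G
  have h1 := cnt_eq_sum_irr (fun p : G × G => p.1 * p.2 * p.1⁻¹ * p.2⁻¹)
    (fun x => ⟨(MulAut.conj x).toEquiv.prodCongr (MulAut.conj x).toEquiv, fun s => by
      simp [mul_assoc]⟩) g
  have h2 : ∀ χ : Cfsg.IrrCharacter G, ((Nat.card G : ℂ)⁻¹ *
      ∑ p : G × G, (χ : G → ℂ) (p.1 * p.2 * p.1⁻¹ * p.2⁻¹)) = Nat.card G / (χ : G → ℂ) 1 := by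
    intro χ
    rw [Fintype.sum_prod_type, Finset.sum_comm, eq_div_iff χ.2.deg_ne_zero, mul_assoc, mul_comm _ (χ.1 1),
      Finset.mul_sum, Finset.sum_congr rfl (fun b _ => χ.2.sum_conj_mul b b⁻¹)]
    have := χ.2.inner_self
    rw [χ.2.isCharacter.inner_eq] at this
    simp only [mul_assoc, ← Finset.mul_sum]
    rw [mul_left_comm, this, mul_one]
  simp only [h2] at h1
  have h3 : cnt (fun p : G × G => p.1 * p.2 * p.1⁻¹ * p.2⁻¹) g =
      Nat.card G * ∑ χ : Cfsg.IrrCharacter G, (χ : G → ℂ) g / (χ : G → ℂ) 1 := by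
    have h4 := congrArg (starRingEnd ℂ) h1
    rw [show (starRingEnd ℂ) (cnt (fun p : G × G => p.1 * p.2 * p.1⁻¹ * p.2⁻¹) g) =
      cnt (fun p : G × G => p.1 * p.2 * p.1⁻¹ * p.2⁻¹) g by simp [cnt]] at h4
    rw [h4, map_sum, Finset.mul_sum]
    refine Finset.sum_congr rfl (fun χ _ => ?_)
    simp only [map_mul, map_div₀, conj_deg χ.2.isCharacter, Complex.conj_conj, Complex.conj_natCast]
    ring
  rw [finsum_eq_sum_of_fintype]
  have h4 : cnt (fun p : G × G => p.1 * p.2 * p.1⁻¹ * p.2⁻¹) g ≠ 0 ↔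
      ∃ a b : G, g = a * b * a⁻¹ * b⁻¹ := by
    simp only [cnt, Ne, Nat.cast_eq_zero, Nat.card_eq_zero, not_or, not_isEmpty_iff, not_infinite_iff_finite]
    constructor
    · rintro ⟨⟨⟨p, hp⟩⟩, -⟩; exact ⟨p.1, p.2, hp.symm⟩
    · rintro ⟨a, b, h⟩; exact ⟨⟨⟨(a, b), h.symm⟩⟩, inferInstance⟩
  rw [← h4, h3]
  simp [card_ne_zero G]

end Cfsg.Agent.S0167
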