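import Cfsg.Statements.S0169
import Cfsg.Agent.H3.Primitive

set_option autoImplicit false
open Cfsg

namespace Cfsg.Agent.S0169
open H3
export H3 (inner_add_left inner_add_right inner_sub_left inner_sub_right inner_neg_left inner_neg_right
  inner_zero_left inner_zero_right inner_smul_left inner_smul_right inner_conj_symm inner_self_eq_zero
  inner_self_im)

/-- Itô's Theorem on character degrees: the degree of an irreducible complex representation of a finite group divides the index of any abelian normal subgroup. -/
theorem result {G : Type*} [Group G] [Finite G] {V : Type*} [AddCommGroup V] [Module ℂ V] [FiniteDimensional ℂ V] (ρ : Representation ℂ G V) [ρ.IsIrreducible] (H : Subgroup G) [H.Normal] (hH : ∀ a ∈ H, ∀ b ∈ H, a * b = b * a) : Module.finrank ℂ V ∣ H.index := by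
  refine (isIrrCharacter_character ρ).deg_dvd_index_of_abelian_normal ρ.char_one H fun a ha b hb => ?_
  rw [hH a ha b hb]
  simp

end Cfsg.Agent.S0169
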