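import Cfsg.Statements.S0172
import Cfsg.Agent.H3.Cong

set_option autoImplicit false
open Cfsg

namespace Cfsg.Agent.S0172
open H3
export H3 (inner_add_left inner_add_right inner_sub_left inner_sub_right inner_neg_left inner_neg_right
  inner_zero_left inner_zero_right inner_smul_left inner_smul_right inner_conj_symm inner_self_eq_zero
  inner_self_im)

/-- Class number of a Frobenius group: if G = K H with K normal, K ⊓ H trivial and no non-identity element of H commuting with a non-identity element of K, then |H| * k(G) + 1 = |H| * k(H) + k(K), where k denotes the number of conjugacy classes. -/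
theorem result {G : Type*} [Group G] [Finite G] (K H : Subgroup G) [K.Normal] (hKH : K ⊓ H = ⊥) (hKH' : K ⊔ H = ⊤) (hfpf : ∀ h ∈ H, h ≠ 1 → ∀ k ∈ K, h * k = k * h → k = 1) : Nat.card H * Nat.card (ConjClasses G) + 1 = Nat.card H * Nat.card (ConjClasses H) + Nat.card (ConjClasses K) := by
  classical
  haveI := Fintype.ofFinite G
  haveI := Fintype.ofFinite K
  haveI := Fintype.ofFinite H
  have hs : ∀ (X : Type _) [Group X] [Fintype X],
      ∑ g : X, Nat.card (Subgroup.centralizer ({g} : Set X)) = Nat.card X * Nat.card (ConjClasses X) := by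
    intro X _ _
    have := sum_ite_card_centralizer (G := X) (fun _ => True)
    simp only [if_true] at this
    rw [Nat.card_congr (Equiv.subtypeUnivEquiv (fun _ => trivial))] at this
    exact_mod_cast this
  have hc : Subgroup.IsComplement' K H := H1.isComplement'_of_sup_of_inf (by rwa [sup_comm]) (by rwa [inf_comm])
  have hcard := hc.card_mul
  have h1 := hs G
  rw [← Fintype.sum_bijective _ hc _ _ (fun _ => rfl), Fintype.sum_prod_type, Finset.sum_comm,
    ← Finset.add_sum_erase _ _ (Finset.mem_univ 1), ← Finset.add_sum_erase _ _ (Finset.mem_univ 1)] at h1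
  have h2 : ∑ k ∈ Finset.univ.erase (1 : K), Nat.card (Subgroup.centralizer ({(k : G) * (1 : H)} : Set G)) =
      ∑ k ∈ Finset.univ.erase (1 : K), Nat.card (Subgroup.centralizer ({k} : Set K)) := by
    refine Finset.sum_congr rfl (fun k hk => ?_)
    have hle := centralizer_le_of_frobenius hKH' hfpf k k.2 (by simpa using hk)
    rw [Subgroup.coe_one, mul_one, ← H1.card_subgroupOf_of_le hle]
    congr 2
    ext x
    simp [Subgroup.mem_subgroupOf, Subgroup.mem_centralizer_singleton_iff, Subtype.ext_iff]
  have h3 : ∑ h ∈ Finset.univ.erase (1 : H), ∑ k : K,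
      Nat.card (Subgroup.centralizer ({(k : G) * h} : Set G)) =
      ∑ h ∈ Finset.univ.erase (1 : H), Nat.card K * Nat.card (Subgroup.centralizer ({h} : Set H)) := by
    refine Finset.sum_congr rfl (fun h hh => ?_)
    have hh1 : (h : G) ≠ 1 := by simpa using hh
    have hle : Subgroup.centralizer ({(h : G)} : Set G) ≤ H := by
      intro x hx
      rw [Subgroup.mem_centralizer_singleton_iff] at hx
      obtain ⟨a, ha, b, hb, rfl⟩ := Subgroup.mem_sup_of_normal_left.1 (hKH' ▸ Subgroup.mem_top x)
      have h4 : b * h * b⁻¹ * (h : G)⁻¹ ∈ K ⊓ H := by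
        refine ⟨?_, H.mul_mem (H.mul_mem (H.mul_mem hb h.2) (H.inv_mem hb)) (H.inv_mem h.2)⟩
        have : b * h * b⁻¹ * (h : G)⁻¹ = a⁻¹ * (h * a * (h : G)⁻¹) := by
          calc b * h * b⁻¹ * (h : G)⁻¹ = a⁻¹ * (a * b * h) * b⁻¹ * (h : G)⁻¹ := by group
            _ = _ := by rw [hx]; group
        rw [this]
        exact K.mul_mem (K.inv_mem ha) (Subgroup.Normal.conj_mem inferInstance a ha h)
      rw [hKH, Subgroup.mem_bot] at h4
      have h5 : b * h = h * b := by rw [← mul_inv_eq_one, ← h4]; group
      have := hfpf h h.2 hh1 a ha (by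
        rw [mul_assoc, h5, ← mul_assoc, ← mul_assoc] at hx
        exact (mul_right_cancel hx).symm)
      simpa [this] using hb
    rw [Finset.sum_congr rfl (g := fun _ => Nat.card (Subgroup.centralizer ({h} : Set H)))]
    · simp
    · intro k _
      obtain ⟨m, -, hm⟩ := exists_conj_of_fpf K (g := h) (fun n hn hc => hfpf h h.2 hh1 n hn hc.symm) k.2
      have h4 : (Subgroup.centralizer ({(k : G) * h} : Set G)).index =
          (Subgroup.centralizer ({(h : G)} : Set G)).index := by
        rw [← card_carrier_mk, ← card_carrier_mk, ← hm,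
          ← ConjClasses.mk_eq_mk_iff_isConj.2 (isConj_iff.2 ⟨m, rfl⟩ : IsConj (h : G) _)]
      have h5 := (Subgroup.centralizer ({(k : G) * h} : Set G)).card_mul_index
      rw [h4, ← (Subgroup.centralizer ({(h : G)} : Set G)).card_mul_index] at h5
      rw [Nat.eq_of_mul_eq_mul_right (Nat.pos_of_ne_zero Subgroup.index_ne_zero_of_finite) h5,
        ← H1.card_subgroupOf_of_le hle]
      congr 2
      ext x
      simp [Subgroup.mem_subgroupOf, Subgroup.mem_centralizer_singleton_iff, Subtype.ext_iff]
  dsimp only at h1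
  erw [h2, h3, ← Finset.mul_sum] at h1
  have h4 := hs K
  have h5 := hs H
  rw [← Finset.add_sum_erase _ _ (Finset.mem_univ 1)] at h4 h5
  have h6 : ∀ (X : Type _) [Group X], Nat.card (Subgroup.centralizer ({1} : Set X)) = Nat.card X := by
    intro X _
    rw [show Subgroup.centralizer ({1} : Set X) = ⊤ by ext; simp [Subgroup.mem_centralizer_singleton_iff],
      Subgroup.card_top]
  simp only [Subgroup.coe_one, mul_one] at h1
  rw [h6] at h1 h4 h5
  rw [← hcard] at h1
  apply Nat.eq_of_mul_eq_mul_left (Nat.card_pos (α := K))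
  zify at h1 h4 h5 ⊢
  linear_combination -h1 + h4 + (Nat.card K : ℤ) * h5

end Cfsg.Agent.S0172
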