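import Cfsg.Statements.S0175
import Cfsg.Agent.H3.Cong

set_option autoImplicit false
open Cfsg

namespace Cfsg.Agent.S0175
open H3
export H3 (inner_add_left inner_add_right inner_sub_left inner_sub_right inner_neg_left inner_neg_right
  inner_zero_left inner_zero_right inner_smul_left inner_smul_right inner_conj_symm inner_self_eq_zero
  inner_self_im)

/-- Taketa's Theorem on M-groups: if every irreducible complex character of a finite group is induced from a linear character (a homomorphism to ℂˣ) of some subgroup, the group is solvable. -/
theorem result {G : Type*} [Group G] [Fintype G] (hM : ∀ χ : G → ℂ, Cfsg.IsIrrCharacter G χ → ∃ (H : Subgroup G) (lam : H →* ℂˣ), χ = Cfsg.indFun H (fun h => (lam h : ℂ))) : Group.IsSolvable G := by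
  have key : ∀ (n : ℕ) (χ : G → ℂ), Cfsg.IsIrrCharacter G χ → ∀ d : ℕ, χ 1 = d → d ≤ n →
      ∀ g ∈ derivedSeries G n, χ g = χ 1 := by
    intro n
    induction n with
    | zero =>
      intro χ hχ d hd h0
      exact absurd (by rw [hd, Nat.le_zero.1 h0, Nat.cast_zero]) hχ.deg_ne_zero
    | succ n ih =>
      intro χ hχ d hd hdn g hg
      obtain ⟨H, lam, rfl⟩ := hM χ hχ
      have h1 : H.index = d := by
        rw [indFun_one] at hd
        simpa using hd
      have h2 : derivedSeries G n ≤ H := by
        intro x hx
        refine (mem_of_indFun_eq_deg (H := H) isCharacter_one (fun h => by simpa using congrFun h 1)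
          (g := x) ?_).1
        apply isCharacter_one.ind.eq_deg_of_constituents
        intro ψ hψ hi
        by_cases h3 : ψ = fun _ => 1
        · rw [h3]
        obtain ⟨e, -, he⟩ := hψ.exists_deg
        refine ih ψ hψ e he ?_ x hx
        haveI := Fintype.ofFinite H
        have h4 : Cfsg.classInner (Cfsg.indFun H fun _ => 1) (fun _ => 1) = 1 := by
          rw [inner_indFun_left _ _ (isClassFunction_const _), inner_one_one]
        have h5 := isCharacter_one.ind.sub_of_inner_ne_zero isIrrCharacter_one
          (by rw [h4]; exact one_ne_zero)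
        have := h5.deg_le_of_inner_ne_zero hψ (by
          rwa [inner_sub_left, isIrrCharacter_one.inner_of_ne hψ (Ne.symm h3), sub_zero]) he
          (b := d - 1) (by
            rw [Pi.sub_apply, indFun_one, h1, Nat.cast_sub (by rw [← h1]; exact Nat.pos_of_ne_zero Subgroup.index_ne_zero_of_finite)]
            simp)
        omega
      refine indFun_eq_deg_of_normal (N := derivedSeries G (n + 1))
        ((derivedSeries_succ G n ▸ Subgroup.commutator_le_left _ _).trans h2) ?_ hg
      intro x hx
      have h3 : x ∈ commutator H := by
        have h4 : derivedSeries G (n + 1) ≤ (commutator H).map H.subtype := by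
          rw [derivedSeries_succ, Subgroup.map_subtype_commutator]
          exact Subgroup.commutator_mono h2 h2
        obtain ⟨y, hy, h⟩ := h4 hx
        rwa [← Subtype.ext h]
      simp [lin_commutator lam h3]
  refine ⟨⟨Nat.card G, eq_bot_iff.2 (fun g hg => ?_)⟩⟩
  apply eq_one_of_forall_irr
  intro χ hχ
  obtain ⟨d, -, hd⟩ := hχ.exists_deg
  exact key _ χ hχ d hd (Nat.le_of_dvd Nat.card_pos (hχ.deg_dvd_card hd)) g hg

end Cfsg.Agent.S0175
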