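import Cfsg.Statements.S0177
import Cfsg.Agent.H3.Cong

set_option autoImplicit false
open Cfsg

namespace Cfsg.Agent.S0177
open H3
export H3 (inner_add_left inner_add_right inner_sub_left inner_sub_right inner_neg_left inner_neg_right
  inner_zero_left inner_zero_right inner_smul_left inner_smul_right inner_conj_symm inner_self_eq_zero
  inner_self_im)

/-- The Artin induction Theorem: for a character χ of a finite group, |G| • χ is a ℤ-linear combination of functions induced from homomorphisms of cyclic subgroups into ℂˣ. -/
theorem result {G : Type*} [Group G] [Fintype G] (χ : G → ℂ) (hχ : Cfsg.IsCharacter G χ) : ∃ l : List ((A : Subgroup G) × ((A →* ℂˣ) × ℤ)), (∀ t ∈ l, IsCyclic t.1) ∧ (Nat.card G : ℂ) • χ = (l.map fun t => (t.2.2 : ℂ) • Cfsg.indFun t.1 (fun a => (t.2.1 a : ℂ))).sum := by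
  classical
  haveI := Fintype.ofFinite (Subgroup G)
  let θ : (A : Subgroup G) → A → ℂ := fun A a => if Subgroup.zpowers (a : G) = A then Nat.card A else 0
  have h1 : ∑ A : Subgroup G, Cfsg.indFun A (θ A) = fun _ => (Nat.card G : ℂ) := by
    ext g
    simp only [Finset.sum_apply, indFun_apply', Finset.mul_sum]
    rw [Finset.sum_comm, Finset.sum_congr rfl (g := fun _ => 1)]
    · simp
    intro x _
    rw [Finset.sum_eq_single (Subgroup.zpowers (x * g * x⁻¹))]
    · rw [ext0_of_mem _ (Subgroup.mem_zpowers _)]
      simp only [θ, if_true]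
      exact inv_mul_cancel₀ (card_ne_zero _)
    · intro A _ hA
      rw [ext0_apply]
      split_ifs
      · simp only [θ, if_neg hA.symm, mul_zero]
      · simp
    · simp
  have h2 : (Nat.card G : ℂ) • χ = ∑ A : Subgroup G, Cfsg.indFun A (fun a => θ A a * χ a) := by
    simp only [indFun_mul_res _ _ hχ.isClassFunction]
    rw [← Finset.sum_mul, h1]
    ext g
    simp
  change (Nat.card G : ℂ) • χ ∈ listSpan (M := G → ℂ) (κ := fun A : Subgroup G => A →* ℂˣ)
    (fun t => IsCyclic t.1) (fun _ _ _ _ h => h) (fun A lam => Cfsg.indFun A (fun a => (lam a : ℂ)))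
  rw [h2]
  refine sum_mem (fun A _ => ?_)
  by_cases hA : IsCyclic A
  · haveI := Fintype.ofFinite A
    have hc : ∀ a b : A, a * b = b * a := fun a b => IsCyclic.commGroup.mul_comm a b
    have h3 : Cfsg.IsGeneralizedCharacter A (θ A) := by
      apply isGen_of_inner_int (isClassFunction_of_comm hc _)
      intro ψ hψ
      have e : Cfsg.classInner (θ A) ψ = ∑ a : A, if Subgroup.zpowers (a : G) = A then
          (starRingEnd ℂ) (ψ a) else 0 := by
        rw [Cfsg.classInner, Finset.mul_sum]
        refine Finset.sum_congr rfl (fun a _ => ?_)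
        simp only [θ]
        split_ifs
        · rw [← mul_assoc, inv_mul_cancel₀ (card_ne_zero _), one_mul]
        · simp
      rw [e]
      apply exists_int_of_fixed
      · refine IsIntegral.sum _ (fun a _ => ?_)
        split_ifs
        · exact isIntegral_conj (hψ.isCharacter.isIntegral a)
        · exact isIntegral_zero
      · intro σ
        obtain ⟨k, hk, h4⟩ := exists_pow_of_gal (G := A) σ.toRingHom
        rw [map_sum]
        refine Fintype.sum_equiv (powCoprime hk.symm) _ _ (fun a => ?_)
        have h5 : Subgroup.zpowers ((a ^ k : A) : G) = Subgroup.zpowers (a : G) := by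
          apply le_antisymm
          · simp
          · rw [Subgroup.zpowers_le, Subgroup.coe_pow, mem_zpowers_pow_iff, Subgroup.orderOf_coe]
            exact hk.coprime_dvd_right (orderOf_dvd_natCard a)
        simp only [powCoprime_apply, h5]
        split_ifs
        · exact h4 _ hψ.conj.isGen a
        · simp
    obtain ⟨n, -, h4, -⟩ := (h3.mul (hχ.res A).isGen).exists_coeff
    change Cfsg.indFun A (θ A * fun a : A => χ a) ∈ _
    rw [h4, indFun_sum]
    refine sum_mem (fun ψ _ => ?_)
    obtain ⟨lam, h5⟩ := ψ.2.exists_lin_of_comm hc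
    rw [indFun_smul, h5, Int.cast_smul_eq_zsmul]
    exact zsmul_mem (mem_listSpan_single (M := G → ℂ) (κ := fun A : Subgroup G => A →* ℂˣ)
      (fun t => IsCyclic t.1) (fun _ _ _ _ h => h)
      (fun A lam => Cfsg.indFun A (fun a => (lam a : ℂ))) A lam hA) _
  · have : (fun a : A => θ A a * χ a) = 0 := by
      ext a
      simp only [θ]
      rw [if_neg, zero_mul, Pi.zero_apply]
      intro h
      exact hA (h ▸ inferInstance)
    rw [this, indFun_zero]
    exact zero_mem _

end Cfsg.Agent.S0177
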