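import Cfsg.Statements.S0180
import Cfsg.Agent.H3.Perm

set_option autoImplicit false
open Cfsg

namespace Cfsg.Agent.S0180
open H3
export H3 (inner_add_left inner_add_right inner_sub_left inner_sub_right inner_neg_left inner_neg_right
  inner_zero_left inner_zero_right inner_smul_left inner_smul_right inner_conj_symm inner_self_eq_zero
  inner_self_im)

/-- Every irreducible complex character of a finite group takes only rational values if and only if g is conjugate to g ^ m for every element g and every m coprime to the group order. -/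
theorem result {G : Type*} [Group G] [Finite G] : (∀ χ : Cfsg.IrrCharacter G, ∀ g : G, ∃ q : ℚ, (χ : G → ℂ) g = (q : ℂ)) ↔ ∀ m : ℕ, m.Coprime (Nat.card G) → ∀ g : G, IsConj g (g ^ m) := by
  constructor
  · intro h m hm g
    obtain ⟨σ, hσ⟩ := exists_gal_pow hm
    apply isConj_of_forall_irr
    intro χ hχ
    obtain ⟨q, hq⟩ := h ⟨χ, hχ⟩ g
    rw [← hσ χ hχ.isGen]
    change χ g = _ at hq
    rw [hq, map_ratCast]
  · intro h χ g
    apply exists_rat_of_fixed (isAlgebraic_of_isIntegral_int (χ.2.isCharacter.isIntegral g))
    intro σ
    obtain ⟨k, hk, h1⟩ := exists_pow_of_gal (G := G) σ.toRingHom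
    exact (h1 _ χ.2.isGen g).trans (χ.2.isClassFunction.of_isConj (h k hk g)).symm

end Cfsg.Agent.S0180
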