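import Cfsg.Statements.S0184
import Cfsg.Agent.H3.Cong

set_option autoImplicit false
open Cfsg

namespace Cfsg.Agent.S0184
open H3
export H3 (inner_add_left inner_add_right inner_sub_left inner_sub_right inner_neg_left inner_neg_right
  inner_zero_left inner_zero_right inner_smul_left inner_smul_right inner_conj_symm inner_self_eq_zero
  inner_self_im)

/-- A finite p-group admits a faithful irreducible complex representation if and only if its centre is cyclic. -/
theorem result {G : Type*} [Group G] [Finite G] (p : ℕ) [Fact p.Prime] (hG : IsPGroup p G) : (∃ (n : ℕ) (ρ : Representation ℂ G (Fin n → ℂ)), ρ.IsIrreducible ∧ Function.Injective ρ) ↔ IsCyclic (Subgroup.center G) := by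
  classical
  constructor
  · rintro ⟨n, ρ, h1, h2⟩
    apply (isIrrCharacter_character ρ).isCyclic_center
    rw [charKer_character, (MonoidHom.ker_eq_bot_iff _).2 h2, bot_inf_eq]
  · intro hc
    have key : ∃ χ, Cfsg.IsIrrCharacter G χ ∧ charKer χ = ⊥ := by
      rcases subsingleton_or_nontrivial G with h | h
      · exact ⟨_, isIrrCharacter_one, Subsingleton.elim _ _⟩
      haveI := hG.isNilpotent
      haveI := hG.center_nontrivial
      have hZ : p ∣ Nat.card (Subgroup.center G) := by
        obtain ⟨k, hk0, hk⟩ := (hG.to_subgroup (Subgroup.center G)).nontrivial_iff_card.1 inferInstance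
        rw [hk]; exact dvd_pow_self p hk0.ne'
      obtain ⟨z, hz⟩ := exists_prime_orderOf_dvd_card' p hZ
      have hz1 : (z : G) ≠ 1 := by
        intro h
        rw [show z = 1 from Subtype.ext h, orderOf_one] at hz
        exact (Fact.out : p.Prime).one_lt.ne hz
      obtain ⟨χ, hχ, -, h1⟩ := exists_irr_ker_not_mem (⊥ : Subgroup G) (g := z) (by simpa using hz1)
      refine ⟨χ, hχ, ?_⟩
      by_contra hk
      haveI := hχ.isClassFunction.charKer_normal
      have h2 := H1.inf_center_ne_bot _ hk
      have h3 : p ∣ Nat.card ((charKer χ).subgroupOf (Subgroup.center G)) := by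
        rw [H1.card_subgroupOf]
        haveI := (Subgroup.nontrivial_iff_ne_bot _).2 h2
        obtain ⟨k, hk0, hk⟩ := (hG.to_subgroup (charKer χ ⊓ Subgroup.center G)).nontrivial_iff_card.1 inferInstance
        rw [hk]; exact dvd_pow_self p hk0.ne'
      obtain ⟨w, hw1, hw⟩ := H1.exists_mem_orderOf_eq_prime Fact.out h3
      haveI := Fintype.ofFinite (Subgroup.center G)
      have h4 := IsCyclic.card_pow_eq_one_le (α := Subgroup.center G) (Fact.out : p.Prime).pos
      have h5 : (Finset.univ.filter (· ∈ Subgroup.zpowers w)) =
          Finset.univ.filter (fun a : Subgroup.center G => a ^ p = 1) := by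
        apply Finset.eq_of_subset_of_card_le
        · intro a ha
          simp only [Finset.mem_filter, Finset.mem_univ, true_and] at ha ⊢
          rw [← orderOf_dvd_iff_pow_eq_one, ← hw, ← Nat.card_zpowers w]
          exact Subgroup.orderOf_dvd_natCard _ ha
        · rw [← Fintype.card_subtype (· ∈ Subgroup.zpowers w), ← Nat.card_eq_fintype_card (α := {x // x ∈ Subgroup.zpowers w}),
            Nat.card_zpowers, hw]
          exact h4
      have h6 : z ∈ Finset.univ.filter (fun a : Subgroup.center G => a ^ p = 1) := by
        simp [← hz]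
      rw [← h5, Finset.mem_filter] at h6
      have h7 : z ∈ (charKer χ).subgroupOf (Subgroup.center G) :=
        (Subgroup.zpowers_le.2 hw1) h6.2
      exact h1 (hχ.isCharacter.mem_charKer.1 h7)
    obtain ⟨χ, ⟨n, ρ, h1, rfl⟩, h2⟩ := key
    refine ⟨n, ρ, h1, ?_⟩
    rwa [charKer_character, MonoidHom.ker_eq_bot_iff] at h2

end Cfsg.Agent.S0184
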