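import Cfsg.Statements.S0185
import Cfsg.Agent.H3.Cong

set_option autoImplicit false
open Cfsg

namespace Cfsg.Agent.S0185
open H3
export H3 (inner_add_left inner_add_right inner_sub_left inner_sub_right inner_neg_left inner_neg_right
  inner_zero_left inner_zero_right inner_smul_left inner_smul_right inner_conj_symm inner_self_eq_zero
  inner_self_im)

/-- If a finite group has a faithful complex representation of degree less than the smallest prime dividing its order, the group is abelian. -/
theorem result {G : Type*} [Group G] [Finite G] {V : Type*} [AddCommGroup V] [Module ℂ V] [FiniteDimensional ℂ V] (ρ : Representation ℂ G V) (hfaithful : Function.Injective ρ) (hdeg : ∀ p : ℕ, p.Prime → p ∣ Nat.card G → Module.finrank ℂ V < p) (a b : G) : a * b = b * a := by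
  haveI := Fintype.ofFinite G
  have h1 : ρ.character (a * b * a⁻¹ * b⁻¹) = ρ.character 1 := by
    apply (isCharacter_character ρ).eq_deg_of_constituents
    intro ψ hψ hi
    obtain ⟨d, hd0, hd⟩ := hψ.exists_deg
    have h2 := (isCharacter_character ρ).deg_le_of_inner_ne_zero hψ hi hd (Representation.char_one ρ)
    have h3 : d = 1 := by
      by_contra h
      obtain ⟨q, hq, hqd⟩ := Nat.exists_prime_and_dvd h
      have := hdeg q hq (hqd.trans (hψ.deg_dvd_card hd))
      have := Nat.le_of_dvd hd0 hqd
      omega
    exact hψ.isCharacter.commutator_of_deg_one (by rw [hd, h3, Nat.cast_one])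
      (Subgroup.commutator_mem_commutator (Subgroup.mem_top a) (Subgroup.mem_top b))
  have h2 := (isCharacter_character ρ).mem_charKer.2 h1
  rw [charKer_character, (MonoidHom.ker_eq_bot_iff _).2 hfaithful, Subgroup.mem_bot] at h2
  rw [← mul_inv_eq_one, ← h2]; group

end Cfsg.Agent.S0185
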