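import Cfsg.Statements.S0186
import Cfsg.Agent.H3.Cong

set_option autoImplicit false
open Cfsg

namespace Cfsg.Agent.S0186
open H3
export H3 (inner_add_left inner_add_right inner_sub_left inner_sub_right inner_neg_left inner_neg_right
  inner_zero_left inner_zero_right inner_smul_left inner_smul_right inner_conj_symm inner_self_eq_zero
  inner_self_im)

/-- Let G be a finite simple group of order n and p a prime dividing n. If G has more than n / p^2 conjugacy classes, then every Sylow p-subgroup of G is abelian. -/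
theorem result {G : Type*} [Group G] [Finite G] [IsSimpleGroup G] (p : ℕ) [Fact p.Prime] (hp : p ∣ Nat.card G) (hmany : Nat.card G < p ^ 2 * Nat.card (ConjClasses G)) (P : Sylow p G) (a b : G) (ha : a ∈ P) (hb : b ∈ P) : a * b = b * a := by
  classical
  have hp' : p.Prime := Fact.out
  by_cases h2 : p ^ 2 ∣ Nat.card G
  · haveI := Fintype.ofFinite G
    choose d hd0 hd using fun χ : Cfsg.IrrCharacter G => χ.2.exists_deg
    have h1 : ∑ χ, d χ ^ 2 = Nat.card G := by
      have := sum_deg_sq (G := G)
      simp only [hd] at this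
      exact_mod_cast this
    let o : Cfsg.IrrCharacter G := ⟨_, isIrrCharacter_one⟩
    have h3 : ∃ χ, χ ≠ o ∧ d χ < p := by
      by_contra hc
      push Not at hc
      have h4 : (Finset.univ.erase o).card • p ^ 2 ≤ ∑ χ ∈ Finset.univ.erase o, d χ ^ 2 :=
        Finset.card_nsmul_le_sum _ _ _ (fun χ hχ =>
          Nat.pow_le_pow_left (hc χ (Finset.mem_erase.1 hχ).1) 2)
      rw [← Finset.add_sum_erase _ _ (Finset.mem_univ o)] at h1
      rw [Finset.card_erase_of_mem (Finset.mem_univ _), Finset.card_univ,
        ← Nat.card_eq_fintype_card, card_irr, smul_eq_mul] at h4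
      obtain ⟨m, hm⟩ := h2
      have h5 := hd0 o
      rw [hm] at h1 hmany
      have h6 : m < Nat.card (ConjClasses G) := lt_of_mul_lt_mul_left hmany (Nat.zero_le _)
      have h7 : (Nat.card (ConjClasses G) - 1) * p ^ 2 < m * p ^ 2 := by nlinarith
      have := lt_of_mul_lt_mul_right h7 (Nat.zero_le _)
      omega
    obtain ⟨χ, hχ, hlt⟩ := h3
    have hk := χ.2.charKer_eq_bot_of_simple (fun h => hχ (Subtype.ext h))
    haveI := Fintype.ofFinite P
    have h4 := (χ.2.isCharacter.res P).eq_deg_of_constituents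
      (g := ⟨a, ha⟩ * ⟨b, hb⟩ * ⟨a, ha⟩⁻¹ * ⟨b, hb⟩⁻¹) (fun ψ hψ hi => by
        obtain ⟨e, he0, he⟩ := hψ.exists_deg
        have h5 := (χ.2.isCharacter.res P).deg_le_of_inner_ne_zero hψ hi he (hd χ)
        have h6 := hψ.deg_dvd_card he
        obtain ⟨k, hk⟩ := P.isPGroup'.exists_card_eq
        rw [hk, Nat.dvd_prime_pow hp'] at h6
        obtain ⟨j, -, rfl⟩ := h6
        have h7 : j = 0 := by
          by_contra h
          have := Nat.le_of_dvd he0 (dvd_pow_self p h)
          omega
        exact hψ.isCharacter.commutator_of_deg_one (by rw [he, h7]; simp)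
          (Subgroup.commutator_mem_commutator (Subgroup.mem_top _) (Subgroup.mem_top _)))
    have h5 := χ.2.isCharacter.mem_charKer.2 h4
    rw [hk, Subgroup.mem_bot] at h5
    simp only [Subgroup.coe_mul, Subgroup.coe_inv] at h5
    rw [← mul_inv_eq_one, ← h5]; group
  · obtain ⟨k, hk⟩ := P.isPGroup'.exists_card_eq
    have h3 : k ≤ 1 := by
      by_contra h
      exact h2 ((pow_dvd_pow p (by omega : 2 ≤ k)).trans (hk ▸ Subgroup.card_subgroup_dvd_card _))
    haveI : IsCyclic P := isCyclic_of_card_dvd_prime (p := p) (by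
      change Nat.card (P : Subgroup G) ∣ p
      rw [hk]; exact (pow_dvd_pow p h3).trans (by simp))
    exact congrArg Subtype.val (IsCyclic.commGroup.mul_comm (⟨a, ha⟩ : P) ⟨b, hb⟩)

end Cfsg.Agent.S0186
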