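import Cfsg.Statements.S0187
import Cfsg.Agent.H3.Integral

set_option autoImplicit false
open Cfsg

namespace Cfsg.Agent.S0187
open H3

/-- A finite group is commutative if and only if every irreducible complex character has degree 1. -/
theorem result {G : Type*} [Group G] [Finite G] : (∀ a b : G, a * b = b * a) ↔ ∀ χ : Cfsg.IrrCharacter G, (χ : G → ℂ) 1 = 1 := by
  refine ⟨fun h χ => χ.2.deg_eq_one_of_comm h, fun h a b => ?_⟩
  rw [← mul_inv_eq_one]
  refine eq_one_of_forall_irr fun χ hχ => ?_
  obtain ⟨lam, rfl⟩ := hχ.isCharacter.exists_lin (h ⟨χ, hχ⟩)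
  simp only [map_mul, map_inv, map_one]
  rw [mul_comm (lam b), mul_inv_cancel]

end Cfsg.Agent.S0187
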