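import Cfsg.Statements.S0200
import Cfsg.Agent.H1.Inv

set_option autoImplicit false
open Cfsg

namespace Cfsg.Agent.S0200

open H7 H1B Subgroup

/-- An involution lying in no normal 2-subgroup of a finite group inverts a nontrivial element of odd order (a consequence of the Baer–Suzuki Theorem). -/
theorem result {G : Type*} [Group G] [Finite G] (t : G) (ht : orderOf t = 2) (hO : ∀ N : Subgroup G, N.Normal → IsPGroup 2 N → t ∉ N) : ∃ h : G, h ≠ 1 ∧ Odd (orderOf h) ∧ t * h * t⁻¹ = h⁻¹ := by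
  by_contra hc
  push Not at hc
  have t2 := (ord2.1 ht).1
  refine hO (Op 2 ⊤) (normal_of (le_nrm_Opi _ _)) (isPGroup_Op 2 ⊤)
    (H1.baer_suzuki (A := zpowers t) le_top (fun g _ => ?_) (mem_zpowers t))
  have s2 : g * t * g⁻¹ * (g * t * g⁻¹) = 1 := by rw [conj_mul, t2]; simp
  obtain ⟨k, m, hm, e⟩ := Nat.exists_eq_two_pow_mul_odd (orderOf_pos (t * (g * t * g⁻¹))).ne'
  have h1 : (t * (g * t * g⁻¹)) ^ 2 ^ k = 1 := by
    by_contra h1
    refine hc _ h1 ?_ (inverts_pow (H8.inverts_mul_of_invol t2 s2) _)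
    rw [orderOf_pow_of_dvd (by positivity) (e ▸ dvd_mul_right _ _), e,
      Nat.mul_div_cancel_left _ (by positivity)]
    exact hm
  rw [H7.cj_zpowers, zpowers_eq_closure, zpowers_eq_closure, ← Subgroup.closure_union]
  exact dih_pgroup t2 s2 h1

end Cfsg.Agent.S0200
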