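import Cfsg.Statements.S0201
import Cfsg.Agent.H9.ZStar

set_option autoImplicit false
open Cfsg

namespace Cfsg.Agent.S0201
open H9 H3 MonoidAlgebra
open scoped Pointwise
set_option linter.style.haveILetI false
set_option linter.unusedVariables false


/-- Brauer–Suzuki Theorem: if a Sylow 2-subgroup of a finite group is generalized quaternion (of order at least 8) and the group has no nontrivial normal subgroup of odd order, then its centre has order 2. -/
theorem result {G : Type*} [Group G] [Finite G] (S : Sylow 2 G) (n : ℕ) (e : (S : Subgroup G) ≃* QuaternionGroup (2 ^ (n + 1))) (hO : ∀ N : Subgroup G, N.Normal → Odd (Nat.card N) → N = ⊥) : Nat.card (Subgroup.center G) = 2 := by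
  have ui := ui_of_equiv_quaternion S e
  have hO' := pPrimeCore_two_eq_bot hO
  have cen : ∀ z : G, z ^ 2 = 1 → z ∈ Subgroup.center G := fun z hz =>
    Subgroup.mem_center_iff.2 fun g => by
      have := brauer_suzuki ui hz g
      rw [hO', Subgroup.mem_bot] at this
      exact (commutatorElement_eq_one_iff_commute.1 this).symm
  obtain ⟨z, hz⟩ : ∃ z : G, orderOf z = 2 := by
    apply exists_prime_orderOf_dvd_card'
    refine Dvd.dvd.trans ?_ (Subgroup.card_subgroup_dvd_card (S : Subgroup G))
    rw [Nat.card_congr e.toEquiv, Nat.card_eq_fintype_card, QuaternionGroup.card]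
    exact Dvd.dvd.mul_right (by norm_num) _
  have z2 : z ^ 2 = 1 := hz ▸ pow_orderOf_eq_one z
  have z1 : z ≠ 1 := by rintro rfl; simp at hz
  rw [← hz, ← Nat.card_zpowers]
  congr 2
  refine le_antisymm (fun x hx => ?_) (Subgroup.zpowers_le.2 (cen z z2))
  have nz : ∀ y ∈ Subgroup.center G, (Subgroup.zpowers y).Normal := fun y hy => ⟨fun v hv g => by
    rwa [Subgroup.mem_center_iff.1 (Subgroup.zpowers_le.2 hy hv) g, mul_inv_cancel_right]⟩
  have h1 : pq 2 x = 1 := by
    have := hO _ (nz _ (pq_mem (p := 2) hx)) (by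
      rw [Nat.card_zpowers]
      exact Nat.coprime_two_right.1 (isPRegular_iff_coprime.1 (isPRegular_pq x)))
    simpa using this
  have h2 : IsPElt 2 x := by
    rw [← pp_mul_pq (p := 2) x, h1, mul_one]; exact isPElt_pp x
  have h3 : x ∈ S := by
    obtain ⟨k, -, hk⟩ := exists_conj_mem_sylow (H1.isSylowIn_top S) h2 trivial
    rwa [Subgroup.mem_center_iff.1 hx k, mul_inv_cancel_right] at hk
  have h4 : x ^ 2 = 1 := by
    rcases (ui.mono le_top).cyclic_or_quat S.isPGroup' with hc | ⟨a, m, h⟩
    · have := isCyclic_of_surjective e e.surjective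
      obtain ⟨g, hg⟩ := this.exists_ofOrder_eq_natCard
      have h5 := Monoid.order_dvd_exponent g
      rw [hg, QuaternionGroup.exponent, Nat.card_eq_fintype_card, QuaternionGroup.card,
        lcm_eq_nat_lcm, Nat.lcm_eq_left (dvd_pow_self 2 (by omega))] at h5
      have := Nat.le_of_dvd (by positivity) h5
      have : 0 < 2 ^ (n + 1) := by positivity
      omega
    · exact h.sq_eq_one_of_mem_cen h3 (Subgroup.center_le_centralizer _ hx)
  by_cases x1 : x = 1
  · rw [x1]; exact one_mem _
  · rw [ui x trivial z trivial x1 z1 h4 z2 (Subgroup.mem_center_iff.1 hx z).symm]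
    exact Subgroup.mem_zpowers z

end Cfsg.Agent.S0201
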