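import Cfsg.Statements.S0204
import Cfsg.Agent.H7.FTc
import Cfsg.Agent.H9.BS

set_option autoImplicit false
open Cfsg

namespace Cfsg.Agent.S0204
open H7
open scoped commutatorElement

/-- A non-cyclic finite simple group contains a subgroup which is a Klein four-group; this combines the Odd Order Theorem, Burnside's transfer argument for cyclic Sylow 2-subgroups and the Brauer–Suzuki Theorem. -/
theorem result {G : Type*} [Group G] [Finite G] [IsSimpleGroup G] (hG : ¬ IsCyclic G) : ∃ E : Subgroup G, IsKleinFour E := by
  open Subgroup in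
  by_contra hc
  have hns : ¬ Group.IsSolvable G := fun h => hG (by
    letI : CommGroup G := { mul_comm := IsSimpleGroup.comm_iff_isSolvable.2 h }
    exact IsSimpleGroup.isCyclic)
  have ui : H9.UI (⊤ : Subgroup G) := by
    intro s _ t _ s1 t1 s2 t2 c
    by_contra hne
    have e : EA 2 (zpowers s ⊔ zpowers t) := (ea_zpowers s2).sup (ea_zpowers t2) (by
      rw [cen_zpowers, zpowers_le]; exact mem_cen1.2 c.eq)
    have os : orderOf s = 2 := orderOf_eq_prime s2 s1
    have ot : orderOf t = 2 := orderOf_eq_prime t2 t1
    have i : zpowers s ⊓ zpowers t = ⊥ := by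
      by_contra hi
      obtain ⟨x, hx, x1⟩ := exists_ne_one hi
      have a := eq_zpowers_of_card (p := 2) (by rw [card_zpowers_eq, os]) hx.1 x1
      have b := eq_zpowers_of_card (p := 2) (by rw [card_zpowers_eq, ot]) hx.2 x1
      have : s ∈ zpowers t := by rw [b, ← a]; exact mem_zpowers s
      classical
      rw [mem_zpowers_iff_mem_range_orderOf, ot] at this
      simp [Finset.range_add_one] at this
      rcases this with h | h
      · exact hne h
      · exact s1 h
    have c4 : ord (zpowers s ⊔ zpowers t : Subgroup G) = 4 := by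
      rw [card_sup_of_inf_eq_bot (e.le_nrm le_sup_right |>.trans' le_sup_left) i, card_zpowers_eq,
        card_zpowers_eq, os, ot]
    refine hc ⟨_, c4, ?_⟩
    haveI : Nontrivial (zpowers s ⊔ zpowers t : Subgroup G) := Finite.one_lt_card_iff_nontrivial.1 (by omega)
    exact (Monoid.exponent_eq_prime_iff Nat.prime_two).2 fun g hg =>
      orderOf_eq_prime (Subtype.ext (e.pow g.2)) hg
  have ev : 2 ∣ Nat.card G := by
    rcases Nat.even_or_odd (Nat.card G) with h | h
    · exact h.two_dvd
    · exact absurd (FT.odd_solvable h) hns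
  obtain ⟨z, hz⟩ := exists_prime_orderOf_dvd_card' 2 ev
  have hO : pPrimeCore 2 G = ⊥ := H9.pPrimeCore_two_eq_bot fun N hN ho => by
    rcases hN.eq_bot_or_eq_top with h | h
    · exact h
    · rw [h, card_top] at ho; exact absurd (even_iff_two_dvd.2 ev) (Nat.not_even_iff_odd.2 ho)
  have hzc : z ∈ center G := mem_center_iff.2 fun g => by
    have := H9.brauer_suzuki ui (z := z) (by rw [← hz, pow_orderOf_eq_one]) g
    rw [hO, mem_bot] at this
    calc g * z = (z * g * z⁻¹ * g⁻¹) * (g * z) := by rw [this, one_mul]
      _ = _ := by group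
  rcases (inferInstance : (center G).Normal).eq_bot_or_eq_top with h | h
  · rw [h, mem_bot] at hzc; rw [hzc] at hz; simp at hz
  · exact hns (IsSimpleGroup.comm_iff_isSolvable.1 fun a b => (mem_center_iff.1 (h ▸ mem_top b) a))

end Cfsg.Agent.S0204
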