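import Cfsg.Statements.S0206
import Cfsg.Agent.H1.Inv

set_option autoImplicit false
open Cfsg

namespace Cfsg.Agent.S0206

open H7 H1B Subgroup

/-- Two distinct involutions x, y of a finite group generate a subgroup isomorphic to the dihedral group of order 2·|xy|. -/
theorem result {G : Type*} [Group G] [Finite G] (x y : G) (hx : orderOf x = 2) (hy : orderOf y = 2) (hxy : x ≠ y) : Nonempty (↥(Subgroup.closure ({x, y} : Set G)) ≃* DihedralGroup (orderOf (x * y))) := by
  exact H8.nonempty_equiv_dihedral_of_invol (ord2.1 hx).1 (ord2.1 hy).1 (ord2.1 hx).2 (ord2.1 hy).2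
    hxy _ rfl

end Cfsg.Agent.S0206
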