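import Cfsg.Statements.S0207
import Cfsg.Agent.H1.Inv

set_option autoImplicit false
open Cfsg

namespace Cfsg.Agent.S0207

open H7 H1B Subgroup

/-- If x, y are distinct involutions, every element of the subgroup they generate that lies outside the cyclic subgroup generated by xy is an involution. -/
theorem result {G : Type*} [Group G] [Finite G] (x y : G) (hx : orderOf x = 2) (hy : orderOf y = 2) (hxy : x ≠ y) (d : G) (hd : d ∈ Subgroup.closure ({x, y} : Set G)) (hd' : d ∉ Subgroup.zpowers (x * y)) : orderOf d = 2 := by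
  obtain ⟨k, rfl | rfl⟩ := dih_mem (ord2.1 hx).1 (ord2.1 hy).1 hd
  · exact absurd (zpow_mem_zpowers _ k) hd'
  · refine ord2.2 ⟨?_, fun e => hd' (e ▸ one_mem _)⟩
    have := dih_conj (ord2.1 hx).1 (ord2.1 hy).1 k
    rw [inv_eq_of_mul_self (ord2.1 hx).1] at this
    rw [← mul_assoc, this, inv_mul_cancel]

end Cfsg.Agent.S0207
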