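import Cfsg.Statements.S0210
import Cfsg.Agent.H1.Inv

set_option autoImplicit false
open Cfsg

namespace Cfsg.Agent.S0210

open H7 H1B Subgroup

/-- If x, y are involutions whose product has even order, no element of the subgroup generated by x and y conjugates x to y. -/
theorem result {G : Type*} [Group G] [Finite G] (x y : G) (hx : orderOf x = 2) (hy : orderOf y = 2) (heven : Even (orderOf (x * y))) (d : G) (hd : d ∈ Subgroup.closure ({x, y} : Set G)) : d * x * d⁻¹ ≠ y := by
  intro e
  obtain ⟨k, hk⟩ := (dih_conj_iff (ord2.1 hx).1 (ord2.1 hy).1).1 ⟨d, hd, e⟩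
  have h1 : (x * y) ^ (1 : ℤ) = (x * y) ^ (2 * k) := by
    rw [zpow_one]
    exact (congrArg (x * ·) hk).trans (by rw [← mul_assoc, (ord2.1 hx).1, one_mul])
  rw [zpow_eq_zpow_iff_modEq] at h1
  obtain ⟨m, hm⟩ := heven
  obtain ⟨c, hc⟩ := h1.dvd
  rw [hm] at hc
  push_cast at hc
  have : 2 * k - 1 = 2 * (m * c) := by linarith
  omega

end Cfsg.Agent.S0210
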