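import Cfsg.Statements.S0212
import Cfsg.Agent.H1.Inv

set_option autoImplicit false
open Cfsg

namespace Cfsg.Agent.S0212

open H7 H1B Subgroup

/-- The Brauer–Fowler bound: if G is a finite simple group and t an involution of G whose centralizer has order n, then |G| ≤ (2n^2)!. -/
theorem result {G : Type*} [Group G] [Finite G] [IsSimpleGroup G] (t : G) (ht : orderOf t = 2) : Nat.card G ≤ Nat.factorial (2 * (Nat.card (Subgroup.centralizer ({t} : Set G))) ^ 2) := by
  set n := Nat.card (centralizer ({t} : Set G)) with hn
  have n0 : 0 < n := Nat.card_pos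
  rcases (inferInstance : (center G).Normal).eq_bot_or_eq_top with hZ | hZ
  swap
  · have : centralizer ({t} : Set G) = ⊤ :=
      eq_top_iff.2 fun g _ => mem_cen1.2 (mem_center_iff.1 (hZ.ge (mem_top t)) g)
    rw [this, card_top] at hn
    exact le_trans (by nlinarith) (Nat.self_le_factorial _)
  have hev : Even (Nat.card G) := even_iff_two_dvd.2 (ht ▸ orderOf_dvd_natCard t)
  obtain ⟨H, hH, h⟩ := brauer_fowler hev (by simp [hZ])
  have h1 : Nat.card G ≤ H.index.factorial := by
    have hc : H.normalCore = ⊥ := (inferInstance : H.normalCore.Normal).eq_bot_or_eq_top.resolve_right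
      fun e => hH (eq_top_iff.2 (e.ge.trans H.normalCore_le))
    classical
    haveI := Fintype.ofFinite (G ⧸ H)
    have := Nat.card_le_card_of_injective _ ((MonoidHom.ker_eq_bot_iff _).1
      ((normalCore_eq_ker H).symm.trans hc))
    rwa [Nat.card_perm] at this
  refine h1.trans (Nat.factorial_le ?_)
  rcases h with h | h
  · nlinarith
  have h2 := card_class_mul t
  have h3 : Nat.card {y : G // IsConj t y} ≤ Nat.card {t : G // orderOf t = 2} :=
    Nat.card_le_card_of_injective _ (Subtype.impEmbedding _ _ fun y h =>
      (ord_isConj h).trans ht).injective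
  generalize Nat.card {t : G // orderOf t = 2} = m at *
  have h4 : Nat.card G ≤ m * n := h2.ge.trans (Nat.mul_le_mul_right _ h3)
  have h5 : Nat.card G * (Nat.card G + m) ≤ (n * (n + 1)) * m ^ 2 :=
    (Nat.mul_le_mul h4 (Nat.add_le_add_right h4 m)).trans (le_of_eq (by ring))
  have := lt_of_mul_lt_mul_right (h.trans_le h5) (Nat.zero_le _)
  nlinarith

end Cfsg.Agent.S0212
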