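import Cfsg.Statements.S0213
import Cfsg.Agent.H1.Inv2

set_option autoImplicit false
open Cfsg

namespace Cfsg.Agent.S0213

open H7 H1B Subgroup

/-- Thompson Order Formula, two-class case: if every involution of the finite group G is conjugate to exactly one of the non-conjugate involutions x₁, x₂, and nᵢ is the number of pairs (u, v) with u conjugate to x₁, v conjugate to x₂ and xᵢ in the cyclic group generated by uv, then |G| = |C(x₂)| n₁ + |C(x₁)| n₂. -/
theorem result {G : Type*} [Group G] [Finite G] (x₁ x₂ : G) (h₁ : orderOf x₁ = 2) (h₂ : orderOf x₂ = 2) (hnc : ¬ IsConj x₁ x₂) (hall : ∀ t : G, orderOf t = 2 → IsConj x₁ t ∨ IsConj x₂ t) : Nat.card G = Nat.card (Subgroup.centralizer ({x₂} : Set G)) * Nat.card {p : G × G // IsConj x₁ p.1 ∧ IsConj x₂ p.2 ∧ x₁ ∈ Subgroup.zpowers (p.1 * p.2)} + Nat.card (Subgroup.centralizer ({x₁} : Set G)) * Nat.card {p : G × G // IsConj x₁ p.1 ∧ IsConj x₂ p.2 ∧ x₂ ∈ Subgroup.zpowers (p.1 * p.2)} := by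
  classical
  have ne : x₁ ≠ x₂ := fun e => hnc (e ▸ IsConj.refl _)
  have h := thompson_order h₁ h₂ hnc {x₁, x₂} (by simp [h₁, h₂]) (fun t ht => by
    rcases hall t ht with h | h
    · refine ⟨x₁, by simp, h.symm, fun w hw hc => ?_⟩
      rcases Finset.mem_insert.1 hw with rfl | hw
      · rfl
      · rw [Finset.mem_singleton.1 hw] at hc; exact (hnc (h.trans hc)).elim
    · refine ⟨x₂, by simp, h.symm, fun w hw hc => ?_⟩
      rcases Finset.mem_insert.1 hw with rfl | hw
      · exact (hnc (h.trans hc).symm).elim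
      · exact Finset.mem_singleton.1 hw)
  rw [Finset.sum_pair ne] at h
  have e1 := (cen1 x₁).index_mul_card
  have e2 := (cen1 x₂).index_mul_card
  change _ = _ * tR x₁ x₂ x₁ + _ * tR x₁ x₂ x₂
  refine Nat.eq_of_mul_eq_mul_left (Nat.card_pos (α := G)) ?_
  calc Nat.card G * Nat.card G = (ord (cen1 x₁) * ord (cen1 x₂)) *
        ((cen1 x₁).index * (cen1 x₂).index) := by
        conv_lhs => arg 1; rw [← e1]
        conv_lhs => arg 2; rw [← e2]
        ring
    _ = ((cen1 x₁).index * ord (cen1 x₁)) * (ord (cen1 x₂) * tR x₁ x₂ x₁) +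
        ((cen1 x₂).index * ord (cen1 x₂)) * (ord (cen1 x₁) * tR x₁ x₂ x₂) := by rw [h]; ring
    _ = _ := by rw [e1, e2]; ring

end Cfsg.Agent.S0213
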