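import Cfsg.Statements.S0216
import Cfsg.Agent.H1.Inv

set_option autoImplicit false
open Cfsg

namespace Cfsg.Agent.S0216

open H7 H1B Subgroup

/-- For an involution u in a Sylow 2-subgroup P of a finite group G, the following are equivalent: no G-conjugate of u other than u lies in P; every commutator of u with an element of G has odd order. -/
theorem result {G : Type*} [Group G] [Finite G] (P : Sylow 2 G) (u : G) (hu : orderOf u = 2) (huP : u ∈ P) : (∀ g : G, g * u * g⁻¹ ∈ P → g * u * g⁻¹ = u) ↔ (∀ g : G, Odd (orderOf (u * g * u⁻¹ * g⁻¹))) := by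
  have u2 := ord2'.1 hu
  have e : ∀ g, u * g * u⁻¹ * g⁻¹ = u * (g * u * g⁻¹) := fun g => by
    rw [inv_eq_of_mul_self (ord2.1 hu).1]; group
  simp only [e]
  refine ⟨fun h g => Iso.odd (H9.iso_of_sylow (syl_to_H1 (H2.sylow_isSylowIn_top P)) u2.1 h) g,
    fun h g hg => ?_⟩
  obtain ⟨k, hk⟩ := H2.orderOf_eq_pow_of_mem P.isPGroup' (mul_mem huP hg)
  have h1 := h g
  obtain rfl : k = 0 := by
    by_contra h0
    exact (hk ▸ h1).not_two_dvd_nat (dvd_pow_self 2 h0)
  rw [pow_zero, orderOf_eq_one_iff] at hk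
  rw [← inv_eq_of_mul_eq_one_right hk, inv_eq_of_mul_self (ord2.1 hu).1]

end Cfsg.Agent.S0216
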