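import Cfsg.Statements.S0218
import Cfsg.Agent.H1.Inv

set_option autoImplicit false
open Cfsg

namespace Cfsg.Agent.S0218

open H7 H1B Subgroup

/-- The generalized quaternion group of order 2^(n+3) contains exactly one element of order 2. -/
theorem result (n : ℕ) : Nat.card {x : QuaternionGroup (2 ^ (n + 1)) // orderOf x = 2} = 1 := by
  have h := H9.ui_quaternion (2 ^ (n + 1))
  have hc : Nat.card (QuaternionGroup (2 ^ (n + 1))) = 2 ^ (n + 3) := by
    rw [Nat.card_eq_fintype_card, QuaternionGroup.card]; ring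
  have hp : IsPGroup 2 (QuaternionGroup (2 ^ (n + 1))) := IsPGroup.of_card hc
  obtain ⟨t, -, ht⟩ := exists_inv (H := (⊤ : Subgroup (QuaternionGroup (2 ^ (n + 1)))))
    (by rw [card_top, hc]; exact (Nat.even_pow.2 ⟨even_two, by omega⟩))
  refine Nat.card_eq_one_iff_exists.2 ⟨⟨t, ht⟩, fun s => Subtype.ext ?_⟩
  exact h.eq_of_mem (pg_top hp) trivial trivial (ord2'.1 s.2).2 (ord2'.1 ht).2 (ord2'.1 s.2).1
    (ord2'.1 ht).1

end Cfsg.Agent.S0218
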