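import Cfsg.Statements.S0220
import Cfsg.Agent.H1.Inv
import Cfsg.Agent.H8.Invol

set_option autoImplicit false
open Cfsg

namespace Cfsg.Agent.S0220

open H7 H1B Subgroup

/-- If x is an involution of a finite group G and a Sylow 2-subgroup of the centralizer of x is cyclic, then G has a subgroup of index 2; in particular G is not simple unless it has order 2. -/
theorem result {G : Type*} [Group G] [Finite G] (x : G) (hx : orderOf x = 2) (S : Sylow 2 ↥(Subgroup.centralizer ({x} : Set G))) (hS : IsCyclic (S : Subgroup ↥(Subgroup.centralizer ({x} : Set G)))) : ∃ H : Subgroup G, H.index = 2 := by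
  have hP := H2.isSylowIn_map_subtype S
  have hc : IsCyclic ((S : Subgroup (centralizer ({x} : Set G))).map (centralizer ({x} : Set G)).subtype) :=
    isCyclic_of_surjective _ (equivMapOfInjective _ _ (subtype_injective _)).surjective
  generalize (S : Subgroup (centralizer ({x} : Set G))).map (centralizer ({x} : Set G)).subtype = P at *
  have hxP : zpowers x ≤ P := hP.le_of_normal (isPGroup_zpowers_of_orderOf hx)
    (zpowers_le_cen1 x) (le_nrm_of_le_cen (by rw [cen_zpowers]; exact hP.le))
  refine exists_index_two_of_cyc (syl_of_nrm le_top (hP.mono (le_inf le_top (le_nrm_self _))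
    (inf_le_right.trans fun g hg => ?_))) hc fun e => zpowers_ne_bot' (ord2.1 hx).2 (eq_bot_of_le hxP e)
  have h1 := nconj_mem (nrm_le_of_cyc hc hxP hg) (mem_zpowers x)
  have h2 := (ord_conj g x).trans hx
  rw [mem_cen1, ← mul_inv_eq_iff_eq_mul]
  have := H8.eq_of_sq_of_isCyclic (x := (⟨_, hxP h1⟩ : P)) (y := ⟨x, hxP (mem_zpowers x)⟩)
    (Subtype.ext (ord2'.1 h2).1) (Subtype.ext (ord2'.1 hx).1)
    (fun e => (ord2.1 h2).2 (congrArg Subtype.val e)) (fun e => (ord2.1 hx).2 (congrArg Subtype.val e))
  exact congrArg Subtype.val this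

end Cfsg.Agent.S0220
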