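import Cfsg.Statements.S0221
import Cfsg.Agent.H1.Two4

set_option autoImplicit false
open Cfsg

namespace Cfsg.Agent.S0221

open H7 H1B Subgroup

/-- Let G be a finite group with no subgroup of index 2 whose 2-rank is at least 3 (it contains an elementary abelian subgroup of order 8). Then the centralizer of every involution of G also contains an elementary abelian subgroup of order 8. -/
theorem result {G : Type*} [Group G] [Finite G] (hno : ∀ H : Subgroup G, H.index ≠ 2) (hrank : ∃ E : Subgroup G, Nat.card E = 8 ∧ ∀ e ∈ E, e ^ 2 = 1) (x : G) (hx : orderOf x = 2) : ∃ E : Subgroup G, E ≤ Subgroup.centralizer ({x} : Set G) ∧ Nat.card E = 8 ∧ ∀ e ∈ E, e ^ 2 = 1 := by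
  obtain ⟨E, cE, hE⟩ := hrank
  have eE : EA 2 E := ⟨comm_of_sq fun x hx => pow_two x ▸ hE x hx, hE⟩
  obtain ⟨S, hS, hES⟩ := exists_syl_ge eE.isPGroup (le_top (a := E))
  obtain ⟨U, hU, nU, eU, cU⟩ := exists_normal_four hS.isPGroup hES eE cE.ge
  have i := H7.relIndex_cen_le hS.isPGroup eU.isPGroup nU cU.le
  obtain ⟨g, hg⟩ : ∃ g, g * x * g⁻¹ ∈ S ⊓ cen U := by
    obtain ⟨s, hs, os, c⟩ := conj_into (k := 1) hS hx
    obtain ⟨g, rfl⟩ := isConj_iff.1 c.symm
    by_contra! hn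
    have i2 : (S ⊓ cen U).relIndex S = 2 := by
      have := mt relIndex_eq_one.1 fun h : S ≤ cen U => hn g ⟨hs, h hs⟩
      have : (cen U).relIndex S ≠ 0 := index_ne_zero_of_finite
      rw [inf_relIndex_left]; omega
    obtain ⟨M, -, i, -⟩ := H2.thompson_transfer (by simpa using hS.not_dvd) i2 hs (ord2'.1 os).1
      fun k hk => hn (k * g) (by simpa [mul_assoc] using hk)
    exact hno M i
  suffices ∃ F ≤ cen1 (g * x * g⁻¹), EA 2 F ∧ 8 ≤ ord F by
    obtain ⟨F, h1, h2, h3⟩ := this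
    obtain ⟨F', h4, h5⟩ := exists_card_eq_pow' h2.isPGroup (n := 3) h3
    refine ⟨H2.cj g⁻¹ F', ?_, by rw [H2.card_cj, h5]; rfl, ((h2.of_le h4).cj g⁻¹).2⟩
    rw [cj_le_iff, inv_inv, cj_cen1]; exact h4.trans h1
  have ot := (ord_conj g x).trans hx
  generalize g * x * g⁻¹ = t at hg ot
  have big : ∀ F : Subgroup G, EA 2 F → U < F → 8 ≤ ord F := fun F h1 h2 => by
    have := mul_card_le_of_lt h1.isPGroup h2; omega
  by_cases htU : t ∈ U
  · by_cases h : E ⊓ cen U ≤ U
    · have := card_le_mul_inf_hyper (p := 2) hES i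
      have e := eq_of_le_of_card_ge h (by rw [inf_comm]; omega)
      exact ⟨E, eE.le_cen1 (e.ge htU).1, eE, cE.ge⟩
    · have e := (eE.of_le inf_le_left).sup eU inf_le_right
      exact ⟨_, e.le_cen1 (mem_sup_right htU), e, big _ e (right_lt_sup.2 h)⟩
  · have e := (ea_zpowers (ord2'.1 ot).1).sup eU (zpowers_le.2 hg.2)
    exact ⟨_, e.le_cen1 (mem_sup_left (mem_zpowers t)), e,
      big _ e (right_lt_sup.2 fun h => htU (h (mem_zpowers t)))⟩

end Cfsg.Agent.S0221
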