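import Cfsg.Statements.S0225
import Cfsg.Agent.H9.ZStar
import Cfsg.Agent.H2.FS1

set_option autoImplicit false
open Cfsg

namespace Cfsg.Agent.S0225

open Subgroup H2 Cfsg.FusionSystem


/-- If a finite group G has even order but contains no Klein four-subgroup (2-rank 1), then some involution z of G is central modulo a normal subgroup of odd order: there is a normal subgroup N of odd order containing every commutator z g z⁻¹ g⁻¹. -/
theorem result {G : Type*} [Group G] [Finite G] (heven : Even (Nat.card G)) (hrank : ∀ E : Subgroup G, ¬ IsKleinFour E) : ∃ z : G, orderOf z = 2 ∧ ∃ N : Subgroup G, N.Normal ∧ Odd (Nat.card N) ∧ ∀ g : G, z * g * z⁻¹ * g⁻¹ ∈ N := by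
  obtain ⟨z, hz⟩ : ∃ z : G, orderOf z = 2 :=
    exists_prime_orderOf_dvd_card' 2 (even_iff_two_dvd.1 heven)
  have z2 : z ^ 2 = 1 := hz ▸ pow_orderOf_eq_one z
  refine ⟨z, hz, pPrimeCore 2 G, inferInstance, Nat.coprime_two_right.1 H1.coprime_pPrimeCore,
    H9.zstar z2 fun g hc => ?_⟩
  by_contra hne
  have z1 : z ≠ 1 := by rintro rfl; simp at hz
  obtain ⟨w, hw⟩ : ∃ w, w = g * z * g⁻¹ := ⟨_, rfl⟩
  rw [← hw] at hne hc
  have w2 : w ^ 2 = 1 := by rw [hw, conj_pow, z2]; simp
  have w1 : w ≠ 1 := by
    intro h; apply z1; have : z = g⁻¹ * w * g := by rw [hw]; group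
    rw [this, h]; simp
  have zz : z * z = 1 := by rw [← sq, z2]
  have ww : w * w = 1 := by rw [← sq, w2]
  have zi : z⁻¹ = z := inv_eq_of_mul_eq_one_right zz
  have wi : w⁻¹ = w := inv_eq_of_mul_eq_one_right ww
  have hc' : w * z = z * w := hc.eq.symm
  let E : Subgroup G :=
    { carrier := {1, z, w, z * w}
      one_mem' := by simp
      mul_mem' := by
        intro a b ha hb
        simp only [Set.mem_insert_iff, Set.mem_singleton_iff] at ha hb ⊢
        have e1 : z * (z * w) = w := by rw [← mul_assoc, zz, one_mul]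
        have e2 : w * (z * w) = z := by rw [← hc', ← mul_assoc, ww, one_mul]
        have e3 : z * w * z = w := by rw [mul_assoc, hc', e1]
        have e4 : z * w * w = z := by rw [mul_assoc, ww, mul_one]
        have e5 : z * w * (z * w) = 1 := by rw [← mul_assoc, e3, ww]
        rcases ha with rfl | rfl | rfl | rfl <;> rcases hb with rfl | rfl | rfl | rfl <;>
          simp [zz, ww, hc', e1, e2, e3, e4, e5]
      inv_mem' := by
        intro a ha
        simp only [Set.mem_insert_iff, Set.mem_singleton_iff] at ha ⊢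
        rcases ha with rfl | rfl | rfl | rfl <;> simp [zi, wi, hc'] }
  apply hrank E
  have h1 : z * w ≠ 1 := fun h => hne (by rw [← zi]; exact (eq_inv_of_mul_eq_one_right h))
  have h2 : z * w ≠ z := fun h => w1 (by simpa using h)
  have h3 : z * w ≠ w := fun h => z1 (by simpa using h)
  have hcard : Nat.card E = 4 := by
    have : Nat.card E = ({1, z, w, z * w} : Set G).ncard := rfl
    rw [this, Set.ncard_insert_of_notMem (by simp [z1.symm, w1.symm, h1.symm]),
      Set.ncard_insert_of_notMem (by simp [Ne.symm hne, h2.symm, w1]),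
      Set.ncard_pair h3.symm]
  refine ⟨hcard, ?_⟩
  have : Nontrivial E := Finite.one_lt_card_iff_nontrivial.1 (by omega)
  refine (Monoid.exponent_eq_prime_iff Nat.prime_two).2 fun x hx => ?_
  refine orderOf_eq_prime ?_ hx
  obtain ⟨x, hx'⟩ := x
  have : x = 1 ∨ x = z ∨ x = w ∨ x = z * w := hx'
  apply Subtype.ext
  show x ^ 2 = 1
  rcases this with rfl | rfl | rfl | rfl
  · simp
  · exact z2
  · exact w2
  · rw [hc.mul_pow, z2, w2, one_mul]

end Cfsg.Agent.S0225
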