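import Cfsg.Statements.S0227
import Cfsg.Agent.H7.GlA
import Cfsg.Agent.H1.Top
import Cfsg.Agent.H9.BS

set_option autoImplicit false
open Cfsg

namespace Cfsg.Agent.S0227
open H7
open scoped commutatorElement

/-- Let G be a finite group with no nontrivial normal subgroup of odd order, S a Sylow 2-subgroup, and C the group of automorphisms of G that fix every element of S. Then every Sylow 2-subgroup of C is abelian and has a normal complement in C; in particular C is solvable. -/
theorem result {G : Type*} [Group G] [Finite G] (hO : ∀ N : Subgroup G, N.Normal → Odd (Nat.card N) → N = ⊥) (S : Sylow 2 G) (C : Subgroup (MulAut G)) (hC : ∀ φ : MulAut G, φ ∈ C ↔ ∀ s : G, s ∈ S → φ s = s) : (∀ T : Sylow 2 ↥C, (∀ a b : ↥T, a * b = b * a) ∧ ∃ N : Subgroup ↥C, N.Normal ∧ Subgroup.IsComplement' N (T : Subgroup ↥C)) ∧ Group.IsSolvable ↥C := by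
  open Subgroup in
  have hO' : Op' 2 (H1B.hL (⊤ : Subgroup G)) = ⊥ := by
    rw [← map_Opi_of_inj _ SemidirectProduct.inl_injective, ← pPrimeCore_eq, H9.pPrimeCore_two_eq_bot hO,
      Subgroup.map_bot]
  have hodd := glaub_odd (A := H1B.hR C) ((H2.sylow_isSylowIn_top S).map SemidirectProduct.inl)
    (H1B.hR_le_nrm C ⊤) (H1B.hR_le_cen.2 fun a ha => (hC a).1 ha) hO' (by
      refine le_bot_iff.1 ?_
      rintro _ ⟨⟨a, ha, rfl⟩, h⟩
      have : zpowers a = ⊥ := H1B.hR_le_cen_top.1 (by
        rw [H1B.hR, H1.sdR, MonoidHom.map_zpowers, zpowers_le]; exact h)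
      rw [zpowers_eq_bot.1 this, map_one]; exact one_mem _)
  rw [← map_commutator, card_map_of_injective SemidirectProduct.inr_injective, ← H1B.der_map,
    card_map_subtype] at hodd
  have hs : Group.IsSolvable ↥C := solv_of_comm_solv (solv_of_coprime_two (by
    rwa [← H1B.der_map, card_map_subtype]))
  refine ⟨fun T => ⟨fun a b => ?_, ?_⟩, hs⟩
  · have : (⁅(a : C), (b : C)⁆ : C) ∈ (T : Subgroup C) ⊓ _root_.commutator C :=
      ⟨comm_le_of_le le_rfl le_rfl (commutator_mem_commutator a.2 b.2), commutator_mem_commutator (mem_top _) (mem_top _)⟩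
    rw [inf_eq_bot_of_isPGroup T.isPGroup' hodd, mem_bot] at this
    exact Subtype.ext (commutatorElement_eq_one_iff_mul_comm.1 this)
  · obtain ⟨H, hH, l⟩ := exists_hall_ge (π := {2}ᶜ) (M := (⊤ : Subgroup C)) inferInstance le_top
      (piN_compl_iff.2 hodd)
    have hT : Hall {2}ᶜᶜ (T : Subgroup C) ⊤ := by
      rw [compl_compl]; exact hall_single.2 (H2.sylow_isSylowIn_top T)
    refine ⟨H, normal_iff_top_le_nrm.2 (le_nrm_of_comm_le' le_top l), ?_⟩
    refine isComplement'_of_coprime (by rw [hH.card_mul hT, card_top]) (hH.pi.coprime hT.pi)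

end Cfsg.Agent.S0227
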