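import Cfsg.Statements.S0228
import Cfsg.Agent.H1.Inv2
import Cfsg.Agent.H4.Small

set_option autoImplicit false
open Cfsg

namespace Cfsg.Agent.S0228

open H7 H1B Subgroup

/-- A group of order 12 in which no involution is central is isomorphic to the alternating group on four letters. -/
theorem result {G : Type*} [Group G] [Finite G] (hG : Nat.card G = 12) (hz : ∀ z : G, orderOf z = 2 → z ∉ Subgroup.center G) : Nonempty (G ≃* alternatingGroup (Fin 4)) := by
  classical
  have : Fact (Nat.Prime 3) := ⟨Nat.prime_three⟩
  obtain ⟨P⟩ : Nonempty (Sylow 3 G) := inferInstance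
  have cP : ∀ Q : Sylow 3 G, Nat.card Q = 3 := fun Q =>
    (H4.sylow_card_of Q (k := 1) (m := 4) hG (by norm_num)).1
  have iP : (P : Subgroup G).index = 4 := by
    have := (P : Subgroup G).index_mul_card
    rw [hG, cP] at this; omega
  have h1 := P.card_dvd_index
  have h2 := card_sylow_modEq_one 3 G
  rw [iP] at h1
  have h3 : Nat.card (Sylow 3 G) = 1 ∨ Nat.card (Sylow 3 G) = 4 := by
    have := Nat.le_of_dvd (by norm_num) h1
    generalize Nat.card (Sylow 3 G) = n at *
    unfold Nat.ModEq at h2
    interval_cases n <;> simp_all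
  rcases h3 with h3 | h3
  · exfalso
    have : Subsingleton (Sylow 3 G) := (Nat.card_eq_one_iff_unique.1 h3).1
    have nP : (P : Subgroup G).Normal := P.normal_of_subsingleton
    obtain ⟨S⟩ : Nonempty (Sylow 2 G) := inferInstance
    have cS : Nat.card S = 2 ^ 2 := (H4.sylow_card_of S (k := 2) (m := 3) hG (by norm_num)).1
    have aS : IsMulCommutative S := IsPGroup.isMulCommutative_of_card_eq_prime_sq cS
    obtain ⟨x, hx, ox⟩ := exists_orderOf_eq (H := (P : Subgroup G)) Nat.prime_three (by rw [cP])
    have eP : zpowers x = P := eq_of_le_of_card_le (zpowers_le.2 hx) (by rw [cP, Nat.card_zpowers, ox])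
    have top : (S : Subgroup G) ⊔ P = ⊤ := by
      refine eq_top_of_card_eq _ ?_
      rw [card_sup_of_inf_eq_bot (le_nrm_of_normal _ _) (eq_bot_of_coprime (by rw [cS, cP]; norm_num)),
        cS, cP, hG]; norm_num
    have : ∃ t ∈ (S : Subgroup G), t ∈ cen1 x ∧ orderOf t = 2 := by
      have e1 := card_class_mul x
      have e2 : Nat.card {y : G // IsConj x y} ≤ 2 := by
        have : ({y : G | IsConj x y}).ncard ≤ ({x, x ^ 2} : Set G).ncard := by
          refine Set.ncard_le_ncard (fun y hy => ?_) (Set.toFinite _)
          obtain ⟨g, rfl⟩ := isConj_iff.1 hy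
          have m : g * x * g⁻¹ ∈ zpowers x := by rw [eP]; exact nP.conj_mem x hx g
          have o := (ord_conj g x).trans ox
          obtain ⟨k, hk, e⟩ := (mem_zpowers_iff_mem_range_orderOf.1 m |> Finset.mem_image.1)
          rw [Finset.mem_range, ox] at hk
          interval_cases k
          · rw [← e] at o; simp at o
          · left; simpa using e.symm
          · right; exact e.symm
        exact this.trans ((Set.ncard_insert_le _ _).trans (by simp))
      have e3 : Even (ord (cen1 x)) := by
        rw [hG] at e1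
        generalize Nat.card {y : G // IsConj x y} = n at *
        interval_cases n
        · omega
        · exact ⟨6, by omega⟩
        · exact ⟨3, by omega⟩
      obtain ⟨t, ht, h2⟩ := exists_inv e3
      obtain ⟨g, -, hg⟩ := (syl_top S).exists_cj_le (Q := zpowers t)
        (H7.isPGroup_zpowers (k := 1) (by simpa using (ord2'.1 h2).1)) le_top
      refine ⟨_, hg (conj_mem_cj.2 (mem_zpowers t)), ?_, (ord_conj g t).trans h2⟩
      rw [← cen_zpowers, eP] at ht ⊢
      exact nconj_mem (nrm_cen (top_nrm _) (mem_top g)) ht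
    obtain ⟨t, ht, hc, h2⟩ := this
    refine hz t h2 ?_
    rw [← cen_top, ← top, cen_sup]
    exact ⟨isComm_iff.1 aS ht, by rwa [← eP, cen_zpowers]⟩
  · refine H4.equiv_alt_of_injective (MulAction.toPermHom G (Sylow 3 G)) ?_ h3 (by rw [hG]; rfl)
    rw [injective_iff_map_eq_one]
    intro g hg
    have hn : ∀ Q : Sylow 3 G, g ∈ (Q : Subgroup G) := by
      intro Q
      have e : _ = (nrm (Q : Subgroup G)).index := Sylow.card_eq_index_normalizer Q
      have e1 := (nrm (Q : Subgroup G)).index_mul_card
      rw [← e, h3, hG] at e1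
      rw [eq_of_le_of_card_le (le_nrm_self (Q : Subgroup G)) (by rw [cP]; omega)]
      exact Sylow.smul_eq_iff_mem_normalizer.1 (congrArg (fun σ : Equiv.Perm (Sylow 3 G) => σ Q) hg)
    by_contra g1
    have : ∀ Q : Sylow 3 G, zpowers g = Q := fun Q => by
      refine eq_of_le_of_card_le (zpowers_le.2 (hn Q)) ?_
      have := orderOf_dvd_card' (hn Q)
      rw [cP] at this ⊢
      rw [Nat.card_zpowers, ((Nat.dvd_prime Nat.prime_three).1 this).resolve_left (by simpa using g1)]
    have : Subsingleton (Sylow 3 G) := ⟨fun Q R => Sylow.ext (by rw [← this Q, ← this R])⟩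
    have := Nat.card_of_subsingleton P
    omega

end Cfsg.Agent.S0228
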