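import Cfsg.Statements.S0229
import Cfsg.Agent.H1.Inv

set_option autoImplicit false
open Cfsg

namespace Cfsg.Agent.S0229

open H7 H1B Subgroup

/-- Let t be an involution of a Sylow 2-subgroup S of a finite group G, conjugate in G to no other element of S, and let s be an involution of G not conjugate to t. Then the order of st is twice an odd number. -/
theorem result {G : Type*} [Group G] [Finite G] (S : Sylow 2 G) (t : G) (ht : orderOf t = 2) (htS : t ∈ S) (hiso : ∀ g : G, g * t * g⁻¹ ∈ S → g * t * g⁻¹ = t) (s : G) (hs : orderOf s = 2) (hns : ¬ IsConj s t) : orderOf (s * t) % 4 = 2 := by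
  have hi := H9.iso_of_sylow (syl_to_H1 (H2.sylow_isSylowIn_top S)) (ord2'.1 ht).1 hiso
  have s2 := (ord2.1 hs).1
  have t2 := (ord2.1 ht).1
  have e : orderOf (s * t) = orderOf (t * s) := by rw [← ord_conj t, ← mul_assoc, mul_inv_cancel_right]
  rw [e]
  have he : Even (orderOf (t * s)) := by
    by_contra h
    exact hns (isConj_of_odd t2 s2 (Nat.not_even_iff_odd.1 h)).symm
  obtain ⟨h1, h2, -⟩ := dih_z t2 s2 he
  obtain ⟨m, hm⟩ := he
  suffices ¬ Even m by rw [hm]; rw [Nat.even_iff] at this; omega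
  rintro ⟨k, rfl⟩
  obtain ⟨d, -, hd⟩ := (dih_conj_iff (w := t * (t * s) ^ (orderOf (t * s) / 2)) t2 s2).2
    ⟨k, by rw [hm, ← zpow_natCast]; congr 2; omega⟩
  have := hi.eq_of_commute (g := d) (hd ▸ (Commute.refl t).mul_right h2.symm)
  rw [hd, mul_eq_left] at this
  exact (ord2.1 h1).2 this

end Cfsg.Agent.S0229
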