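import Cfsg.Statements.S0230
import Cfsg.Agent.H1.Inv

set_option autoImplicit false
open Cfsg

namespace Cfsg.Agent.S0230

open H7 H1B Subgroup

/-- Let G be a finite group with two non-conjugate involutions, and let t be an involution whose centralizer has maximal order among centralizers of involutions. Then |G| < |C_G(t)|^3. -/
theorem result {G : Type*} [Group G] [Finite G] (s t : G) (hs : orderOf s = 2) (ht : orderOf t = 2) (hnc : ¬ IsConj s t) (hmax : ∀ u : G, orderOf u = 2 → Nat.card (Subgroup.centralizer ({u} : Set G)) ≤ Nat.card (Subgroup.centralizer ({t} : Set G))) : Nat.card G < Nat.card (Subgroup.centralizer ({t} : Set G)) ^ 3 := by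
  classical
  haveI := Fintype.ofFinite G
  set c := Nat.card (centralizer ({t} : Set G))
  have h1 := card_inv_lt (cen1 t)
  have h2 : Nat.card {y : G // IsConj s y} ≤
      Nat.card (Σ z : {z : G // orderOf z = 2 ∧ z ∈ cen1 t}, cen1 (z : G)) := by
    have : ∀ y : {y : G // IsConj s y}, ∃ q : Σ z : {z : G // orderOf z = 2 ∧ z ∈ cen1 t}, cen1 (z : G),
        (q.2 : G) = y := fun y => by
      have y2 := (ord2.1 ((ord_isConj y.2).trans hs)).1
      have he : Even (orderOf (y * t)) := by
        by_contra h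
        exact hnc (y.2.trans (isConj_of_odd y2 (ord2.1 ht).1 (Nat.not_even_iff_odd.1 h)))
      obtain ⟨h1, h2, h3⟩ := dih_z y2 (ord2.1 ht).1 he
      exact ⟨⟨⟨_, h1, mem_cen1.2 h3⟩, y, mem_cen1.2 h2.symm⟩, rfl⟩
    choose f hf using this
    exact Nat.card_le_card_of_injective f fun a b e => Subtype.ext (by rw [← hf, ← hf, e])
  rw [Nat.card_sigma] at h2
  have h3 := h2.trans (Finset.sum_le_card_nsmul _ _ c fun z _ => hmax _ z.2.1)
  rw [Finset.card_univ, ← Nat.card_eq_fintype_card, smul_eq_mul] at h3
  have h4 := card_class_mul s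
  have h5 := hmax s hs
  have c0 : 0 < c := Nat.card_pos
  calc _ ≤ Nat.card {z : G // orderOf z = 2 ∧ z ∈ cen1 t} * c * c :=
      h4.ge.trans (Nat.mul_le_mul h3 h5)
    _ < c * c * c := by gcongr; exact h1
    _ = _ := by ring

end Cfsg.Agent.S0230
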