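import Cfsg.Statements.S0231
import Cfsg.Agent.H1.Inv

set_option autoImplicit false
open scoped Pointwise
open Cfsg

namespace Cfsg.Agent.S0231

open H7 H1B Subgroup

/-- Let T be a Sylow 2-subgroup of the finite group G which is not normal and which intersects every other Sylow 2-subgroup trivially. Then G has a single conjugacy class of involutions. -/
theorem result {G : Type*} [Group G] [Finite G] (T : Sylow 2 G) (hnn : ¬ (T : Subgroup G).Normal) (hTI : ∀ g : G, MulAut.conj g • (T : Subgroup G) ≠ T → MulAut.conj g • (T : Subgroup G) ⊓ T = ⊥) (s t : G) (hs : orderOf s = 2) (ht : orderOf t = 2) : IsConj s t := by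
  have hP := H2.sylow_isSylowIn_top T
  have k : ∀ u ∈ nrm (T : Subgroup G), orderOf u = 2 → u ∈ (T : Subgroup G) := fun u hu e =>
    hP.le_of_le_normalizer (isPGroup_zpowers_of_orderOf e) le_top (zpowers_le.2 hu) (mem_zpowers u)
  obtain ⟨u, hu, e⟩ := exists_inv (even_iff_two_dvd.2 (dvd_card_of_isPGroup hP.isPGroup
    (syl_ne_bot hP (hs ▸ orderOf_dvd_card' (mem_top s)))))
  refine SE.isConj (H := nrm (T : Subgroup G)) (se_iff.2 ⟨fun e => hnn (normal_of e.ge),
    ⟨u, le_nrm_self _ hu, e⟩, fun g v e h1 h2 => ?_⟩) hs ht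
  have e2 := (ord_conj g v).trans e
  rw [← cj_eq_self_iff]
  by_contra h
  have : g * v * g⁻¹ ∈ (⊥ : Subgroup G) := (hTI g h).le ⟨(conj_mem_cj (g := g)).2 (k v h1 e), k _ h2 e2⟩
  exact (ord2.1 e2).2 this

end Cfsg.Agent.S0231
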