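import Cfsg.Statements.S0232
import Cfsg.Agent.H1.Inv

set_option autoImplicit false
open Cfsg

namespace Cfsg.Agent.S0232

open H7 H1B Subgroup
universe u
theorem aux (n : ℕ) : ∀ (G : Type u) [Group G] [Finite G], Nat.card G = n → Even (Nat.card G) →
    2 < Nat.card G → ∃ H : Subgroup G, H ≠ ⊤ ∧ Nat.card G < (Nat.card H) ^ 3 := by
  induction n using Nat.strong_induction_on with | _ n ih => ?_
  intro G _ _ hn hev hgt
  by_cases h2 : ∃ M : Subgroup G, M.index = 2
  · obtain ⟨M, hM⟩ := h2
    refine ⟨M, fun e => by simp [e] at hM, ?_⟩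
    have := M.index_mul_card
    rw [hM] at this
    have h3 : 2 ≤ Nat.card M := by omega
    calc _ = 2 * Nat.card M := this.symm
      _ < (Nat.card M * Nat.card M) * Nat.card M := by gcongr; nlinarith
      _ = _ := by ring
  rcases Nat.even_or_odd (Nat.card (center G)) with hZ | hZ
  · obtain ⟨z, hz, e⟩ := exists_inv hZ
    haveI : (zpowers z).Normal := normal_of (le_nrm_of_le_cen (le_cen_symm
      (by rw [cen_top]; exact zpowers_le.2 hz)))
    have h3 := (zpowers z).index_mul_card
    rw [card_zpowers_eq, e] at h3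
    have h4 : Even (zpowers z).index := by
      by_contra h
      exact h2 (exists_index_two_of_cyc (P := zpowers z) ⟨le_top, isPGroup_zpowers_of_orderOf e, by
        rwa [relIndex_top_right, ← even_iff_two_dvd]⟩ inferInstance (zpowers_ne_bot' (ord2.1 e).2))
    have h5 : (zpowers z).index ≠ 2 := fun e => h2 ⟨_, e⟩
    obtain ⟨K, hK, h6⟩ := ih _ (by rw [← index_eq_card]; omega) (G ⧸ zpowers z) rfl h4
      (by rw [← index_eq_card]; omega)
    refine ⟨K.comap (QuotientGroup.mk' _), fun e => hK (comap_injective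
      (QuotientGroup.mk'_surjective _) (e.trans (comap_top _).symm)), ?_⟩
    have h7 := (K.comap (QuotientGroup.mk' _)).index_mul_card
    rw [index_comap_of_surjective _ (QuotientGroup.mk'_surjective _), ← h3, index_eq_card (zpowers z),
      ← K.index_mul_card, mul_assoc] at h7
    rw [Nat.eq_of_mul_eq_mul_left (Nat.pos_of_ne_zero index_ne_zero_of_finite) h7, ← h3, index_eq_card]
    nlinarith
  obtain ⟨H, hH, h⟩ := brauer_fowler hev hZ
  replace h := h.resolve_left fun e => h2 ⟨_, e⟩
  obtain ⟨t, -, ht⟩ := exists_inv (H := (⊤ : Subgroup G)) (by rwa [card_top])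
  by_cases h3 : Nat.card G < Nat.card (cen1 t) ^ 3
  · exact ⟨_, fun e => odd_iff_no_inv.1 hZ t
      (mem_center_iff.2 fun g => mem_cen1.1 (e.ge (mem_top g))) ht, h3⟩
  refine ⟨H, hH, ?_⟩
  have h2 := card_class_mul t
  have h4 : Nat.card {y : G // IsConj t y} ≤ Nat.card {t : G // orderOf t = 2} :=
    Nat.card_le_card_of_injective _ (Subtype.impEmbedding _ _ fun y h =>
      (ord_isConj h).trans ht).injective
  have n0 : 0 < Nat.card (cen1 t) := Nat.card_pos
  generalize Nat.card {t : G // orderOf t = 2} = m at *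
  generalize Nat.card (cen1 t) = c at *
  have h4 : Nat.card G ≤ m * c := h2.ge.trans (Nat.mul_le_mul_right _ h4)
  have h5 : Nat.card G * (Nat.card G + m) ≤ (c * (c + 1)) * m ^ 2 :=
    (Nat.mul_le_mul h4 (Nat.add_le_add_right h4 m)).trans (le_of_eq (by ring))
  have h6 := lt_of_mul_lt_mul_right (h.trans_le h5) (Nat.zero_le _)
  have h7 : H.index < c ^ 2 := by nlinarith
  have h8 : H.index ^ 3 < Nat.card G ^ 2 :=
    calc _ < (c ^ 2) ^ 3 := Nat.pow_lt_pow_left h7 (by norm_num)
      _ = (c ^ 3) ^ 2 := by ring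
      _ ≤ _ := Nat.pow_le_pow_left (not_lt.1 h3) _
  have h9 := H.index_mul_card
  have h0 : 0 < Nat.card H := Nat.card_pos
  refine lt_of_mul_lt_mul_left (a := Nat.card G ^ 2) ?_ (Nat.zero_le _)
  calc _ = Nat.card G ^ 3 := by ring
    _ = H.index ^ 3 * Nat.card H ^ 3 := by rw [← h9]; ring
    _ < _ := by gcongr

/-- A finite group G of even order greater than 2 has a proper subgroup H with |G| < |H|^3. -/
theorem result {G : Type*} [Group G] [Finite G] (heven : Even (Nat.card G)) (hgt : 2 < Nat.card G) : ∃ H : Subgroup G, H ≠ ⊤ ∧ Nat.card G < (Nat.card H) ^ 3 := by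
  exact aux _ G rfl heven hgt

end Cfsg.Agent.S0232
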