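import Cfsg.Statements.S0234
import Cfsg.Agent.H1.Inv2
import Cfsg.Agent.H3.Perm
import Cfsg.Agent.H3.Lift

set_option autoImplicit false
open Cfsg

namespace Cfsg.Agent.S0234

open H7 H1B Subgroup H3
theorem two_by_two (A : Matrix (Fin 2) (Fin 2) ℂ) (h : A * A = 1) (hd : A.det = 1)
    (B : Matrix (Fin 2) (Fin 2) ℂ) : A * B = B * A := by
  have e00 := congrFun (congrFun h 0) 0
  have e01 := congrFun (congrFun h 0) 1
  have e10 := congrFun (congrFun h 1) 0
  have e11 := congrFun (congrFun h 1) 1
  simp [Matrix.mul_apply, Fin.sum_univ_two] at e00 e01 e10 e11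
  rw [Matrix.det_fin_two] at hd
  have t : A 0 0 + A 1 1 ≠ 0 := fun e => by
    have : A 0 0 * (A 0 0 + A 1 1) = 2 := by linear_combination e00 + hd
    rw [e] at this; simp at this
  have b : A 0 1 = 0 := mul_left_cancel₀ t (by linear_combination e01)
  have c : A 1 0 = 0 := mul_left_cancel₀ t (by linear_combination e10)
  have d : A 1 1 = A 0 0 := mul_left_cancel₀ t (by linear_combination e11 - e00)
  ext i j
  fin_cases i <;> fin_cases j <;> simp [Matrix.mul_apply, Fin.sum_univ_two, b, c, d, mul_comm]

/-- In a finite simple group G of even order greater than 2, the number n of involutions satisfies 3n < |G|. -/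
theorem result {G : Type*} [Group G] [Finite G] [IsSimpleGroup G] (heven : Even (Nat.card G)) (hgt : 2 < Nat.card G) : 3 * Nat.card {t : G // orderOf t = 2} < Nat.card G := by
  classical
  have := Fintype.ofFinite G
  obtain ⟨t, -, ht⟩ := exists_inv (H := (⊤ : Subgroup G)) (by rwa [card_top])
  have nc : t ∉ center G := fun h => by
    have : (zpowers t).Normal := ⟨fun x hx g => by
      rwa [mem_center_iff.1 (zpowers_le.2 h hx) g, mul_inv_cancel_right]⟩
    rcases this.eq_bot_or_eq_top with e | e
    · exact (ord2.1 ht).2 (by simpa using e)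
    · have := Nat.card_zpowers t
      rw [e, card_top, ht] at this; omega
  have perf : commutator G = ⊤ := by
    refine (inferInstance : (commutator G).Normal).eq_bot_or_eq_top.resolve_left fun e => nc ?_
    rw [commutator_eq_bot_iff_center_eq_top] at e
    rw [e]; trivial
  have deg : ∀ χ : IrrCharacter G, χ.1 ≠ (fun _ => 1) → ∃ n : ℕ, 3 ≤ n ∧ χ.1 1 = n := by
    intro χ h1
    have hi : IsIrrCharacter G χ.1 := χ.2
    have hk := hi.charKer_eq_bot_of_simple h1
    obtain ⟨n, ρ, -, e⟩ := χ.2
    have e1 : χ.1 1 = n := by rw [← e]; simp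
    obtain ⟨m, m0, e2⟩ := hi.exists_deg
    obtain rfl : m = n := by rw [e1] at e2; exact_mod_cast e2.symm
    refine ⟨m, ?_, e1⟩
    by_contra! hm
    interval_cases m
    · refine (ord2.1 ht).2 ?_
      rw [← mem_bot, ← hk, hi.isCharacter.mem_charKer]
      exact hi.isCharacter.commutator_of_deg_one (by simpa using e1) (by rw [perf]; trivial)
    · rw [← e, charKer_character] at hk
      have hdet : LinearMap.det (ρ t) = 1 := by
        let δ : G →* ℂˣ := ((LinearMap.det : _ →* ℂ).comp ρ).toHomUnits
        have : δ t = 1 := by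
          have := Abelianization.commutator_subset_ker δ
          rw [perf] at this; exact this (mem_top t)
        exact congrArg Units.val this
      refine nc (mem_center_iff.2 fun g => (MonoidHom.ker_eq_bot_iff _).1 hk ?_)
      rw [map_mul, map_mul]
      apply LinearMap.toMatrix'.injective
      rw [LinearMap.toMatrix'_mul, LinearMap.toMatrix'_mul]
      refine (two_by_two _ ?_ (by rwa [LinearMap.det_toMatrix']) _).symm
      rw [← LinearMap.toMatrix'_mul, ← map_mul, (ord2.1 ht).1, map_one, LinearMap.toMatrix'_one]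
  have c1 : Nat.card {s : G // s * s = 1} = Nat.card {t : G // orderOf t = 2} + 1 := by
    rw [Nat.card_eq_fintype_card, Nat.card_eq_fintype_card, Fintype.card_subtype, Fintype.card_subtype,
      ← Finset.card_insert_of_notMem (a := 1) (by simp)]
    congr 1; ext s; simp only [Finset.mem_filter, Finset.mem_univ, true_and, Finset.mem_insert, ord2]
    constructor
    · intro h; by_cases e : s = 1 <;> simp [e, h]
    · rintro (rfl | h)
      exacts [one_mul 1, h.1]
  have h1 := congrArg Complex.re (card_sq_eq_sum (1 : G))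
  have h2 := congrArg Complex.re (sum_deg_sq (G := G))
  rw [c1, Complex.re_sum] at h1
  rw [Complex.re_sum] at h2
  let τ : IrrCharacter G := ⟨fun _ => 1, isIrrCharacter_one⟩
  have le : ∑ χ : IrrCharacter G, 3 * (fsInd χ.1 * (starRingEnd ℂ) (χ.1 1)).re ≤
      ∑ χ : IrrCharacter G, ((χ.1 1 ^ 2).re + if χ = τ then 2 else 0) := by
    refine Finset.sum_le_sum fun χ _ => ?_
    have hi : IsIrrCharacter G χ.1 := χ.2
    have f : fsInd χ.1 = 0 ∨ fsInd χ.1 = 1 ∨ fsInd χ.1 = -1 := by
      rcases hi.fsInd_spec with h | h
      exacts [.inl h.2, .inr h.2]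
    split_ifs with e
    · have : χ.1 1 = 1 := by rw [e]
      rw [this]
      rcases f with f | f | f <;> rw [f] <;> norm_num
    · obtain ⟨n, hn, e1⟩ := deg χ fun h => e (Subtype.ext h)
      have hn' : (3 : ℝ) ≤ n := by exact_mod_cast hn
      rw [e1, ← Nat.cast_pow, Complex.natCast_re]
      rcases f with f | f | f <;> rw [f] <;> simp <;> nlinarith
  rw [← Finset.mul_sum, ← h1, Finset.sum_add_distrib, h2] at le
  simp at le
  have : (3 * Nat.card {t : G // orderOf t = 2} : ℝ) < Nat.card G := by
    simp only [Nat.card_eq_fintype_card]; linarith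
  exact_mod_cast this

end Cfsg.Agent.S0234
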