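import Cfsg.Statements.S0240
import Cfsg.Agent.H1.Inv

set_option autoImplicit false
open Cfsg

namespace Cfsg.Agent.S0240

open H7 H1B Subgroup

/-- Let G be a finite group with n involutions and H a subgroup with |H|·(n+1) > |G|. Then some nontrivial h ∈ H is strongly real in G: an involution t of G satisfies t h t⁻¹ = h⁻¹. -/
theorem result {G : Type*} [Group G] [Finite G] (H : Subgroup G) (hH : Nat.card G < Nat.card H * (Nat.card {t : G // orderOf t = 2} + 1)) : ∃ h : G, h ∈ H ∧ h ≠ 1 ∧ ∃ t : G, orderOf t = 2 ∧ t * h * t⁻¹ = h⁻¹ := by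
  have h1 : Nat.card (G ⧸ H) < Nat.card (Option {t : G // orderOf t = 2}) := by
    rw [Finite.card_option, ← index_eq_card]
    rw [← H.card_mul_index] at hH
    exact lt_of_mul_lt_mul_left hH (Nat.zero_le _)
  have : ¬ Function.Injective fun o : Option {t : G // orderOf t = 2} =>
      ((o.elim 1 Subtype.val : G) : G ⧸ H) := fun h => h1.not_ge (Nat.card_le_card_of_injective _ h)
  obtain ⟨a, b, e, hne⟩ := Function.not_injective_iff.1 this
  replace e := QuotientGroup.eq.1 e
  rcases a with _ | ⟨s, hs⟩ <;> rcases b with _ | ⟨t, ht⟩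
  · exact absurd rfl hne
  · exact ⟨t, by simpa using e, (ord2.1 ht).2, t, ht, by rw [mul_inv_cancel_right, inv_eq_of_mul_self (ord2.1 ht).1]⟩
  · exact ⟨s, by simpa using e, (ord2.1 hs).2, s, hs, by rw [mul_inv_cancel_right, inv_eq_of_mul_self (ord2.1 hs).1]⟩
  · simp only [Option.elim, inv_eq_of_mul_self (ord2.1 hs).1] at e
    refine ⟨_, e, fun e' => hne ?_, s, hs, H8.inverts_mul_of_invol (ord2.1 hs).1 (ord2.1 ht).1⟩
    simp [(inv_eq_of_mul_self (ord2.1 hs).1).symm.trans (inv_eq_of_mul_eq_one_right e')]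

end Cfsg.Agent.S0240
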