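import Cfsg.Statements.S0241
import Cfsg.Agent.H1.Inv

set_option autoImplicit false
open Cfsg

namespace Cfsg.Agent.S0241

open H7 H1B Subgroup

/-- If x ≠ 1 is conjugate to x⁻¹ in a finite group G and |C_G(x)| is odd, then some involution t satisfies t x t⁻¹ = x⁻¹. -/
theorem result {G : Type*} [Group G] [Finite G] (x : G) (hx : x ≠ 1) (hreal : IsConj x x⁻¹) (hodd : Odd (Nat.card (Subgroup.centralizer ({x} : Set G)))) : ∃ t : G, orderOf t = 2 ∧ t * x * t⁻¹ = x⁻¹ := by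
  obtain ⟨c, hc⟩ := isConj_iff.1 hreal
  have h1 := hodd.of_dvd_nat (orderOf_dvd_card' (mem_cen1.2 (inverts_sq hc)))
  have h2 := pow_inverts hc h1
  refine ⟨_, ord2.2 ⟨by rw [← pow_add, ← two_mul, pow_mul, pow_two, pow_orderOf_eq_one], fun e => ?_⟩, h2⟩
  rw [e, one_mul, inv_one, mul_one] at h2
  exact hx (eq_one_of_odd (hodd.of_dvd_nat (orderOf_dvd_card' (self_mem_cen1 x)))
    (mul_eq_one_iff_eq_inv.2 h2))

end Cfsg.Agent.S0241
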