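import Cfsg.Statements.S0252
import Cfsg.Agent.H4.Cover

set_option autoImplicit false
open Cfsg

namespace Cfsg.Agent.S0252


/-- PSL_2(4) is isomorphic to A_5. -/
theorem result {F : Type*} [Field F] [Fintype F] (hF : Fintype.card F = 4) : Nonempty (Matrix.ProjectiveSpecialLinearGroup (Fin 2) F ≃* alternatingGroup (Fin 5)) := by
  rw [← Nat.card_eq_fintype_card] at hF
  haveI := Matrix.ProjectiveSpecialLinearGroup.rank_two_simple (F := F) (by omega)
  have := H4.card_psl2_mul (K := F)
  rw [hF, show Nat.gcd 2 (4 - 1) = 1 by decide] at this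
  exact H4.equiv_alt5_of_simple (by omega)

end Cfsg.Agent.S0252
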