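import Cfsg.Statements.S0256
import Cfsg.Agent.H0.Sym
import Cfsg.Agent.S0243


set_option autoImplicit false
open Cfsg

namespace Cfsg.Agent.S0256

set_option maxRecDepth 100000
set_option Elab.async false
section
open H0 BN Matrix

noncomputable def C := (mc2 (ZMod 2) 4 0x1111 0x8421 (by decide +kernel) (by decide +kernel))

def c : List ℕ := [0x2ba7, 0x8c2b, 0xebd7, 0x84ad, 0xab2c, 0x8ca7]
noncomputable def ι := ιSL (Fin 4) (ZMod 2)
theorem hι : Function.Injective ι := ιSL_inj
theorem ex : ∀ x < 6, Ex ι C (c.getD x C.one) := (ex_step (ex_step (ex_step (ex_step (ex_step (ex_step ex_nil (Ex.mul (ex_SL C 2 (by decide) 0x8ca7 (by decide +kernel)) (ex_SL C 2 (by decide) 0x2986 (by decide +kernel))) (by decide +kernel)) (ex_SL C 2 (by decide) 0x8c2b (by decide +kernel)) (by decide +kernel)) (ex_SL C 2 (by decide) 0xebd7 (by decide +kernel)) (by decide +kernel)) (ex_SL C 2 (by decide) 0x84ad (by decide +kernel)) (by decide +kernel)) (ex_SL C 2 (by decide) 0xab2c (by decide +kernel)) (by decide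 +kernel)) (ex_SL C 2 (by decide) 0x8ca7 (by decide +kernel)) (by decide +kernel))
theorem cod : C.Cod ι (tOf ι C c _ ex) c := cod_tOf ex rfl
end

/-- PSL_4(2) is isomorphic to A_8. -/
theorem result {F : Type*} [Field F] [Fintype F] (hF : Fintype.card F = 2) : Nonempty (Matrix.ProjectiveSpecialLinearGroup (Fin 4) F ≃* alternatingGroup (Fin 8)) := by
  obtain ⟨θ, h, -⟩ := H0.alt_subq (n := 6) hι cod (by decide +kernel)
  exact (H0.iso_of_inj θ h ((H0.cardA (S0243.result (ZMod.card 2) 4 (by decide)) (by decide +kernel)).trans (H0.card_alt 6).symm)).map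
    (H0.cenEquiv (H0.slEquiv (H0.fe (ZMod 2) hF (ZMod.card 2)))).symm.trans

end Cfsg.Agent.S0256
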