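import Cfsg.Statements.S0257
import Cfsg.Agent.H4.Klein

set_option autoImplicit false
open Cfsg

namespace Cfsg.Agent.S0257


/-- SL_2(3) has a normal subgroup of index 3 isomorphic to the quaternion group of order 8, and its centre has order 2. -/
theorem result {F : Type*} [Field F] [Fintype F] (hF : Fintype.card F = 3) : (∃ Q : Subgroup (Matrix.SpecialLinearGroup (Fin 2) F), Q.Normal ∧ Q.index = 3 ∧ Nonempty (Q ≃* QuaternionGroup 2)) ∧ Nat.card (Subgroup.center (Matrix.SpecialLinearGroup (Fin 2) F)) = 2 := by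
  rw [← Nat.card_eq_fintype_card] at hF
  have h2 := H4.two_ne_zero_iff_odd.2 (show Odd (Nat.card F) by rw [hF]; decide)
  obtain ⟨φ, hφ⟩ := H4.exists_s4 h2
  obtain ⟨h3, h4⟩ := H4.klein_comap h2 (H4.vS4_map_klein hφ) (H4.vS4_map_le_L φ)
  refine ⟨⟨(H4.vS4.map φ).comap Matrix.SpecialLinearGroup.toPGL, ?_, ?_, ?_⟩, by rw [H4.card_center_sl, hF]; rfl⟩
  rotate_left 2
  · obtain ⟨k, hk, ⟨e⟩⟩ := H4.quaternion_of_two_group h2 (IsPGroup.of_card (n := 3) h3) h4
    have := Nat.card_congr e.toEquiv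
    rw [h3, Nat.card_eq_fintype_card, QuaternionGroup.card] at this
    obtain rfl : k = 1 := Nat.pow_right_injective (le_refl 2) (by simp only; omega)
    exact ⟨e⟩
  · have : φ.range = ⊤ := Subgroup.eq_top_of_card_eq _ (by
      rw [H4.card_range_of_injective hφ, H4.card_sym4, H4.card_pgl2, hF])
    haveI := H4.vS4_normal.map φ (MonoidHom.range_eq_top.1 this)
    infer_instance
  · have := Subgroup.card_mul_index ((H4.vS4.map φ).comap
      (Matrix.SpecialLinearGroup.toPGL : Matrix.SpecialLinearGroup (Fin 2) F →* _))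
    rw [h3, H4.card_sl2, hF] at this
    omega

end Cfsg.Agent.S0257
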