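import Cfsg.Statements.S0258
import Cfsg.Agent.H4.Cover

set_option autoImplicit false
open Cfsg

namespace Cfsg.Agent.S0258


/-- GL_2(q), q a power of the prime p, has exactly q + 1 Sylow p-subgroups. -/
theorem result {F : Type*} [Field F] [Fintype F] {q : ℕ} (hF : Fintype.card F = q) (p : ℕ) [Fact p.Prime] [CharP F p] : Nat.card (Sylow p (Matrix.GeneralLinearGroup (Fin 2) F)) = q + 1 := by
  classical
  rw [← Nat.card_eq_fintype_card] at hF
  obtain ⟨P⟩ : Nonempty (Sylow p (Matrix.GeneralLinearGroup (Fin 2) F)) := inferInstance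
  obtain ⟨x, hx⟩ := H4.cov_gl.sylow_map P
  rw [P.card_eq_index_normalizer]
  erw [H4.cov_gl.normalizer_eq P.isPGroup' hx]
  rw [Subgroup.index_comap_of_surjective _ Matrix.ProjGenLinGroup.mk_surjective]
  have h1 := (MulAction.stabilizer (Matrix.ProjGenLinGroup (Fin 2) F) x).card_mul_index
  rw [H4.card_borel, H4.card_pgl2, hF] at h1
  have h2 : 1 < q := hF ▸ Finite.one_lt_card
  exact Nat.eq_of_mul_eq_mul_left (Nat.mul_pos (by omega) (by omega)) h1

end Cfsg.Agent.S0258
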