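import Cfsg.Statements.S0260
import Cfsg.Agent.H4.Cover

set_option autoImplicit false
open Cfsg

namespace Cfsg.Agent.S0260


/-- Any two distinct Sylow p-subgroups of SL_2(q), p the characteristic, generate SL_2(q). -/
theorem result {F : Type*} [Field F] [Fintype F] (p : ℕ) [Fact p.Prime] [CharP F p] (P Q : Sylow p (Matrix.SpecialLinearGroup (Fin 2) F)) (h : P ≠ Q) : (P : Subgroup (Matrix.SpecialLinearGroup (Fin 2) F)) ⊔ (Q : Subgroup (Matrix.SpecialLinearGroup (Fin 2) F)) = ⊤ := by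
  classical
  obtain ⟨x, hx⟩ := H4.cov_sl.sylow_map P
  obtain ⟨y, hy⟩ := H4.cov_sl.sylow_map Q
  have hxy : x ≠ y := by
    rintro rfl
    exact h (Sylow.ext (le_antisymm
      (H4.cov_sl.le_of_map_le P.isPGroup' Q.isPGroup' (hx.trans hy.symm).le)
      (H4.cov_sl.le_of_map_le Q.isPGroup' P.isPGroup' (hy.trans hx.symm).le)))
  have hL := H4.L_le_of_two_U (M := ((P : Subgroup _) ⊔ Q).map Matrix.SpecialLinearGroup.toPGL) hxy
    (hx ▸ Subgroup.map_mono le_sup_left) (hy ▸ Subgroup.map_mono le_sup_right)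
  have key : ∀ u : Matrix.SpecialLinearGroup (Fin 2) F, u ^ p = 1 → u ∈ (P : Subgroup _) ⊔ Q := by
    intro u hu
    have h1 := hL (H4.Lsub_eq.ge ⟨u, rfl⟩)
    by_cases hp : p = 2
    · subst hp
      obtain ⟨v, hv, e⟩ := h1
      rcases H4.toPGL_eq_iff.1 e with rfl | rfl
      · exact hv
      · have : -u = u := by
          ext i j; simp [CharTwo.neg_eq]
        rwa [this] at hv
    · exact H4.mem_of_toPGL_mem ((Fact.out : p.Prime).odd_of_ne_two hp) hu h1
  exact H4.sl2_eq_top _ (fun b => key _ (by rw [H4.slUp_pow]; simp [H4.slUp_zero]))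
    (fun b => key _ (by rw [H4.slLow_pow]; simp [H4.slLow_zero]))

end Cfsg.Agent.S0260
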