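import Cfsg.Statements.S0263
import Mathlib


set_option autoImplicit false
open Cfsg

namespace Cfsg.Agent.S0263

/-- A Sylow p-subgroup of GL_n(q), p the characteristic, has order q^(n(n-1)/2). -/
theorem result {F : Type*} [Field F] [Fintype F] {q : ℕ} (hF : Fintype.card F = q) (p : ℕ) [Fact p.Prime] [CharP F p] (n : ℕ) (P : Sylow p (Matrix.GeneralLinearGroup (Fin n) F)) : Nat.card P = q ^ (n * (n - 1) / 2) := by
  set_option maxSynthPendingDepth 3 in
  obtain ⟨f, hp, hf⟩ := FiniteField.card F p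
  subst hF
  have q1 := Fintype.one_lt_card (α := F)
  have e : Nat.card (GL (Fin n) F) = Fintype.card F ^ (n * (n - 1) / 2) *
      ∏ i ∈ Finset.range n, (Fintype.card F ^ (n - i) - 1) := by
    rw [Matrix.card_GL_field, Fin.prod_univ_eq_prod_range (fun i => Fintype.card F ^ n - Fintype.card F ^ i),
      ← Finset.sum_range_id, ← Finset.prod_pow_eq_pow_sum, ← Finset.prod_mul_distrib]
    refine Finset.prod_congr rfl fun i m => ?_
    rw [Nat.mul_sub, mul_one, ← pow_add, Nat.add_sub_cancel' (Finset.mem_range.1 m).le]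
  have z : ¬p ∣ ∏ i ∈ Finset.range n, (Fintype.card F ^ (n - i) - 1) := fun h => by
    obtain ⟨i, m, d⟩ := (Prime.dvd_finsetProd_iff hp.prime _).1 h
    have k : n - i ≠ 0 := Nat.sub_ne_zero_of_lt (Finset.mem_range.1 m)
    have d' : p ∣ Fintype.card F ^ (n - i) := dvd_pow (hf ▸ dvd_pow_self p f.ne_zero) k
    have := Nat.dvd_sub d' d
    rw [Nat.sub_sub_self (Nat.one_le_pow _ _ (by omega))] at this
    exact hp.not_dvd_one this
  have ne_zero_of_dvd_ne_zero' : ∀ {x}, ¬p ∣ x → x ≠ 0 := fun h e => h (e ▸ dvd_zero p)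
  rw [P.card_eq_multiplicity, e, Nat.factorization_mul (by positivity) (ne_zero_of_dvd_ne_zero' z), Finsupp.add_apply,
    Nat.factorization_eq_zero_of_not_dvd z, add_zero, hf, ← pow_mul, hp.factorization_pow, Finsupp.single_eq_same]

end Cfsg.Agent.S0263
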