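import Cfsg.Statements.S0264
import Cfsg.Agent.H4.SLBasic

set_option autoImplicit false
open Cfsg

namespace Cfsg.Agent.S0264
open scoped commutatorElement


/-- GL_n(F)' = SL_n(F) (as the kernel of det), for every field F and every n, except n = 2 over the field of two elements. -/
theorem result {F : Type*} [Field F] (n : ℕ) (h : n = 2 → ∃ a : F, a ≠ 0 ∧ a ≠ 1) : commutator (Matrix.GeneralLinearGroup (Fin n) F) = (Matrix.GeneralLinearGroup.det : Matrix.GeneralLinearGroup (Fin n) F →* Fˣ).ker := by
  apply le_antisymm
  · rw [commutator_def, Subgroup.commutator_le]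
    intro a _ b _
    rw [MonoidHom.mem_ker, map_commutatorElement, commutatorElement_eq_one_iff_mul_comm, mul_comm]
  · rw [← H4.range_toGL]
    rintro _ ⟨A, rfl⟩
    refine H4.sl_transvection_induction (fun A => Matrix.SpecialLinearGroup.toGL A ∈
      commutator (Matrix.GeneralLinearGroup (Fin n) F)) (by simp) ?_ ?_ A
    · intro i j hij c
      by_cases h3 : 3 ≤ n
      · have h1 : Matrix.SpecialLinearGroup.transvection hij c ∈ commutator (Matrix.SpecialLinearGroup (Fin n) F) := by
          rw [H4.sl_commutator_eq_top (by simpa using h3)]; trivial
        have h2 := Subgroup.mem_map_of_mem Matrix.SpecialLinearGroup.toGL h1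
        rw [commutator_def, Subgroup.map_commutator] at h2
        exact Subgroup.commutator_mono le_top le_top h2
      · have hn : n = 2 := by
          have := i.2; have := j.2
          have : i.1 ≠ j.1 := fun h => hij (Fin.ext h)
          omega
        obtain ⟨a, ha0, ha1⟩ := h hn
        have hd : (Matrix.diagonal (Function.update (1 : Fin n → F) i a)).det ≠ 0 := by
          simp [Finset.prod_update_of_mem, ha0]
        set D := Matrix.GeneralLinearGroup.mkOfDetNeZero _ hd with hD
        have key : Matrix.SpecialLinearGroup.toGL (Matrix.SpecialLinearGroup.transvection hij c) =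
            ⁅D, Matrix.SpecialLinearGroup.toGL (Matrix.SpecialLinearGroup.transvection hij (c / (a - 1)))⁆ := by
          rw [commutatorElement_def, eq_mul_inv_iff_mul_eq, ← map_mul,
            ← Matrix.SpecialLinearGroup.transvection_add, eq_mul_inv_iff_mul_eq]
          apply Units.ext
          have ha : a - 1 ≠ 0 := sub_ne_zero.2 ha1
          simp only [Units.val_mul, hD, Matrix.SpecialLinearGroup.coe_GL_coe_matrix,
            Matrix.SpecialLinearGroup.transvection_coe, Matrix.GeneralLinearGroup.val_mkOfDetNeZero]
          ext x y
          simp only [Matrix.mul_diagonal, Matrix.diagonal_mul, Matrix.add_apply, Matrix.one_apply,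
            Matrix.single_apply, Function.update_apply, Pi.one_apply]
          by_cases h1 : x = i <;> by_cases h2 : y = j <;> by_cases h3 : x = y <;>
            simp_all [eq_comm]
          field_simp; ring
        rw [key]
        exact Subgroup.commutator_mem_commutator (Subgroup.mem_top _) (Subgroup.mem_top _)
    · intro A B hA hB
      rw [map_mul]; exact Subgroup.mul_mem _ hA hB

end Cfsg.Agent.S0264
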