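import Cfsg.Statements.S0266
import Cfsg.Agent.H4.Klein

set_option autoImplicit false
open scoped MatrixGroups
open Cfsg

namespace Cfsg.Agent.S0266


/-- PGL_2(F) is sharply 3-transitive on the projective line: it is 3-transitive and the stabiliser of three distinct points is trivial. -/
theorem result {F : Type*} [Field F] : MulAction.IsMultiplyPretransitive (Matrix.ProjGenLinGroup (Fin 2) F) (Projectivization F (Fin 2 → F)) 3 ∧ ∀ (g : Matrix.ProjGenLinGroup (Fin 2) F) (a b c : Projectivization F (Fin 2 → F)), a ≠ b → a ≠ c → b ≠ c → g • a = a → g • b = b → g • c = c → g = 1 := by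
  classical
  have he : ∀ (g : Matrix.ProjGenLinGroup (Fin 2) F) (x : OnePoint F),
      OnePoint.equivProjectivization F (g • x) = g • OnePoint.equivProjectivization F x := by
    intro g x
    obtain ⟨g, rfl⟩ := Matrix.ProjGenLinGroup.mk_surjective g
    exact OnePoint.equivProjectivization_smul x
  constructor
  · rw [MulAction.isMultiplyPretransitive_iff]
    intro x y
    have key : ∀ x : Fin 3 ↪ Projectivization F (Fin 2 → F),
        ∃ m : Matrix.ProjGenLinGroup (Fin 2) F, ∀ i, m • OnePoint.equivProjectivization F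
          (![OnePoint.infty, ((0 : F) : OnePoint F), ((1 : F) : OnePoint F)] i) = x i := by
      intro x
      have hi := (OnePoint.equivProjectivization F).symm.injective.comp x.injective
      obtain ⟨m, h1, h2, h3⟩ := H4.exists_triple (hi.ne (show (0 : Fin 3) ≠ 1 by decide))
        (hi.ne (show (0 : Fin 3) ≠ 2 by decide)) (hi.ne (show (1 : Fin 3) ≠ 2 by decide))
      refine ⟨m, fun i => ?_⟩
      rw [← he, ← Equiv.eq_symm_apply]
      fin_cases i
      exacts [h1, h2, h3]
    obtain ⟨m, hm⟩ := key x
    obtain ⟨m', hm'⟩ := key y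
    refine ⟨m' * m⁻¹, Function.Embedding.ext fun i => ?_⟩
    rw [Function.Embedding.smul_apply, ← hm, ← hm', mul_smul, inv_smul_smul]
  · intro g a b c h1 h2 h3 e1 e2 e3
    obtain ⟨a, rfl⟩ := (OnePoint.equivProjectivization F).surjective a
    obtain ⟨b, rfl⟩ := (OnePoint.equivProjectivization F).surjective b
    obtain ⟨c, rfl⟩ := (OnePoint.equivProjectivization F).surjective c
    rw [← he, Equiv.apply_eq_iff_eq] at e1 e2 e3
    exact H4.pgl_three g a b c (fun e => h1 (by rw [e])) (fun e => h2 (by rw [e]))
      (fun e => h3 (by rw [e])) e1 e2 e3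

end Cfsg.Agent.S0266
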