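import Cfsg.Statements.S0267
import Cfsg.Agent.H4.Klein
import Cfsg.Agent.S0266

set_option autoImplicit false
open Cfsg

namespace Cfsg.Agent.S0267


/-- SL_2(q) is 3-transitive on the q+1 points of the projective line if and only if q is even. -/
theorem result {F : Type*} [Field F] [Fintype F] : MulAction.IsMultiplyPretransitive (Matrix.SpecialLinearGroup (Fin 2) F) (Projectivization F (Fin 2 → F)) 3 ↔ ringChar F = 2 := by
  classical
  obtain ⟨h1, h2⟩ := Cfsg.Agent.S0266.result (F := F)
  have he : ∀ (g : Matrix.SpecialLinearGroup (Fin 2) F) (x : Projectivization F (Fin 2 → F)),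
      g • x = Matrix.SpecialLinearGroup.toPGL g • x := by
    intro g x
    induction x using Projectivization.ind with | h v hv => rfl
  have h3 : ringChar F = 2 ↔ H4.Lsub F = ⊤ := by
    rw [← Subgroup.index_eq_one, H4.index_Lsub]
    haveI : Fact (ringChar F).Prime := ⟨CharP.char_is_prime F _⟩
    have := H4.char_ne_two_iff_odd (F := F) (ringChar F)
    rw [Nat.odd_iff] at this
    have := H4.gcd_two_cases (Nat.card F) Finite.one_lt_card
    omega
  rw [h3, MulAction.isMultiplyPretransitive_iff]
  rw [MulAction.isMultiplyPretransitive_iff] at h1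
  constructor
  · intro h
    rw [eq_top_iff, H4.Lsub_eq]
    intro γ _
    have : 3 ≤ Fintype.card (OnePoint F) := by
      rw [← Nat.card_eq_fintype_card, H4.card_onePoint]
      exact Nat.succ_le_succ Finite.one_lt_card
    obtain ⟨x0⟩ : Nonempty (Fin 3 ↪ OnePoint F) :=
      Function.Embedding.nonempty_of_card_le (by simpa using this)
    set x := x0.trans (OnePoint.equivProjectivization F).toEmbedding
    obtain ⟨g, hg⟩ := h x (γ • x)
    have key : ∀ i, (γ⁻¹ * Matrix.SpecialLinearGroup.toPGL g) • x i = x i := fun i => by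
      rw [mul_smul, ← he, inv_smul_eq_iff, ← Function.Embedding.smul_apply, hg,
        Function.Embedding.smul_apply]
    exact ⟨g, (inv_mul_eq_one.1 (h2 _ (x 0) (x 1) (x 2) (x.injective.ne (by decide))
      (x.injective.ne (by decide)) (x.injective.ne (by decide)) (key 0) (key 1) (key 2))).symm⟩
  · intro h x y
    obtain ⟨γ, hγ⟩ := h1 x y
    obtain ⟨g, rfl⟩ := H4.Lsub_eq.le (h.ge (Subgroup.mem_top γ))
    exact ⟨g, by rw [← hγ]; exact Function.Embedding.ext fun i => he g (x i)⟩

end Cfsg.Agent.S0267
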