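import Cfsg.Statements.S0269
import Cfsg.Agent.H4.Disc

set_option autoImplicit false
open Cfsg

namespace Cfsg.Agent.S0269


/-- Sp_{2m}(q) is perfect except for Sp_2(2), Sp_2(3) and Sp_4(2): stated as m at least 3, or m = 2 and q at least 3, or q at least 4. -/
theorem result {F : Type*} [Field F] [Fintype F] (m : ℕ) (h : 3 ≤ m ∨ (m = 2 ∧ 3 ≤ Fintype.card F) ∨ 4 ≤ Fintype.card F) : commutator (Matrix.symplecticGroup (Fin m) F) = ⊤ := by
  refine H4.commutator_eq_top_congr (H4.spEquiv m F).symm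
    (H4.alt_commutator_eq_top (H4.spForm_ND m F) ?_)
  rcases h with h | ⟨h, h3⟩ | h
  · left; simp; omega
  · by_cases h4 : 4 ≤ Fintype.card F
    · exact Or.inr (Or.inr (H4.exists_mul_self_ne_one (by rwa [Nat.card_eq_fintype_card])))
    · refine Or.inr (Or.inl ⟨by simp; omega, H4.odd_card_iff.1 ?_⟩)
      rw [Nat.card_eq_fintype_card, show Fintype.card F = 3 by omega]; decide
  · exact Or.inr (Or.inr (H4.exists_mul_self_ne_one (by rwa [Nat.card_eq_fintype_card])))

end Cfsg.Agent.S0269
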