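import Cfsg.Statements.S0272
import Cfsg.Agent.H4.Cover

set_option autoImplicit false
open Cfsg

namespace Cfsg.Agent.S0272


/-- The normaliser in GL_2(q) of a Sylow p-subgroup, p the characteristic, has order q (q-1)^2. -/
theorem result {F : Type*} [Field F] [Fintype F] {q : ℕ} (hF : Fintype.card F = q) (p : ℕ) [Fact p.Prime] [CharP F p] (P : Sylow p (Matrix.GeneralLinearGroup (Fin 2) F)) : Nat.card (Subgroup.normalizer ((P : Subgroup (Matrix.GeneralLinearGroup (Fin 2) F)) : Set (Matrix.GeneralLinearGroup (Fin 2) F))) = q * (q - 1) ^ 2 := by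
  classical
  rw [← Nat.card_eq_fintype_card] at hF
  obtain ⟨x, hx⟩ := H4.cov_gl.sylow_map P
  rw [H4.cov_gl.normalizer_eq P.isPGroup' hx, H4.card_comap_of_le _ (by
    rw [MonoidHom.range_eq_top.2 Matrix.ProjGenLinGroup.mk_surjective]; exact le_top),
    H4.card_borel, Matrix.ProjGenLinGroup.ker_mk, H4.card_center_gl, hF, sq, mul_assoc]

end Cfsg.Agent.S0272
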