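import Cfsg.Statements.S0274
import Cfsg.Agent.H4.SL2

set_option autoImplicit false
open Cfsg

namespace Cfsg.Agent.S0274


/-- Dickson's Theorem for SL_2: if p is odd and H is a subgroup of SL_2(q), q a power of p, with more than one Sylow p-subgroup, then H contains a copy of SL_2(p). -/
theorem result {F : Type*} [Field F] [Fintype F] (p : ℕ) [Fact p.Prime] [CharP F p] (hp : p ≠ 2) (H : Subgroup (Matrix.SpecialLinearGroup (Fin 2) F)) (hH : 1 < Nat.card (Sylow p H)) : ∃ K : Subgroup (Matrix.SpecialLinearGroup (Fin 2) F), K ≤ H ∧ Nonempty (K ≃* Matrix.SpecialLinearGroup (Fin 2) (ZMod p)) := by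
  obtain ⟨a, b, n, ha, hb, hab⟩ := H4.exists_noncomm_of_sylow hH
  obtain ⟨M, hM⟩ := H4.exists_sl2_le hp H a.2 b.2 (n := n) (congrArg Subtype.val ha)
    (congrArg Subtype.val hb) (fun e => hab (Subtype.ext e))
  refine ⟨_, hM, ⟨(MonoidHom.ofInjective ?_).symm⟩⟩
  exact (H4.slConj_injective M).comp (H4.sl_map_injective _)

end Cfsg.Agent.S0274
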