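import Cfsg.Statements.S0275
import Cfsg.Agent.H4.Klein

set_option autoImplicit false
open Cfsg

namespace Cfsg.Agent.S0275


/-- If p is odd and H is a subgroup of SL_2(q), q a power of p, with more than one Sylow p-subgroup, then the Sylow 2-subgroups of H are generalised quaternion. -/
theorem result {F : Type*} [Field F] [Fintype F] (p : ℕ) [Fact p.Prime] [CharP F p] (hp : p ≠ 2) (H : Subgroup (Matrix.SpecialLinearGroup (Fin 2) F)) (hH : 1 < Nat.card (Sylow p H)) (S : Sylow 2 H) : ∃ k : ℕ, 1 ≤ k ∧ Nonempty ((S : Subgroup H) ≃* QuaternionGroup (2 ^ k)) := by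
  have h2 := H4.two_ne_zero_iff_odd.2 ((H4.char_ne_two_iff_odd (F := F) p).1 hp)
  have h2' := H4.two_ne_zero_iff_odd.2 ((H4.char_ne_two_iff_odd (F := ZMod p) p).1 hp)
  haveI : Fact (Nat.Prime 2) := ⟨Nat.prime_two⟩
  obtain ⟨a, b, n, ha, hb, hab⟩ := H4.exists_noncomm_of_sylow hH
  obtain ⟨M, hM⟩ := H4.exists_sl2_le hp H a.2 b.2 (n := n) (congrArg Subtype.val ha)
    (congrArg Subtype.val hb) (fun e => hab (Subtype.ext e))
  obtain ⟨Q, h3, h4⟩ := H4.exists_q8 h2'
  set f := ((H4.slConj M).comp (Matrix.SpecialLinearGroup.map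
    (ZMod.castHom (dvd_refl p) F))).codRestrict H fun g => hM ⟨g, rfl⟩
  have hf : Function.Injective f := fun x y e =>
    ((H4.slConj_injective M).comp (H4.sl_map_injective _)) (congrArg Subtype.val e)
  have h5 := H4.sylow_not_comm S (h3.map f) fun h => h4 fun x hx y hy =>
    hf (by rw [map_mul, map_mul]; exact h _ ⟨x, hx, rfl⟩ _ ⟨y, hy, rfl⟩)
  obtain ⟨k, hk, ⟨e⟩⟩ := H4.quaternion_of_two_group h2 (S.isPGroup'.map H.subtype) fun h =>
    h5 fun x hx y hy => Subtype.ext (h _ ⟨x, hx, rfl⟩ _ ⟨y, hy, rfl⟩)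
  exact ⟨k, hk, ⟨(Subgroup.equivMapOfInjective _ _ H.subtype_injective).trans e⟩⟩

end Cfsg.Agent.S0275
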