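import Cfsg.Statements.S0276
import Cfsg.Agent.H4.Klein

set_option autoImplicit false
open Cfsg

namespace Cfsg.Agent.S0276


/-- For q = 3 or 5 mod 8 the Sylow 2-subgroups of PSL_2(q) are elementary abelian of order 4. -/
theorem result {F : Type*} [Field F] [Fintype F] {q : ℕ} (hF : Fintype.card F = q) (hq : q % 8 = 3 ∨ q % 8 = 5) (P : Sylow 2 (Matrix.ProjectiveSpecialLinearGroup (Fin 2) F)) : IsKleinFour (P : Subgroup (Matrix.ProjectiveSpecialLinearGroup (Fin 2) F)) := by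
  rw [← Nat.card_eq_fintype_card] at hF
  subst hF
  have hq' : Odd (Nat.card F) := Nat.odd_iff.2 (by omega)
  haveI : Fact (Nat.Prime 2) := ⟨Nat.prime_two⟩
  obtain ⟨V, h1, h2⟩ := H4.exists_klein (H4.two_ne_zero_iff_odd.2 hq')
  have h3 := H4.isKleinFour_of_equiv (H4.comapEquiv H4.jL_injective h2).symm h1
  have h4 := (V.comap H4.jL).card_mul_index
  have h5 := H4.card_psl2_mul (K := F)
  rw [H4.gcd_two_of_odd hq', ← h4, h3.card_four] at h5
  have h6 : ¬ 2 ∣ (V.comap H4.jL).index := by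
    rintro ⟨c, hc⟩
    rw [hc] at h5
    have h7 : (Nat.card F * (Nat.card F - 1) * (Nat.card F + 1)) % 16 = 8 := by
      obtain ⟨r, hr⟩ : ∃ r, Nat.card F = r + 1 := ⟨Nat.card F - 1, by omega⟩
      rw [hr, Nat.add_sub_cancel, Nat.mul_mod, Nat.mul_mod (r + 1), Nat.add_mod (r + 1),
        Nat.add_mod r]
      have : r % 16 = 2 ∨ r % 16 = 4 ∨ r % 16 = 10 ∨ r % 16 = 12 := by omega
      rcases this with e | e | e | e <;> simp [e]
    omega
  exact H4.isKleinFour_of_equiv
    (((IsPGroup.of_card (n := 2) h3.card_four).toSylow h6).equiv P) h3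

end Cfsg.Agent.S0276
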