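import Cfsg.Statements.S0289
import Cfsg.Agent.H4.QuadCount

set_option autoImplicit false
open Cfsg

namespace Cfsg.Agent.S0289


/-- The hyperbolic quadratic form on F^(2m), m at least 1, has q^(2m-1) + q^m - q^(m-1) zeros (that is, (q^m - 1)(q^(m-1) + 1) non-zero isotropic vectors). -/
theorem result {F : Type*} [Field F] [Fintype F] {q : ℕ} (hF : Fintype.card F = q) (m : ℕ) (hm : 1 ≤ m) : Nat.card {v : Fin m ⊕ Fin m → F // Cfsg.quadFormPlus m F v = 0} = q ^ (2 * m - 1) + q ^ m - q ^ (m - 1) := by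
  rw [← Nat.card_eq_fintype_card] at hF
  obtain ⟨m, rfl⟩ : ∃ k, m = k + 1 := ⟨m - 1, by omega⟩
  have h := H4.plus_cnt_zero (H4.plusForm F (m + 1)) (H4.plusForm_ND F _) (m := m)
    (by simp; ring) (H4.plusForm_hasTS _)
  have h0 : 0 < q := hF ▸ Nat.card_pos
  rw [hF] at h
  refine h.trans ?_
  have h1 : 1 ≤ q ^ (m + 1) := Nat.one_le_pow _ _ h0
  have h2 : q ^ m ≤ q ^ (m + 1) := Nat.pow_le_pow_right h0 (by omega)
  rw [show 2 * (m + 1) - 1 = 2 * m + 1 by omega, Nat.add_sub_cancel]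
  zify [h1, le_trans h2 (Nat.le_add_left _ (q ^ (2 * m + 1)))]
  ring

end Cfsg.Agent.S0289
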