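import Cfsg.Statements.S0294
import Cfsg.Agent.H4.Disc

set_option autoImplicit false
open Cfsg

namespace Cfsg.Agent.S0294


/-- gcd(4, q^m + 1) |PΩ^-_{2m}(q)| = q^(m(m-1)) (q^m + 1) prod_{i=1}^{m-1} (q^(2i) - 1), m at least 4 (type ²D_m). -/
theorem result {F : Type*} [Field F] [Fintype F] {q : ℕ} (hF : Fintype.card F = q) (m : ℕ) (hm : 4 ≤ m) (a b : F) (hab : ∀ z₁ z₂ : F, z₁ ^ 2 + a * z₁ * z₂ + b * z₂ ^ 2 = 0 → z₁ = 0 ∧ z₂ = 0) : Nat.gcd 4 (q ^ m + 1) * Nat.card (Cfsg.POmega F (Cfsg.quadFormMinus (m - 1) F a b)) = q ^ (m * (m - 1)) * (q ^ m + 1) * ∏ i ∈ Finset.range (m - 1), (q ^ (2 * (i + 1)) - 1) := by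
  have hq : Nat.card F = q := by rw [Nat.card_eq_fintype_card, hF]
  obtain ⟨k, rfl⟩ : ∃ k, m = k + 1 := ⟨m - 1, by omega⟩
  change Nat.gcd 4 (q ^ (k + 1) + 1) * Nat.card (Cfsg.POmega F (Cfsg.quadFormMinus k F a b)) =
    q ^ ((k + 1) * k) * (q ^ (k + 1) + 1) * ∏ i ∈ Finset.range k, (q ^ (2 * (i + 1)) - 1)
  have hf := H4.minusForm_ND k hab
  have hn : Module.finrank F ((Fin k ⊕ Fin k) ⊕ Fin 2 → F) = 2 * k + 2 := by simp; omega
  have h1 := H4.card_isom_eq_pomega (f := H4.minusForm F k a b)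
  rw [H4.index_omega hf (by omega), H4.card_center_omega hf (by omega),
    H4.minus_card_Isom k _ _ hf hn (H4.minusForm_not_hasTS _ hab), hq,
    ← Nat.card_congr (H4.pomegaEquiv (H4.minusForm F k a b)).toEquiv] at h1
  change _ = _ * Nat.card (Cfsg.POmega F (Cfsg.quadFormMinus k F a b)) at h1
  have hg : Nat.gcd 4 (q ^ (k + 1) + 1) = Nat.gcd ((q ^ (k + 1) + 1) % 4) 4 := Nat.gcd_rec _ _
  rw [mul_assoc, mul_assoc] at h1
  rw [mul_assoc]
  by_cases h2 : (2 : F) = 0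
  · have h3 : Even q := by
      rw [← Nat.not_odd_iff_even, ← hq, H4.odd_card_iff]; simpa using h2
    obtain ⟨r, rfl⟩ := h3
    obtain ⟨j, rfl⟩ : ∃ j, k = j + 1 := ⟨k - 1, by omega⟩
    have h4 : (r + r) ^ (j + 1 + 1) = 4 * (r * r * (r + r) ^ j) := by ring
    rw [if_neg (by simpa using h2), if_neg (by simp [h2])] at h1
    rw [hg, show ((r + r) ^ (j + 1 + 1) + 1) % 4 = 1 by omega]
    norm_num
    omega
  · have h3 : Odd (q ^ (k + 1)) := (hq ▸ H4.odd_card_iff.2 h2).pow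
    obtain ⟨r, hr⟩ := h3
    rw [if_pos h2, H4.disc_minusForm h2 k hab] at h1
    have h6 := H4.chi_neg_one_pow_eq_one_iff h2 (k + 1)
    rw [hq] at h6
    by_cases h5 : q ^ (k + 1) % 4 = 1
    · rw [if_neg (fun h => by rw [h6.2 h5] at h; exact absurd h.2.2 (by decide))] at h1
      rw [hg, show (q ^ (k + 1) + 1) % 4 = 2 by omega]
      norm_num
      omega
    · rw [if_pos ⟨h2, by rw [hn]; exact ⟨k + 1, by ring⟩, by
        rw [(Int.units_eq_one_or _).resolve_left (fun h => h5 (h6.1 h))]; simp⟩] at h1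
      rw [hg, show (q ^ (k + 1) + 1) % 4 = 0 by omega]
      norm_num
      omega

end Cfsg.Agent.S0294
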