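import Cfsg.Statements.S0301
import Cfsg.Agent.H5.GB2

set_option autoImplicit false
open Cfsg

namespace Cfsg.Agent.S0301

open H5.Gen

/-- PΩ_5(q) is isomorphic to PSp_4(q) for q odd. -/
theorem result {F : Type*} [Field F] [Fintype F] (hodd : Odd (Fintype.card F)) : Nonempty (Cfsg.POmega F (Cfsg.quadFormOdd 2 F) ≃* Cfsg.PSp 2 F) := by
  have h : ∃ a : F, a ≠ 0 ∧ a ≠ 1 := ⟨-1, by simp, fun h => by
    have := two_eq_zero_iff'.1 (show (2 : F) = 0 by linear_combination -h)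
    obtain ⟨k, hk⟩ := hodd
    omega⟩
  obtain ⟨e⟩ := equiv_B2 h
  obtain ⟨e'⟩ := equiv_C2 h
  exact ⟨e.symm.trans e'⟩

end Cfsg.Agent.S0301
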