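import Cfsg.Statements.S0304


set_option autoImplicit false
open Cfsg

namespace Cfsg.Agent.S0304

open Matrix

section
variable {F : Type*} [Field F] [CharP F 2] {m : ℕ}

theorem qadd (u v : Fin m ⊕ Fin m → F) :
    quadFormPlus m F (u + v) = quadFormPlus m F u + quadFormPlus m F v + u ⬝ᵥ J (Fin m) F *ᵥ v := by
  simp only [quadFormPlus, J, fromBlocks_mulVec, dotProduct, Fintype.sum_sum_type, ← Finset.sum_add_distrib]
  refine Finset.sum_congr rfl fun i _ => ?_
  simp [neg_mulVec, CharTwo.neg_eq]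
  ring

omit [CharP F 2] in
theorem mem_sp {A : Matrix (Fin m ⊕ Fin m) (Fin m ⊕ Fin m) F} : A ∈ symplecticGroup (Fin m) F ↔
    ∀ u v, (A *ᵥ u) ⬝ᵥ J (Fin m) F *ᵥ A *ᵥ v = u ⬝ᵥ J (Fin m) F *ᵥ v := by
  have e : ∀ u v, (A *ᵥ u) ⬝ᵥ J (Fin m) F *ᵥ A *ᵥ v = u ⬝ᵥ (Aᵀ * J (Fin m) F * A) *ᵥ v := fun u v => by
    rw [← mulVec_mulVec, ← mulVec_mulVec, dotProduct_mulVec u, vecMul_transpose]
  simp only [SymplecticGroup.mem_iff', e]
  refine ⟨fun h u v => by rw [h], fun h => Matrix.ext fun i j => ?_⟩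
  simpa using h (Pi.single i 1) (Pi.single j 1)

omit [CharP F 2] in
theorem qo (v : Unit ⊕ (Fin m ⊕ Fin m) → F) :
    quadFormOdd m F v = v (.inl ()) ^ 2 + quadFormPlus m F (v ∘ .inr) := rfl

theorem polar (g : isometryGroup F (quadFormOdd m F)) (u v : Unit ⊕ (Fin m ⊕ Fin m) → F) :
    ((g.1.1 *ᵥ u) ∘ .inr) ⬝ᵥ J (Fin m) F *ᵥ ((g.1.1 *ᵥ v) ∘ .inr) = (u ∘ .inr) ⬝ᵥ J (Fin m) F *ᵥ (v ∘ .inr) := by
  have k : ∀ w, quadFormOdd m F (g.1.1 *ᵥ w) = quadFormOdd m F w := fun w => g.2 w w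
  have a := k (u + v)
  have b := k u
  have c := k v
  simp only [mulVec_add, qo, Pi.add_comp, qadd, Pi.add_apply, CharTwo.add_sq] at a b c
  linear_combination a - b - c

theorem blk (g : isometryGroup F (quadFormOdd m F)) :
    g.1.1 = fromBlocks 1 g.1.1.toBlocks₁₂ 0 g.1.1.toBlocks₂₂ := by
  have z : (g.1.1 *ᵥ Pi.single (.inl ()) 1) ∘ Sum.inr = 0 := by
    have h : ∀ v, ((g.1.1 *ᵥ Pi.single (.inl ()) 1) ∘ Sum.inr) ⬝ᵥ J (Fin m) F *ᵥ v = 0 := fun v => by
      have := polar g (Pi.single (.inl ()) 1) ((g.1⁻¹).1 *ᵥ Sum.elim 0 v)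
      rwa [mulVec_mulVec, Units.mul_inv, one_mulVec, Sum.elim_comp_inr,
        show (Pi.single (.inl ()) 1 : Unit ⊕ (Fin m ⊕ Fin m) → F) ∘ Sum.inr = 0 from funext fun i => by simp,
        zero_dotProduct] at this
    refine dotProduct_eq_zero _ fun v => ?_
    have := h (J (Fin m) F *ᵥ v)
    rwa [mulVec_mulVec, J_squared, neg_mulVec, one_mulVec, dotProduct_neg, neg_eq_zero] at this
  have o := g.2 (Pi.single (.inl ()) 1) 0
  simp only [qo, Units.coeHom_apply, z] at o
  ext (i | i) (j | j)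
  · simpa [quadFormPlus, CharTwo.neg_eq] using o
  · rfl
  · simpa using congrFun z i
  · rfl

/-- the action on the quotient by the radical -/
def hom : isometryGroup F (quadFormOdd m F) →* symplecticGroup (Fin m) F where
  toFun g := ⟨g.1.1.toBlocks₂₂, mem_sp.2 fun u v => by
    have := polar g (Sum.elim 0 u) (Sum.elim 0 v)
    rw [blk g] at this
    simpa [fromBlocks_mulVec] using this⟩
  map_one' := Subtype.ext (by ext i j; simp [toBlocks₂₂, one_apply])
  map_mul' a b := Subtype.ext (by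
    show (a.1.1 * b.1.1).toBlocks₂₂ = a.1.1.toBlocks₂₂ * b.1.1.toBlocks₂₂
    rw [blk a, blk b, fromBlocks_multiply]
    simp)

end

/-- In characteristic 2, O_{2m+1}(q) is isomorphic to Sp_{2m}(q). -/
theorem result {F : Type*} [Field F] [Fintype F] [CharP F 2] (m : ℕ) : Nonempty (Cfsg.isometryGroup F (Cfsg.quadFormOdd m F) ≃* Matrix.symplecticGroup (Fin m) F) := by
  refine ⟨.ofBijective hom ⟨(injective_iff_map_eq_one _).2 fun g h => Subtype.ext (Units.ext ?_), fun A => ?_⟩⟩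
  · have e : g.1.1.toBlocks₂₂ = 1 := congrArg Subtype.val h
    have z : g.1.1.toBlocks₁₂ = 0 := Matrix.ext fun i j => by
      have := g.2 (Sum.elim 0 (Pi.single j 1)) 0
      rw [Units.coeHom_apply, blk g, e] at this
      simp only [qo, fromBlocks_mulVec, Sum.elim_comp_inr, Sum.elim_comp_inl, Sum.elim_inl, zero_mulVec, one_mulVec,
        zero_add] at this
      simpa using this
    rw [blk g, e, z, fromBlocks_one]
    rfl
  · let f := fun v => quadFormPlus m F v + quadFormPlus m F (A.1 *ᵥ v)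
    choose w hw using fun j => (frobeniusEquiv F 2).surjective (f (Pi.single j 1))
    have k : ∀ v, (w ⬝ᵥ v) ^ 2 = f v := fun v => by
      induction v using Pi.single_induction with
      | zero => simp [f, quadFormPlus]
      | add u v a b =>
        simp only [f, mulVec_add, qadd, dotProduct_add, CharTwo.add_sq, a, b, mem_sp.1 A.2]
        linear_combination -CharTwo.add_self_eq_zero (u ⬝ᵥ J (Fin m) F *ᵥ v)
      | single j c =>
        have s : ∀ v, quadFormPlus m F (c • v) = c ^ 2 * quadFormPlus m F v := fun v => by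
          simp only [quadFormPlus, Finset.mul_sum, Pi.smul_apply, smul_eq_mul]
          exact Finset.sum_congr rfl fun _ _ => by ring
        rw [show Pi.single j c = c • Pi.single j (1 : F) by simp [← Pi.single_smul], dotProduct_smul, smul_eq_mul, mul_pow,
          dotProduct_single, mul_one, show w j ^ 2 = _ from hw j]
        simp only [f, mulVec_smul, s, mul_add]
    refine ⟨⟨.mkOfDetNeZero (fromBlocks 1 (of fun _ => w) 0 A.1) ?_, fun v _ => ?_⟩, Subtype.ext ?_⟩
    · rw [det_fromBlocks_zero₂₁, det_one, one_mul]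
      exact (SymplecticGroup.symplectic_det A.2).ne_zero
    · show quadFormOdd m F (fromBlocks 1 (of fun _ => w) 0 A.1 *ᵥ v) = quadFormOdd m F v
      have := k (v ∘ .inr)
      simp only [qo, fromBlocks_mulVec, Sum.elim_inl, Sum.elim_comp_inr, Pi.add_apply, one_mulVec, zero_mulVec, zero_add,
        CharTwo.add_sq, Function.comp_apply, show ((of fun _ : Unit => w) *ᵥ v ∘ Sum.inr) () = w ⬝ᵥ v ∘ Sum.inr from rfl, this, f]
      linear_combination CharTwo.add_self_eq_zero (quadFormPlus m F (A.1 *ᵥ v ∘ Sum.inr))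
    · exact toBlocks_fromBlocks₂₂ _ _ _ _

end Cfsg.Agent.S0304
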