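import Cfsg.Statements.S0307

set_option autoImplicit false
open Cfsg

namespace Cfsg.Agent.S0307

open Matrix

/-- PSL_n(q) is normal in PGL_n(q) with cyclic quotient of order gcd(n, q-1): the image of the natural map PSL_n → PGL_n is the kernel of a surjective homomorphism onto the cyclic group of that order. -/
theorem result {F : Type*} [Field F] [Fintype F] {q : ℕ} (hF : Fintype.card F = q) (n : ℕ) (hn : 1 ≤ n) : ∃ g : Matrix.ProjGenLinGroup (Fin n) F →* Multiplicative (ZMod (Nat.gcd n (q - 1))), Function.Surjective g ∧ g.ker = (Matrix.ProjectiveSpecialLinearGroup.toPGL : Matrix.ProjectiveSpecialLinearGroup (Fin n) F →* Matrix.ProjGenLinGroup (Fin n) F).range := by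
  classical
  haveI : Nonempty (Fin n) := ⟨⟨0, hn⟩⟩
  let R : Subgroup Fˣ := (powMonoidHom n : Fˣ →* Fˣ).range
  have hc : Nat.card (Fˣ ⧸ R) = Nat.card (Multiplicative (ZMod (Nat.gcd n (q - 1)))) := by
    rw [Nat.card_congr Multiplicative.toAdd, Nat.card_zmod, ← Subgroup.index_eq_card,
      IsCyclic.index_powMonoidHom_range, Nat.card_units, Nat.card_eq_fintype_card, hF, Nat.gcd_comm]
  haveI : IsCyclic (Fˣ ⧸ R) := isCyclic_of_surjective (QuotientGroup.mk' R) (QuotientGroup.mk'_surjective R)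
  let e := mulEquivOfCyclicCardEq hc
  let f : GL (Fin n) F →* Multiplicative (ZMod (Nat.gcd n (q - 1))) :=
    e.toMonoidHom.comp ((QuotientGroup.mk' R).comp GeneralLinearGroup.det)
  have hf : ∀ g, f g = 1 ↔ ∃ u : Fˣ, u ^ n = GeneralLinearGroup.det g := by
    intro g
    simp only [f, MonoidHom.comp_apply, MulEquiv.coe_toMonoidHom, EmbeddingLike.map_eq_one_iff,
      QuotientGroup.mk'_apply, QuotientGroup.eq_one_iff]
    rfl
  refine ⟨ProjGenLinGroup.lift f ?_, fun y => ?_, ?_⟩
  · ext1 u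
    rw [MonoidHom.comp_apply, MonoidHom.one_apply, hf]
    exact ⟨u, by rw [GeneralLinearGroup.det_scalar, Fintype.card_fin]⟩
  · obtain ⟨x, rfl⟩ := e.surjective y
    obtain ⟨x, rfl⟩ := QuotientGroup.mk'_surjective R x
    obtain ⟨g, rfl⟩ := GeneralLinearGroup.det_surjective (n := Fin n) x
    exact ⟨ProjGenLinGroup.mk g, rfl⟩
  · ext g
    induction g using ProjGenLinGroup.induction_on with | mk g =>
    rw [MonoidHom.mem_ker, ProjGenLinGroup.lift_mk, hf]
    constructor
    · rintro ⟨u, hu⟩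
      have h1 : GeneralLinearGroup.det (g * GeneralLinearGroup.scalar (Fin n) u⁻¹) = 1 := by
        rw [map_mul, GeneralLinearGroup.det_scalar, Fintype.card_fin, ← hu, inv_pow, mul_inv_cancel]
      obtain ⟨X, this⟩ : ∃ X : SpecialLinearGroup (Fin n) F,
          SpecialLinearGroup.toGL X = g * GeneralLinearGroup.scalar (Fin n) u⁻¹ :=
        ⟨⟨(g * GeneralLinearGroup.scalar (Fin n) u⁻¹ : GL (Fin n) F).1, congrArg Units.val h1⟩, Units.ext rfl⟩
      refine ⟨QuotientGroup.mk X, ?_⟩
      rw [ProjectiveSpecialLinearGroup.toPGL_mk, ProjGenLinGroup.mk_eq_mk_iff]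
      refine ⟨u, ?_⟩
      rw [this, mul_assoc, ← map_mul, inv_mul_cancel, map_one, mul_one]
    · rintro ⟨X, hX⟩
      induction X using QuotientGroup.induction_on with | H X =>
      obtain ⟨u, hu⟩ : ∃ u, SpecialLinearGroup.toGL X * (GeneralLinearGroup.scalar (Fin n)) u = g := by
        simpa [ProjGenLinGroup.mk_eq_mk_iff] using hX
      exact ⟨u, by simpa using congr(Matrix.GeneralLinearGroup.det $hu)⟩

end Cfsg.Agent.S0307
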