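import Cfsg.Statements.S0321
import Cfsg.Agent.H5.BN2

set_option autoImplicit false
open Cfsg

namespace Cfsg.Agent.S0321

/-- For `n ∈ N` not in `B`, the union `B ∪ B n B` is (the underlying set of) a subgroup exactly when `n` agrees
modulo `B ⊓ N` with one of the distinguished representatives; thus the distinguished involutions are
determined by `B` and `N`. -/
theorem result {G : Type*} [Group G] (P : Cfsg.BNPair G) {n : G}
    (hn : n ∈ P.N) (hnB : n ∉ P.B) :
    (∃ H : Subgroup G, (H : Set G) = (P.B : Set G) ∪ DoubleCoset.doubleCoset n (P.B : Set G) P.B) ↔ ∃ s ∈ P.S, s⁻¹ * n ∈ P.B := by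
  constructor
  · rintro ⟨H, hH⟩
    have hB : P.B ≤ H := by
      intro b hb; rw [← SetLike.mem_coe, hH]; exact Or.inl hb
    have hnH : n ∈ H := by
      rw [← SetLike.mem_coe, hH]; exact Or.inr (DoubleCoset.mem_doubleCoset_self _ _ _)
    have h1 := H5.BN.eq_parabolic hB
    rcases (P.S ∩ H).eq_empty_or_nonempty with h | ⟨s, hs, hsH⟩
    · rw [h, H5.BN.parabolic_empty] at h1
      exact absurd (h1 ▸ hnH) hnB
    · refine ⟨s, hs, ?_⟩
      rw [hH] at hsH
      rcases hsH with h | h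
      · exact absurd h (H5.BN.not_mem_B P ⟨s, hs⟩)
      · have h2 := (H5.BN.inC_iff_mem (P := P) (n := ⟨n, hn⟩)).2 h
        have h3 := (H5.BN.InC.self (H5.BN.sN P ⟨s, hs⟩)).unique h2
        exact (H5.BN.mkW_eq_iff P).1 h3
  · rintro ⟨s, hs, h⟩
    refine ⟨P.parabolic {s}, ?_⟩
    ext g
    have h1 := H5.BN.mem_parabolic_singleton (P := P) ⟨s, hs⟩ g
    have h2 : (H5.BN.gen P).σ ⟨s, hs⟩ = H5.BN.mkW P ⟨n, hn⟩ := (H5.BN.mkW_eq_iff P).2 h
    rw [h2, H5.BN.inC_iff_mem] at h1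
    exact h1

end Cfsg.Agent.S0321
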