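import Cfsg.Statements.S0322
import Cfsg.Agent.H5.BN2

set_option autoImplicit false
open Cfsg

namespace Cfsg.Agent.S0322

/-- A group with a (B,N)-pair of rank one acts doubly transitively on the left cosets of `B`. -/
theorem result {G : Type*} [Group G] (P : Cfsg.BNPair G) (h : P.rank = 1) : MulAction.IsMultiplyPretransitive G (G ⧸ P.B) 2 := by
  obtain ⟨s, hs⟩ : ∃ s : P.S, ∀ t : P.S, t = s := by
    obtain ⟨h1, ⟨s⟩⟩ := Nat.card_eq_one_iff_unique.1 h
    exact ⟨s, fun t => Subsingleton.elim _ _⟩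
  have hS : P.S = {(s : G)} := by
    ext t
    constructor
    · intro ht; exact congrArg Subtype.val (hs ⟨t, ht⟩)
    · rintro rfl; exact s.2
  have hall : ∀ g : G, g ∉ P.B → H5.BN.InC P ((H5.BN.gen P).σ s) g := by
    intro g hg
    have : g ∈ P.parabolic {(s : G)} := by rw [← hS, H5.BN.parabolic_S]; trivial
    exact ((H5.BN.mem_parabolic_singleton s g).1 this).resolve_left hg
  have key : ∀ a b : G ⧸ P.B, a ≠ b →
      ∃ g : G, g • a = ((1 : G) : G ⧸ P.B) ∧ g • b = ((s : G) : G ⧸ P.B) := by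
    intro a b hab
    obtain ⟨a, rfl⟩ := QuotientGroup.mk_surjective a
    obtain ⟨b, rfl⟩ := QuotientGroup.mk_surjective b
    rw [Ne, QuotientGroup.eq] at hab
    obtain ⟨c, hc, d, hd, e⟩ := (hall _ hab).rep (H5.BN.sN P s) rfl
    refine ⟨c⁻¹ * a⁻¹, ?_, ?_⟩
    · rw [MulAction.Quotient.smul_mk, QuotientGroup.eq]; simpa using hc
    · rw [MulAction.Quotient.smul_mk, QuotientGroup.eq, smul_eq_mul, mul_assoc, e]
      simpa [mul_assoc] using hd
  rw [MulAction.is_two_pretransitive_iff]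
  intro a b c d hab hcd
  obtain ⟨g, h1, h2⟩ := key a b hab
  obtain ⟨g', h3, h4⟩ := key c d hcd
  refine ⟨g'⁻¹ * g, ?_, ?_⟩
  · rw [mul_smul, h1, ← h3, inv_smul_smul]
  · rw [mul_smul, h2, ← h4, inv_smul_smul]

end Cfsg.Agent.S0322
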