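import Cfsg.Statements.S0323
import Cfsg.Agent.H5.BN2

set_option autoImplicit false
open scoped Pointwise
open Cfsg

namespace Cfsg.Agent.S0323

/-- A doubly transitive action on a set with at least three points yields a (B,N)-pair of rank one:
`B` is the stabiliser of a point `x`, `N` the setwise stabiliser of a pair `{x, y}`. -/
theorem result {G Ω : Type*} [Group G] [MulAction G Ω]
    (h2 : MulAction.IsMultiplyPretransitive G Ω 2) {x y z : Ω} (hxy : x ≠ y) (hyz : y ≠ z) (hxz : x ≠ z) :
    ∃ P : Cfsg.BNPair G, P.B = MulAction.stabilizer G x ∧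
      P.N = MulAction.stabilizer G ({x, y} : Set Ω) ∧ P.rank = 1 := by
  rw [MulAction.is_two_pretransitive_iff] at h2
  obtain ⟨s, hsx, hsy⟩ := h2 hxy hxy.symm
  have hN : ∀ g : G, g ∈ MulAction.stabilizer G ({x, y} : Set Ω) ↔
      (g • x = x ∧ g • y = y) ∨ (g • x = y ∧ g • y = x) := by
    intro g
    rw [MulAction.mem_stabilizer_iff, Set.smul_set_insert, Set.smul_set_singleton,
      Set.pair_eq_pair_iff]
  have hdc : ∀ g n : G, (g • x = x ↔ n • x = x) →
      g ∈ DoubleCoset.doubleCoset n (MulAction.stabilizer G x : Set G) (MulAction.stabilizer G x) := by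
    intro g n h
    rw [DoubleCoset.mem_doubleCoset]
    by_cases hn : n • x = x
    · refine ⟨g * n⁻¹, ?_, 1, Subgroup.one_mem _, by simp⟩
      rw [SetLike.mem_coe, MulAction.mem_stabilizer_iff, mul_smul, inv_smul_eq_iff.2 hn.symm, h.2 hn]
    · have hg : g • x ≠ x := fun h' => hn (h.1 h')
      obtain ⟨b, hb1, hb2⟩ := h2 (Ne.symm hn) hg.symm
      refine ⟨b, hb1, n⁻¹ * b⁻¹ * g, ?_, by group⟩
      rw [SetLike.mem_coe, MulAction.mem_stabilizer_iff, mul_smul, mul_smul, ← hb2]
      simp
  have hsN : s ∈ MulAction.stabilizer G ({x, y} : Set Ω) := (hN s).2 (Or.inr ⟨hsx, hsy⟩)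
  refine ⟨{ B := MulAction.stabilizer G x, N := MulAction.stabilizer G ({x, y} : Set Ω), S := {s},
            sup_eq_top := ?_, conj_mem := ?_, subset := ?_, sq_mem := ?_, inj := ?_,
            closure_sup := ?_, mul_mem_union := ?_, conj_ne := ?_ }, rfl, rfl, ?_⟩
  · rw [eq_top_iff]
    intro g _
    by_cases hg : g • x = x
    · exact (le_sup_left : MulAction.stabilizer G x ≤ _) hg
    · have := hdc g s (by simp [hg, hsx, hxy.symm])
      obtain ⟨b, hb, b', hb', rfl⟩ := DoubleCoset.mem_doubleCoset.1 this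
      exact Subgroup.mul_mem _ (Subgroup.mul_mem _ ((le_sup_left : MulAction.stabilizer G x ≤ _) hb)
        ((le_sup_right : MulAction.stabilizer G ({x, y} : Set Ω) ≤ _) hsN))
        ((le_sup_left : MulAction.stabilizer G x ≤ _) hb')
  · rintro n hn t ⟨ht1, ht2⟩
    have ht1 : t • x = x := ht1
    have ht3 : t • y = y := by
      rcases (hN t).1 ht2 with h | h
      · exact h.2
      · exact absurd (ht1.symm.trans h.1) hxy
    rw [MulAction.mem_stabilizer_iff, mul_smul, mul_smul]
    rcases (hN n).1 hn with h | h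
    · rw [inv_smul_eq_iff.2 h.1.symm, ht1, h.1]
    · rw [inv_smul_eq_iff.2 h.2.symm, ht3, h.2]
  · rintro _ rfl; exact hsN
  · rintro _ rfl
    rw [MulAction.mem_stabilizer_iff, mul_smul, hsx, hsy]
  · rintro _ rfl _ rfl _; rfl
  · apply le_antisymm
    · apply sup_le _ inf_le_right
      rw [Subgroup.closure_le]; rintro _ rfl; exact hsN
    · intro n hn
      rcases (hN n).1 hn with h | h
      · exact (le_sup_right : MulAction.stabilizer G x ⊓ _ ≤ _) ⟨h.1, hn⟩
      · have h1 : s⁻¹ * n ∈ MulAction.stabilizer G x ⊓ MulAction.stabilizer G ({x, y} : Set Ω) := by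
          refine ⟨?_, Subgroup.mul_mem _ (Subgroup.inv_mem _ hsN) hn⟩
          change (s⁻¹ * n) • x = x
          rw [mul_smul, h.1, inv_smul_eq_iff, hsx]
        have h2 : n = s * (s⁻¹ * n) := by group
        rw [h2]
        exact Subgroup.mul_mem _
          ((le_sup_left : Subgroup.closure {s} ≤ _) (Subgroup.subset_closure rfl))
          ((le_sup_right : MulAction.stabilizer G x ⊓ _ ≤ _) h1)
  · rintro s' rfl n hn b hb
    have hb : b • x = x := hb
    rcases (hN n).1 hn with h | h
    · left
      apply hdc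
      simp [mul_smul, h.1, hb]
    · by_cases hc : (s' * b * n) • x = x
      · left
        apply hdc
        simp [hc, mul_smul s' n, h.1, hsy]
      · right
        apply hdc
        simp [hc, h.1, hxy.symm]
  · rintro s' rfl h
    obtain ⟨b, hb1, hb2⟩ := h2 hxy hxz
    have : s' * b * s' ∈ (MulAction.stabilizer G x : Set G) := by
      rw [← h]; exact ⟨b, hb1, rfl⟩
    rw [SetLike.mem_coe, MulAction.mem_stabilizer_iff, mul_smul, mul_smul, hsx, hb2] at this
    exact hyz (MulAction.injective s' (hsy.trans this.symm))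
  · simp [BNPair.rank]

end Cfsg.Agent.S0323
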