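import Cfsg.Statements.S0326


set_option autoImplicit false
open Cfsg

namespace Cfsg.Agent.S0326

/-- The Suzuki–Tits ovoid over a finite field with `q` elements has `q² + 1` points. -/
theorem result {F : Type*} [Field F] [Fintype F] (m : ℕ) :
    Nat.card (Cfsg.suzukiOvoid F m) = Fintype.card F ^ 2 + 1 := by
  let f : Option (F × F) → Fin 4 → F := fun ω => match ω with
    | none => ![1, 0, 0, 0]
    | some p => ![p.1 * p.2 + p.1 ^ (2 ^ (m + 1) + 2) + p.2 ^ (2 ^ (m + 1)), p.2, p.1, 1]
  have hf : ∀ ω, f ω ≠ 0 := by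
    intro ω h
    cases ω with
    | none => simpa [f] using congrFun h 0
    | some p => simpa [f] using congrFun h 3
  have : Nat.card (Option (F × F)) = Nat.card (Cfsg.suzukiOvoid F m) := by
    refine Nat.card_congr (Equiv.ofBijective (fun ω => ⟨Projectivization.mk F (f ω) (hf ω), ?_⟩) ⟨?_, ?_⟩)
    · refine ⟨_, _, rfl, ?_⟩
      rcases ω with _ | ⟨x, y⟩
      · exact Or.inl rfl
      · exact Or.inr ⟨x, y, rfl⟩
    · intro ω ω' h
      obtain ⟨a, ha⟩ := (Projectivization.mk_eq_mk_iff' F _ _ _ _).1 (congrArg Subtype.val h)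
      have h0 := congrFun ha 0
      have h1 := congrFun ha 1
      have h2 := congrFun ha 2
      have h3 := congrFun ha 3
      rcases ω with _ | ⟨x, y⟩ <;> rcases ω' with _ | ⟨x', y'⟩ <;> simp [f] at h0 h1 h2 h3 ⊢
      · subst h3; simp at h0
      · subst h3
        exact ⟨by simpa using h2.symm, by simpa using h1.symm⟩
    · rintro ⟨p, v, hv, rfl, h | ⟨x, y, h⟩⟩
      · subst h
        exact ⟨none, rfl⟩
      · subst h
        exact ⟨some (x, y), rfl⟩
  rw [← this]
  simp [pow_two]

end Cfsg.Agent.S0326
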