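import Cfsg.Statements.S0327
import Cfsg.Agent.H5.SZ4

set_option autoImplicit false
open Cfsg

namespace Cfsg.Agent.S0327

open H5.Sz

/-- The Suzuki group (`m ≥ 1`) is a Zassenhaus group on the `q² + 1` points of the Suzuki–Tits ovoid. -/
theorem result {F : Type*} [Field F] [Fintype F] {m : ℕ} (hm : 1 ≤ m)
    (hF : Fintype.card F = 2 ^ (2 * m + 1)) :
    Cfsg.IsZassenhausGroup (Cfsg.Sz F m) (Cfsg.suzukiOvoid F m) := by
  let S := ovS hm hF
  let e := ovEquiv hm hF
  have he : ∀ (g : Cfsg.Sz F m) (ω : S.Ω), g • e ω = e (g • ω) := ov_smul hm hF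
  obtain ⟨h1, h2, h3, h4, h5⟩ := S.zassenhaus
  refine ⟨⟨fun {g k} h => h1.eq_of_smul_eq_smul fun ω => e.injective (by rw [← he, ← he, h])⟩, ?_, ?_, ?_, ?_⟩
  · refine MulAction.is_two_pretransitive_iff.2 fun {a b c d} hab hcd => ?_
    obtain ⟨a, rfl⟩ := e.surjective a
    obtain ⟨b, rfl⟩ := e.surjective b
    obtain ⟨c, rfl⟩ := e.surjective c
    obtain ⟨d, rfl⟩ := e.surjective d
    obtain ⟨g, h, h'⟩ := S.two_trans (fun h => hab (congrArg e h)) (fun h => hcd (congrArg e h))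
    exact ⟨g, by rw [he, h], by rw [he, h']⟩
  · intro g a b c hab hbc hac ha hb hc
    obtain ⟨a, rfl⟩ := e.surjective a
    obtain ⟨b, rfl⟩ := e.surjective b
    obtain ⟨c, rfl⟩ := e.surjective c
    rw [he, e.injective.eq_iff] at ha hb hc
    exact h3 g a b c (fun h => hab (congrArg e h)) (fun h => hbc (congrArg e h))
      (fun h => hac (congrArg e h)) ha hb hc
  · obtain ⟨g, hg, a, b, hab, ha, hb⟩ := h4
    exact ⟨g, hg, e a, e b, e.injective.ne hab, by rw [he, ha], by rw [he, hb]⟩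
  · intro N hN htr
    obtain ⟨a, ha⟩ := h5 N hN ⟨fun a b => by
      obtain ⟨g, hg⟩ := htr.exists_smul_eq (e a) (e b)
      exact ⟨g, e.injective ((he g a).symm.trans hg)⟩⟩
    refine ⟨e a, fun h => ha ?_⟩
    rw [← h]
    ext g
    rw [MulAction.mem_stabilizer_iff, MulAction.mem_stabilizer_iff]
    exact e.injective.eq_iff.symm.trans (Eq.congr_left (he g a).symm)

end Cfsg.Agent.S0327
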