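import Cfsg.Statements.S0335
import Cfsg.Agent.H5.SZ3

set_option autoImplicit false
open Cfsg

namespace Cfsg.Agent.S0335

open H5.Sz

/-- The Suzuki–Tits point set is an ovoid: any three distinct points of it are projectively independent
(no line of projective 3-space meets it in more than two points). -/
theorem result {F : Type*} [Field F] [Fintype F] {m : ℕ} (hm : 1 ≤ m)
    (hF : Fintype.card F = 2 ^ (2 * m + 1)) (p : Fin 3 ↪ Cfsg.suzukiOvoid F m) :
    Projectivization.Independent (fun i => (p i : Projectivization F (Fin 4 → F))) := by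
  obtain ⟨α, hα⟩ := (ovEquiv hm hF).surjective (p 0)
  obtain ⟨β, hβ⟩ := (ovEquiv hm hF).surjective (p 1)
  obtain ⟨γ, hγ⟩ := (ovEquiv hm hF).surjective (p 2)
  have h1 : α ≠ β := by
    rintro rfl
    exact absurd (p.injective (hα.symm.trans hβ)) (by decide)
  have h2 : β ≠ γ := by
    rintro rfl
    exact absurd (p.injective (hβ.symm.trans hγ)) (by decide)
  have h3 : α ≠ γ := by
    rintro rfl
    exact absurd (p.injective (hα.symm.trans hγ)) (by decide)
  have h := Projectivization.Independent.mk _ (fun i => by
    fin_cases i <;> exact vec_ne_zero _ _) ((ovS hm hF).indep h1 h2 h3)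
  convert h using 2 with i
  fin_cases i
  · exact (congrArg Subtype.val hα).symm
  · exact (congrArg Subtype.val hβ).symm
  · exact (congrArg Subtype.val hγ).symm

end Cfsg.Agent.S0335
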