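import Cfsg.Statements.S0338
import Mathlib
import Cfsg.Agent.H8.Zas2

set_option autoImplicit false
open Cfsg

namespace Cfsg.Agent.S0338

open H8

/-- A Zassenhaus group of odd degree is a simple group. -/
theorem result {G Ω : Type*} [Group G] [MulAction G Ω] [Fintype Ω]
    (hZ : Cfsg.IsZassenhausGroup G Ω) (hodd : Odd (Fintype.card Ω)) : IsSimpleGroup G := by
  have h := Zs.of_zas hZ
  obtain ⟨a, b, -, hab, -⟩ := h.exists_triple
  rw [← Nat.card_eq_fintype_card] at hodd
  exact zas_eq_top_of_inv hZ hab (h.odd_S2_of_odd hab hodd) fun s hs => h.inv_of_odd_deg hab hodd hs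

end Cfsg.Agent.S0338
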