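import Cfsg.Statements.S0340
import Mathlib
import Cfsg.Agent.H8.Zas10

set_option autoImplicit false
open Cfsg

namespace Cfsg.Agent.S0340

open H8

/-- Classification of Zassenhaus groups, simple case, order-level form: a finite simple Zassenhaus group is
isomorphic to `PSL₂(F)` for some finite field `F` or is simple of Suzuki order. -/
theorem result {G Ω : Type*} [Group G] [Finite G] [MulAction G Ω]
    [Finite Ω] (hZ : Cfsg.IsZassenhausGroup G Ω) [IsSimpleGroup G] :
    (∃ (F : Type) (_ : Field F) (_ : Fintype F), Nonempty (G ≃* Matrix.ProjectiveSpecialLinearGroup (Fin 2) F)) ∨ Cfsg.IsSuzuki G := by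
  set h := Zs.of_zas hZ
  obtain ⟨a, b, -, hab, -⟩ := h.exists_triple
  have hne := exists_S2_ne_one hZ hab
  by_cases h1 : Nat.card (h.ker a) - 1 ≤ 2 * Nat.card (S2 G a b)
  swap
  · rcases Nat.even_or_odd (Nat.card (S2 G a b)) with hev | hodd
    · exact absurd (h.le_two_mul_of_even hab hev) h1
    · obtain ⟨h2, h3, -⟩ := (zas_feit hZ hab hodd).resolve_left h1
      exact Or.inr (h.isSuzuki hab hne h2 h3)
  left
  obtain ⟨_, p, hp, he⟩ := h.elem_of_large hab hne h1
  obtain ⟨f, hf, hn⟩ := h.card_of_elem hp he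
  haveI := Fact.mk hp
  have hK : Nat.card (GaloisField p f) = Nat.card (h.ker a) := by rw [GaloisField.card p f hf, hn]
  refine ⟨GaloisField p f, inferInstance, Fintype.ofFinite _, ?_⟩
  by_cases h2 : 2 * Nat.card (S2 G a b) ≤ Nat.card (h.ker a) - 1
  · exact (zas_psl_of_half hZ hab h2).2 _ hK
  have h3 := (h.eq_or_two_mul_le hab).resolve_right h2
  have hodd : Odd (Nat.card (S2 G a b)) := by
    by_contra hev
    exact h2 (h.two_mul_le_of_simple hab (Nat.not_odd_iff_even.1 hev))
  obtain ⟨e⟩ := (h.pgl_or_psl hab (fun s hs => h.inv_of_simple hab hodd hs) _ hK).1 h3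
  obtain ⟨e'⟩ := pgl_equiv_psl (GaloisField p f) (by
    have := h.two_le_card_ker a
    rw [hK, show Nat.card (h.ker a) = Nat.card (S2 G a b) + 1 by omega]
    exact hodd.add_one)
  exact ⟨e.trans e'⟩

end Cfsg.Agent.S0340
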