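import Cfsg.Statements.S0341
import Mathlib
import Cfsg.Agent.H8.Zas9

set_option autoImplicit false
open Cfsg

namespace Cfsg.Agent.S0341

open H8

/-- If a finite group acts faithfully and doubly transitively, no non-identity element fixes three points, some
non-identity element fixes two points, and some normal subgroup acts regularly, then the number of points
is `2^p` with `p` prime. -/
theorem result {G Ω : Type*} [Group G]
    [MulAction G Ω] [Fintype Ω] [FaithfulSMul G Ω] (h2 : MulAction.IsMultiplyPretransitive G Ω 2)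
    (h3 : ∀ g : G, ∀ a b c : Ω, a ≠ b → b ≠ c → a ≠ c → g • a = a → g • b = b → g • c = c → g = 1)
    (hfix : ∃ g : G, g ≠ 1 ∧ ∃ a b : Ω, a ≠ b ∧ g • a = a ∧ g • b = b)
    (N : Subgroup G) [N.Normal] (hNt : MulAction.IsPretransitive N Ω)
    (hNr : ∀ a : Ω, MulAction.stabilizer N a = ⊥) :
    ∃ p : ℕ, p.Prime ∧ Fintype.card Ω = 2 ^ p := by
  obtain ⟨g, hg1, a, b, hab, ha, hb⟩ := hfix
  have h : Zs G Ω := by
    refine ⟨fun hab hcd => exists_two_of_isMPT h2 hab hcd, fun h1 h2 h4 => h3 _ _ _ _ h1 h2 h4, ?_⟩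
    by_contra hlt
    apply hg1
    apply eq_of_smul_eq_smul (α := Ω)
    intro c
    rw [one_smul]
    by_cases hca : c = a
    · rw [hca, ha]
    by_cases hcb : c = b
    · rw [hcb, hb]
    exfalso
    apply hlt
    rw [Nat.card_eq_fintype_card]
    exact Fintype.two_lt_card_iff.2 ⟨a, b, c, hab, Ne.symm hca, Ne.symm hcb⟩
  haveI := h.finG
  obtain ⟨D, r, hD⟩ := h.exists_regN N hNt fun x hx a b _ e _ => by
    have : (⟨x, hx⟩ : N) ∈ MulAction.stabilizer N a := e
    rw [hNr] at this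
    exact congrArg Subtype.val (Subgroup.mem_bot.1 this)
  have hne : S2 G a b ≠ ⊥ := fun e => hg1 (by
    have : g ∈ S2 G a b := ⟨ha, hb⟩
    rwa [e] at this)
  obtain ⟨p, hp, hd⟩ := H7.exists_prime_dvd hne
  obtain ⟨x, hx, ho⟩ := H7.exists_orderOf_eq hp hd
  obtain ⟨-, h1, h2⟩ := h.aff_two hD hab (R := Subgroup.zpowers x) (Subgroup.zpowers_le.2 hx)
    (by rw [Ne, Subgroup.zpowers_eq_bot]; rintro rfl; rw [orderOf_one] at ho; exact hp.one_lt.ne ho)
  rw [Nat.card_zpowers, ho, Nat.card_eq_fintype_card] at h1 h2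
  rcases Nat.even_or_odd p with e | e
  · exact ⟨2, Nat.prime_two, h2 e⟩
  · exact ⟨p, hp, h1 e⟩

end Cfsg.Agent.S0341
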