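import Cfsg.Statements.S0344
import Mathlib
import Cfsg.Agent.H8.Zas5

set_option autoImplicit false
open Cfsg

namespace Cfsg.Agent.S0344

open H8 Subgroup

/-- A finite simple Zassenhaus group with a two-point stabiliser of even order is isomorphic to `PSL₂(F)` for a finite
field `F` with more than three elements. -/
theorem result {G Ω : Type*} [Group G] [Finite G] [MulAction G Ω] [Finite Ω]
    (hZ : Cfsg.IsZassenhausGroup G Ω) [IsSimpleGroup G]
    {a b : Ω} (hab : a ≠ b) (heven : Even (Nat.card ↥(MulAction.stabilizer G a ⊓ MulAction.stabilizer G b))) :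
    ∃ (F : Type) (_ : Field F) (_ : Fintype F), 3 < Fintype.card F ∧ Nonempty (G ≃* Matrix.ProjectiveSpecialLinearGroup (Fin 2) F) := by
  have h := Zs.of_zas hZ
  obtain ⟨-, h0, p, f, K, _, _, -, -, h3, h4, h5⟩ := h.psl_of_even hab heven
    (h.two_mul_le_of_simple hab heven)
  refine ⟨K, inferInstance, inferInstance, ?_, h5⟩
  have := (one_lt_card_iff_ne_bot _).2 (exists_S2_ne_one hZ hab)
  omega

end Cfsg.Agent.S0344
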