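import Cfsg.Statements.S0345
import Mathlib
import Cfsg.Agent.H8.Zas5

set_option autoImplicit false
open Cfsg

namespace Cfsg.Agent.S0345

open H8 Subgroup

/-- In a finite simple Zassenhaus group the stabiliser `H` of two points `a ≠ b` is cyclic, and some involution
interchanging `a` and `b` inverts every element of `H`. -/
theorem result {G Ω : Type*} [Group G] [Finite G] [MulAction G Ω] [Finite Ω]
    (hZ : Cfsg.IsZassenhausGroup G Ω) [IsSimpleGroup G]
    {a b : Ω} (hab : a ≠ b) :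
    IsCyclic ↥(MulAction.stabilizer G a ⊓ MulAction.stabilizer G b) ∧
      ∃ v : G, orderOf v = 2 ∧ v • a = b ∧ v • b = a ∧ ∀ h ∈ MulAction.stabilizer G a ⊓ MulAction.stabilizer G b, v * h * v⁻¹ = h⁻¹ := by
  have h := Zs.of_zas hZ
  obtain ⟨s, hs, hs2⟩ := h.exists_sw_invol hab
  have hinv : ∀ k ∈ S2 G a b, s * k * s⁻¹ = k⁻¹ := by
    rcases Nat.even_or_odd (Nat.card (S2 G a b)) with e | e
    · exact (h.psl_of_even hab e (h.two_mul_le_of_simple hab e)).1 s hs
    · exact h.inv_of_simple hab e hs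
  have := H1.isMulCommutative_of_inverts hinv
  exact ⟨h.isCyclic_of_comm hab le_rfl, s, orderOf_eq_two_iff'.2 ⟨hs2, hs.ne_one hab⟩, hs.1, hs.2, hinv⟩

end Cfsg.Agent.S0345
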