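import Cfsg.Statements.S0346
import Mathlib
import Cfsg.Agent.H8.Zas8

set_option autoImplicit false
open Cfsg

namespace Cfsg.Agent.S0346

open H8

/-- The number of points of a finite simple Zassenhaus group is `p^k + 1` for some prime power `p^k` (the regular normal
subgroup of a point stabiliser is a `p`-group). -/
theorem result {G Ω : Type*} [Group G] [Finite G] [MulAction G Ω] [Fintype Ω]
    (hZ : Cfsg.IsZassenhausGroup G Ω) [IsSimpleGroup G] :
    IsPrimePow (Fintype.card Ω - 1) := by
  set h := Zs.of_zas hZ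
  obtain ⟨a, b, -, hab, -⟩ := h.exists_triple
  rw [← Nat.card_eq_fintype_card, ← h.card_ker' a]
  have h1 : Nat.card (h.ker a) - 1 ≤ 2 * Nat.card (S2 G a b) ∨ IsPGroup 2 (h.ker a) := by
    rcases Nat.even_or_odd (Nat.card (S2 G a b)) with hev | hodd
    · exact Or.inl (h.le_two_mul_of_even hab hev)
    · exact (zas_feit hZ hab hodd).imp id fun h => h.1
  rcases h1 with h1 | h1
  · obtain ⟨-, p, hp, he⟩ := h.elem_of_large hab (exists_S2_ne_one hZ hab) h1
    obtain ⟨f, hf, hn⟩ := h.card_of_elem hp he
    rw [hn]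
    exact hp.isPrimePow.pow hf
  · obtain ⟨f, hn⟩ := IsPGroup.iff_card.1 h1
    have := h.two_le_card_ker a
    rw [hn] at this ⊢
    refine Nat.prime_two.isPrimePow.pow ?_
    rintro rfl
    omega

end Cfsg.Agent.S0346
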