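import Cfsg.Statements.S0350
import Mathlib

set_option autoImplicit false
open Cfsg

namespace Cfsg.Agent.S0350

open Finset

/-- Counting pairs (t-subset, block containing it) in two ways: the number of blocks of a Steiner system with parameters (t, k, v), multiplied by C(k, t), equals C(v, t). -/
theorem result {α : Type*} [Fintype α] [DecidableEq α] {t k : ℕ} {B : Set (Finset α)} (hB : Cfsg.IsSteinerSystem t k B) : B.ncard * Nat.choose k t = Nat.choose (Fintype.card α) t := by
  classical
  have hf : B.Finite := Set.toFinite _
  rw [Set.ncard_eq_toFinset_card B hf, ← card_univ, ← card_powersetCard t univ]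
  have := card_eq_sum_card_fiberwise (s := powersetCard t (univ : Finset α)) (t := hf.toFinset)
    (f := fun s => if h : s.card = t then (hB.2 s h).choose else ∅) fun s hs => by
      have h := (mem_powersetCard.1 hs).2
      simp only [h, dif_pos]
      exact hf.mem_toFinset.2 (hB.2 s h).choose_spec.1.1
  rw [this, ← smul_eq_mul, ← sum_const]
  refine sum_congr rfl fun b hb => ?_
  refine Eq.trans (by rw [card_powersetCard, hB.1 b (hf.mem_toFinset.1 hb)] :
    k.choose t = (powersetCard t b).card) ?_
  congr 1
  ext s
  simp only [mem_powersetCard, mem_filter, subset_univ, true_and]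
  constructor
  · rintro ⟨h1, h2⟩
    exact ⟨h2, by rw [dif_pos h2]; exact ((hB.2 s h2).choose_spec.2 b
      ⟨hf.mem_toFinset.1 hb, h1⟩).symm⟩
  · rintro ⟨h1, h2⟩
    rw [dif_pos h1] at h2
    exact ⟨h2 ▸ (hB.2 s h1).choose_spec.1.2, h1⟩

end Cfsg.Agent.S0350
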