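import Cfsg.Statements.S0351
import Mathlib

set_option autoImplicit false
open Cfsg

namespace Cfsg.Agent.S0351

open Finset

/-- Derived design: removing a point p from the blocks through p of an S(t+1, k+1, v) yields an S(t, k, v-1) on the points other than p. -/
theorem result {α : Type*} [Fintype α] [DecidableEq α] {t k : ℕ} {B : Set (Finset α)} (hB : Cfsg.IsSteinerSystem (t + 1) (k + 1) B) (p : α) : Cfsg.IsSteinerSystem t k {b' : Finset {a : α // a ≠ p} | ∃ b ∈ B, p ∈ b ∧ b' = Finset.subtype (fun a => a ≠ p) b} := by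
  have key : ∀ b : Finset α, p ∈ b → b = insert p ((b.subtype fun a => a ≠ p).map
      (Function.Embedding.subtype _)) := fun b hb => by
    rw [subtype_map, filter_ne', insert_erase hb]
  have np : ∀ s : Finset {a : α // a ≠ p}, p ∉ s.map (Function.Embedding.subtype _) := by simp
  constructor
  · rintro _ ⟨b, hb, hp, rfl⟩
    have := hB.1 b hb
    rw [key b hp, card_insert_of_notMem (np _), card_map] at this
    omega
  intro s hs
  obtain ⟨b, ⟨h1, h2⟩, h3⟩ := hB.2 (insert p (s.map (Function.Embedding.subtype _)))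
    (by rw [card_insert_of_notMem (np _), card_map, hs])
  refine ⟨_, ⟨⟨b, h1, h2 (mem_insert_self _ _), rfl⟩, fun x hx => mem_subtype.2
    (h2 (mem_insert_of_mem (mem_map_of_mem _ hx)))⟩, ?_⟩
  rintro _ ⟨⟨c, c1, c2, rfl⟩, c3⟩
  rw [h3 c ⟨c1, by rw [key c c2]; exact insert_subset_insert _ (map_subset_map.2 c3)⟩]

end Cfsg.Agent.S0351
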