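import Cfsg.Statements.S0353
import Cfsg.Agent.H0.StA


set_option autoImplicit false
open Cfsg

namespace Cfsg.Agent.S0353

open H6 H0.St Finset MulAction
open scoped Pointwise
set_option maxRecDepth 100000

/-- In an S(5, 8, 24), the symmetric difference of two blocks meeting in four points is a block. -/
theorem result {α : Type*} [Fintype α] [DecidableEq α] (hα : Fintype.card α = 24) {B : Set (Finset α)} (hB : Cfsg.IsSteinerSystem 5 8 B) {b c : Finset α} (hb : b ∈ B) (hc : c ∈ B) (h4 : (b ∩ c).card = 4) : symmDiff b c ∈ B := by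
  obtain ⟨e, rfl⟩ := oct_iso hα hB
  obtain ⟨b, hb, rfl⟩ := hb
  obtain ⟨c, hc, rfl⟩ := hc
  rw [card_inter_im] at h4
  rw [← image_symmDiff _ _ e.injective, im_mem]
  rw [mem_octads] at hb hc ⊢
  have := card_symmDiff_eq b c
  exact ⟨CC_symmDiff hb.1 hc.1, by omega⟩

end Cfsg.Agent.S0353
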