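import Cfsg.Statements.S0354
import Cfsg.Agent.H0.StA


set_option autoImplicit false
open Cfsg

namespace Cfsg.Agent.S0354

open H6 H0.St Finset MulAction
open scoped Pointwise
set_option maxRecDepth 100000

/-- In an S(5, 8, 24), each block is disjoint from exactly 30 blocks. -/
theorem result {α : Type*} [Fintype α] [DecidableEq α] (hα : Fintype.card α = 24) {B : Set (Finset α)} (hB : Cfsg.IsSteinerSystem 5 8 B) {b : Finset α} (hb : b ∈ B) : {c : Finset α | c ∈ B ∧ Disjoint b c}.ncard = 30 := by
  obtain ⟨e, rfl⟩ := oct_iso hα hB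
  obtain ⟨b, hb, rfl⟩ := hb
  obtain ⟨g, rfl⟩ := tr_octad O0_mem hb
  rw [ncard_im e]
  simp only [im_mem, disjoint_im]
  rw [ncard_transport g (A := {c | c ∈ octads ∧ Disjoint O0 c}) fun x => by
    simp only [Set.mem_setOf_eq, smul_mem_octads, disjoint_iff_inter_eq_empty, ← card_eq_zero, H6.card_smul_inter],
    ncard_oct _ (fun m => Nat.beq (pc (Nat.land 0x149f m)) 0) fun S => by
      rw [← card_dec_inter_eq, card_eq_zero, ← disjoint_iff_inter_eq_empty]; rfl]
  decide +kernel

end Cfsg.Agent.S0354
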