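import Cfsg.Statements.S0355
import Cfsg.Agent.H0.St23
import Cfsg.Agent.H0.Stein2


set_option autoImplicit false
open Cfsg

namespace Cfsg.Agent.S0355

open H6 H0.St Finset MulAction
open scoped Pointwise
set_option maxRecDepth 100000

/-- In a Steiner system S(4, 7, 23), two distinct blocks intersect in 1 or 3 points. -/
theorem result {α : Type*} [Fintype α] [DecidableEq α] (hα : Fintype.card α = 23) {B : Set (Finset α)} (hB : Cfsg.IsSteinerSystem 4 7 B) {b c : Finset α} (hb : b ∈ B) (hc : c ∈ B) (hbc : b ≠ c) : (b ∩ c).card = 1 ∨ (b ∩ c).card = 3 := by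
  obtain ⟨e, rfl⟩ := H0.St23.uniq hα hB
  obtain ⟨_, ⟨b, hb, rfl⟩, rfl⟩ := hb
  obtain ⟨_, ⟨c, hc, rfl⟩, rfl⟩ := hc
  rw [card_inter_im, inter_pc c (by decide) ((ok_spec H0.St23.ok).2.1 b hb)]
  have := allL_iff.1 (allL_iff.1 (by decide +kernel : allL (fun b => allL (fun c => Nat.beq b c ||
    (Nat.beq (pc (Nat.land b c)) 1 || Nat.beq (pc (Nat.land b c)) 3)) H0.St23.S) H0.St23.S = true) b hb) c hc
  simp only [Bool.or_eq_true, Nat.beq_eq] at this
  exact this.resolve_left fun h => hbc (h ▸ rfl)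

end Cfsg.Agent.S0355
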