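import Cfsg.Statements.S0357
import Cfsg.Agent.H0.St12
import Cfsg.Agent.H0.Stein2


set_option autoImplicit false
open Cfsg

namespace Cfsg.Agent.S0357

open H6 H0.St Finset MulAction
open scoped Pointwise
set_option maxRecDepth 100000

/-- In a Steiner system S(5, 6, 12), the complement of every block is again a block. -/
theorem result {α : Type*} [Fintype α] [DecidableEq α] (hα : Fintype.card α = 12) {B : Set (Finset α)} (hB : Cfsg.IsSteinerSystem 5 6 B) {b : Finset α} (hb : b ∈ B) : bᶜ ∈ B := by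
  obtain ⟨e, rfl⟩ := H0.St12.uniq hα hB
  have h1 := hB.1 b hb
  obtain ⟨_, ⟨b, hb, rfl⟩, rfl⟩ := hb
  obtain ⟨c, hc, h⟩ := anyL_iff.1 (allL_iff.1 (by decide +kernel : allL (fun b => anyL (fun c =>
    Nat.beq (pc (Nat.land b c)) 0) H0.St12.S) H0.St12.S = true) b hb)
  have h2 : (dc 12 c).image e ∈ (fun b : Finset (Fin 12) => b.image e) '' fam 12 H0.St12.S := ⟨_, ⟨c, hc, rfl⟩, rfl⟩
  rw [← inter_pc c (by decide) ((ok_spec H0.St12.ok).2.1 b hb), Nat.beq_eq, ← card_inter_im e, card_eq_zero,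
    ← disjoint_iff_inter_eq_empty] at h
  rwa [← eq_of_subset_of_card_le (subset_compl_iff_disjoint_left.2 h) (by rw [card_compl, hα, h1, hB.1 _ h2])]

end Cfsg.Agent.S0357
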