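import Cfsg.Statements.S0362
import Cfsg.Agent.H6.Golay

set_option autoImplicit false
open Cfsg

namespace Cfsg.Agent.S0362
open H6 Finset MulAction
open scoped Pointwise
set_option maxRecDepth 100000

/-- The length-24 code is self-orthogonal: the dot product over ZMod 2 of any two of its words vanishes (with dimension 12 this makes it self-dual). -/
theorem result (v w : Cfsg.GolayPt → ZMod 2) (hv : v ∈ Cfsg.golayCode) (hw : w ∈ Cfsg.golayCode) : ∑ i, v i * w i = 0 := by
  have h := CC_inter_even (mem_code_iff_support.1 hv) (mem_code_iff_support.1 hw)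
  have e : ∑ i, v i * w i = ((support₂ v ∩ support₂ w).card : ZMod 2) := by
    rw [card_eq_sum_ones, Nat.cast_sum, ← sum_subset (subset_univ (support₂ v ∩ support₂ w))]
    · refine sum_congr rfl fun i hi => ?_
      simp only [support₂, mem_inter, mem_filter, mem_univ, true_and] at hi
      rcases zmod2_cases (v i) with h1 | h1 <;> rcases zmod2_cases (w i) with h2 | h2 <;> simp_all
    · intro i _ hi
      simp only [support₂, mem_inter, mem_filter, mem_univ, true_and] at hi
      rcases zmod2_cases (v i) with h1 | h1 <;> rcases zmod2_cases (w i) with h2 | h2 <;> simp_all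
  rw [e, ZMod.natCast_eq_zero_iff]; omega

end Cfsg.Agent.S0362
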