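import Cfsg.Statements.S0369
import Cfsg.Agent.H6.M24

set_option autoImplicit false
open Cfsg

namespace Cfsg.Agent.S0369
open H6 Finset MulAction
open scoped Pointwise
set_option maxRecDepth 100000

/-- The group of the length-24 code coincides with the automorphism group of its octad system. -/
theorem result : Cfsg.M24 = Cfsg.setSystemAut Cfsg.octads := by
  ext σ
  constructor
  · intro h
    exact smul_set_eq_of_maps (Set.toFinite _) fun a ha => (smul_mem_octads ⟨σ, h⟩ a).2 ha
  · intro h
    have h1 : σ • octads = octads := h
    refine mem_M24_of_basis fun j hj => ?_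
    have h2 : allLt 12 (fun j => isCw (bas j) && Nat.beq (pc (bas j)) 8) = true := by decide +kernel
    have h3 : σ • dec (bas j) ∈ octads := by
      rw [← h1]; exact Set.smul_mem_smul_set (dec_mem_octads (allLt_iff.1 h2 j hj))
    exact h3.1

end Cfsg.Agent.S0369
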