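import Cfsg.Statements.S0370
import Cfsg.Agent.H6.Perm24

set_option autoImplicit false
open Cfsg

namespace Cfsg.Agent.S0370
open H6 Finset MulAction
open scoped Pointwise
set_option maxRecDepth 100000

/-- The permutation x ↦ x + 1 of the residues modulo 23, fixing the extra point, lies in the group of the length-24 code. -/
theorem result : Equiv.optionCongr (Equiv.addRight (1 : ZMod 23)) ∈ Cfsg.M24 := by
  have := (eq_P (t := 0xb82d5a4e5183dcd62d4941cc520c41) (σ := Equiv.optionCongr (Equiv.addRight (1 : ZMod 23)))
    (by decide +kernel)).2
  rw [this]; exact (gd_of (by decide +kernel)).2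

end Cfsg.Agent.S0370
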