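import Cfsg.Statements.S0371
import Cfsg.Agent.H6.Perm24

set_option autoImplicit false
open Cfsg

namespace Cfsg.Agent.S0371
open H6 Finset MulAction
open scoped Pointwise
set_option maxRecDepth 100000

/-- Multiplication by a nonzero square residue modulo 23, fixing the extra point, lies in the group of the length-24 code. -/
theorem result (u : (ZMod 23)ˣ) (hu : IsSquare u) : Equiv.optionCongr (Units.mulLeft u) ∈ Cfsg.M24 := by
  obtain ⟨r, rfl⟩ := hu
  have h2 : Equiv.optionCongr (Units.mulLeft (ZMod.unitOfCoprime 2 (by norm_num) : (ZMod 23)ˣ)) ∈ M24 := by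
    have := (eq_P (t := 0xbd6717b56939461b52507314831040) (σ := Equiv.optionCongr (Units.mulLeft (ZMod.unitOfCoprime 2 (by norm_num) : (ZMod 23)ˣ)))
      (by decide +kernel)).2
    rw [this]; exact (gd_of (by decide +kernel)).2
  have h3 : ∀ r : (ZMod 23)ˣ, ∃ k < 11, r * r = ZMod.unitOfCoprime 2 (by norm_num) ^ k := by decide +kernel
  obtain ⟨k, -, e⟩ := h3 r
  rw [e]
  clear e
  induction k with
  | zero =>
    have : Equiv.optionCongr (Units.mulLeft (ZMod.unitOfCoprime 2 (by norm_num) ^ 0 : (ZMod 23)ˣ)) = 1 := by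
      ext1 p; cases p <;> simp
    rw [this]; exact one_mem _
  | succ k ih =>
    have : Equiv.optionCongr (Units.mulLeft (ZMod.unitOfCoprime 2 (by norm_num) ^ (k + 1) : (ZMod 23)ˣ)) =
        Equiv.optionCongr (Units.mulLeft (ZMod.unitOfCoprime 2 (by norm_num) ^ k : (ZMod 23)ˣ)) *
        Equiv.optionCongr (Units.mulLeft (ZMod.unitOfCoprime 2 (by norm_num) : (ZMod 23)ˣ)) := by
      ext1 p; cases p <;> simp [pow_succ, mul_assoc]
    rw [this]; exact mul_mem ih h2

end Cfsg.Agent.S0371
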