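import Cfsg.Statements.S0372
import Cfsg.Agent.H6.Perm24

set_option autoImplicit false
open Cfsg

namespace Cfsg.Agent.S0372
open H6 Finset MulAction
open scoped Pointwise
set_option maxRecDepth 100000

/-- The involution x ↦ -1/x of the projective line over ZMod 23 lies in the group of the length-24 code. -/
theorem result : Cfsg.projInv ∈ Cfsg.M24 := by
  have := (eq_P (t := 0x5883388a1c8f5140b46cd317aed7) (σ := projInv) (by decide +kernel)).2
  rw [this]; exact (gd_of (by decide +kernel)).2

end Cfsg.Agent.S0372
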