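import Cfsg.Statements.S0373
import Cfsg.Agent.H6.Perm24

set_option autoImplicit false
open Cfsg

namespace Cfsg.Agent.S0373
open H6 Finset MulAction
open scoped Pointwise
set_option maxRecDepth 100000

/-- The cube-twist permutation (squares t ↦ t^3/9, non-squares t ↦ 9t^3, extra point fixed) lies in the group of the length-24 code. -/
theorem result : Cfsg.cubeTwist ∈ Cfsg.M24 := by
  have := (eq_P (t := 0xbba8ab116d7c52899d90286a219a40) (σ := cubeTwist)
    (show ∀ p, idx (cubeTwistFun p) = _ by decide +kernel)).2
  rw [this]; exact (gd_of (by decide +kernel)).2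

end Cfsg.Agent.S0373
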