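import Cfsg.Statements.S0374
import Cfsg.Agent.H6.M24

set_option autoImplicit false
open Cfsg

namespace Cfsg.Agent.S0374
open H6 Finset MulAction
open scoped Pointwise
set_option maxRecDepth 100000

/-- The group of the length-24 code is generated by x ↦ x+1, x ↦ -1/x and the cube-twist permutation. -/
theorem result : Subgroup.closure {Equiv.optionCongr (Equiv.addRight (1 : ZMod 23)), Cfsg.projInv, Cfsg.cubeTwist} = Cfsg.M24 := by
  have ha := eq_P (t := 0xb82d5a4e5183dcd62d4941cc520c41) (σ := Equiv.optionCongr (Equiv.addRight (1 : ZMod 23)))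
    (by decide +kernel)
  have hb := eq_P (t := 0x5883388a1c8f5140b46cd317aed7) (σ := projInv) (by decide +kernel)
  have hc := eq_P (t := 0xbba8ab116d7c52899d90286a219a40) (σ := cubeTwist)
    (show ∀ p, idx (cubeTwistFun p) = _ by decide +kernel)
  have ga : Gd 0xb82d5a4e5183dcd62d4941cc520c41 := gd_of (by decide +kernel)
  have gb : Gd 0x5883388a1c8f5140b46cd317aed7 := gd_of (by decide +kernel)
  have gc : Gd 0xbba8ab116d7c52899d90286a219a40 := gd_of (by decide +kernel)
  set K := Subgroup.closure {Equiv.optionCongr (Equiv.addRight (1 : ZMod 23)), projInv, cubeTwist}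
  have h1 : K ≤ M24 := by
    rw [Subgroup.closure_le]
    rintro x (rfl | rfl | rfl)
    · rw [ha.2]; exact ga.2
    · rw [hb.2]; exact gb.2
    · rw [hc.2]; exact gc.2
  have h2 : Ck (inL (slp [(2, 2), (1, 2), (0, 2), (2, 2), (0, 1), (0, 2), (0, 3), (0, 6), (7, 7), (0, 8), (0, 7), (0, 8), (0, 9), (0, 5), (0, 1), (0, 7), (0, 8), (0, 4), (0, 5), (0, 6), (0, 12), (0, 13), (0, 14), (0, 15), (0, 4), (5, 17), (0, 6), (0, 19), (0, 20), (0, 21), (0, 5), (0, 6), (0, 2), (0, 8), (0, 4), (5, 5), (0, 11), (0, 12), (0, 8), (0, 14), (0, 15), (16, 16), (0, 12), (0, 18), (0, 19), (0, 20), (5, 0)]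
      [0xb82d5a4e5183dcd62d4941cc520c41, 0x5883388a1c8f5140b46cd317aed7, 0xbba8ab116d7c52899d90286a219a40])) (K.subgroupOf M24) := by
    refine ck_inL (slp_mem _ _ fun t ht => ?_)
    simp only [List.mem_cons, List.not_mem_nil, or_false] at ht
    rcases ht with e | e | e <;> rw [e, Subgroup.mem_subgroupOf]
    · exact ⟨ga, by rw [ga.coe, ← ha.2]; exact Subgroup.subset_closure (by simp)⟩
    · exact ⟨gb, by rw [gb.coe, ← hb.2]; exact Subgroup.subset_closure (by simp)⟩
    · exact ⟨gc, by rw [gc.coe, ← hc.2]; exact Subgroup.subset_closure (by simp)⟩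
  have h3 := h2.chain_le [(0, [0xbba8ab116d7c52899d90286a219a40, 0x5883388a1c8f5140b46cd317aed7, 0xb82d5a4e5183dcd62d4941cc520c41]), (1, [0xbc54770a697ad90b150daca8618480, 0xdc4d49de559268b0e26aba8a94180]), (2, [0x64d481d5f1b9ad04ae4e391b428820, 0x822ac799c9b8d719166269ec4a2820]), (3, [0x64d481d5f1b9ad04ae4e391b428820, 0x7d2ac8c2d729d33434c35924a70820]), (4, [0xb2a0fbcd2572d14648f1690d518820, 0x8d54c81dcf9dc896da88348ab18820]), (5, [0xbb5135bdd63160aa1ea964a2418820, 0x321b52cacebae8a81e7163d2418820, 0x41af1916146bdcab1d3562e6418820]), (6, [0x8bcd6925d5a5d674326d540a418820])]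
  have h4 : K.subgroupOf M24 = ⊤ := eq_of_le_of_card_le le_top (by
    rw [card_top_M24]; exact le_trans (by decide +kernel) h3)
  exact le_antisymm h1 (Subgroup.subgroupOf_eq_top.1 h4)

end Cfsg.Agent.S0374
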