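import Cfsg.Statements.S0380
import Cfsg.Agent.H0.Mat
import Cfsg.Agent.H0.IL34
import Cfsg.Agent.H6.More


set_option autoImplicit false
open Cfsg

namespace Cfsg.Agent.S0380

/-- A three-point stabiliser in the group of the length-24 code is isomorphic to PSL(3, F) for the field F with 4 elements. -/
theorem result (p q r : Cfsg.GolayPt) (hpq : p ≠ q) (hpr : p ≠ r) (hqr : q ≠ r) (F : Type) [Field F] [Fintype F] (hF : Fintype.card F = 4) : Nonempty (↥(MulAction.stabilizer Cfsg.M24 p ⊓ MulAction.stabilizer Cfsg.M24 q ⊓ MulAction.stabilizer Cfsg.M24 r) ≃* Matrix.ProjectiveSpecialLinearGroup (Fin 3) F) := by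
  obtain ⟨e⟩ := H0.IL34.iso
  obtain ⟨f⟩ := H0.iso_M24 (((H6.ckP 23).fxP 0).fxP 1) [0xbda435d5302a9a69ba27431e4a0820, 0xbc0d19d0895946e6d94c1551279c20, 0xba8d2992961b1687a605155d169c20, 0xbba8b418646d947115338c1f265420, 0xbb855410e62d9e3a3533649508ac20, 0xba14fb168234e4dac1c989c8c1ac20, 0xbcd71734eaa25841551633e451c020, 0xbb8c49ca2c7d9b0195091555459c20, 0xbb8e39c6506d9ec22909a88aba1820, 0xbda269d08c5a06a141c96c8b53bc20, 0xbd89299aaa124f07b10e1d0b16ac20, 0xba1e698d7025a851312e935553c420, 0xbb88d99c50aa0ca895361d18f92c20] (by decide +kernel)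
    (H0.ML34.simple (H0.Pres.pg _ _)) (H0.ML34.card (H0.Pres.pg _ _)) (H6.card_stab3 (by decide)) (by decide)
  obtain ⟨g, h1, h2, h3⟩ := H6.tr3 (a := H6.pt 23) (b := H6.pt 0) (c := H6.pt 1) (a' := p) (b' := q) (c' := r) (by decide) (by simp [*])
  exact ⟨(((H6.Cj.stab' h1).inf (H6.Cj.stab' h2)).inf (H6.Cj.stab' h3)).equiv.symm.trans (f.symm.trans (e.trans (H0.cenEquiv (H0.slEquiv (H0.fe H0.G4 hF H0.c4)))))⟩

end Cfsg.Agent.S0380
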