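import Cfsg.Statements.S0381
import Cfsg.Agent.H6.Octad

set_option autoImplicit false
open Cfsg

namespace Cfsg.Agent.S0381
open H6 Finset MulAction
open scoped Pointwise
set_option maxRecDepth 100000

/-- The pointwise stabiliser of an octad in the group of the length-24 code has order 16 and every element of it squares to the identity. -/
theorem result (o : Finset Cfsg.GolayPt) (ho : o ∈ Cfsg.octads) : Nat.card ↥(Cfsg.M24 ⊓ fixingSubgroup (Equiv.Perm Cfsg.GolayPt) (o : Set Cfsg.GolayPt)) = 16 ∧ ∀ g ∈ Cfsg.M24 ⊓ fixingSubgroup (Equiv.Perm Cfsg.GolayPt) (o : Set Cfsg.GolayPt), g * g = 1 := by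
  have e : M24 ⊓ fixingSubgroup (Equiv.Perm GolayPt) (o : Set GolayPt) = (fixingSubgroup M24 (o : Set GolayPt)).map M24.subtype := by
    ext g; constructor
    · rintro ⟨h1, h2⟩; exact ⟨⟨g, h1⟩, h2, rfl⟩
    · rintro ⟨k, hk, rfl⟩; exact ⟨k.2, hk⟩
  rw [e, Subgroup.card_map_of_injective M24.subtype_injective]
  refine ⟨card_fix_octad ho, ?_⟩
  rintro _ ⟨k, hk, rfl⟩
  suffices k * k = 1 from congrArg Subtype.val this
  obtain ⟨g, rfl⟩ := tr_octad O0_mem ho
  have hk' := ((Cj.fixing g O0) k).1 hk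
  suffices ∀ k ∈ fixingSubgroup M24 (O0 : Set GolayPt), k * k = 1 by
    have := this _ hk'
    have h : k * k = g * (g⁻¹ * k * g * (g⁻¹ * k * g)) * g⁻¹ := by group
    rw [h, this]; simp
  intro k hk
  have h1 : ∀ j < 24, tb 0x149f j = true ∨ ∃ t ∈ [0xbdab49ca307b9ac5a928398a418820, 0xabee5339abb4a2c829093ce8418820, 0x94dd1b5e89354ac42a0b3bda418820, 0x6c22e496b65d2ec7aa663a24418820, 0x451368ae6e2c0cc92ab73b5e418820, 0x71a4d7d4a89de8c4a9703da2418820, 0x8adb2452ef816acb28d33a5c418820, 0x4950f6c0d2a2e6c72af53c6c418820, 0x2a695835d34464c32acf3aee418820, 0x5c613a22d56a5ecba9d2394c418820, 0x33a70abd349590c2aa2d3dd6418820, 0xa20b75c6464b5cc9a9f63c2a418820, 0x835662a5f78a2ccaaa4e3d26418820, 0x9c8cbbd90573d2ca29b13d60418820, 0x7d6c971a11bcd6c6aa853c90418820, 0xb5de894d6da9a0c8a8b43b92418820], (fxA inM 0x149f t && Nat.beq (ap t 5) j && Nat.beq (mulT t t) idT) = true := by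
    decide +kernel
  have h2 : k • pt 5 ∉ O0 := by
    have : k • pt 5 ∈ orb (fixingSubgroup M24 (O0 : Set GolayPt)) (pt 5) := ⟨k, hk, rfl⟩
    rwa [orb_fix_octad O0_mem (by decide +kernel)] at this
  rcases h1 _ (idx_lt (k • pt 5)) with h | ⟨t, -, h⟩
  · exact absurd (mem_dec.2 (by rwa [tb_eq] at h)) h2
  simp only [Bool.and_eq_true, Nat.beq_eq] at h
  have h3 := ckA _ t h.1.1
  have h4 : (E t)⁻¹ * k ∈ fixingSubgroup M24 (O0 : Set GolayPt) ⊓ stabilizer M24 (pt 5) :=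
    ⟨(fixingSubgroup M24 (O0 : Set GolayPt)).mul_mem ((fixingSubgroup M24 (O0 : Set GolayPt)).inv_mem h3.2) hk, by
      show _ ∈ stabilizer M24 _
      rw [mem_stabilizer_iff, mul_smul, inv_smul_eq_iff, h3.1.smul_pt (by norm_num), h.1.2, pt_idx]⟩
  rw [fix_octad_pt O0_mem (by decide +kernel), Subgroup.mem_bot, inv_mul_eq_one] at h4
  rw [← h4, ← h3.1.E_mul h3.1, h.2, E_idT]

end Cfsg.Agent.S0381
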