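import Cfsg.Statements.S0384
import Cfsg.Agent.H6.Mathieu

set_option autoImplicit false
open scoped Pointwise
open Cfsg

namespace Cfsg.Agent.S0384
open H6 Finset MulAction
open scoped Pointwise
set_option maxRecDepth 100000

/-- A dodecad stabiliser is sharply 5-transitive on the dodecad. -/
theorem result (d : Finset Cfsg.GolayPt) (hd : d ∈ Cfsg.dodecads) (x y : Fin 5 ↪ Cfsg.GolayPt) (hx : ∀ i, x i ∈ d) (hy : ∀ i, y i ∈ d) : ∃! g : MulAction.stabilizer Cfsg.M24 d, ∀ i, ((g : Cfsg.M24) : Equiv.Perm Cfsg.GolayPt) (x i) = y i := by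
  obtain ⟨⟨g, hg, e⟩, h2⟩ := M12_sharp hd x y hx hy
  refine ⟨⟨g, hg⟩, fun i => DFunLike.congr_fun e i, fun k hk => ?_⟩
  have : g⁻¹ * k ∈ stabilizer M24 d ⊓ stabilizer M24 x := by
    refine ⟨(stabilizer M24 d).mul_mem ((stabilizer M24 d).inv_mem hg) k.2, Function.Embedding.ext fun i => ?_⟩
    have h3 : g • x i = y i := DFunLike.congr_fun e i
    have h4 : (k : M24) • x i = y i := hk i
    show (g⁻¹ * k) • x i = x i
    rw [mul_smul, h4, ← h3, inv_smul_smul]
  rw [h2, Subgroup.mem_bot, inv_mul_eq_one] at this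
  exact Subtype.ext this.symm

end Cfsg.Agent.S0384
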