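import Cfsg.Statements.S0385
import Cfsg.Agent.H0.Stein2


set_option autoImplicit false
open Cfsg

namespace Cfsg.Agent.S0385

open H6 H0.St Finset MulAction
open scoped Pointwise
set_option maxRecDepth 100000

/-- The 6-point intersections of octads with a fixed dodecad form a Steiner system S(5, 6, 12) on the dodecad. -/
theorem result (d : Finset Cfsg.GolayPt) (hd : d ∈ Cfsg.dodecads) : Cfsg.IsSteinerSystem 5 6 {h : Finset {p : Cfsg.GolayPt // p ∈ d} | ∃ o ∈ Cfsg.octads, (o ∩ d).card = 6 ∧ h = Finset.subtype (fun p => p ∈ d) o} := by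
  have hc : ∀ o : Finset GolayPt, (o.subtype (· ∈ d)).card = (o ∩ d).card := fun o => by
    rw [card_subtype, filter_mem_eq_inter]
  refine stein_of ?_ (fun s hs => ?_) ?_
  · rintro _ ⟨o, -, h, rfl⟩; rw [hc, h]
  · obtain ⟨o, ho, h⟩ := exists_octad (s := s.map (Function.Embedding.subtype _)) (by rw [card_map, hs])
    have h1 : s ⊆ o.subtype (· ∈ d) := fun x hx => mem_subtype.2 (h (mem_map_of_mem _ hx))
    refine ⟨_, ⟨o, ho, ?_, rfl⟩, h1⟩
    have h2 := card_le_card h1
    rw [hc, hs] at h2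
    rw [mem_octads] at ho
    rw [mem_dodecads] at hd
    have h3 := CC_inter_even ho.1 hd.1
    have h4 := CC_card (CC_symmDiff ho.1 hd.1)
    have h5 := card_symmDiff_eq o d
    have h6 := card_le_card (inter_subset_left (s₁ := o) (s₂ := d))
    omega
  · rintro _ ⟨o, ho, -, rfl⟩ _ ⟨o', ho', -, rfl⟩ h
    rw [octad_eq_of_five ho ho' (h.trans ((card_le_card fun x hx => mem_subtype.2 (mem_inter.2
      ⟨mem_subtype.1 (mem_inter.1 hx).1, mem_subtype.1 (mem_inter.1 hx).2⟩)).trans
        ((hc _).trans_le (card_le_card inter_subset_left))))]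

end Cfsg.Agent.S0385
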