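import Cfsg.Statements.S0386
import Cfsg.Agent.H6.Octad

set_option autoImplicit false
open Cfsg

namespace Cfsg.Agent.S0386
open H6 Finset MulAction
open scoped Pointwise
set_option maxRecDepth 100000

/-- For a fixed dodecad, 132 octads meet it in 6 points, 132 in 2 points and 495 in 4 points. -/
theorem result (d : Finset Cfsg.GolayPt) (hd : d ∈ Cfsg.dodecads) : {o : Finset Cfsg.GolayPt | o ∈ Cfsg.octads ∧ (o ∩ d).card = 6}.ncard = 132 ∧ {o : Finset Cfsg.GolayPt | o ∈ Cfsg.octads ∧ (o ∩ d).card = 2}.ncard = 132 ∧ {o : Finset Cfsg.GolayPt | o ∈ Cfsg.octads ∧ (o ∩ d).card = 4}.ncard = 495 := by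
  obtain ⟨g, rfl⟩ := tr_dodecad D0_mem hd
  have key : ∀ k, {o : Finset GolayPt | o ∈ octads ∧ (o ∩ g • D0).card = k}.ncard =
      cntLt 4096 (fun n => Nat.beq (pc (cw n)) 8 && Nat.beq (pc (Nat.land 0x5335f (cw n))) k) := fun k => by
    rw [ncard_transport g (A := {o : Finset GolayPt | o ∈ octads ∧ (o ∩ D0).card = k}) (fun x => by simp [H6.card_smul_inter])]
    exact ncard_oct _ (fun m => Nat.beq (pc (Nat.land 0x5335f m)) k) fun S => by
      rw [Set.mem_ofPred_eq, inter_comm, D0, card_dec_inter_eq]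
  rw [key, key, key]; decide +kernel

end Cfsg.Agent.S0386
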