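import Cfsg.Statements.S0403
import Cfsg.Agent.H6.CoSub

set_option autoImplicit false
open Cfsg

namespace Cfsg.Agent.S0403
open H6 Finset MulAction
open scoped Pointwise
set_option maxRecDepth 100000

/-- Stabiliser of a vector of sum of squares 48 is simple of order 495766656000. -/
theorem result (v : Cfsg.leechLattice) (hv : Cfsg.sqNorm (v : Cfsg.GolayPt → ℤ) = 48) : Cfsg.IsCo3 (MulAction.stabilizer Cfsg.Co0 v) := by
  obtain ⟨g, h⟩ := trans_48 sq_V hv
  exact ⟨(Cj.stab' h).simple (H6M.MCo3.simple qCo3), (Cj.stab' h).card.trans card_stab_V⟩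

end Cfsg.Agent.S0403
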