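import Cfsg.Statements.S0412
import Cfsg.Agent.H0.StA


set_option autoImplicit false
open Cfsg

namespace Cfsg.Agent.S0412

open H6 H0.St Finset MulAction
open scoped Pointwise
set_option maxRecDepth 100000

/-- Aut of an S(5, 8, 24) is simple of order 244823040 and 5-transitive on points. -/
theorem result {α : Type*} [Fintype α] [DecidableEq α] (hα : Fintype.card α = 24) {B : Set (Finset α)} (hB : Cfsg.IsSteinerSystem 5 8 B) : Cfsg.IsM24 (Cfsg.setSystemAut B) ∧ MulAction.IsMultiplyPretransitive (Cfsg.setSystemAut B) α 5 := by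
  obtain ⟨p, -, h2, -, ρ, h4, h5, h6⟩ := res24 hα hB
  obtain ⟨e⟩ := equiv_of_res h4 h5 fun g _ hg => one_of_out (M := 0) [] (by decide +kernel) (h2 ▸ hg :)
  have e2 : stabilizer M24 (dec 0) ≃* M24 := (MulEquiv.subgroupCongr (by
    rw [eq_top_iff]; intro g _; rw [dec_zero]; exact smul_finset_empty g)).trans Subgroup.topEquiv
  haveI := simple_M24
  exact ⟨⟨(e.symm.trans e2).isSimpleGroup, (Nat.card_congr (e.symm.trans e2).toEquiv).trans card_M24⟩, h6⟩

end Cfsg.Agent.S0412
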