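import Cfsg.Statements.S0413
import Cfsg.Agent.H0.StA


set_option autoImplicit false
open Cfsg

namespace Cfsg.Agent.S0413

open H6 H0.St Finset MulAction
open scoped Pointwise
set_option maxRecDepth 100000

/-- Aut of an S(4, 7, 23) is simple of order 10200960 and 4-transitive. -/
theorem result {α : Type*} [Fintype α] [DecidableEq α] (hα : Fintype.card α = 23) {B : Set (Finset α)} (hB : Cfsg.IsSteinerSystem 4 7 B) : Cfsg.IsM23 (Cfsg.setSystemAut B) ∧ MulAction.IsMultiplyPretransitive (Cfsg.setSystemAut B) α 4 := by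
  obtain ⟨p, -, h2, -, ρ, h4, h5, h6⟩ := res23 hα hB
  obtain ⟨e⟩ := equiv_of_res h4 h5 fun g _ hg => one_of_out (M := 0x800000) [[13062145]] (by decide +kernel) (h2 ▸ hg :)
  have e2 : stabilizer M24 (dec 0x800000) ≃* stabilizer M24 (pt 23) :=
    MulEquiv.subgroupCongr (stab_single (j := 23) (by decide))
  haveI := simple1 (pt 23)
  exact ⟨⟨(e.symm.trans e2).isSimpleGroup, (Nat.card_congr (e.symm.trans e2).toEquiv).trans (card_stab1 _)⟩, h6⟩

end Cfsg.Agent.S0413
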