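import Cfsg.Statements.S0414
import Cfsg.Agent.H0.StA


set_option autoImplicit false
open Cfsg

namespace Cfsg.Agent.S0414

open H6 H0.St Finset MulAction
open scoped Pointwise
set_option maxRecDepth 100000

/-- Aut of an S(3, 6, 22) has order 887040, is 3-transitive, and contains a simple subgroup of index 2. -/
theorem result {α : Type*} [Fintype α] [DecidableEq α] (hα : Fintype.card α = 22) {B : Set (Finset α)} (hB : Cfsg.IsSteinerSystem 3 6 B) : Nat.card (Cfsg.setSystemAut B) = 887040 ∧ MulAction.IsMultiplyPretransitive (Cfsg.setSystemAut B) α 3 ∧ ∃ H : Subgroup (Cfsg.setSystemAut B), H.index = 2 ∧ Cfsg.IsM22 H := by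
  obtain ⟨p, -, h2, -, ρ, h4, h5, h6⟩ := res22 hα hB
  obtain ⟨e⟩ := equiv_of_res h4 h5 fun g _ hg => one_of_out (M := 0xc00000) [[4845570], [13062145]] (by decide +kernel) (h2 ▸ hg :)
  have h7 : Nat.card (stabilizer M24 (dec 0xc00000)) = 887040 := by
    refine card_stab_top (d := 276) ?_ (by decide)
    rw [show orb (⊤ : Subgroup M24) (dec 0xc00000) = {U | U.card = 2} from Set.ext fun U => ⟨by
      rintro ⟨g, -, rfl⟩; exact (card_smul_finset _ _).trans (by decide +kernel), fun hU =>
        (tr_set (hU.trans (by decide +kernel)) (by decide +kernel)).imp fun g hg => ⟨trivial, hg⟩⟩, ncard_subsets]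
    rfl
  have h8 : stabilizer M24 (pt 22) ⊓ stabilizer M24 (pt 23) ≤ stabilizer M24 (dec 0xc00000) := fun g hg =>
    smul_eq_of_fix fun a ha => by
      rw [show dec 0xc00000 = {pt 22, pt 23} by decide +kernel, mem_insert, mem_singleton] at ha
      rcases ha with rfl | rfl
      exacts [hg.1, hg.2]
  have h9 := (Nat.card_congr e.toEquiv).symm.trans h7
  have e2 := (Subgroup.subgroupOfEquivOfLe h8).symm.trans (e.subgroupMap _)
  haveI := simple2 (p := pt 22) (q := pt 23) (by decide)
  have h10 := (Nat.card_congr e2.toEquiv).symm.trans (card_stab2 (by decide))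
  refine ⟨h9, h6, _, ?_, e2.symm.isSimpleGroup, h10⟩
  have := Subgroup.card_mul_index (((stabilizer M24 (pt 22) ⊓ stabilizer M24 (pt 23)).subgroupOf
    (stabilizer M24 (dec 0xc00000))).map (e : _ →* setSystemAut B))
  rw [h9, h10] at this
  omega

end Cfsg.Agent.S0414
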