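import Cfsg.Statements.S0419
import Mathlib
import Cfsg.Agent.H8.MI

set_option autoImplicit false
open Cfsg

namespace Cfsg.Agent.S0419

/-- A sharply 5-transitive group of degree 12 is simple of order 95040. -/
theorem result {α : Type*} [Fintype α] [DecidableEq α] (hα : Fintype.card α = 12) (G : Subgroup (Equiv.Perm α)) [MulAction.IsMultiplyPretransitive G α 5] (hsharp : ∀ x : Fin 5 ↪ α, MulAction.stabilizer G x = ⊥) : Cfsg.IsM12 G := by
  haveI : Fact (Nat.Prime 11) := ⟨by norm_num⟩
  have c : Nat.card G = 95040 := by rw [H8.card_of_sharp (by omega) hsharp, hα]; rfl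
  obtain ⟨x, x1, x2⟩ := H8.exists_cen_cycle (p := 11) (by omega) (by norm_num) G (by rw [c]; norm_num)
  exact ⟨H8.simple_of_cen (m := 8640) (e := 5) (L := [2, 3, 5]) (by decide) (by decide)
    (by decide +kernel) (by norm_num) (by decide) (by decide) c x1 x2, c⟩

end Cfsg.Agent.S0419
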