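import Cfsg.Statements.S0423
import Cfsg.Agent.H0.MJ2p.Main
import Cfsg.Agent.H0.Emb2


set_option autoImplicit false
open Cfsg

namespace Cfsg.Agent.S0423

/-- Existence of a simple group of order 604800. -/
theorem result : ∃ G : Subgroup (Equiv.Perm (Fin 100)), Cfsg.IsJ2 G := by
  have := H0.MJ2p.simple (H0.Pres.pg 12 H0.MJ2p.B)
  obtain ⟨H, ⟨e⟩, -⟩ := H0.realize ((H0.MJ2p.m (H0.Pres.pg 12 H0.MJ2p.B)).pst [0]) (n := 100) (H0.index_of_card (H0.MJ2p.card (H0.Pres.pg 12 H0.MJ2p.B)) (H0.MJ2p.card_stab (H0.Pres.pg 12 H0.MJ2p.B)) (by decide) (by decide)) (by decide)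
  exact ⟨H, e.symm.isSimpleGroup, (Nat.card_congr e.toEquiv).symm.trans (H0.MJ2p.card (H0.Pres.pg 12 H0.MJ2p.B))⟩

end Cfsg.Agent.S0423
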