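import Cfsg.Statements.S0425
import Cfsg.Agent.H0.StA


set_option autoImplicit false
open Cfsg

namespace Cfsg.Agent.S0425

open H6 H0.St Finset MulAction
open scoped Pointwise
set_option maxRecDepth 100000

/-- Aut of an S(5, 6, 12) is simple of order 95040 and sharply 5-transitive on points. -/
theorem result {α : Type*} [Fintype α] [DecidableEq α] (hα : Fintype.card α = 12) {B : Set (Finset α)} (hB : Cfsg.IsSteinerSystem 5 6 B) : Cfsg.IsM12 (Cfsg.setSystemAut B) ∧ MulAction.IsMultiplyPretransitive (Cfsg.setSystemAut B) α 5 ∧ ∀ x : Fin 5 ↪ α, MulAction.stabilizer (Cfsg.setSystemAut B) x = ⊥ := by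
  obtain ⟨p, -, h2, -, ρ, h4, h5, h6⟩ := res12 hα hB
  obtain ⟨e⟩ := equiv_of_res h4 h5 fun g _ hg => eq_one_of_fix_dodecad D0_mem (h2 ▸ hg :)
  haveI := simple_M12 D0_mem
  have h7 := (Nat.card_congr e.toEquiv).symm.trans (card_stab_dodecad D0_mem)
  exact ⟨⟨e.symm.isSimpleGroup, h7⟩, h6, sharp_of_card h6 (by rw [h7, hα]; rfl)⟩

end Cfsg.Agent.S0425
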