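import Cfsg.Statements.S0430
import Cfsg.Agent.H0.Gr


set_option autoImplicit false
open Cfsg

namespace Cfsg.Agent.S0430

open H6 H0.St Finset MulAction
open scoped Pointwise
set_option maxRecDepth 100000

/-- Uniqueness of the strongly regular graph with parameters (100, 22, 0, 6). -/
theorem result {V W : Type*} [Fintype V] [Fintype W] {G : SimpleGraph V} {H : SimpleGraph W} [DecidableRel G.Adj] [DecidableRel H.Adj] (hG : G.IsSRGWith 100 22 0 6) (hH : H.IsSRGWith 100 22 0 6) : Nonempty (G ≃g H) := by
  classical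
  haveI : Nonempty V := Fintype.card_pos_iff.1 (hG.card ▸ by decide)
  haveI : Nonempty W := Fintype.card_pos_iff.1 (hH.card ▸ by decide)
  obtain ⟨a, -, h4⟩ := srg_iso hG (Classical.arbitrary V)
  obtain ⟨b, -, h5⟩ := srg_iso hH (Classical.arbitrary W)
  exact ⟨(iso_of_masks a b h4 h5).choose⟩

end Cfsg.Agent.S0430
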