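import Cfsg.Statements.S0431
import Cfsg.Agent.H0.GrHS


set_option autoImplicit false
open Cfsg

namespace Cfsg.Agent.S0431

open H6 H0.St Finset MulAction
open scoped Pointwise
set_option maxRecDepth 100000

/-- Aut of the point-block graph of an S(3, 6, 22) contains a simple subgroup of order 44352000. -/
theorem result {α : Type*} [Fintype α] (hα : Fintype.card α = 22) {B : Set (Finset α)} (hB : Cfsg.IsSteinerSystem 3 6 B) : ∃ H : Subgroup (Cfsg.pointBlockGraph B ≃g Cfsg.pointBlockGraph B), Cfsg.IsHS H := by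
  classical
  obtain ⟨φ, -, h2⟩ := hs_iso hα hB
  haveI := Fintype.ofFinite (Option (α ⊕ B))
  obtain ⟨ρ, hρ⟩ := hs_hom (srg_of φ h2 srgH)
  haveI := simple_HS
  exact ⟨ρ.range, (MonoidHom.ofInjective hρ).symm.isSimpleGroup,
    (Nat.card_congr (MonoidHom.ofInjective hρ).toEquiv).symm.trans (H6M.MHS.card PHS)⟩

end Cfsg.Agent.S0431
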