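import Cfsg.Statements.S0434
import Mathlib
import Cfsg.Agent.H8.MD
import Cfsg.Agent.H1.BG4

set_option autoImplicit false
open Cfsg

namespace Cfsg.Agent.S0434

/-- Sylow 3-normalisers in a simple group of order 7920 have order 144 (so there are 55 Sylow 3-subgroups). -/
theorem result {G : Type*} [Group G] [Finite G] (hG : Cfsg.IsM11 G) (P : Sylow 3 G) : Nat.card (Subgroup.normalizer ((P : Subgroup G) : Set G)) = 144 := by
  classical
  haveI := hG.1
  haveI : Fact (Nat.Prime 5) := ⟨by norm_num⟩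
  have hN := hG.2
  obtain ⟨f, inj, hf⟩ := H8.m11_rep hN
  obtain ⟨a, ha⟩ : H8.MD.mA ∈ f.range := hf ▸ Subgroup.subset_closure (by simp)
  obtain ⟨w, hw⟩ : H8.MD.mW ∈ f.range := hf ▸ Subgroup.subset_closure (by simp)
  obtain ⟨g, x, y, o8, x3, x1, y3, e1, e2, c, n⟩ : ∃ g x y : G, orderOf g = 8 ∧ x ^ 3 = 1 ∧ x ≠ 1 ∧
      y ^ 3 = 1 ∧ g * x * g⁻¹ = y ∧ g * y * g⁻¹ = x * y ∧ Commute x y ∧
      ∀ k ∈ Finset.range 3, x ^ k ≠ y := by
    refine ⟨a ^ 3 * w ^ 3, w ^ 2 * a ^ 3, _, ?_, inj ?_, fun e => absurd (congrArg f e) ?_, inj ?_, rfl,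
      inj ?_, inj ?_, fun k hk e => absurd (congrArg f e) ?_⟩
    · rw [← orderOf_injective f inj, show 8 = 2 ^ (2 + 1) by norm_num]
      refine orderOf_eq_prime_pow ?_ ?_ <;> simp only [map_mul, map_pow, ha, hw] <;> decide +kernel
    any_goals simp only [map_mul, map_pow, map_inv, map_one, ha, hw]; decide +kernel
    simp only [map_mul, map_pow, map_inv, ha, hw]
    clear e; revert k; decide +kernel
  have ox : orderOf x = 3 := orderOf_eq_prime x3 x1
  have pz : ∀ z : G, z ^ 3 = 1 → IsPGroup 3 (Subgroup.zpowers z) := fun z h =>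
    H8.isPGroup_zpowers_of_pow_eq_one (k := 1) (by simpa using h)
  obtain ⟨S, hS⟩ := ((pz x x3).to_sup_of_normal_left' (pz y y3) (Subgroup.zpowers_le.2
    (Subgroup.centralizer_le_normalizer _ (by
      exact (H9.cen_zpowers x).ge (Subgroup.mem_centralizer_singleton_iff.2 c.symm))))).exists_le_sylow
  have cS := (H8.card_sylow_pow (k := 2) (m := 880) (hN.trans (by norm_num)) (by norm_num) S).1
  have eS : Subgroup.zpowers x ⊔ Subgroup.zpowers y = S := by
    refine Subgroup.eq_of_le_of_card_ge hS ?_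
    obtain ⟨i, hi, e⟩ := (Nat.dvd_prime_pow Nat.prime_three).1 (cS ▸ Subgroup.card_dvd_of_le hS)
    have := H7.card_lt_of_lt (lt_of_le_of_ne (le_sup_left : Subgroup.zpowers x ≤ _ ⊔ Subgroup.zpowers y)
      fun e => by
        obtain ⟨k, hk, e⟩ := Finset.mem_image.1 (mem_zpowers_iff_mem_range_orderOf.1
          (e.ge (Subgroup.mem_sup_right (Subgroup.mem_zpowers y))))
        exact n k (ox ▸ hk) e)
    rw [Nat.card_zpowers, ox, e] at this
    rw [cS, e]
    interval_cases i <;> simp at this ⊢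
  have gS : g ∈ H9.nrm (S : Subgroup G) := by
    rw [← eS]
    refine Subgroup.mem_normalizer_fintype fun z hz => ?_
    refine (sup_le (Subgroup.zpowers_le.2 ?_) (Subgroup.zpowers_le.2 ?_) :
      _ ≤ Subgroup.comap (MulAut.conj g).toMonoidHom (Subgroup.zpowers x ⊔ Subgroup.zpowers y)) hz
    · exact e1 ▸ Subgroup.mem_sup_right (Subgroup.mem_zpowers _)
    · exact (e2 ▸ Subgroup.mul_mem_sup (Subgroup.mem_zpowers x) (Subgroup.mem_zpowers y) :
        g * y * g⁻¹ ∈ _)
  have h1 := o8 ▸ Subgroup.orderOf_dvd_natCard _ gS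
  have h2 := (H9.nrm (S : Subgroup G)).card_mul_index
  have h3 := (H9.nrm (P : Subgroup G)).card_mul_index
  rw [hN, show (H9.nrm (S : Subgroup G)).index = _ from S.card_eq_index_normalizer.symm] at h2
  rw [hN, show (H9.nrm (P : Subgroup G)).index = _ from P.card_eq_index_normalizer.symm] at h3
  haveI : Fact (Nat.Prime 11) := ⟨by norm_num⟩
  have k : ∀ p [Fact p.Prime], Nat.Coprime 9 p → ¬ 9 ≡ 1 [MOD p] →
      (∀ u : G, orderOf u = p → H9.cen1 u = Subgroup.zpowers u) →
      ¬ p ∣ Nat.card (H9.nrm (S : Subgroup G)) := fun p _ a1 a2 a3 hd => by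
    obtain ⟨u, hu⟩ := exists_prime_orderOf_dvd_card' p hd
    rw [← Subgroup.orderOf_coe] at hu
    have := H1B.card_modEq_cen (q := p) (Q := Subgroup.zpowers (u : G)) (V := S)
      (IsPGroup.of_card (n := 1) (by rw [Nat.card_zpowers, hu, pow_one])) (Subgroup.zpowers_le.2 u.2)
    rw [cS, Nat.eq_one_of_dvd_coprimes a1 ((Subgroup.card_dvd_of_le inf_le_left).trans cS.dvd)
      ((Subgroup.card_dvd_of_le (inf_le_right.trans ((H9.cen_zpowers _).trans (a3 _ hu)).le)).trans
        (by rw [Nat.card_zpowers, hu]))] at this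
    exact a2 this
  have k5 := k 5 (by norm_num) (by decide) fun u => H8.m11_cen5 hN
  have k11 := k 11 (by norm_num) (by decide) fun u => H8.m11_cen11 hN
  have k9 := cS ▸ Subgroup.card_dvd_of_le (Subgroup.le_normalizer (H := (S : Subgroup G)))
  have h4 := card_sylow_modEq_one 3 G
  change Nat.card (H9.nrm (S : Subgroup G)) * _ = _ at h2
  change 8 ∣ Nat.card (H9.nrm (S : Subgroup G)) at h1
  change _ ∣ Nat.card (H9.nrm (S : Subgroup G)) at k9
  change Nat.card (H9.nrm (P : Subgroup G)) = _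
  have : ∀ d ∈ Nat.divisors 7920, 8 ∣ d → 3 ^ 2 ∣ d → ¬ 5 ∣ d → ¬ 11 ∣ d → d = 72 ∨ d = 144 := by
    decide +kernel
  rcases this _ (Nat.mem_divisors.2 ⟨Dvd.intro _ h2, by norm_num⟩) h1 k9 k5 k11 with e | e <;>
    rw [e] at h2
  · rw [show Nat.card (Sylow 3 G) = 110 by omega] at h4; exact absurd h4 (by decide)
  · rw [show Nat.card (Sylow 3 G) = 55 by omega] at h3; omega

end Cfsg.Agent.S0434
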