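import Cfsg.Statements.S0439
import Mathlib
import Cfsg.Agent.H8.Tr3

set_option autoImplicit false
open Cfsg

namespace Cfsg.Agent.S0439

open H8 Equiv Equiv.Perm

/-- In the symmetric group of degree n ≥ 2, the set of transpositions is a conjugacy class of 3-transpositions which generates the group. -/
theorem result (n : ℕ) (hn : 2 ≤ n) : Cfsg.IsThreeTranspositionClass {σ : Equiv.Perm (Fin n) | σ.IsSwap} := by
  refine ⟨⟨fun d hd => ?_, ?_⟩, ⟨swap ⟨0, by omega⟩ ⟨1, by omega⟩, ⟨_, _, by simp, rfl⟩, ?_⟩,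
    closure_isSwap⟩
  · rw [hd.isCycle.orderOf, card_support_eq_two.2 hd]
  · rintro _ ⟨a, b, hab, rfl⟩ _ ⟨c, d, hcd, rfl⟩
    have k : ∀ {x y z : Fin n}, x ≠ y → x ≠ z → (swap x y * swap x z) ^ 2 = 1 ∨
        (swap x y * swap x z) ^ 3 = 1 := fun {x y z} h1 h2 => by
      by_cases h3 : y = z
      · left; rw [h3, swap_mul_self, one_pow]
      · right; rw [← (isThreeCycle_swap_mul_swap_same h1 h2 h3).orderOf, pow_orderOf_eq_one]
    by_cases h1 : a = c
    · subst h1; exact k hab hcd
    by_cases h2 : a = d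
    · subst h2; rw [swap_comm c]; exact k hab hcd.symm
    by_cases h3 : b = c
    · subst h3; rw [swap_comm a]; exact k hab.symm hcd
    by_cases h4 : b = d
    · subst h4; rw [swap_comm a, swap_comm c]; exact k hab.symm hcd.symm
    left
    have : Commute (swap a b) (swap c d) := (disjoint_swap_swap (by
      simp [hab, hcd, h1, h2, h3, h4])).commute
    rw [this.mul_pow]; simp [pow_two]
  · ext σ
    constructor
    · rintro ⟨a, b, hab, rfl⟩
      exact isConj_swap (by simp) hab
    · intro h
      obtain ⟨g, rfl⟩ := isConj_iff.1 h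
      exact ⟨_, _, by simp, (swap_apply_apply g _ _).symm⟩

end Cfsg.Agent.S0439
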