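import Cfsg.Statements.S0440
import Cfsg.Agent.H5.RT6

set_option autoImplicit false
open Cfsg

namespace Cfsg.Agent.S0440

/-- In the symplectic group in dimension 2n ≥ 2 over the field with two elements, the elements g for which g - 1 has rank one (the symplectic transvections) form a conjugacy class of 3-transpositions generating the group. -/
theorem result (n : ℕ) (hn : 1 ≤ n) : Cfsg.IsThreeTranspositionClass {g : Matrix.symplecticGroup (Fin n) (ZMod 2) | ((g : Matrix (Fin n ⊕ Fin n) (Fin n ⊕ Fin n) (ZMod 2)) - 1).rank = 1} := by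
  have h2 : Nat.card (ZMod 2) = 2 := by simp
  haveI : Nonempty (Fin n) := ⟨⟨0, hn⟩⟩
  have hn' : (H5.RT.TP (ZMod 2) (Fin n)).Nonempty := ⟨_, 1, one_ne_zero, rfl⟩
  refine H5.RT.famSp.three h2 H5.RT.degSp hn' (fun α hα β hβ => H5.RT.famSp.cls2 h2
    (H5.RT.Fam.cls (hn'.image _) H5.RT.connSp) hα hβ) (H5.RT.rankSp h2) ?_
  rw [eq_top_iff, ← Cfsg.Agent.S0765.result n, Subgroup.closure_le]
  rintro g ⟨w, c, h⟩
  by_cases hw : w = 0 ∨ c = 0
  · have : g = 1 := Subtype.ext (by rcases hw with hw | hw <;> simp [h, hw, sympTransvection])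
    rw [this]; exact one_mem _
  · rw [not_or] at hw
    refine Subgroup.subset_closure ((H5.RT.rankSp h2 g).2 ⟨w, hw.1, ?_⟩)
    refine (congrArg (· - 1) h).trans ?_
    simp [sympTransvection, H5.RT.eq_one2 h2 hw.2]

end Cfsg.Agent.S0440
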