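import Cfsg.Statements.S0442
import Mathlib
import Cfsg.Agent.H8.Tr3

set_option autoImplicit false
open Cfsg

namespace Cfsg.Agent.S0442

open H8
theorem aux {G : Type*} [Group G] {a b : G} (ha : a * a = 1) (hb : b * b = 1) (m : ℕ) :
    a * (a * b) ^ m = ((a * b) ^ m)⁻¹ * a := by
  have : a * (a * b) * a⁻¹ = (a * b)⁻¹ := by simp [inv1 ha, inv1 hb, ll1 ha]
  rw [← inv_pow, ← this, conj_pow]; group

theorem aux2 {G : Type*} [Group G] {a b : G} (ha : a * a = 1) (hb : b * b = 1) {m : ℕ}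
    (h : (a * b) ^ (2 * m) = 1) : Commute ((a * b) ^ m) a := by
  rw [two_mul, pow_add] at h
  show _ = _
  rw [aux ha hb, inv1 h]

/-- A standard trick for producing elements of an involution centraliser: for an involution a and an element g, let b be the conjugate g⁻¹ * a * g. If a * b has odd order 2m + 1 then g * (a * b) ^ m commutes with a; if a * b has even order 2m then (a * b) ^ m and (a * (g * a * g⁻¹)) ^ m commute with a. -/
theorem result {G : Type*} [Group G] (a g : G) (ha : orderOf a = 2) : (∀ m : ℕ, orderOf (a * (g⁻¹ * a * g)) = 2 * m + 1 → Commute (g * (a * (g⁻¹ * a * g)) ^ m) a) ∧ (∀ m : ℕ, orderOf (a * (g⁻¹ * a * g)) = 2 * m → Commute ((a * (g⁻¹ * a * g)) ^ m) a ∧ Commute ((a * (g * a * g⁻¹)) ^ m) a) := by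
  have sa := sq1 ha
  have sb : (g⁻¹ * a * g) * (g⁻¹ * a * g) = 1 := by simp [mul_assoc, ll1 sa]
  have sc : (g * a * g⁻¹) * (g * a * g⁻¹) = 1 := by simp [mul_assoc, ll1 sa]
  refine ⟨fun m h => ?_, fun m h => ⟨aux2 sa sb (h ▸ pow_orderOf_eq_one _), aux2 sa sc ?_⟩⟩
  · have h1 := pow_orderOf_eq_one (a * (g⁻¹ * a * g))
    rw [h, pow_succ, two_mul, pow_add] at h1
    have h2 := aux sa sb m
    generalize (a * (g⁻¹ * a * g)) ^ m = u at h1 h2
    show _ = _
    have h3 : g⁻¹ * a * g = a⁻¹ * u⁻¹ * u⁻¹ := by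
      rw [eq_inv_of_mul_eq_one_right (show u * u * a * (g⁻¹ * a * g) = 1 by rw [← h1]; group)]
      group
    calc g * u * a = g * (a⁻¹ * (a * u) * a) := by group
      _ = g * (a⁻¹ * u⁻¹ * u⁻¹) * u * (a * a) := by rw [h2]; group
      _ = _ := by rw [← h3, sa]; group
  · rw [show a * (g * a * g⁻¹) = g * (a * (g⁻¹ * a * g))⁻¹ * g⁻¹ by simp [inv1 sa, mul_assoc],
      conj_pow, inv_pow, ← h, pow_orderOf_eq_one]
    group

end Cfsg.Agent.S0442
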