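import Cfsg.Statements.S0443
import Mathlib

set_option autoImplicit false
open Cfsg

namespace Cfsg.Agent.S0443

open Subgroup

/-- Two definitions of a 2-central involution agree: an element t of order 2 of a finite group lies in the centre of some Sylow 2-subgroup if and only if its centraliser contains some Sylow 2-subgroup. -/
theorem result {G : Type*} [Group G] [Finite G] (t : G) (ht : orderOf t = 2) : Cfsg.IsTwoCentralInvolution t ↔ ∃ P : Sylow 2 G, (P : Subgroup G) ≤ Subgroup.centralizer ({t} : Set G) := by
  haveI : Fact (Nat.Prime 2) := ⟨Nat.prime_two⟩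
  refine ⟨fun ⟨_, P, _, h⟩ => ⟨P, fun x hx => mem_centralizer_singleton_iff.2 (h x hx)⟩,
    fun ⟨P, h⟩ => ⟨ht, P, ?_, fun x hx => mem_centralizer_singleton_iff.1 (h hx)⟩⟩
  have h1 : IsPGroup 2 (zpowers t) := IsPGroup.of_card (n := 1) (by rw [Nat.card_zpowers, ht, pow_one])
  have h2 : zpowers t ≤ normalizer ((P : Subgroup G) : Set G) := by
    refine zpowers_le.2 (centralizer_le_normalizer _ fun x hx => ?_)
    exact mem_centralizer_singleton_iff.1 (h hx)
  have := P.is_maximal' (h1.to_sup_of_normal_right' P.isPGroup' h2) le_sup_right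
  exact (le_sup_left.trans this.le) (mem_zpowers t)

end Cfsg.Agent.S0443
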