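import Cfsg.Statements.S0444
import Mathlib
import Cfsg.Agent.H8.Tr3
import Cfsg.Agent.H8.Dihedral

set_option autoImplicit false
open Cfsg

namespace Cfsg.Agent.S0444

open H8 Subgroup

/-- Two members of a set of 3-transpositions which do not commute generate a subgroup isomorphic to the symmetric group on three letters. -/
theorem result {G : Type*} [Group G] {E : Set G} (hE : Cfsg.IsThreeTranspositionSet E) {d e : G} (hd : d ∈ E) (he : e ∈ E) (h : ¬ Commute d e) : Nonempty (Subgroup.closure ({d, e} : Set G) ≃* Equiv.Perm (Fin 3)) := by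
  haveI : Fact (Nat.Prime 3) := ⟨Nat.prime_three⟩
  have n1 : ∀ x ∈ E, x ≠ 1 := fun x hx e => by simpa [e] using hE.1 x hx
  have hde : d ≠ e := fun e' => h (e' ▸ Commute.refl d)
  obtain ⟨f⟩ := nonempty_equiv_dihedral_of_invol (t3_sq hE hd) (t3_sq hE he) (n1 d hd) (n1 e he) hde
    _ rfl
  rw [orderOf_eq_prime (t3_cube hE hd he h) fun e' => hde (by
    rw [eq_inv_of_mul_eq_one_left e', inv1 (t3_sq hE he)])] at f
  obtain ⟨g⟩ := nonempty_equiv_dihedral_top (r := (finRotate 3 : Equiv.Perm (Fin 3)))
    (s := Equiv.swap 0 1) (by decide) (by decide) (fun h => by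
      have := congrArg Equiv.Perm.sign (show Equiv.swap (0 : Fin 3) 1 ^ 3 = 1 from
        orderOf_dvd_iff_pow_eq_one.1 ((orderOf_dvd_of_mem_zpowers h).trans
          (orderOf_dvd_of_pow_eq_one (by decide))))
      revert this; decide) (eq_top_iff.2 fun c _ => by
      have ha : (finRotate 3 : Equiv.Perm (Fin 3)) ∈ closure
        ({finRotate 3, Equiv.swap 0 1} : Set (Equiv.Perm (Fin 3))) := subset_closure (by simp)
      have hb : (Equiv.swap 0 1 : Equiv.Perm (Fin 3)) ∈ closure
        ({finRotate 3, Equiv.swap 0 1} : Set (Equiv.Perm (Fin 3))) := subset_closure (by simp)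
      have hall : ∀ c : Equiv.Perm (Fin 3), c = 1 ∨ c = finRotate 3 ∨ c = finRotate 3 * finRotate 3 ∨
        c = Equiv.swap 0 1 ∨ c = Equiv.swap 0 1 * finRotate 3 ∨
        c = Equiv.swap 0 1 * (finRotate 3 * finRotate 3) := by decide
      rcases hall c with e | e | e | e | e | e <;> rw [e] <;>
        first | exact one_mem _ | assumption | apply_rules [mul_mem])
  rw [orderOf_eq_prime (p := 3) (by decide) (by decide)] at g
  exact ⟨f.trans g.symm⟩

end Cfsg.Agent.S0444
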