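import Cfsg.Statements.S0446
import Mathlib

set_option autoImplicit false
open Cfsg

namespace Cfsg.Agent.S0446

open Subgroup

/-- Every finite group of even order contains a 2-central involution, i.e. an element of order 2 in the centre of some Sylow 2-subgroup. -/
theorem result {G : Type*} [Group G] [Finite G] (h : Even (Nat.card G)) : ∃ t : G, Cfsg.IsTwoCentralInvolution t := by
  haveI : Fact (Nat.Prime 2) := ⟨Nat.prime_two⟩
  let P : Sylow 2 G := default
  haveI : Nontrivial (P : Subgroup G) :=
    (nontrivial_iff_ne_bot _).2 (P.ne_bot_of_dvd_card h.two_dvd)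
  haveI := P.isPGroup'.center_nontrivial
  obtain ⟨n, hn, hc⟩ := (P.isPGroup'.to_subgroup (center P)).nontrivial_iff_card.1 inferInstance
  obtain ⟨z, hz⟩ := exists_prime_orderOf_dvd_card' (G := center P) 2 (hc ▸ dvd_pow_self 2 hn.ne')
  exact ⟨z, by rwa [orderOf_coe, orderOf_coe], P, z.1.2, fun x hx =>
    congrArg Subtype.val (mem_center_iff.1 z.2 ⟨x, hx⟩)⟩

end Cfsg.Agent.S0446
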