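import Cfsg.Statements.S0458
import Cfsg.Agent.H0.MJ3.Main
import Cfsg.Agent.H0.Emb2


set_option autoImplicit false
open Cfsg

namespace Cfsg.Agent.S0458

/-- Janko's third group exists as a transitive permutation group of degree 6156 with point stabiliser of order 8160: a simple group of order 50232960. -/
theorem result : ∃ H : Subgroup (Equiv.Perm (Fin 6156)), Cfsg.IsJ3 H ∧ MulAction.IsPretransitive H (Fin 6156) ∧ Nat.card (MulAction.stabilizer H (0 : Fin 6156)) = 8160 := by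
  have := H0.MJ3.simple (H0.Pres.pg 8 H0.MJ3.B)
  obtain ⟨H, ⟨e⟩, h1, ⟨f⟩⟩ := H0.realize ((H0.MJ3.m (H0.Pres.pg 8 H0.MJ3.B)).pst [0]) (n := 6156) (H0.index_of_card (H0.MJ3.card (H0.Pres.pg 8 H0.MJ3.B)) (H0.MJ3.card_stab (H0.Pres.pg 8 H0.MJ3.B)) (by decide) (by decide)) (by decide)
  exact ⟨H, ⟨e.symm.isSimpleGroup, (Nat.card_congr e.toEquiv).symm.trans (H0.MJ3.card (H0.Pres.pg 8 H0.MJ3.B))⟩, h1, (Nat.card_congr f.toEquiv).symm.trans (H0.MJ3.card_stab (H0.Pres.pg 8 H0.MJ3.B))⟩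

end Cfsg.Agent.S0458
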