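import Cfsg.Statements.S0459
import Cfsg.Agent.H0.ERuT.Main
import Cfsg.Agent.H0.MRu.Main


set_option autoImplicit false
open Cfsg

namespace Cfsg.Agent.S0459

/-- The Rudvalis group exists as a transitive permutation group of degree 4060: simple of order 145926144000, with point stabiliser of order 35942400 containing a simple subgroup of order 17971200 (the order of the Tits group). -/
theorem result : ∃ H : Subgroup (Equiv.Perm (Fin 4060)), Cfsg.IsRu H ∧ MulAction.IsPretransitive H (Fin 4060) ∧ Nat.card (MulAction.stabilizer H (0 : Fin 4060)) = 35942400 ∧ ∃ T : Subgroup (MulAction.stabilizer H (0 : Fin 4060)), Cfsg.IsTits T := by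
  have := H0.MRu.fin (H0.Pres.pg _ _)
  have := H0.MRu.simple (H0.Pres.pg _ _)
  obtain ⟨H, ⟨e⟩, h, ⟨f⟩⟩ := H0.realize _ ((H0.MRu.m (H0.Pres.pg _ _)).index0 (H0.MRu.trans _)) (by decide)
  refine ⟨H, ⟨e.symm.isSimpleGroup, (Nat.card_congr e.toEquiv).symm.trans ((H0.MRu.card (H0.Pres.pg _ _)).trans (by decide))⟩, h, (Nat.card_congr f.toEquiv).symm.trans (H0.MRu.card_stab _), ?_⟩
  exact (H0.hasS_le (H0.ERuT.U_fix _ (H0.MRu.mR _)) (H0.ERuT.U_iso (H0.MRu.m (H0.Pres.pg _ _)) (H0.MRu.mR (H0.Pres.pg _ _)) (H0.MRu.base (H0.Pres.pg _ _)) (H0.MRu.card (H0.Pres.pg _ _))) (H0.MTits.simple (H0.Pres.pg _ _)) (H0.MTits.card (H0.Pres.pg _ _))).equiv f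

end Cfsg.Agent.S0459
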