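import Cfsg.Statements.S0460
import Cfsg.Agent.H0.PON
import Cfsg.Agent.H0.EON.Main


set_option autoImplicit false
open Cfsg

namespace Cfsg.Agent.S0460

/-- The O'Nan group exists as a transitive permutation group of degree 122760: simple of order 460815505920, point stabiliser of order 3753792, and containing simple subgroups of orders 175560 and 7920. -/
theorem result : ∃ H : Subgroup (Equiv.Perm (Fin 122760)), Cfsg.IsON H ∧ MulAction.IsPretransitive H (Fin 122760) ∧ Nat.card (MulAction.stabilizer H (0 : Fin 122760)) = 3753792 ∧ (∃ K : Subgroup H, Cfsg.IsJ1 K) ∧ (∃ K : Subgroup H, Cfsg.IsM11 K) := by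
  haveI := H0.MON.simple H0.PON.P
  haveI := H0.MON.fin H0.PON.P
  obtain ⟨H, ⟨e⟩, h1, ⟨f⟩⟩ := H0.realize ((H0.MON.m H0.PON.P).pst [0]) (n := 122760) ((H0.MON.stab H0.PON.P).2 ▸ (H0.MON.stab H0.PON.P).1) (by decide)
  exact ⟨H, ⟨e.symm.isSimpleGroup, (Nat.card_congr e.toEquiv).symm.trans (H0.MON.card H0.PON.P)⟩, h1, (Nat.card_congr f.toEquiv).symm.trans (H0.MON.card_stab H0.PON.P),
    (H0.hasS_of (H0.EON.J_iso (H0.MON.m H0.PON.P) (H0.MON.mR H0.PON.P) (H0.MON.base H0.PON.P) (H0.MON.card H0.PON.P)) (H0.MJ1.simple (H0.Pres.pg _ _)) (H0.MJ1.card (H0.Pres.pg _ _))).equiv e,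
    (H0.hasS_of (H0.EON.M_iso (H0.MON.m H0.PON.P) (H0.MON.mR H0.PON.P) (H0.MON.base H0.PON.P) (H0.MON.card H0.PON.P)) (H0.MM11p.simple (H0.Pres.pg _ _)) (H0.MM11p.card (H0.Pres.pg _ _))).equiv e⟩

end Cfsg.Agent.S0460
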