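import Cfsg.Statements.S0462
import Cfsg.Agent.H0.EHeS2


set_option autoImplicit false
open Cfsg

namespace Cfsg.Agent.S0462

/-- The Held group exists as a transitive permutation group of degree 2058: simple of order 4030387200, with point stabiliser containing, with index 2, a copy of the 4-dimensional symplectic group over the field with four elements. -/
theorem result : ∃ H : Subgroup (Equiv.Perm (Fin 2058)), Cfsg.IsHe H ∧ MulAction.IsPretransitive H (Fin 2058) ∧ ∃ (F : Type) (_ : Field F) (_ : Fintype F), Fintype.card F = 4 ∧ ∃ N : Subgroup (MulAction.stabilizer H (0 : Fin 2058)), N.index = 2 ∧ Nonempty (N ≃* Matrix.symplecticGroup (Fin 2) F) := by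
  haveI := H0.MHe.simple H0.PHe.P
  obtain ⟨H, ⟨e⟩, h1, ⟨f⟩⟩ := H0.realize ((H0.MHe.m H0.PHe.P).pst [0]) (n := 2058) ((H0.MHe.stab H0.PHe.P).2 ▸ (H0.MHe.stab H0.PHe.P).1) (by decide)
  obtain ⟨L, -, h2, ⟨g⟩⟩ := H0.EHeS.sub
  obtain ⟨L', h3, h4⟩ := H0.sub_of_equiv f L g.symm
  exact ⟨H, ⟨e.symm.isSimpleGroup, (Nat.card_congr e.toEquiv).symm.trans (H0.MHe.card H0.PHe.P)⟩, h1, H0.G4, inferInstance, inferInstance, H0.c4, L', h4.trans h2, h3.map .symm⟩

end Cfsg.Agent.S0462
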