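import Cfsg.Statements.S0481
import Cfsg.Agent.H2.LX1

set_option autoImplicit false
open Cfsg

namespace Cfsg.Agent.S0481

open Subgroup hiding upperCentralSeries
open H2 Cfsg.FusionSystem

open Subgroup H2 H7 H1B

/-- Large extraspecial subgroups: let z be an involution of a finite group G whose centraliser C contains a normal 2-subgroup Q with centre of order 2 and all squares central, such that every element of G centralising Q lies in Q. Then C contains a Sylow 2-subgroup of G, and any involution of G whose centraliser contains a Sylow 2-subgroup of G is conjugate to z. -/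
theorem result {G : Type*} [Group G] [Finite G] (z : G) (hz : orderOf z = 2) (Q : Subgroup G) (hQC : Q ≤ Subgroup.centralizer ({z} : Set G)) (hQn : ∀ g ∈ Subgroup.centralizer ({z} : Set G), ∀ q ∈ Q, g * q * g⁻¹ ∈ Q) (hQ2 : IsPGroup 2 Q) (hZ : Nat.card (Subgroup.center Q) = 2) (hsq : ∀ x : Q, x ^ 2 ∈ Subgroup.center Q) (hlarge : Subgroup.centralizer (Q : Set G) ≤ Q) : (∃ P : Sylow 2 G, (P : Subgroup G) ≤ Subgroup.centralizer ({z} : Set G)) ∧ ∀ u : G, orderOf u = 2 → (∃ P : Sylow 2 G, (P : Subgroup G) ≤ Subgroup.centralizer ({u} : Set G)) → IsConj z u := by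
  have m : z ∈ cen Q := le_cen1_iff.1 hQC
  have e : cen Q = zpowers z := (inf_eq_right.2 hlarge).symm.trans (eq_zpowers_of_card (p := 2)
    (by rw [← center_map_subtype, card_map_subtype, hZ]) ⟨hlarge m, m⟩ (ord2.1 hz).2)
  obtain ⟨T, hT⟩ := exists_isSylowIn 2 (cen1 z)
  have l : Q ≤ T := (H7.le_Op hQC (le_nrm_of_cj_le fun a ha x hx => by
    obtain ⟨y, hy, rfl⟩ := mem_cj'.1 hx; exact hQn a ha y hy) hQ2).trans (Op_le_of_sylow hT)
  have c : cen T = zpowers z := le_antisymm (e ▸ cen_anti l) (zpowers_le.2 (le_cen1_iff.1 hT.le))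
  have s : IsSylowIn 2 T ⊤ := syl_of_nrm le_top (by
    rw [top_inf_eq]; exact hT.mono (le_nrm_self T) ((c ▸ nrm_cen le_rfl).trans (nrm_zp_two hz)))
  refine ⟨⟨s.toSylowTop, hT.le⟩, fun u hu ⟨P, hP⟩ => ?_⟩
  obtain ⟨g, -, k⟩ := (sylow_isSylowIn_top P).exists_cj_eq s
  have : g * u * g⁻¹ ∈ zpowers z := by
    rw [← c, ← k, ← cj_cen]; exact H7.conj_mem_cj.2 (le_cen1_iff.1 hP)
  exact (isConj_iff.2 ⟨g, ((mem_zp_two hz).1 this).resolve_left fun e =>
    (ord2.1 hu).2 (conj_eq_one_iff.1 e)⟩).symm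

end Cfsg.Agent.S0481
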