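import Cfsg.Statements.S0498
import Mathlib
import Cfsg.Agent.H8.Zas6

set_option autoImplicit false
open Cfsg

namespace Cfsg.Agent.S0498

/-- A simple group of order 660, respectively 1092, is isomorphic to the projective special linear group of dimension 2
over the field with 11, respectively 13, elements. -/
theorem result {G : Type*} [Group G] [Finite G] [IsSimpleGroup G] (p : ℕ)
    (hp : p = 11 ∨ p = 13) (h : 2 * Nat.card G = p * (p ^ 2 - 1)) {F : Type*} [Field F] [Fintype F]
    (hF : Fintype.card F = p) : Nonempty (G ≃* Matrix.ProjectiveSpecialLinearGroup (Fin 2) F) := by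
  rcases hp with rfl | rfl
  · haveI : Fact (Nat.Prime 11) := ⟨by norm_num⟩
    have h : Nat.card G = 660 := by norm_num at h; omega
    obtain ⟨h1, h2, h3, -⟩ := H8.card_sylow_facts (G := G) (p := 11) (k := 1) (m := 60)
      (by rw [h]; norm_num) (by norm_num) (by norm_num) (by norm_num)
    have h4 := Nat.le_of_dvd (by norm_num) h1
    have h5 : Nat.card (Sylow 11 G) = 11 + 1 := by
      generalize Nat.card (Sylow 11 G) = n at *
      obtain ⟨k, rfl⟩ : ∃ k, n = 11 * k + 1 := ⟨n / 11, by omega⟩
      have : k ≤ 6 := by omega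
      interval_cases k <;> simp_all
    exact H8.psl_of_sylow (d := 5) h5 (by rw [h]) (by norm_num) F
      (by rw [Nat.card_eq_fintype_card, hF])
  · haveI : Fact (Nat.Prime 13) := ⟨by norm_num⟩
    have h : Nat.card G = 1092 := by norm_num at h; omega
    obtain ⟨h1, h2, h3, -⟩ := H8.card_sylow_facts (G := G) (p := 13) (k := 1) (m := 84)
      (by rw [h]; norm_num) (by norm_num) (by norm_num) (by norm_num)
    have h4 := Nat.le_of_dvd (by norm_num) h1
    have h5 : Nat.card (Sylow 13 G) = 13 + 1 := by
      generalize Nat.card (Sylow 13 G) = n at *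
      obtain ⟨k, rfl⟩ : ∃ k, n = 13 * k + 1 := ⟨n / 13, by omega⟩
      have : k ≤ 7 := by omega
      interval_cases k <;> simp_all
    exact H8.psl_of_sylow (d := 6) h5 (by rw [h]) (by norm_num) F
      (by rw [Nat.card_eq_fintype_card, hF])

end Cfsg.Agent.S0498
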