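import Cfsg.Statements.S0499
import Mathlib
import Cfsg.Agent.H8.Sm1
import Cfsg.Agent.H1.BG4
import Cfsg.Agent.H2.Frobenius

set_option autoImplicit false
open Cfsg

namespace Cfsg.Agent.S0499

/-- A non-abelian finite simple group of even order has order divisible by 12, 16 or 56. -/
theorem result {G : Type*} [Group G] [Finite G] [IsSimpleGroup G]
    (hG : ¬ IsMulCommutative G) (h2 : Even (Nat.card G)) :
    12 ∣ Nat.card G ∨ 16 ∣ Nat.card G ∨ 56 ∣ Nat.card G := by
  obtain ⟨P⟩ : Nonempty (Sylow 2 G) := inferInstance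
  by_contra! H
  obtain ⟨N, hN, hc⟩ := (H2.hasNPC_iff_sylow P).1 (H2.hasNPC_of_autIsP P fun Q hQ g hg ho => by
    refine Subgroup.zpowers_le.1 (H7.le_of_sylows_le fun r hr hd => ?_)
    haveI := Fact.mk hr
    obtain ⟨R, hR, -⟩ := H2.exists_isSylowIn_ge (IsPGroup.of_bot (p := r)) (bot_le (a := Subgroup.zpowers g))
    refine ⟨R, hR, Subgroup.le_centralizer_iff.1 (by_contra fun h => ?_)⟩
    have a := H1B.card_modEq_cen hR.isPGroup (hR.le.trans (Subgroup.zpowers_le.2 hg))
    obtain ⟨k, hk⟩ := (P.isPGroup'.to_le hQ).exists_card_eq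
    have b := Subgroup.card_dvd_of_le (inf_le_left : Q ⊓ Subgroup.centralizer (R : Set G) ≤ Q)
    have c : Nat.card (Q ⊓ Subgroup.centralizer (R : Set G) : Subgroup G) ≠ Nat.card Q := fun e =>
      h (inf_eq_left.1 (Subgroup.eq_of_le_of_card_ge inf_le_left e.ge))
    have d := Subgroup.card_subgroup_dvd_card Q
    have e := hd.trans (Subgroup.card_subgroup_dvd_card _)
    have r2 : r ≠ 2 := by
      rintro rfl
      exact (Nat.Prime.coprime_iff_not_dvd hr).1 ho.symm (Nat.card_zpowers g ▸ hd)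
    change Nat.card Q ≡ Nat.card (Q ⊓ Subgroup.centralizer (R : Set G) : Subgroup G) [MOD r] at a
    rw [hk] at a b c d
    obtain ⟨j, hj, hj'⟩ := (Nat.dvd_prime_pow Nat.prime_two).1 b
    rw [hj'] at a c
    have k4 : k < 4 := by_contra fun h => H.2.1 ((pow_dvd_pow 2 (not_lt.1 h)).trans d)
    have f := (Nat.modEq_iff_dvd' (Nat.pow_le_pow_right two_pos hj)).1 a.symm
    have f0 : 2 ^ j < 2 ^ k := (Nat.pow_le_pow_right two_pos hj).lt_of_ne c
    have key : ∀ k < 4, ∀ j ≤ k, ∀ r ≤ 8, 2 ^ j < 2 ^ k → r.Prime → r ≠ 2 → r ∣ 2 ^ k - 2 ^ j →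
        12 ∣ 2 ^ k * r ∨ 56 ∣ 2 ^ k * r := by
      intro k a j b r c
      interval_cases k <;> interval_cases j <;> interval_cases r <;> decide
    have m := Nat.Coprime.mul_dvd_of_dvd_of_dvd
      (((Nat.coprime_primes Nat.prime_two hr).2 r2.symm).pow_left k) d e
    have r8 : r ≤ 8 := (Nat.le_of_dvd (Nat.sub_pos_of_lt f0) f).trans ((Nat.sub_le _ _).trans
      (Nat.pow_le_pow_right two_pos (Nat.le_of_lt_succ k4)))
    exact (key k k4 j hj r r8 f0 hr r2 f).elim (fun h => H.1 (h.trans m)) fun h => H.2.2 (h.trans m))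
  rcases hN.eq_bot_or_eq_top with rfl | rfl
  · exact H8.not_nrm_le_cen hG P h2.two_dvd (by
      have t := Subgroup.isComplement'_bot_left.1 hc
      haveI := (P.isPGroup'.of_equiv ((MulEquiv.subgroupCongr t).trans Subgroup.topEquiv)).isNilpotent
      exact (hG (IsSimpleGroup.comm_iff_isSolvable.2 inferInstance |> fun h => ⟨⟨h⟩⟩)).elim)
  · exact P.ne_bot_of_dvd_card h2.two_dvd (Subgroup.isComplement'_top_left.1 hc)

end Cfsg.Agent.S0499
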