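import Cfsg.Statements.S0508
import Mathlib
import Cfsg.Agent.H8.BSW8

set_option autoImplicit false
open Cfsg

namespace Cfsg.Agent.S0508

open Subgroup H7 H8

/-- Let G be a finite simple group with a dihedral Sylow 2-subgroup S (of order at least 4), t an involution in the
centre of S, C the centralizer of t and O the core of C (its largest normal subgroup of odd order). Suppose that: if O
is nontrivial then the centralizer of O in S is cyclic of index 2 in S; every element of S not centralizing O inverts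
every element of O; and the normalizer of every nontrivial subgroup of O lies in C. Then G is isomorphic to a projective
special linear group of dimension 2 over a field of odd order. -/
theorem result {G : Type*} [Group G] [Finite G] [IsSimpleGroup G] (S : Sylow 2 G) (n : ℕ)
    (hn : 2 ≤ n) (hS : Nonempty ((S : Subgroup G) ≃* DihedralGroup n)) (t : G) (ht : orderOf t = 2)
    (htS : t ∈ (S : Subgroup G))
    (htZ : ∀ s ∈ (S : Subgroup G), s * t = t * s) (O : Subgroup G)
    (hO : O = (Cfsg.oddCore (Subgroup.centralizer ({t} : Set G))).map (Subgroup.centralizer ({t} : Set G)).subtype)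
    (ha : O ≠ ⊥ → IsCyclic ((S : Subgroup G) ⊓ Subgroup.centralizer (O : Set G) : Subgroup G) ∧
      ((S : Subgroup G) ⊓ Subgroup.centralizer (O : Set G)).relIndex (S : Subgroup G) = 2)
    (hb : ∀ s ∈ (S : Subgroup G), s ∉ Subgroup.centralizer (O : Set G) → ∀ y ∈ O, s * y * s⁻¹ = y⁻¹)
    (hc : ∀ Y : Subgroup G, Y ≤ O → Y ≠ ⊥ → Subgroup.normalizer (Y : Set G) ≤ Subgroup.centralizer ({t} : Set G)) :
    ∃ (F : Type) (_ : Field F) (_ : Fintype F), Odd (Fintype.card F) ∧ Nonempty (G ≃* Matrix.ProjectiveSpecialLinearGroup (Fin 2) F) := by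
  obtain ⟨e⟩ := hS
  haveI : NeZero n := ⟨by omega⟩
  obtain ⟨a₀, s₀, h₀, ho⟩ := exists_dih e
  obtain ⟨a, s, h, hta⟩ := h₀.central (fun e => by rw [e, orderOf_one] at ho; omega) htS
    fun x hx => mem_cen1.2 (htZ x hx)
  have t1 : t ≠ 1 := fun e => by simp [e] at ht
  have t2 : t * t = 1 := by rw [← pow_two, ← ht, pow_orderOf_eq_one]
  have hS := H2.sylow_isSylowIn_top S
  rw [pPrimeCore_map] at hO
  have hSC : (S : Subgroup G) ≤ cen1 t := fun x hx => mem_cen1.2 (htZ x hx)
  have f : ∀ {s}, Dih S a s → ∀ g ∈ cen1 t, g * s * g⁻¹ ≠ t := fun {s} h g hg e => h.sa (by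
    rw [eq_mul_inv_of_mul_eq (eq_inv_mul_of_mul_eq ((mul_assoc _ _ _).symm.trans e)), inv_inv, mul_assoc,
      ← mem_cen1.1 hg, inv_mul_cancel_left]
    exact hta)
  have hC := h.npc (hS.mono hSC le_top) hta t2 t1 (f h) (f (h.swap h.sa_mem))
  have hG : ∀ M : Subgroup G, M.index ≠ 2 := fun M hM => by
    have := M.card_mul_index
    rcases (normal_of_index_eq_two hM).eq_bot_or_eq_top with rfl | rfl
    · have h1 := card_le_of_le (le_top (a := (S : Subgroup G)))
      rw [h₀.card, card_top, ← this, hM, card_bot] at h1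
      omega
    · simp at hM
  have hOC : O ≤ cen1 t := hO ▸ Opi_le _ _
  have h1 : (S : Subgroup G) ⊓ cen O ≤ zpowers a ∨ O = ⊥ := or_iff_not_imp_right.2 fun hO1 g hg =>
    ((h.mem g).1 hg.1).elim id fun e => by
      haveI := (ha hO1).1
      have := eq_of_sq_of_isCyclic (G := ((S : Subgroup G) ⊓ cen O : Subgroup G)) (x := ⟨g, hg⟩)
        (y := ⟨t, htS, fun y hy => mem_cen1.1 (hOC hy)⟩) (Subtype.ext (by simpa [pow_two] using (h.out e).2.1))
        (Subtype.ext (by simpa [pow_two] using t2)) (fun e' => (h.out e).1 (by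
          rw [show g = 1 from congrArg Subtype.val e']; exact one_mem _)) fun e' => t1 (congrArg Subtype.val e')
      rw [show g = t from congrArg Subtype.val this]; exact hta
  refine (h.bsw hS.isPGroup hta t2 t1 (O := O) (Nat.coprime_two_right.1 (hO ▸ coprime_Op' 2 _)) ?_ ?_ (hO ▸ hC)
    (fun y hy hy1 => le_trans ?_ (hc (zpowers y) (zpowers_le.2 hy) (by simpa using hy1)))
    (h.cls hS hta t2 t1 (h.isConj_of_no_two hS hta t2 t1 hG)
      ((h.swap h.sa_mem).isConj_of_no_two hS hta t2 t1 hG))).exists_psl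
  · by_cases hO1 : O = ⊥
    · rw [hO1]; intro y hy; rw [SetLike.mem_coe, mem_bot] at hy; simp [hy]
    have := eq_of_le_of_card_le (h1.resolve_right hO1) (Nat.le_of_mul_le_mul_left (by
      rw [Nat.card_zpowers, ← h.card, ← relIndex_mul_card' (inf_le_left (b := cen O)), (ha hO1).2]) two_pos)
    exact (this.ge (mem_zpowers a)).2
  · rcases h1 with h1 | rfl
    · exact hb s h.sS fun e => h.sa (h1 ⟨h.sS, e⟩)
    · intro y hy; rw [mem_bot] at hy; simp [hy]
  · exact fun g hg => H1.mem_normalizer_of_conj_mem fun _ ⟨k, hk⟩ => ⟨k, by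
      rw [← hk, ← conj_zpow, mem_cen1.1 hg, mul_inv_cancel_right]⟩

end Cfsg.Agent.S0508
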