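import Cfsg.Statements.S0514
import Cfsg.Agent.H1.Two4

set_option autoImplicit false
open Cfsg

namespace Cfsg.Agent.S0514

open H7 H1B Subgroup

/-- In a finite group whose Sylow 2-subgroups are dihedral of order at least 4, the centralizer of any involution has a
normal subgroup of odd order whose index in the centralizer is a power of 2. -/
theorem result {X : Type*} [Group X] [Finite X]
    (S : Sylow 2 X) (n : ℕ) (hn : 2 ≤ n) (hS : Nonempty ((S : Subgroup X) ≃* DihedralGroup n)) (t : X)
    (ht : orderOf t = 2) :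
    ∃ N : Subgroup (Subgroup.centralizer ({t} : Set X)), N.Normal ∧ Odd (Nat.card N) ∧ ∃ k : ℕ, N.index = 2 ^ k := by
  obtain ⟨e⟩ := hS
  have s := syl_top S
  obtain ⟨R⟩ : Nonempty (Sylow 2 (cen1 t)) := inferInstance
  obtain ⟨g, -, hg⟩ := s.exists_cj_le (syl_sub R).isPGroup le_top
  have inj : Function.Injective ((MulAut.conj g).toMonoidHom.comp (cen1 t).subtype) :=
    (MulAut.conj g).injective.comp (cen1 t).subtype_injective
  have hg' : (R : Subgroup (cen1 t)).map ((MulAut.conj g).toMonoidHom.comp (cen1 t).subtype) ≤ S := by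
    rwa [← map_map]
  have e' := (equivMapOfInjective (R : Subgroup (cen1 t)) _ inj).symm
  have np : Cfsg.HasNormalPComplement 2 (cen1 t) := by
    refine npc_of_central (t := ⟨t, self_mem_cen1 t⟩) (syl_top R) (by rw [orderOf_mk, ht])
      (mem_center_iff.2 fun x => Subtype.ext (mem_cen1.1 x.2)) ?_
    have : ∀ H ≤ (S : Subgroup X), IsCyclic H ∨ IsKleinFour H ∨ ∃ a n, Dih H a n := fun H hH => by
      rcases dih_cases s.isPGroup hn e with h | ⟨a, m, h⟩
      · rcases hH.lt_or_eq with h1 | rfl
        · have := mul_card_le_of_lt s.isPGroup h1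
          rw [h.card_four] at this
          exact .inl (cyc_of_Om_two (s.isPGroup.to_le hH) ((ea_of_klein h).of_le hH).comm
            ((card_le_of_le (Om_le _ _)).trans (by omega)))
        · exact .inr (.inl h)
      · exact h.sub_cases hH
    exact (this _ hg').imp (fun h => by haveI := h; exact isCyclic_of_surjective _ e'.surjective)
      (Or.imp (H4.isKleinFour_of_equiv e') fun ⟨a, m, h⟩ => let ⟨a, h⟩ := h.comap inj; ⟨a, m, h⟩)
  obtain ⟨P, N, hN, c⟩ := np
  obtain ⟨k, hk⟩ := IsPGroup.iff_card.1 P.isPGroup'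
  refine ⟨N, hN, ?_, k, c.symm.index_eq_card.trans hk⟩
  rw [← c.index_eq_card, ← Nat.not_even_iff_odd, even_iff_two_dvd]
  exact P.not_dvd_index

end Cfsg.Agent.S0514
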