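import Cfsg.Statements.S0519
import Cfsg.Agent.H1.Two4

set_option autoImplicit false
open Cfsg

namespace Cfsg.Agent.S0519

open H7 H1B Subgroup

/-- Let P be a finite p-group in which every abelian normal subgroup is cyclic, but which has a non-cyclic abelian
subgroup. Then p = 2 and P is generalized quaternion, dihedral of order at least 16, or quasi-dihedral. -/
theorem result {P : Type*} [Group P] [Finite P] (p : ℕ) [Fact p.Prime]
    (hP : IsPGroup p P) (hn : ∀ A : Subgroup P, A.Normal → IsMulCommutative A → IsCyclic A)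
    (hm : ∃ B : Subgroup P, IsMulCommutative B ∧ ¬ IsCyclic B) :
    p = 2 ∧ ((∃ n : ℕ, Nonempty (P ≃* QuaternionGroup n)) ∨ (∃ n : ℕ, 8 ≤ n ∧ Nonempty (P ≃* DihedralGroup n)) ∨
      Cfsg.IsQuasiDihedral P) := by
  obtain ⟨B, hB, hB'⟩ := hm
  have nc : ¬ IsCyclic (⊤ : Subgroup P) := fun h => hB' (cyc_of_le le_top h)
  have h2 : p = 2 := by
    by_contra h2
    obtain ⟨E, -, n, e, c⟩ := exists_normal_ea2 h2 (pg_top hP) le_rfl le_normalizer nc
    exact e.not_cyc c.ge (hn E (normal_of n) e.comm)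
  subst h2
  refine ⟨rfl, ?_⟩
  rcases mx_or_four (pg_top hP) with h1 | ⟨a, w, m, h⟩ | ⟨E, -, n, e, c⟩
  · exact (nc h1).elim
  · rcases h.types_top with ⟨⟨e⟩⟩ | e | e
    · refine .inr (.inl ⟨_, ?_, ⟨e⟩⟩)
      rcases m with _ | m
      · obtain ⟨a, h, h'⟩ := mx_of_dih (topEquiv.trans e)
        obtain ⟨b, hb, hba⟩ := h.ex
        have k := h.klein hb hba (h' b hb hba)
        exact (klein_not_cyc k (hn _ (normal_of (nrm_of_relIndex h.pgroup le_top
          (h.relIndex_supB hb hba))) (ea_of_klein k).comm)).elim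
      · exact Nat.pow_le_pow_right two_pos (show 3 ≤ m + 1 + 2 by omega)
    exacts [.inl ⟨_, e⟩, .inr (.inr e)]
  · exact (e.not_cyc c.ge (hn E (normal_of n) e.comm)).elim

end Cfsg.Agent.S0519
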