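import Cfsg.Statements.S0520
import Cfsg.Agent.H7.Tk3

set_option autoImplicit false
open Cfsg

namespace Cfsg.Agent.S0520
open H7
open scoped commutatorElement

/-- Let G be a finite group of 2-rank at least 2 and S a Sylow 2-subgroup whose commuting graph of Klein four-subgroups is
connected. Then the commuting graph of Klein four-subgroups of G is disconnected if and only if the 2-generated core — the
subgroup generated by the normalizers N_G(Q) of the subgroups Q of S that contain a Klein four-group — is a proper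
subgroup of G. -/
theorem result {G : Type*} [Group G] [Finite G] (h2 : ¬ Cfsg.PRankLE 2 1 G)
    (S : Sylow 2 G) (hS : Cfsg.IsFourConnected (S : Subgroup G)) :
    ¬ Cfsg.IsFourConnected G ↔
      (⨆ Q : {Q : Subgroup G // Q ≤ (S : Subgroup G) ∧ ¬ Cfsg.PRankLE 2 1 Q},
          Subgroup.normalizer ((Q : Subgroup G) : Set G)) ≠ ⊤ := by
  open Subgroup in
    have s := H2.sylow_isSylowIn_top S
    rw [four_conn_iff, kconn_iff s (mt (((hall_single.2 s).rk rfl).1) (mt pRankLE_top.2 h2))
      fun A a B b a1 a2 b1 b2 => cc_of_kconn (four_conn_iff.1 hS) a a1 a2 b b1 b2]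
    refine not_congr ⟨fun h => h _ fun Q a b => le_iSup_of_le ⟨Q, a, mt pRankLE_iff.1 b⟩ le_rfl,
      fun h M hM => top_le_iff.1 (h.ge.trans (iSup_le fun Q => hM _ Q.2.1 (mt pRankLE_iff.2 Q.2.2)))⟩

end Cfsg.Agent.S0520
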