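import Cfsg.Statements.S0521
import Cfsg.Agent.H7.Tk4
import Cfsg.Agent.H7.Sf1

set_option autoImplicit false
open Cfsg

namespace Cfsg.Agent.S0521
open H7
open scoped commutatorElement

section
open Subgroup

theorem aux {G : Type*} [Group G] [Finite G] {p : ℕ} [Fact p.Prime] {H S : Subgroup G} (h2 : p ≠ 2) (s : Group.IsSolvable H)
    (o : (ord H).Coprime 2) (hO : Op' p H = ⊥) (hS : H2.IsSylowIn p S H) (hc : IsCyclic (⁅S, S⁆ : Subgroup G)) : S ≤ Op p H := by
  have F := Fst_eq_Op_of_solv s hO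
  have D : H ≤ nrm (Phi (Op p H)) := nrm_Phi (le_nrm_Opi _ _)
  have l := (Opi_le {p} H).trans D
  have l2 := hS.le.trans D
  have pP := isPGroup_Op p H
  have e : EA p (im (qm (Phi (Op p H))) (Op p H)) := ea_im_of_Phi_le pP l (kr_qm _).ge
  have n := im_le_nrm (qm (Phi (Op p H))) (le_nrm_Opi {p} H)
  have n2 := (im_mono _ hS.le).trans n
  have e2 := e.of_le (comm_le_left n2)
  have c3 : ⁅im (qm (Phi (Op p H))) (Op p H), im (qm (Phi (Op p H))) S⁆ ≤ im (qm (Phi (Op p H))) ⁅S, S⁆ := by
    rw [im_commutator l2 l2]; exact commutator_mono (im_mono _ (Op_le_of_sylow hS)) le_rfl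
  have := pstable' h2 (solv_im _ s) (coprime_im _ o) e.isPGroup n (im_mono _ hS.le) (comm_eq_bot.2 (le_cen_of_card_le
    (isPGroup_im _ hS.isPGroup) e2.isPGroup (le_nrm_comm_right _ _) (e2.card_le_of_cyc (cyc_of_le c3 (cyc_im _ hc)))))
  have k : H ⊓ kr (qm (Phi (Op p H))) ≤ Op p H := inf_le_right.trans ((kr_qm _).le.trans (Phi_le _))
  replace this := this.trans (Omod_le_Op (nrm_cen n) ((isPGroup_im (qm (Phi (Op p H))) pP).to_le fun x hx => by
    obtain ⟨y, hy, rfl⟩ := (mem_im_of_le D).1 hx.1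
    refine ev_mem_im (zpowers_le.1 (le_Op_of_comm_le_Phi F (zpowers_le.2 hy) ?_))
    refine (im_qm_le_cen ((zpowers_le.2 hy).trans D) l).1 ?_
    rw [im_zpowers (D hy)]; exact zpowers_le.2 hx.2))
  rw [← im_Op D (pP.to_le k), im_qm_le l2 l] at this
  exact this.trans (sup_le le_rfl (Phi_le _))

end

/-- Let X be a finite solvable group of odd order, p a prime and S a Sylow p-subgroup of X whose commutator subgroup is
cyclic. Then the product of the largest normal subgroup of X of order prime to p with S is a normal subgroup of X. -/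
theorem result {X : Type*} [Group X] [Finite X] [Group.IsSolvable X]
    (hX : Odd (Nat.card X)) (p : ℕ) [Fact p.Prime] (S : Sylow p X) (hS : IsCyclic (commutator (S : Subgroup X))) :
    (Cfsg.pPrimeCore p X ⊔ (S : Subgroup X)).Normal := by
  open Subgroup in
  have h := H2.sylow_isSylowIn_top S
  rw [pPrimeCore_eq]
  have o := H1B.cop2_top hX
  have D : (⊤ : Subgroup X) ≤ normalizer (Op' p (⊤ : Subgroup X) : Set X) := le_nrm_Opi _ _
  rw [(pl1_of_sylow h ?_).sup_eq h]
  · exact normal_iff_top_le_nrm.2 (le_nrm_Omod _ _ _)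
  by_cases h2 : p = 2
  · subst h2
    rw [eq_bot_of_isPGroup_of_coprime S.isPGroup' (coprime_of_le le_top o)]; exact bot_le
  refine (le_Opp_iff le_top).2 (aux h2 (solv_im _ inferInstance) (coprime_im _ o) (Opi_im_qm _ _) (syl_im h D _) ?_)
  rw [← im_commutator (le_top.trans D) (le_top.trans D), ← H1B.der_map]
  exact cyc_im _ (isCyclic_of_surjective _ (equivMapOfInjective _ _ (S : Subgroup X).subtype_injective).surjective)

end Cfsg.Agent.S0521
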