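import Cfsg.Statements.S0522
import Cfsg.Agent.H7.Sig2

set_option autoImplicit false
open Cfsg

namespace Cfsg.Agent.S0522
open H7
open scoped commutatorElement

/-- Transitivity Theorem (odd-order setting). Let X be a finite group of odd order in which the normalizer of every
nontrivial p-subgroup is solvable, P a Sylow p-subgroup, and B an abelian subgroup of P, normalized by P, with
C_P(B) = B and containing an elementary abelian subgroup of order p^3. Then for every prime q ≠ p, any two q-subgroups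
that are maximal among the q-subgroups normalized by B are conjugate by an element of the centralizer of B. -/
theorem result {X : Type*} [Group X] [Finite X] (hX : Odd (Nat.card X)) (p : ℕ)
    [Fact p.Prime] (hloc : ∀ T : Subgroup X, IsPGroup p T → T ≠ ⊥ → Group.IsSolvable (Subgroup.normalizer (T : Set X)))
    (P : Sylow p X) (B : Subgroup X) (hBP : B ≤ (P : Subgroup X))
    (hBn : ∀ x ∈ (P : Subgroup X), ∀ b ∈ B, x * b * x⁻¹ ∈ B) (hBa : IsMulCommutative B)
    (hBc : (P : Subgroup X) ⊓ Subgroup.centralizer (B : Set X) = B)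
    (hB3 : ∃ E : Subgroup X, E ≤ B ∧ (∀ e ∈ E, e ^ p = 1) ∧ p ^ 3 ≤ Nat.card E)
    (q : ℕ) [Fact q.Prime] (hqp : q ≠ p) (Q₁ Q₂ : Subgroup X)
    (h₁ : IsPGroup q Q₁ ∧ B ≤ Subgroup.normalizer (Q₁ : Set X) ∧
      ∀ R : Subgroup X, IsPGroup q R → B ≤ Subgroup.normalizer (R : Set X) → Q₁ ≤ R → R = Q₁)
    (h₂ : IsPGroup q Q₂ ∧ B ≤ Subgroup.normalizer (Q₂ : Set X) ∧
      ∀ R : Subgroup X, IsPGroup q R → B ≤ Subgroup.normalizer (R : Set X) → Q₂ ≤ R → R = Q₂) :
    ∃ c ∈ Subgroup.centralizer (B : Set X), Q₂ = Q₁.map (MulAut.conj c).toMonoidHom := by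
  open Subgroup in
    obtain ⟨E, hE, pE, h3⟩ := hB3
    have cB := isComm_iff.1 hBa
    have eE : EA p E := ea_iff.2 ⟨le_cen_mono cB hE hE, pE⟩
    have pB : IsPGroup p B := P.2.to_le hBP
    have p2 : p ≠ 2 := by
      rintro rfl
      have : 2 ∣ Nat.card X := (dvd_card_of_isPGroup eE.isPGroup (ne_bot_of_pow_le h3)).trans
        (card_subgroup_dvd_card E)
      exact (Nat.not_even_iff_odd.2 hX) (even_iff_two_dvd.2 this)
    have nB : (P : Subgroup X) ≤ nrm B := le_nrm_iff_conj.2 hBn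
    have sB := syl_inf (H2.sylow_isSylowIn P nB) (cen_le_nrm B) (nrm_cen nB)
    rw [hBc] at sB
    obtain ⟨c, hc, -, e⟩ := thompson_trans hqp pB eE hE (cB.trans (cen_anti hE)) h3
      (fun a ha h1 Y hY hc hn => by
        have pa : IsPGroup p (zpowers a) := pB.to_le (zpowers_le.2 (hE ha))
        refine bender_le_Op' p2 (pcon_cen1 pa (PLay_eq_bot_of_solv (hloc _ pa (zpowers_ne_bot' h1)))) pB
          (cB.trans (cen_le_cen1 (hE ha))) (fun x hx e => ?_) hY hc hn
        exact sB.le_of_le_normalizer (isPGroup_zpowers (k := 1) (by simpa using e)) (zpowers_le.2 hx.2)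
          ((zpowers_le.2 hx.2).trans (cen_le_nrm B)) (mem_zpowers x)) h₁ h₂
    exact ⟨c, hc, e.symm⟩

end Cfsg.Agent.S0522
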