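import Cfsg.Statements.S0529
import Cfsg.Agent.H1.SS

set_option autoImplicit false
open Cfsg

namespace Cfsg.Agent.S0529

/-- A finite supersolvable group has a chain of normal subgroups, from the trivial subgroup to the whole group, in which every step has prime index and the primes occurring are non-increasing as one goes up the chain. -/
theorem result {G : Type*} [Group G] [Finite G] (hG : Cfsg.IsSupersolvable G) : ∃ (n : ℕ) (H : Fin (n + 1) → Subgroup G), H 0 = ⊥ ∧ H (Fin.last n) = ⊤ ∧ (∀ i, (H i).Normal) ∧ (∀ i : Fin n, H i.castSucc ≤ H i.succ ∧ ((H i.castSucc).relIndex (H i.succ)).Prime) ∧ ∀ i j : Fin n, i ≤ j → (H j.castSucc).relIndex (H j.succ) ≤ (H i.castSucc).relIndex (H i.succ) := by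
  rw [H1.isSupersolvable_iff] at hG
  suffices ∀ N : Subgroup G, N.Normal → ∃ (n : ℕ) (H : Fin (n + 1) → Subgroup G), H 0 = N ∧
      H (Fin.last n) = ⊤ ∧ (∀ i, (H i).Normal) ∧ (∀ i : Fin n, H i.castSucc ≤ H i.succ ∧
      ((H i.castSucc).relIndex (H i.succ)).Prime) ∧ (∀ i j : Fin n, i ≤ j →
      (H j.castSucc).relIndex (H j.succ) ≤ (H i.castSucc).relIndex (H i.succ)) ∧
      ∀ i : Fin n, (H i.castSucc).relIndex (H i.succ) ∣ N.index by
    obtain ⟨n, H, h1, h2, h3, h4, h5, -⟩ := this ⊥ inferInstance
    exact ⟨n, H, h1, h2, h3, h4, h5⟩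
  intro N hN
  induction N using WellFoundedGT.induction with | ind N ih
  by_cases e : N = ⊤
  · exact ⟨0, fun _ => ⊤, e.symm, rfl, fun _ => inferInstance, fun i => i.elim0, fun i => i.elim0,
      fun i => i.elim0⟩
  obtain ⟨p, hp, hd, hmax⟩ := H1.exists_max_prime_dvd (n := N.index) Subgroup.index_ne_zero_of_finite
    (by rwa [Ne, Subgroup.index_eq_one])
  obtain ⟨L, hL, hLp⟩ := (hG.quotient N).exists_normal_max_prime hp hd hmax
  have h0 := H1.lt_comap_mk' N (M := L) (by rintro rfl; exact hp.ne_one (by simpa using hLp.symm))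
  have hr := (H1.relIndex_comap_mk' N L).trans hLp
  obtain ⟨n, H, h1, h2, h3, h4, h5, h6⟩ := ih _ h0 inferInstance
  have h7 := fun i => (h6 i).trans (Subgroup.index_dvd_of_le h0.le)
  refine ⟨n + 1, Fin.cons N H, rfl, by simpa using h2, fun i => ?_, fun i => ?_, fun i j hij => ?_,
    fun i => ?_⟩
  · induction i using Fin.cases with
    | zero => exact hN
    | succ i => exact h3 i
  · induction i using Fin.cases with
    | zero => simpa [h1, hr, hp] using h0.le
    | succ i => simpa using h4 i
  · induction i using Fin.cases with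
    | zero =>
      induction j using Fin.cases with
      | zero => exact le_rfl
      | succ j => simpa [h1, hr] using hmax _ (h4 j).2 (h7 j)
    | succ i =>
      induction j using Fin.cases with
      | zero => exact absurd hij (by simp)
      | succ j => simpa using h5 i j (by simpa using hij)
  · induction i using Fin.cases with
    | zero => simpa [h1, hr] using hd
    | succ i => simpa using h7 i

end Cfsg.Agent.S0529
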