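import Cfsg.Statements.S0530
import Cfsg.Agent.H1.SS

set_option autoImplicit false
open Cfsg

namespace Cfsg.Agent.S0530

/-- A finite group whose order is twice a prime power is supersolvable. -/
theorem result {G : Type*} [Group G] [Finite G] (p n : ℕ) (hp : p.Prime) (hG : Nat.card G = 2 * p ^ n) : Cfsg.IsSupersolvable G := by
  have := Fact.mk hp
  rw [H1.isSupersolvable_iff]
  by_cases h2 : p = 2
  · have := (IsPGroup.of_card (G := G) (p := p) (n := n + 1) (by rw [hG, h2, pow_succ'])).isNilpotent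
    exact H1.ss_of_isNilpotent
  obtain ⟨P⟩ : Nonempty (Sylow p G) := inferInstance
  have hi : (P : Subgroup G).index = 2 := by
    have h := Subgroup.card_mul_index (P : Subgroup G)
    rw [P.card_eq_multiplicity, hG, Nat.factorization_mul two_ne_zero (pow_ne_zero _ hp.ne_zero),
      mul_comm 2] at h
    simp [hp.factorization, Nat.prime_two.factorization, Ne.symm h2] at h
    exact h.resolve_right fun h => hp.ne_zero h.1
  have hn := Subgroup.normal_of_index_eq_two hi
  obtain ⟨t, -, ht, htP⟩ := H1.exists_sup_zpowers_of_relIndex_prime (N := (P : Subgroup G)) (K := ⊤)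
    (by rw [Subgroup.relIndex_top_right, hi]; exact Nat.prime_two) le_top
  have ht2 : t * t ∈ (P : Subgroup G) := by rw [← sq, ← hi]; exact Subgroup.pow_index_mem _ t
  refine H1.SS.of_quotient (N := P) (H1.ssTo_of_forall_quotient fun N _ hN => ?_) ?_
  · have hs := QuotientGroup.mk'_surjective N
    have := hn.map _ hs
    have hP := P.isPGroup'.map (QuotientGroup.mk' N)
    obtain ⟨⟨z, hz⟩, hz1⟩ := Subgroup.ne_bot_iff_exists_ne_one.1
      (H1.inf_centralizer_ne_bot_of_isPGroup hP hP Subgroup.le_normalizer (H1.map_mk'_ne_bot hN))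
    rw [sup_idem] at hz
    have hZ : ((P : Subgroup G).map (QuotientGroup.mk' N) ⊓
      Subgroup.centralizer ((P : Subgroup G).map (QuotientGroup.mk' N) : Set (G ⧸ N))).Normal :=
      inferInstance
    have key : ∀ y ∈ (P : Subgroup G).map (QuotientGroup.mk' N) ⊓
        Subgroup.centralizer ((P : Subgroup G).map (QuotientGroup.mk' N) : Set (G ⧸ N)), y ≠ 1 →
        (t : G ⧸ N) * y * (t : G ⧸ N)⁻¹ ∈ Subgroup.zpowers y → ∃ C : Subgroup (G ⧸ N), C.Normal ∧
        C ≠ ⊥ ∧ C ≤ (P : Subgroup G).map (QuotientGroup.mk' N) ∧ IsCyclic C := fun y hy h1 h2 => by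
      refine ⟨Subgroup.zpowers y, Subgroup.normalizer_eq_top_iff.1 (top_le_iff.1 ?_),
        by simpa using h1, Subgroup.zpowers_le.2 hy.1, inferInstance⟩
      rw [← Subgroup.map_top_of_surjective _ hs, ← htP, Subgroup.map_sup, MonoidHom.map_zpowers]
      refine sup_le ((Subgroup.le_centralizer_iff.1 (Subgroup.zpowers_le.2 hy.2)).trans
        (Subgroup.centralizer_le_normalizer _)) (Subgroup.zpowers_le.2
          (H1.mem_normalizer_of_conj_mem ?_))
      rintro _ ⟨k, rfl⟩
      rw [← conj_zpow]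
      exact Subgroup.zpow_mem _ h2 k
    have h3 := hZ.conj_mem z hz t
    by_cases h4 : z * ((t : G ⧸ N) * z * (t : G ⧸ N)⁻¹) = 1
    · exact key z hz (by simpa using hz1) (by
        rw [eq_inv_of_mul_eq_one_right h4]; exact inv_mem (Subgroup.mem_zpowers z))
    · refine key _ (mul_mem hz h3) h4 ?_
      have h5 : ((t * t : G) : G ⧸ N) * z = z * (t * t : G) := hz.2 _ ⟨_, ht2, rfl⟩
      rw [QuotientGroup.mk_mul] at h5
      convert Subgroup.mem_zpowers _ using 1
      rw [← hz.2 _ h3.1]
      calc _ = ((t : G ⧸ N) * t * z * ((t : G ⧸ N) * t)⁻¹) * (t * z * (t : G ⧸ N)⁻¹) := by group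
        _ = z * (t * z * (t : G ⧸ N)⁻¹) := by rw [h5]; group
        _ = _ := (hz.2 _ h3.1).symm
  · have : IsCyclic (G ⧸ (P : Subgroup G)) := isCyclic_of_prime_card (p := 2) hi
    exact H1.ssTo_of_isCyclic ⊤

end Cfsg.Agent.S0530
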