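import Cfsg.Statements.S0531
import Cfsg.Agent.H1.SS

set_option autoImplicit false
open Cfsg

namespace Cfsg.Agent.S0531

/-- A finite supersolvable group has a subgroup of each order dividing its order. -/
theorem result {G : Type*} [Group G] [Finite G] (hG : Cfsg.IsSupersolvable G) : Cfsg.HasSubgroupOfEveryOrder G := by
  exact fun d hd => (H1.isSupersolvable_iff.1 hG).exists_card_eq hd

end Cfsg.Agent.S0531
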