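import Cfsg.Statements.S0533
import Cfsg.Agent.H1.SS

set_option autoImplicit false
open Cfsg

namespace Cfsg.Agent.S0533

universe u
theorem aux (n : ℕ) : ∀ (G : Type u) [Group G] [Finite G], Nat.card G = n →
    (∀ H : Subgroup G, Cfsg.HasSubgroupOfEveryOrder H) → H1.SS G := by
  induction n using Nat.strong_induction_on with | _ n ih
  intro G _ _ hn h
  rcases subsingleton_or_nontrivial G with _ | _
  · exact H1.ss_of_subsingleton
  have h0 : ∀ K : Subgroup G, K ≠ ⊤ → H1.SS K := fun K hK =>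
    ih _ (hn ▸ H1.card_lt_of_ne_top hK) K rfl fun H d hd => by
      let e := H.equivMapOfInjective K.subtype K.subtype_injective
      obtain ⟨L, hL⟩ := h (H.map K.subtype) d (Nat.card_congr e.toEquiv ▸ hd)
      exact ⟨L.map e.symm.toMonoidHom, by rw [Subgroup.card_map_of_injective e.symm.injective, hL]⟩
  obtain ⟨p, hp, hd, hmax⟩ := H1.exists_max_prime_dvd (Nat.card_pos (α := G)).ne'
    Finite.one_lt_card.ne'
  have := Fact.mk hp
  obtain ⟨P⟩ : Nonempty (Sylow p G) := inferInstance
  have hP : (P : Subgroup G).Normal := Subgroup.normalizer_eq_top_iff.1 (top_le_iff.1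
    (H1.le_normalizer_sylow_of_hclt (fun H _ => h H) (by rwa [Subgroup.card_top])
      (H1.isSylowIn_top P)))
  obtain ⟨m, hm⟩ := hd
  obtain ⟨K', hK'⟩ := h ⊤ m (by rw [Subgroup.card_top, hm]; exact dvd_mul_left _ _)
  obtain ⟨K, hK⟩ : ∃ K : Subgroup G, K.index = p := by
    refine ⟨K'.map (⊤ : Subgroup G).subtype, ?_⟩
    have := Subgroup.card_mul_index (K'.map (⊤ : Subgroup G).subtype)
    rw [Subgroup.card_map_of_injective (Subgroup.subtype_injective _), hK', hm, mul_comm p] at this
    exact Nat.eq_of_mul_eq_mul_left (hK' ▸ Nat.card_pos) this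
  have hKt : K ≠ ⊤ := by rintro rfl; exact hp.ne_one (by simpa using hK.symm)
  have hPK : K ⊔ (P : Subgroup G) = ⊤ := H1.sup_eq_top_of_coprime_index
    (hK ▸ hp.coprime_iff_not_dvd.2 P.not_dvd_index)
  have hS := h0 K hKt
  have hs := hS.isSolvable
  obtain ⟨H, hH⟩ := H1.hall_exists {p}ᶜ K
  rw [H1.isPiHallOf_iff, compl_compl] at hH
  have hHp := (H1.PiNum.compl_singleton_iff hp).1 hH.2.1
  have hPH : (P : Subgroup G) ⊔ H = ⊤ := H1.sup_eq_top_of_coprime_index (by
    rw [← Subgroup.relIndex_mul_index hH.1, hK]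
    obtain ⟨k, hk⟩ := (H1.PiNum.singleton_iff hp Subgroup.index_ne_zero_of_finite).1 hH.2.2
    rw [show H.relIndex K = p ^ k from hk, ← pow_succ]
    exact (hp.coprime_iff_not_dvd.2 P.not_dvd_index).symm.pow_right _)
  have h1 : (K ⊓ P).relIndex P = p := by
    rw [H1.relIndex_inf_eq_relIndex_sup Subgroup.le_normalizer_of_normal, hPK,
      Subgroup.relIndex_top_right, hK]
  have := P.isPGroup'.isNilpotent
  have hN : (K ⊓ P : Subgroup G).Normal := Subgroup.normalizer_eq_top_iff.1 (top_le_iff.1 (hPK ▸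
    sup_le (H1.le_normalizer_inf Subgroup.le_normalizer Subgroup.le_normalizer_of_normal)
      (H1.le_normalizer_of_relIndex_prime (by rwa [h1]) inf_le_right)))
  have hs := QuotientGroup.mk'_surjective (K ⊓ P : Subgroup G)
  have := hP.map _ hs
  have h2 : Nat.card ((P : Subgroup G).map (QuotientGroup.mk' (K ⊓ P : Subgroup G))) = p := by
    rw [H1.card_map_mk', h1]
  have key : ∀ B : Subgroup G, B ≤ H → B.subgroupOf K ≤
      Subgroup.centralizer ((P : Subgroup G).subgroupOf K : Set K) →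
      B.map (QuotientGroup.mk' (K ⊓ P : Subgroup G)) ≤ Subgroup.centralizer
        ((P : Subgroup G).map (QuotientGroup.mk' (K ⊓ P : Subgroup G)) : Set _) →
      B ≤ Subgroup.centralizer ((P : Subgroup G) : Set G) := fun B h3 h4 h5 => by
    refine H1.coprime_centralizes_of_chain (N := K ⊓ P) (H1.IsPGroup.coprime_card_of_coprime
      (P.isPGroup'.to_le inf_le_right) (hHp.of_dvd_left (Subgroup.card_dvd_of_le h3))).symm ?_
      fun b hb x hx => congrArg Subtype.val (@h4 ⟨b, hH.1 (h3 hb)⟩ hb ⟨x, hx.1⟩ hx.2)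
    rwa [Subgroup.le_centralizer_iff, ← Subgroup.commutator_eq_bot_iff_le_centralizer,
      ← Subgroup.map_commutator, Subgroup.map_eq_bot_iff, QuotientGroup.ker_mk'] at h5
  have h3 := hS.ssTo ((P : Subgroup G).subgroupOf K)
  have h4 : IsPGroup p ((P : Subgroup G).subgroupOf K) := P.isPGroup'.comap_subtype
  refine H1.SS.of_quotient (H1.ssTo_of_abelian_action P.isPGroup' le_rfl hPH
    (key _ (Subgroup.commutator_le_self H) ?_ ?_) fun a ha => Subgroup.zpowers_le.1
      (key _ (Subgroup.zpowers_le.2 (H.pow_mem ha _)) ?_ ?_))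
    (hS.of_surjective (f := (QuotientGroup.mk' (P : Subgroup G)).comp K.subtype) ?_)
  · rw [H1.subgroupOf_commutator hH.1 hH.1]
    exact h3.commutator_le_centralizer h4 (by rwa [H1.card_subgroupOf_of_le hH.1])
  · rw [Subgroup.map_commutator]
    exact (Subgroup.commutator_mono le_top le_top).trans
      (H1.commutator_le_centralizer_of_card_prime (by rwa [h2]))
  · rintro ⟨_, hx⟩ ⟨k, rfl⟩
    exact Subgroup.zpow_mem _ (h3.pow_mem_centralizer h4 (a := ⟨a, hH.1 ha⟩)
      (hHp.of_dvd_left (by rw [← Subgroup.orderOf_coe]; exact H.orderOf_dvd_natCard ha))) k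
  · rw [MonoidHom.map_zpowers, Subgroup.zpowers_le, map_pow]
    have := H1.pow_mem_centralizer_of_card_prime (C := (P : Subgroup G).map
      (QuotientGroup.mk' (K ⊓ P : Subgroup G))) (by rwa [h2])
      (Subgroup.le_normalizer_of_normal (Subgroup.mem_top (QuotientGroup.mk' _ a)))
    rwa [h2] at this
  · intro x
    obtain ⟨x, rfl⟩ := QuotientGroup.mk_surjective x
    obtain ⟨k, hk, y, hy, rfl⟩ := (H1.mem_sup_of_le_normalizer Subgroup.le_normalizer_of_normal).1
      (hPK ▸ Subgroup.mem_top x)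
    exact ⟨⟨k, hk⟩, (QuotientGroup.mk_mul_of_mem k hy).symm⟩

/-- If every subgroup of a finite group has subgroups of all orders dividing its order, then the group is supersolvable. -/
theorem result {G : Type*} [Group G] [Finite G] (h : ∀ H : Subgroup G, Cfsg.HasSubgroupOfEveryOrder H) : Cfsg.IsSupersolvable G := by
  exact H1.isSupersolvable_iff.2 (aux _ G rfl h)

end Cfsg.Agent.S0533
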