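import Cfsg.Statements.S0534
import Cfsg.Agent.H1.SS

set_option autoImplicit false
open Cfsg

namespace Cfsg.Agent.S0534

/-- Let G be a finite solvable group and A a finite abelian group such that every prime dividing the order of A divides the order of G and, for each prime p dividing the order of G, the exponent of p in the order of A is one less than its exponent in the order of G. Then G × A has a subgroup of every order dividing its order. -/
theorem result {G A : Type*} [Group G] [CommGroup A] [Finite G] [Finite A] [Group.IsSolvable G] (hA : ∀ p : ℕ, p.Prime → p ∣ Nat.card A → p ∣ Nat.card G) (hexp : ∀ p : ℕ, p.Prime → p ∣ Nat.card G → (Nat.card A).factorization p + 1 = (Nat.card G).factorization p) : Cfsg.HasSubgroupOfEveryOrder (G × A) := by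
  intro d hd
  have h0 : Nat.card G ≠ 0 := Nat.card_pos.ne'
  have h0' : Nat.card A ≠ 0 := Nat.card_pos.ne'
  rw [Nat.card_prod] at hd
  have hd0 : d ≠ 0 := by rintro rfl; exact mul_ne_zero h0 h0' (zero_dvd_iff.1 hd)
  obtain ⟨H, hH⟩ := (H1.piSep_of_isSolvable (G := G)
    {p | (Nat.card G).factorization p ≤ d.factorization p}).exists_hall
  rw [H1.isPiHall_iff] at hH
  have h1 : Nat.card H ≠ 0 := Nat.card_pos.ne'
  have h2 : ∀ p, p.Prime → (Nat.card H).factorization p + H.index.factorization p =
      (Nat.card G).factorization p := fun p _ => by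
    rw [← Subgroup.card_mul_index H, Nat.factorization_mul h1 Subgroup.index_ne_zero_of_finite]; rfl
  have h3 : ∀ p, p.Prime → ¬ (Nat.card G).factorization p ≤ d.factorization p →
      (Nat.card H).factorization p = 0 := fun p hp h =>
    Nat.factorization_eq_zero_of_not_dvd fun hd => h (hH.1 p hp hd)
  have h4 : ∀ p, p.Prime → (Nat.card G).factorization p ≤ d.factorization p →
      H.index.factorization p = 0 := fun p hp h =>
    Nat.factorization_eq_zero_of_not_dvd fun hd => hH.2 p hp hd h
  have h5 : Nat.card H ∣ d := (Nat.factorization_prime_le_iff_dvd h1 hd0).1 fun p hp => by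
    have := h2 p hp
    by_cases h : (Nat.card G).factorization p ≤ d.factorization p
    · omega
    · rw [h3 p hp h]; exact Nat.zero_le _
  obtain ⟨e, rfl⟩ := h5
  have he : e ≠ 0 := right_ne_zero_of_mul hd0
  have h6 : e ∣ Nat.card A := (Nat.factorization_prime_le_iff_dvd he h0').1 fun p hp => by
    have h7 := (Nat.factorization_prime_le_iff_dvd hd0 (mul_ne_zero h0 h0')).2 hd p hp
    have h8 := h2 p hp
    have h9 := h3 p hp
    have h10 := h4 p hp
    rw [Nat.factorization_mul h1 he] at h7 h9 h10
    rw [Nat.factorization_mul h0 h0'] at h7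
    simp only [Finsupp.add_apply] at h7 h9 h10
    by_cases h : p ∣ Nat.card G
    · have := hexp p hp h
      omega
    · have := Nat.factorization_eq_zero_of_not_dvd h
      omega
  obtain ⟨B, hB⟩ := (H1.ss_of_isNilpotent (G := A)).exists_card_eq h6
  exact ⟨H.prod B, by rw [Nat.card_congr (Subgroup.prodEquiv H B).toEquiv, Nat.card_prod, hB]⟩

end Cfsg.Agent.S0534
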