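import Cfsg.Statements.S0535
import Cfsg.Agent.H1.U2

set_option autoImplicit false
open Cfsg

namespace Cfsg.Agent.S0535

open H7 H1B Subgroup

/-- Suppose that for every nontrivial subgroup H of a finite group and every prime p dividing the order of H there is a proper subgroup of H whose index in H is a power of p. Then the group is solvable. -/
theorem result {G : Type*} [Group G] [Finite G] (h : ∀ H : Subgroup G, H ≠ ⊥ → ∀ p : ℕ, p.Prime → p ∣ Nat.card H → ∃ K : Subgroup H, K ≠ ⊤ ∧ ∃ k : ℕ, K.index = p ^ k) : Group.IsSolvable G := by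
  refine H1.isSolvable_of_complements fun p hp => ?_
  haveI := Fact.mk hp
  suffices ∀ H : Subgroup G, PiN {p} H.index → ∃ K : Subgroup G, IsPiHall {p}ᶜ K from
    this ⊤ (by simpa using piN_one _)
  intro H hH
  induction H using WellFoundedLT.induction with | _ H ih
  by_cases e : p ∣ ord H
  · obtain ⟨K, a, k, b⟩ := h H (ne_bot_of_dvd hp e) p hp e
    refine ih (K.map H.subtype) (lt_of_le_of_ne (map_subtype_le K) fun e' => a (eq_iff_map.2 (by
      rw [e', map_subtype_top]))) ?_
    rw [← relIndex_mul_index (map_subtype_le K), relIndex_map_subtype, b]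
    exact (piN_pow k).mul hH
  exact ⟨H, hall_top_iff.2 ⟨le_top, piN_compl_iff'.2 e, by simpa using hH⟩⟩

end Cfsg.Agent.S0535
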