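import Cfsg.Statements.S0537
import Cfsg.Agent.H1.U2

set_option autoImplicit false
open Cfsg

namespace Cfsg.Agent.S0537

open H7 H1B Subgroup

/-- A finite non-abelian group in which every proper subgroup is abelian is either of prime-power order, or is generated by a cyclic Sylow p-subgroup and a normal Sylow q-subgroup that is elementary abelian, for distinct primes p and q. -/
theorem result {G : Type*} [Group G] [Finite G] (hna : ¬ IsMulCommutative G) (h : ∀ H : Subgroup G, H ≠ ⊤ → IsMulCommutative H) : (∃ p : ℕ, p.Prime ∧ IsPGroup p G) ∨ ∃ p q : ℕ, p.Prime ∧ q.Prime ∧ p ≠ q ∧ ∃ (P : Sylow p G) (Q : Sylow q G), IsCyclic P ∧ (Q : Subgroup G).Normal ∧ Cfsg.IsElementaryAbelian q (Q : Subgroup G) ∧ (P : Subgroup G) ⊔ Q = ⊤ := by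
  by_cases n : Group.IsNilpotent (⊤ : Subgroup G)
  · refine Or.inl (by_contra fun e => hna (comm_top'.1 (isComm_of_syl n fun p hp _ P _ a => h P ?_)))
    rintro rfl
    exact e ⟨p, hp, pg_top_iff.1 a⟩
  obtain ⟨p, q, hp, hq, e, x, Q, a, b, c, d, f⟩ := schmidt n fun K a => nilp_of_comm (h K a.ne)
  haveI := Fact.mk hp; haveI := Fact.mk hq
  have hQ : IsMulCommutative Q := h Q fun e => n (e ▸ nilp_of_isPGroup b.isPGroup)
  refine Or.inr ⟨p, q, hp, hq, e, a.toSylowTop, b.toSylowTop, H7.cyc_zpowers x, normal_of c, ?_, d⟩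
  have xn := zpowers_le.2 (c (mem_top x))
  by_cases e' : zpowers x ⊔ Om q Q = ⊤
  · have := (syl_of_sup_pgroups e a.isPGroup (b.isPGroup.to_le (Om_le q Q)) (nrm_Om xn)).2
    rw [e'] at this
    rw [show (b.toSylowTop : Subgroup G) = Om q Q from this.eq_of_le b.isPGroup (Om_le _ _) le_top]
    exact ea_Om hQ
  exact absurd (cen_of_Om_le_comm b.isPGroup hQ xn (coprime_pgroup a.isPGroup e)
    (le_cen_of_comm (h _ e') le_sup_right le_sup_left) (mem_zpowers x)) f

end Cfsg.Agent.S0537
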