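import Cfsg.Statements.S0540
import Cfsg.Agent.H1.Subnormal

set_option autoImplicit false
open Pointwise
open Cfsg

namespace Cfsg.Agent.S0540

/-- A uniqueness lemma of zipper type. Let A be a subgroup of a finite group G and U a nonempty family of subgroups. For V in U write S(V) for the set of conjugates of A that lie in V and are subnormal in V. Assume: A belongs to S(V) for every V in U; a member of some S(W) that lies in V belongs to S(V); and for all V, W in U the normalizer of the join of S(V) ∩ S(W) lies in some member of U. Then U has a greatest element. -/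
theorem result {G : Type*} [Group G] [Finite G] (A : Subgroup G) (U : Set (Subgroup G)) (hU : U.Nonempty) (S : Subgroup G → Set (Subgroup G)) (hS : ∀ V B : Subgroup G, B ∈ S V ↔ (∃ g : G, B = MulAut.conj g • A) ∧ B ≤ V ∧ (B.subgroupOf V).IsSubnormal) (h1 : ∀ V ∈ U, A ∈ S V) (h2 : ∀ V ∈ U, ∀ W ∈ U, ∀ B ∈ S W, B ≤ V → B ∈ S V) (h3 : ∀ V ∈ U, ∀ W ∈ U, ∃ X ∈ U, Subgroup.normalizer ((sSup (S V ∩ S W) : Subgroup G) : Set G) ≤ X) : ∃ M ∈ U, ∀ V ∈ U, V ≤ M := by
  refine H1.zipper_abstract (H := ⊤) hU (fun _ _ => le_top) S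
    (fun V _ B hB => H7.sn_iff.2 ((hS V B).1 hB).2) (fun V _ B hB v hv => ?_) h2
    fun V hV W hW => by simpa using h3 V hV W hW
  obtain ⟨⟨g, rfl⟩, h⟩ := (hS V B).1 hB
  exact (hS V _).2 ⟨⟨v * g, (H7.cj_mul v g A).symm⟩,
    H7.sn_iff.1 ((H7.sn_iff.2 h).cj_of_mem_nrm (Subgroup.le_normalizer hv))⟩

end Cfsg.Agent.S0540
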