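import Cfsg.Statements.S0541
import Cfsg.Agent.H1.Subnormal

set_option autoImplicit false
open Pointwise
open Cfsg

namespace Cfsg.Agent.S0541

/-- Let Z and Y be subgroups of a finite group G and p a prime. Suppose that for every g in G the subgroup generated by the conjugates of g Z g⁻¹ under Y is a p-group. Then there is a Sylow p-subgroup P of G such that Y normalizes the subgroup generated by all conjugates of Z contained in P. -/
theorem result {G : Type*} [Group G] [Finite G] (p : ℕ) [Fact p.Prime] (Z Y : Subgroup G) (h : ∀ g : G, IsPGroup p ↥(⨆ y ∈ Y, MulAut.conj (y * g) • Z)) : ∃ P : Sylow p G, Y ≤ Subgroup.normalizer ((⨆ g ∈ {g : G | MulAut.conj g • Z ≤ (P : Subgroup G)}, MulAut.conj g • Z : Subgroup G) : Set G) := by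
  obtain ⟨P, hP⟩ := H1.matsuyama (p := p) (Z := Z) (Y := Y) fun g => by
    have e : H1.ncl (H2.cj g Z) Y = ⨆ y ∈ Y, MulAut.conj (y * g) • Z :=
      iSup_congr fun y => iSup_congr fun _ => (H7.cj_mul y g Z).symm
    rw [e]; exact h g
  refine ⟨P, ?_⟩
  convert hP using 3
  refine le_antisymm (iSup₂_le fun g hg => le_sSup ⟨⟨g, rfl⟩, hg⟩) (sSup_le ?_)
  rintro _ ⟨⟨g, rfl⟩, hg⟩
  exact le_iSup₂_of_le (f := fun g (_ : g ∈ {g : G | MulAut.conj g • Z ≤ (P : Subgroup G)}) =>
    MulAut.conj g • Z) g hg le_rfl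

end Cfsg.Agent.S0541
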