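import Cfsg.Statements.S0546
import Cfsg.Agent.H1.U2

set_option autoImplicit false
open Cfsg

namespace Cfsg.Agent.S0546

open H7 H1B Subgroup

/-- The normal closure of a system normalizer of a finite solvable group is the whole group. -/
theorem result {G : Type*} [Group G] [Finite G] [Group.IsSolvable G] (K : Nat.Primes → Subgroup G) (hK : Cfsg.IsComplementSystem K) : Subgroup.normalClosure ((Cfsg.systemNormalizer K : Subgroup G) : Set G) = ⊤ := by
  set N := normalClosure ((Cfsg.systemNormalizer K : Subgroup G) : Set G)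
  haveI := (comm_quot_iff (N ⊔ ⁅(⊤ : Subgroup G), ⊤⁆)).2 le_sup_right
  haveI : Group.IsNilpotent (G ⧸ (N ⊔ ⁅(⊤ : Subgroup G), ⊤⁆)) := nilp_top.1 (nilp_of_comm inferInstance)
  have := H1.systemNormalizer_sup_eq_top hK (N ⊔ ⁅(⊤ : Subgroup G), ⊤⁆)
  rw [← sup_assoc, sup_eq_right.2 (le_normalClosure (H := Cfsg.systemNormalizer K))] at this
  exact top_le_iff.1 (solv_le_of_le_sup_comm (solv_sub ⊤) (top_nrm N) this.ge)

end Cfsg.Agent.S0546
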