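import Cfsg.Statements.S0547
import Cfsg.Agent.H1.U2

set_option autoImplicit false
open Cfsg

namespace Cfsg.Agent.S0547

open H7 H1B Subgroup

/-- Let a finite solvable group G act faithfully and primitively on a set, and let M be a minimal normal subgroup of G. Then M is transitive with trivial point stabilizers, and the number of points equals the order of M, which is a prime power p ^ d with d ≥ 1. -/
theorem result {G : Type*} [Group G] [Finite G] [Group.IsSolvable G] {Ω : Type*} [Nonempty Ω] [MulAction G Ω] [FaithfulSMul G Ω] (hprim : MulAction.IsPreprimitive G Ω) (M : Subgroup G) [M.Normal] (hM : M ≠ ⊥) (hmin : ∀ K : Subgroup G, K.Normal → K ≤ M → K = ⊥ ∨ K = M) : MulAction.IsPretransitive M Ω ∧ (∀ ω : Ω, MulAction.stabilizer M ω = ⊥) ∧ ∃ p d : ℕ, p.Prime ∧ 0 < d ∧ Nat.card Ω = p ^ d ∧ Nat.card M = p ^ d := by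
  obtain ⟨p, hp, e⟩ := ea_of_min (solv_sub M) (top_nrm M) hM fun L a b => hmin L (normal_of b) a
  haveI := Fact.mk hp
  have t : MulAction.IsPretransitive M Ω := MulAction.IsQuasiPreprimitive.isPretransitive_of_normal
    fun h => hM (eq_bot_iff.2 fun m hm => eq_of_smul_eq_smul (α := Ω) fun a => by
      rw [one_smul]; exact (h.ge (Set.mem_univ a)) ⟨m, hm⟩)
  have s : ∀ ω : Ω, MulAction.stabilizer M ω = ⊥ := fun ω => eq_bot_iff.2 fun m hm =>
    Subtype.ext (eq_of_smul_eq_smul (α := Ω) fun a => by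
      obtain ⟨n, rfl⟩ := t.exists_smul_eq ω a
      change (m : G) • (n : G) • ω = (1 : G) • (n : G) • ω
      rw [one_smul, ← mul_smul, e.mul_comm m.2 n.2, mul_smul, show (m : G) • ω = ω from hm])
  obtain ⟨d, hd⟩ := card_pgroup e.isPGroup
  obtain ⟨ω⟩ := ‹Nonempty Ω›
  refine ⟨t, s, p, d, hp, Nat.pos_of_ne_zero fun e => hM (card_eq_one.1 (by simpa [e] using hd)), ?_, hd⟩
  rw [← hd, ← MulAction.index_stabilizer_of_transitive M ω, s, index_bot]

end Cfsg.Agent.S0547
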