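import Cfsg.Statements.S0548
import Cfsg.Agent.H1.U2
import Cfsg.Agent.S0547

set_option autoImplicit false
open Cfsg

namespace Cfsg.Agent.S0548

open H7 H1B Subgroup

/-- Let a finite solvable group G act faithfully and primitively on a set, let M be a minimal normal subgroup and H the stabilizer of a point. Then H is a complement to M, no non-identity element of H centralizes M, and the only subgroups of M normalized by H are the trivial subgroup and M. -/
theorem result {G : Type*} [Group G] [Finite G] [Group.IsSolvable G] {Ω : Type*} [MulAction G Ω] [FaithfulSMul G Ω] (hprim : MulAction.IsPreprimitive G Ω) (M : Subgroup G) [M.Normal] (hM : M ≠ ⊥) (hmin : ∀ K : Subgroup G, K.Normal → K ≤ M → K = ⊥ ∨ K = M) (ω : Ω) : Subgroup.IsComplement' M (MulAction.stabilizer G ω) ∧ MulAction.stabilizer G ω ⊓ Subgroup.centralizer (M : Set G) = ⊥ ∧ ∀ K : Subgroup G, K ≤ M → MulAction.stabilizer G ω ≤ Subgroup.normalizer (K : Set G) → K = ⊥ ∨ K = M := by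
  haveI : Nonempty Ω := ⟨ω⟩
  obtain ⟨t, s, -⟩ := S0547.result hprim M hM hmin
  obtain ⟨p, hp, e⟩ := ea_of_min (solv_sub M) (top_nrm M) hM fun L a b => hmin L (normal_of b) a
  have c := isComplement'_stabilizer (H := M) ω (fun h a => (s ω).le a) fun g => t.exists_smul_eq _ _
  refine ⟨c, eq_bot_iff.2 fun g hg => eq_of_smul_eq_smul (α := Ω) fun a => ?_, fun K a b =>
    hmin K (normal_of ((compl_iff.1 c).1.ge.trans (sup_le b (e.le_nrm a)))) a⟩
  obtain ⟨n, rfl⟩ := t.exists_smul_eq ω a
  change g • (n : G) • ω = (1 : G) • (n : G) • ω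
  rw [one_smul, ← mul_smul, ← mem_cen.1 hg.2 n n.2, mul_smul, show g • ω = ω from hg.1]

end Cfsg.Agent.S0548
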