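import Cfsg.Statements.S0550
import Cfsg.Agent.H1.U2

set_option autoImplicit false
open Cfsg

namespace Cfsg.Agent.S0550

open H7 H1B Subgroup

theorem aux {G : Type*} [Group G] [Finite G] {U A B : Subgroup G} [B.Normal] (h : A ⊓ B = ⊥)
    (h1 : U ⊔ B = ⊤) (h2 : U ⊓ B = ⊥) : Nonempty (A ≃* ↥((A ⊔ B) ⊓ U)) := by
  have n := fun X => le_nrm_of_normal X B
  have := modular' (A := B) (B := U) (C := A ⊔ B) (n U) le_sup_right
  rw [sup_comm, h1, top_inf_eq, inf_comm] at this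
  have e : im (qm B) A = im (qm B) ((A ⊔ B) ⊓ U) := by
    rw [← im_sup_kr (n A), ← im_sup_kr (n (_ ⊓ U)), kr_qm, sup_comm (_ ⊓ U) B, ← this]
  exact ⟨((imEquiv _ (n A) (by rwa [kr_qm])).trans (MulEquiv.subgroupCongr e)).trans (imEquiv _ (n _) (by
    rw [kr_qm, inf_assoc, h2, inf_bot_eq])).symm⟩

/-- Let U be a maximal subgroup with trivial normal core in a finite group G, and A ≠ B two minimal normal subgroups. Then A is the centralizer of B and B that of A, U complements each of them, A and B are non-abelian, and A, B and (A ⊔ B) ∩ U are pairwise isomorphic. -/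
theorem result {G : Type*} [Group G] [Finite G] (U : Subgroup G) (hU : IsCoatom U) (hcore : U.normalCore = ⊥) (A B : Subgroup G) [A.Normal] [B.Normal] (hA : A ≠ ⊥) (hB : B ≠ ⊥) (hAmin : ∀ K : Subgroup G, K.Normal → K ≤ A → K = ⊥ ∨ K = A) (hBmin : ∀ K : Subgroup G, K.Normal → K ≤ B → K = ⊥ ∨ K = B) (hAB : A ≠ B) : Subgroup.centralizer (B : Set G) = A ∧ Subgroup.centralizer (A : Set G) = B ∧ Subgroup.IsComplement' A U ∧ Subgroup.IsComplement' B U ∧ ¬ IsMulCommutative A ∧ Nonempty (A ≃* B) ∧ Nonempty (A ≃* ↥((A ⊔ B) ⊓ U)) := by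
  have i : A ⊓ B = ⊥ := (hAmin _ inferInstance inf_le_left).resolve_right fun e =>
    hAB ((hBmin A ‹_› (e ▸ inf_le_right)).resolve_left hA)
  have c := le_cen_of_inf_eq_bot (le_nrm_of_normal A B) (le_nrm_of_normal B A) i
  have a1 := H1.sup_eq_top_of_corefree hU hcore hA
  have b1 := H1.sup_eq_top_of_corefree hU hcore hB
  have a2 := H1.centralizer_inf_eq_bot_of_corefree hU hcore hA
  have b2 := H1.centralizer_inf_eq_bot_of_corefree hU hcore hB
  have e1 := H1.eq_of_le_of_sup_of_inf a1 b2 c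
  have e2 := H1.eq_of_le_of_sup_of_inf b1 a2 (le_cen_symm c)
  rw [e1, inf_comm] at b2; rw [e2, inf_comm] at a2
  obtain ⟨f⟩ := aux i b1 a2
  obtain ⟨g⟩ := aux (inf_comm A B ▸ i) a1 b2
  exact ⟨e1, e2, compl_iff.2 ⟨a1, b2⟩, compl_iff.2 ⟨b1, a2⟩, fun h => hA (by
    rw [← i, inf_eq_left.2 (e2 ▸ isComm_iff.1 h)]), ⟨f.trans ((MulEquiv.subgroupCongr (by
      rw [sup_comm])).trans g.symm)⟩, ⟨f⟩⟩

end Cfsg.Agent.S0550
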