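import Cfsg.Statements.S0551
import Cfsg.Agent.H1.U2

set_option autoImplicit false
open Pointwise
open Cfsg

namespace Cfsg.Agent.S0551

open H7 H1B Subgroup

/-- In a finite solvable group all core-free maximal subgroups are conjugate. -/
theorem result {G : Type*} [Group G] [Finite G] [Group.IsSolvable G] (U V : Subgroup G) (hU : IsCoatom U) (hV : IsCoatom V) (hUc : U.normalCore = ⊥) (hVc : V.normalCore = ⊥) : ∃ g : G, MulAut.conj g • U = V := by
  obtain ⟨N, -, n0, nn, -, p, hp, e⟩ := exists_min_normal_ea (solv_sub (⊤ : Subgroup G))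
    (ne_bot_of_gt hU.lt_top) (top_nrm ⊤)
  haveI := Fact.mk hp; haveI := normal_of nn; haveI := e.comm
  have a1 := H1.sup_eq_top_of_corefree hU hUc n0
  have b1 := H1.sup_eq_top_of_corefree hV hVc n0
  have a2 := H1.inf_eq_bot_of_corefree (N := N) hU hUc
  have b2 := H1.inf_eq_bot_of_corefree (N := N) hV hVc
  by_cases u : U = ⊥
  · rw [u, bot_sup_eq] at a1
    rw [a1, inf_top_eq] at b2
    exact ⟨1, by rw [map_one, one_smul, u, b2]⟩
  obtain ⟨q, Q, hq, n, a, -, b, c⟩ := H1.exists_coprime_of_corefree hU hUc u e.isPGroup n0 a2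
  haveI := Fact.mk hq
  have m := fun X => le_nrm_of_normal X N
  have cp := coprime_pgroups b e.isPGroup n
  have t : ⊤ ≤ nrm (Q ⊔ N) := a1 ▸ sup_le (nrm_sup c.ge (m U)) (le_sup_right.trans (le_nrm_self _))
  have d := modular' (A := N) (B := V) (C := Q ⊔ N) (m V) le_sup_right
  rw [sup_comm, b1, top_inf_eq, sup_comm N] at d
  have i : V ⊓ (Q ⊔ N) ⊓ N = ⊥ := eq_bot_mono (inf_le_inf_right _ inf_le_left) b2
  have o : ord (V ⊓ (Q ⊔ N)) = ord Q := by
    have := card_sup_of_inf_eq_bot (m _) i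
    rw [← d, card_sup_of_inf_eq_bot (m Q) (eq_bot_of_coprime cp)] at this
    exact (Nat.eq_of_mul_eq_mul_right (card_pos' N) this).symm
  obtain ⟨g, -, h⟩ := sz_conj_le (K := V ⊓ (Q ⊔ N)) ⟨m _, o ▸ cp, Or.inr (solv_sub N)⟩ (m Q) inf_le_right cp
  have h := eq_of_le_of_card_le h (by rw [card_cj, o])
  have : cj g V ≤ U := by
    rw [← c, ← h, ← cj_nrm]; exact cj_mono g (nrm_inf (le_nrm_self V) (le_top.trans t))
  rw [cj_le_iff] at this
  refine ⟨g⁻¹, ((coatom_iff.1 hV).2 _ this le_top).resolve_right fun e => hU.1 ?_⟩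
  rwa [cj_eq_iff, cj_normal] at e

end Cfsg.Agent.S0551
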