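import Cfsg.Statements.S0552
import Cfsg.Agent.H1.U2

set_option autoImplicit false
open Cfsg

namespace Cfsg.Agent.S0552

open H7 H1B Subgroup

/-- Let σ be an automorphism of a finite solvable group G fixing every element of the Fitting subgroup. If σ is not the identity then the order of σ and the order of G have a common prime factor. -/
theorem result {G : Type*} [Group G] [Finite G] [Group.IsSolvable G] (σ : G ≃* G) (hσ : ∀ x ∈ Cfsg.fittingSubgroup G, σ x = x) (hne : σ ≠ MulEquiv.refl G) : ¬ (orderOf σ).Coprime (Nat.card G) := by
  intro h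
  refine hne (zpowers_eq_bot.1 (hR_le_cen_top.1 (H7.cen_of_cen_Fit (A := hR (zpowers σ)) ?_ (hR_le_nrm _ ⊤) ?_ ?_)))
  · exact H1.isSolvable_of_equiv (equivMapOfInjective ⊤ _ SemidirectProduct.inl_injective)
  · rwa [card_map_of_injective SemidirectProduct.inr_injective,
      card_map_of_injective SemidirectProduct.inl_injective, Nat.card_zpowers, card_top]
  rw [← map_Fit_of_inj SemidirectProduct.inl_injective, ← fitting_eq, hR_le_cen]
  intro a ha g hg
  exact (zpowers_le (H := MulAction.stabilizer (MulAut G) g)).2 (hσ g hg) ha

end Cfsg.Agent.S0552
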