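import Cfsg.Statements.S0553
import Cfsg.Agent.H1.U2

set_option autoImplicit false
open Cfsg

namespace Cfsg.Agent.S0553

open H7 H1B Subgroup

/-- Let G be a nontrivial finite solvable group in which every maximal subgroup has order coprime to its index. Then for some prime p dividing the order of G the Sylow p-subgroups of G are normal. -/
theorem result {G : Type*} [Group G] [Finite G] [Group.IsSolvable G] [Nontrivial G] (h : ∀ M : Subgroup G, IsCoatom M → (Nat.card M).Coprime M.index) : ∃ p : ℕ, p.Prime ∧ p ∣ Nat.card G ∧ ∀ P : Sylow p G, (P : Subgroup G).Normal := by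
  obtain ⟨N, -, n0, nn, -, p, hp, e⟩ := exists_min_normal_ea (solv_sub (⊤ : Subgroup G)) top_ne_bot (top_nrm ⊤)
  haveI := Fact.mk hp
  have d := dvd_card_of_isPGroup e.isPGroup n0
  obtain ⟨H, hH⟩ := exists_hall {p}ᶜ (solv_sub (⊤ : Subgroup G))
  have t : H ⊔ N = ⊤ := (eq_top_or_exists_le_coatom _).resolve_right fun ⟨M, a, b⟩ => by
    obtain ⟨q, hq, c⟩ := Nat.exists_prime_and_dvd (index_eq_one.not.2 a.1)
    have := hH.idx q hq (by simpa using c.trans (index_dvd_of_le (le_sup_left.trans b)))
    rw [show q = p by simpa using this] at c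
    exact hp.one_lt.ne' (Nat.eq_one_of_dvd_coprimes (h M a) (d.trans (card_dvd_of_le (le_sup_right.trans b))) c)
  have s : IsSylowIn p N ⊤ := syl_of_relIndex e.isPGroup le_top (by
    rw [← t, relIndex_sup_nrm (le_top.trans nn)]
    exact (piN_compl_iff.1 hH.pi).coprime_dvd_left (relIndex_dvd_card' _ _))
  exact ⟨p, hp, d.trans (card_subgroup_dvd_card N), fun P =>
    syl_eq_of_normal (syl_top P) s nn ▸ normal_of nn⟩

end Cfsg.Agent.S0553
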