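import Cfsg.Statements.S0554
import Cfsg.Agent.H1.U2

set_option autoImplicit false
open Cfsg

namespace Cfsg.Agent.S0554

open H7 H1B Subgroup

theorem upd {G : Type*} [Group G] {t : ℕ} (s : Fin t → G) (i : Fin t) :
    ∃ a b : G, ∀ y, (List.ofFn (Function.update s i y)).prod = a * y * b := by
  refine ⟨((List.ofFn s).take i).prod, ((List.ofFn s).drop (i + 1)).prod, fun y => ?_⟩
  have : List.ofFn (Function.update s i y) = (List.ofFn s).set i y := by
    refine List.ext_getElem (by simp) fun n h1 h2 => ?_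
    simp [List.getElem_set, Function.update_apply, Fin.ext_iff, eq_comm]
  rw [this, List.prod_set]; simp

/-- Let G be a finite solvable group and let S assign to each of t distinct primes, including every prime divisor of the order of G, a Sylow subgroup of G. Then every element of G is a product s_0 s_1 ⋯ s_(t-1) with s_i in S i, the factors taken in the given order. -/
theorem result {G : Type*} [Group G] [Finite G] [Group.IsSolvable G] (t : ℕ) (p : Fin t → ℕ) (hp : ∀ i, (p i).Prime) (hinj : Function.Injective p) (hall : ∀ q : ℕ, q.Prime → q ∣ Nat.card G → ∃ i, p i = q) (S : (i : Fin t) → Sylow (p i) G) : ∀ g : G, ∃ s : (i : Fin t) → G, (∀ i, s i ∈ (S i : Subgroup G)) ∧ g = (List.ofFn s).prod := by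
  suffices ∀ N : Subgroup G, ⊤ ≤ nrm N → ∀ g : G, ∃ s : (i : Fin t) → G, (∀ i, s i ∈ (S i : Subgroup G)) ∧
      ((List.ofFn s).prod)⁻¹ * g ∈ N from fun g => by
    obtain ⟨s, a, b⟩ := this ⊥ (le_nrm_bot _) g
    exact ⟨s, a, (inv_mul_eq_one.1 b).symm⟩
  intro N hN g
  induction N using WellFoundedGT.induction with | _ N ih
  by_cases e : N = ⊤
  · exact ⟨fun _ => 1, fun _ => one_mem _, e ▸ mem_top _⟩
  obtain ⟨M, a, -, b, -, q, hq, c⟩ := exists_chief_above (solv_sub ⊤) (lt_top_iff_ne_top.2 e) (top_nrm ⊤) hN hN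
  haveI := Fact.mk hq
  have m := le_top.trans hN (a := M)
  obtain ⟨i, rfl⟩ := hall q hq ((dvd_card_of_isPGroup c.isPGroup (im_qm_ne_bot a m)).trans
    ((card_im_dvd _ _).trans (card_subgroup_dvd_card M)))
  have k := (syl_im (syl_top (S i)) hN (qm N)).le_of_normal c.isPGroup (im_mono _ le_top)
    (im_le_nrm _ (le_top.trans b))
  rw [im_le_im_iff m (le_top.trans hN), kr_qm] at k
  obtain ⟨s, h1, h2⟩ := ih M a b
  obtain ⟨u, v, h⟩ := upd s i
  obtain ⟨y, hy, n, hn, e'⟩ := (mem_sup_nrm (le_top.trans hN)).1 (k (conj_mem b (mem_top v) h2))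
  refine ⟨Function.update s i (s i * y), fun j => ?_, ?_⟩
  · by_cases e : j = i
    · subst e; rw [Function.update_self]; exact mul_mem (h1 j) hy
    · rw [Function.update_of_ne e]; exact h1 j
  rw [← Function.update_eq_self i s, h] at e'
  rw [h, show (u * (s i * y) * v)⁻¹ * g = v⁻¹ * (y⁻¹ * (v * ((u * s i * v)⁻¹ * g) * v⁻¹)) * v by group, ← e',
    inv_mul_cancel_left]
  exact conj_mem' hN (mem_top v) hn

end Cfsg.Agent.S0554
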