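import Cfsg.Statements.S0555
import Cfsg.Agent.H1.U2

set_option autoImplicit false
open Cfsg

namespace Cfsg.Agent.S0555

open H7 H1B Subgroup

/-- Let i ≥ 1. If in the derived series of a group the quotient of the i-th term by the (i+1)-st and the quotient of the (i+1)-st by the (i+2)-nd are both cyclic, then the (i+1)-st and (i+2)-nd terms coincide. -/
theorem result {G : Type*} [Group G] (i : ℕ) (hi : 1 ≤ i) (h₁ : IsCyclic (↥(derivedSeries G i) ⧸ (derivedSeries G (i + 1)).subgroupOf (derivedSeries G i))) (h₂ : IsCyclic (↥(derivedSeries G (i + 1)) ⧸ (derivedSeries G (i + 2)).subgroupOf (derivedSeries G (i + 1)))) : derivedSeries G (i + 1) = derivedSeries G (i + 2) := by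
  obtain ⟨a, ha0, ha⟩ := exists_gen_of_cyc_quot h₁
  obtain ⟨b, hb, hb'⟩ := exists_gen_of_cyc_quot h₂
  obtain ⟨j, rfl⟩ := Nat.exists_eq_add_of_le' hi
  have le : ∀ n, derivedSeries G (n + 1) ≤ derivedSeries G n := fun n => commutator_le_left _ _
  refine le_antisymm ?_ (le _)
  set C := derivedSeries G (j + 1 + 2)
  set f := res (QuotientGroup.mk' C) ⊤
  have e : im f (derivedSeries G (j + 1 + 1)) = zpowers (ev f b) := by
    rw [← im_zpowers (mem_top b), ← im_sup_kr (A := zpowers b) le_top, ker_mk,
      le_antisymm hb' (sup_le (zpowers_le.2 hb) (le _))]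
  haveI : IsCyclic (im f (derivedSeries G (j + 1 + 1))) := e ▸ inferInstance
  have c : im f (derivedSeries G (j + 1)) ≤ cen (im f (derivedSeries G (j + 1 + 1))) := by
    rw [derivedSeries_succ, im_commutator le_top le_top]
    exact H1.commutator_le_centralizer_of_isCyclic (im_le_nrm _ (le_nrm_of_normal _ _))
      (im_le_nrm _ (le_nrm_of_normal _ _))
  rw [← ker_mk C, derivedSeries_succ, ← im_le_cen_iff le_top le_top, ← isComm_iff]
  refine isComm_of_le (isComm_sup (isComm_im f (isComm_zpowers a)) (isComm_of_cyc this)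
    ((im_mono _ (zpowers_le.2 ha0)).trans c)) ?_
  rw [← im_sup le_top le_top]; exact im_mono _ ha

end Cfsg.Agent.S0555
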