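import Cfsg.Statements.S0556
import Cfsg.Agent.H1.U2

set_option autoImplicit false
open Cfsg

namespace Cfsg.Agent.S0556

open H7 H1B Subgroup
open scoped commutatorElement

/-- If a finite group has a maximal subgroup that is abelian, then the third term of its derived series is trivial (so the group is solvable of derived length at most three). -/
theorem result {G : Type*} [Group G] [Finite G] (A : Subgroup G) (hA : IsCoatom A) [IsMulCommutative A] : derivedSeries G 3 = ⊥ := by
  have cA := isComm_iff.1 ‹IsMulCommutative A›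
  have mx := fun L a => (coatom_iff.1 hA).2 L a le_top
  suffices ⁅⁅(⊤ : Subgroup G), ⊤⁆, ⁅(⊤ : Subgroup G), ⊤⁆⁆ ≤ center G from
    comm_eq_bot.2 (this.trans (cen_top.ge.trans (cen_anti le_top)))
  rcases mx _ (le_nrm_self A) with e | e; swap
  · have := der_le_of_max_normal e.ge hA.lt_top fun L a _ => mx L a
    exact ((commutator_mono this this).trans (comm_eq_bot.2 cA).le).trans bot_le
  have zA : center G ≤ A := e ▸ cen_top.ge.trans ((cen_anti le_top).trans (cen_le_nrm A))
  have c1 : ∀ x ∈ A, x ∉ center G → cen1 x = A := fun x a b => (mx _ (cA.trans (cen_le_cen1 a))).resolve_right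
    fun e => b (cen_top.le (le_cen1_iff.1 e.ge))
  have ti : ∀ x ∈ A, x ∉ center G → ∀ g : G, g⁻¹ * x * g ∈ A → g ∈ A := fun x a b g c => by
    have := c1 _ c fun h => b (by simpa [mul_assoc] using conj_mem (top_nrm (center G)) (mem_top g) h)
    rw [show g⁻¹ * x * g = g⁻¹ * x * g⁻¹⁻¹ by simp, ← cj_cen1, c1 x a b, cj_eq_self_iff, e] at this
    exact inv_mem_iff.1 this
  obtain ⟨N, _, h1, h2, -⟩ := H1.frobenius_wielandt zA (le_nrm_of_normal _ _) ti
  have n := fun X => le_nrm_of_normal X (center G)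
  have zN : center G ≤ N := h1 ▸ inf_le_right
  have r : H1B.Reg (im (qm (center G)) A) (im (qm (center G)) N) := fun x a b => eq_bot_iff.2 fun y c => by
    obtain ⟨x, hx, rfl⟩ := (mem_im_of_le (n A)).1 a
    obtain ⟨y, hy, rfl⟩ := (mem_im_of_le (n N)).1 c.1
    have k := fun g : G => n ⊤ (mem_top g)
    have := mem_cen1.1 c.2
    rw [← ev_mul (k _) (k _), ← ev_mul (k _) (k _), ev_eq_iff (k _) (k _), kr_qm] at this
    rw [Ne, ev_eq_one_iff (k _), kr_qm] at b
    rw [mem_bot, ev_eq_one_iff (k _), kr_qm, ← h1]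
    refine ⟨ti x hx b y ?_, hy⟩
    simpa [mul_assoc] using mul_mem hx (zA this)
  have s : Group.IsSolvable N := solv_of_normal (n N) (solv_of_comm inferInstance) (solv_of_nilp (r.nilp
    (im_le_nrm _ (le_nrm_of_normal A N)) fun e' => hA.1 (by
      rw [im_eq_bot_iff (n A), kr_qm] at e'
      rw [← e, eq_top_iff, le_antisymm e' zA]; exact n ⊤)))
  have d : ⁅(⊤ : Subgroup G), ⊤⁆ ≤ N := by
    simpa [comm_eq_bot.2 cA] using der_sup_le (le_nrm_of_normal A N) h2.ge
  refine (commutator_mono d d).trans (h1 ▸ le_inf ?_ (commutator_le_left N N))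
  rcases mx (A ⊔ ⁅N, N⁆) le_sup_left with e' | e'
  · exact e' ▸ le_sup_right
  have := modular' (A := ⁅N, N⁆) (B := A) (C := N) (le_nrm_of_normal _ _) (commutator_le_left N N)
  rw [sup_comm, e', top_inf_eq, h1, sup_comm] at this
  exact (commutator_le_left N N).trans ((solv_le_of_le_sup_comm s (n N) this.le).trans zA)

end Cfsg.Agent.S0556
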