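import Cfsg.Statements.S0557
import Cfsg.Agent.H1.U2

set_option autoImplicit false
open Cfsg

namespace Cfsg.Agent.S0557

open H7 H1B Subgroup

/-- Let H be a subgroup of a finite group G with order coprime to its index. If iterating the focal-subgroup construction starting from H reaches the trivial subgroup after finitely many steps, then H has a normal complement in G. -/
theorem result {G : Type*} [Group G] [Finite G] (H : Subgroup G) (hHall : (Nat.card H).Coprime H.index) (n : ℕ) (hfoc : (fun K : Subgroup G => Subgroup.focalSubgroup K)^[n] H = ⊥) : ∃ N : Subgroup G, N.Normal ∧ Subgroup.IsComplement' N H := by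
  obtain ⟨N, _, hN⟩ := H1.exists_normal_of_forall_hasNPC (G := G) {p | p.Prime ∧ p ∣ ord H} fun p hp hp' _ => by
    haveI := Fact.mk hp'
    obtain ⟨P, a, b⟩ := (hall_of_coprime_index hHall).syl_le hp
    have s := syl_inf a (H2.pRes_le ⊤) (a.le.trans (le_nrm_pRes (p := p) (top_nrm ⊤)))
    have : ∀ n, P ⊓ pRes p ⊤ ≤ (fun K : Subgroup G => Subgroup.focalSubgroup K)^[n] H := fun n => by
      induction n with
      | zero => exact inf_le_left.trans b
      | succ n ih =>
        rw [Function.iterate_succ_apply', ← H2.foc_top, ← s.foc_eq (H2.pRes_pRes ⊤), H2.foc_le_iff]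
        exact fun x c h _ d => H2.mem_foc (ih c) (mem_top h) (ih d)
    rw [npc_top_iff, npc_iff_coprime, coprime_iff_not_dvd, ← syl_bot_iff, ← eq_bot_mono (this n) hfoc]
    exact s
  exact ⟨N, ‹_›, H1.isComplement'_of_isPiHall hN (hall_top_iff.2 (hall_of_coprime_index hHall))⟩

end Cfsg.Agent.S0557
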