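import Cfsg.Statements.S0558
import Cfsg.Agent.H1.U2

set_option autoImplicit false
open Cfsg

namespace Cfsg.Agent.S0558

open H7 H1B Subgroup

/-- Let H be a subgroup of a finite group G that is not a Sylow subgroup of G for any prime, and suppose that for every prime p dividing the order of H and every Sylow p-subgroup P of H the normalizer of P in G is exactly H. Then some normal subgroup of G is a complement to H. -/
theorem result {G : Type*} [Group G] [Finite G] (H : Subgroup G) (hnot : ∀ p : ℕ, p.Prime → ∀ P : Sylow p G, (P : Subgroup G) ≠ H) (hnorm : ∀ p : ℕ, p.Prime → p ∣ Nat.card H → ∀ P : Sylow p H, Subgroup.normalizer (((P : Subgroup H).map H.subtype : Subgroup G) : Set G) = H) : ∃ N : Subgroup G, N.Normal ∧ Subgroup.IsComplement' N H := by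
  have k : ∀ p : ℕ, p.Prime → p ∣ Nat.card H → ∀ P, IsSylowIn p P H → nrm P = H := fun p hp d P a => by
    haveI := Fact.mk hp
    rw [← a.map_toSylow]; exact hnorm p hp d _
  refine (H1.exists_normal_complement_of_normalizer_sylow (fun p hp => by_contra fun e => ?_)
    fun p hp d P a => k p hp d P (syl_of_H1 a)).imp fun N a => ⟨a.1, a.2.1⟩
  haveI := Fact.mk hp
  have h : IsPGroup p H := pgroup_of_forall fun q hq d => by_contra fun e' => e ⟨q, hq, e', d⟩
  by_cases e' : H = ⊥
  · obtain ⟨r, a, hr⟩ := Nat.exists_infinite_primes (Nat.card G + 1)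
    haveI := Fact.mk hr
    exact hnot r hr (syl_bot_iff.2 fun d => (Nat.le_of_dvd (card_pos' _) d).not_gt (by
      rwa [card_top])).toSylowTop e'.symm
  have := syl_self h
  exact hnot p hp (syl_of_nrm le_top (by
    rwa [top_inf_eq, k p hp (dvd_card_of_isPGroup h e') H this])).toSylowTop rfl

end Cfsg.Agent.S0558
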