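import Cfsg.Statements.S0567
import Cfsg.Agent.H1.Subnormal

set_option autoImplicit false
open Cfsg

namespace Cfsg.Agent.S0567

/-- A subgroup H of a group G is subnormal exactly when, for some m, the subgroup obtained from G by taking the commutator with H m times in succession is contained in H. -/
theorem result {G : Type*} [Group G] (H : Subgroup G) : H.IsSubnormal ↔ ∃ m : ℕ, (fun K : Subgroup G => ⁅K, H⁆)^[m] ⊤ ≤ H := by
  rw [← H7.sn_top_iff]
  constructor
  · intro h
    suffices ∀ K, H7.SN ⊤ K → H ≤ K → ∃ m : ℕ, (fun K : Subgroup G => ⁅K, H⁆)^[m] ⊤ ≤ K from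
      this H h le_rfl
    intro K hK
    induction hK with
    | refl => exact fun _ => ⟨0, le_rfl⟩
    | @step A K h1 h2 _ ih =>
      intro h3
      obtain ⟨m, hm⟩ := ih (h3.trans h1)
      refine ⟨m + 1, ?_⟩
      rw [Function.iterate_succ_apply']
      exact (Subgroup.commutator_mono hm h3).trans (H7.comm_le_right h2)
  · rintro ⟨m, hm⟩
    rw [← sup_eq_right.2 hm]
    clear hm
    induction m with
    | zero => simpa using H7.SN.refl
    | succ m ih =>
      rw [Function.iterate_succ_apply']
      refine H7.SN.step (sup_le (H7.comm_le_of_le le_sup_left le_sup_right) le_sup_right)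
        (sup_le ?_ (le_sup_right.trans Subgroup.le_normalizer)) ih
      rw [sup_comm, Subgroup.commutator_comm]
      exact H7.le_nrm_sup_comm _ _

end Cfsg.Agent.S0567
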