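import Cfsg.Statements.S0568
import Cfsg.Agent.H1.U2

set_option autoImplicit false
open Cfsg

namespace Cfsg.Agent.S0568

open H7 H1B Subgroup
open scoped commutatorElement

theorem aux {G : Type*} [Group G] [Finite G] [Group.IsSolvable G] {K : Nat.Primes → Subgroup G}
    (hK : Cfsg.IsComplementSystem K) {N : Subgroup G} (hn : ⊤ ≤ nrm N) (h0 : N ≠ ⊥)
    (hm : ∀ L ≤ N, ⊤ ≤ nrm L → L = ⊥ ∨ L = N) (hc : ¬ ⊤ ≤ cen N) : N ⊓ systemNormalizer K = ⊥ := by
  obtain ⟨p, hp, e⟩ := ea_of_min (solv_sub N) hn h0 hm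
  haveI := Fact.mk hp
  have hH := hall_top_iff.1 (H1.isComplementSystem_iff.1 hK ⟨p, hp⟩)
  obtain ⟨q, hq, b⟩ := exists_Op_ne_bot (solv_im (act N) (solv_sub ⊤)) (by rwa [Ne, im_eq_bot_iff hn, kr_act])
  haveI := Fact.mk hq
  have n : ⊤ ≤ nrm (pre (act N) (Op q (im (act N) ⊤))) := le_nrm_pre hn (le_nrm_Opi _ _)
  have k : ∀ T, Op q (im (act N) ⊤) ≤ im (act N) T → N ⊓ cen T = ⊥ := fun T a => by_contra fun c => b (by
    have := pre_mono (act N) a
    rw [pre_im (le_top.trans hn), kr_act] at this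
    have d := (hm _ inf_le_left (nrm_inf hn (nrm_cen n))).resolve_left fun e' => c (eq_bot_mono
      (le_inf inf_le_left (le_cen_symm (this.trans (sup_le (le_cen_symm inf_le_right)
        (cen_anti inf_le_left))))) e')
    rw [← im_pre_of_le (Opi_le _ _), im_eq_bot_iff (pre_le _ _), kr_act]
    exact le_cen_symm (d.ge.trans inf_le_right))
  by_cases c : q = p
  · subst c
    obtain ⟨P, hP⟩ := exists_syl q (⊤ : Subgroup G)
    exact absurd (k P (Op_le_of_sylow (syl_im hP hn _)))
      (pgroup_inf_cen_ne_bot' hP.isPGroup e.isPGroup (le_top.trans hn) h0)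
  refine eq_bot_mono (le_inf inf_le_left ?_) (k _ ((hH.im hn _).le_of_normal (Opi_le _ _)
    ((im_mono _ le_top).trans (le_nrm_Opi _ _)) (piN_of_isPGroup c (isPGroup_Op q _))))
  exact comm_eq_bot.1 (eq_bot_mono (le_inf (comm_le_right (inf_le_right.trans (H1.systemNormalizer_le ⟨p, hp⟩)))
    ((commutator_mono inf_le_left le_rfl).trans (comm_le_left (le_top.trans hn))))
    (hH.inf_eq_bot (by simpa using piN_iff_isPGroup.2 e.isPGroup)))

/-- Let D be the system normalizer of a Hall complement system of a finite solvable group G, and let A < B be normal subgroups with no normal subgroup of G strictly between them (a chief factor). If G centralizes B modulo A then B ≤ A ⊔ D (D covers the factor); otherwise B ∩ D ≤ A (D avoids it). -/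
theorem result {G : Type*} [Group G] [Finite G] [Group.IsSolvable G] (K : Nat.Primes → Subgroup G) (hK : Cfsg.IsComplementSystem K) (A B : Subgroup G) [A.Normal] [B.Normal] (hAB : A < B) (hchief : ∀ N : Subgroup G, N.Normal → A ≤ N → N ≤ B → N = A ∨ N = B) : (⁅B, (⊤ : Subgroup G)⁆ ≤ A → B ≤ A ⊔ Cfsg.systemNormalizer K) ∧ (¬ ⁅B, (⊤ : Subgroup G)⁆ ≤ A → B ⊓ Cfsg.systemNormalizer K ≤ A) := by
  have s := QuotientGroup.mk'_surjective A
  have e := H1.systemNormalizer_map hK s
  set f := res (QuotientGroup.mk' A) ⊤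
  have c : ⁅B, (⊤ : Subgroup G)⁆ ≤ A ↔ ⊤ ≤ cen (im f B) := by
    rw [← im_mk_top A, im_le_cen_iff le_top le_top, ker_mk, commutator_comm]
  rw [c, ← im_top] at *
  refine ⟨fun h => ?_, fun h => ?_⟩
  · rw [sup_comm, ← ker_mk A, ← im_le_im_iff le_top le_top, ← e]
    exact fun x hx => H1.mem_systemNormalizer.2 fun p => cen_le_nrm _ (cen_anti le_top (le_cen_symm h hx))
  rw [← ker_mk A, ← im_eq_bot_iff le_top]
  refine eq_bot_mono (im_inf_le _ _ _) (e ▸ aux (H1.complementSystem_map hK s) (im_mk_top A ▸ im_le_nrm _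
    (top_nrm B)) (fun e' => hAB.2 (by rwa [im_eq_bot_iff le_top, ker_mk] at e')) (fun L a b => ?_) h)
  have k : A ≤ pre f L := (ker_mk A).ge.trans (kr_le_pre _ _)
  rcases hchief _ (normal_of (le_nrm_pre le_rfl (le_top.trans b))) k ((pre_mono _ a).trans
    (pre_im_of_le le_top ((ker_mk A).le.trans hAB.le)).le) with e' | e'
  · left; rw [← im_pre_of_le a, e', im_eq_bot_iff le_top, ker_mk]
  · right; rw [← im_pre_of_le a, e']

end Cfsg.Agent.S0568
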