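import Cfsg.Statements.S0570
import Cfsg.Agent.H1.U2
import Cfsg.Agent.S0569

set_option autoImplicit false
open Cfsg

namespace Cfsg.Agent.S0570

open H7 H1B Subgroup

/-- Let G be a finite group with a nilpotent normal subgroup F such that G modulo F is nilpotent (nilpotent length at most two). Then a subgroup of G is a Carter subgroup if and only if it is the system normalizer of some Hall complement system. -/
theorem result {G : Type*} [Group G] [Finite G] (F : Subgroup G) [F.Normal] (hF : Group.IsNilpotent F) (hGF : Group.IsNilpotent (G ⧸ F)) (C : Subgroup G) : Cfsg.IsCarterSubgroup C ↔ ∃ K : Nat.Primes → Subgroup G, Cfsg.IsComplementSystem K ∧ C = Cfsg.systemNormalizer K := by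
  haveI : Group.IsSolvable G := solvable_of_ker_le_range F.subtype (QuotientGroup.mk' F) (by simp)
  have k : ∀ C : Subgroup G, Cfsg.IsCarterSubgroup C → ∀ K : Nat.Primes → Subgroup G,
      Cfsg.IsComplementSystem K → Cfsg.systemNormalizer K ≤ C → C = systemNormalizer K := fun C hC K hK h => by
    refine le_antisymm (fun x hx => H1.mem_systemNormalizer.2 fun p => (?_ : C ≤ _) hx) h
    haveI := Fact.mk p.2
    have hH := hall_top_iff.1 (H1.isComplementSystem_iff.1 hK p)
    have hD := H1.isNilpotent_systemNormalizer hK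
    have n : ∀ π X, X ≤ nrm (Opi π F) := fun π X => nrm_Opi _ (le_nrm_of_normal X F)
    have t : Hall {p.1}ᶜ (Op' p.1 (systemNormalizer K) ⊔ Op' p.1 F) ⊤ := hall_of_sylow le_top
      (PiN.sup (n _ _) (piN_Opi _ _) (piN_Opi _ _)) fun r hr a _ => by
        haveI := Fact.mk hr
        exact ⟨_, fac_syl (H1.fac_of_normal (H1.systemNormalizer_sup_eq_top hK F)) (nilp_sylow_Op hD)
          (nilp_sylow_Op hF) (le_nrm_Opi _ _) (le_nrm_Opi _ _),
          sup_le_sup (Opi_mono_pi (Set.singleton_subset_iff.2 a) _) (Opi_mono_pi (Set.singleton_subset_iff.2 a) _)⟩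
    rw [t.eq_of_le (sup_le (hH.le_of_le_nrm le_top ((Opi_le _ _).trans (H1.systemNormalizer_le p))
      (piN_Opi _ _)) (hH.le_of_normal le_top (n _ _) (piN_Opi _ _))) le_top hH.pi,
      ← t.eq_of_le (L := Op' p.1 C ⊔ Op' p.1 F) (sup_le_sup_right (nilp_le_Opi hC.1 ((Opi_le _ _).trans h)
        (piN_Opi _ _)) _) le_top (PiN.sup (n _ _) (piN_Opi _ _) (piN_Opi _ _))]
    exact nrm_sup (le_nrm_Opi _ _) (n _ _)
  refine ⟨fun hC => ?_, ?_⟩
  · obtain ⟨K, a, b⟩ := S0569.result.1 C hC
    exact ⟨K, a, k C hC K a b⟩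
  rintro ⟨K, a, rfl⟩
  obtain ⟨C, b, c⟩ := S0569.result.2 K a
  exact k C b K a c ▸ b

end Cfsg.Agent.S0570
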