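import Cfsg.Statements.S0571
import Cfsg.Agent.H1.U2

set_option autoImplicit false
open Cfsg

namespace Cfsg.Agent.S0571

open H7 H1B Subgroup

/-- If a finite group G is the product AB of two cyclic subgroups (every element is a product ab), then G is supersolvable. -/
theorem result {G : Type*} [Group G] [Finite G] (A B : Subgroup G) [IsCyclic A] [IsCyclic B] (hAB : ∀ g : G, ∃ a ∈ A, ∃ b ∈ B, g = a * b) : Cfsg.IsSupersolvable G := by
  refine H1.isSupersolvable_iff.2 (H1.ss_of_forall_quotient fun N _ hN => ?_)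
  haveI := QuotientGroup.nontrivial_iff.2 hN
  have a := H1.isCyclic_map (QuotientGroup.mk' N) A
  have b := H1.isCyclic_map (QuotientGroup.mk' N) B
  obtain ⟨C, c1, c2, c3⟩ := ito_normal (H1.Fac.map hAB (QuotientGroup.mk'_surjective N)) (isComm_of_cyc a)
    (isComm_of_cyc b)
  exact ⟨C, c1, c2, c3.elim (cyc_of_le · a) (cyc_of_le · b)⟩

end Cfsg.Agent.S0571
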