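import Cfsg.Statements.S0576
import Cfsg.Agent.H1.U2

set_option autoImplicit false
open Cfsg

namespace Cfsg.Agent.S0576

open H7 H1B Subgroup

/-- Let H be a normal subgroup of a finite group G with H contained in the Frattini subgroup of G. Then the group of inner automorphisms of H is contained in the Frattini subgroup of the automorphism group of H. -/
theorem result {G : Type*} [Group G] [Finite G] (H : Subgroup G) [H.Normal] (hH : H ≤ frattini G) : (MulAut.conj : ↥H →* MulAut ↥H).range ≤ frattini (MulAut ↥H) := by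
  let φ : G →* MulAut H := MulAut.conjNormal
  have e : (MulAut.conj : ↥H →* MulAut ↥H).range = im (res φ ⊤) H := by
    rw [im_top]; ext a
    exact ⟨fun ⟨h, e⟩ => ⟨h, h.2, e ▸ MulAut.conjNormal_val⟩, fun ⟨h, a, e⟩ => ⟨⟨h, a⟩, e ▸
      (MulAut.conjNormal_val (h := ⟨h, a⟩)).symm⟩⟩
  rw [← Phi_top]
  refine le_Phi_of_le (K := im (res φ ⊤) ⊤) (le_nrm_iff_conj.2 ?_) le_top
    (e ▸ (im_mono _ (hH.trans Phi_top.ge)).trans (im_Phi_le le_rfl))
  rintro a - _ ⟨h, rfl⟩
  exact ⟨a h, by ext; simp⟩

end Cfsg.Agent.S0576
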