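import Cfsg.Statements.S0577
import Cfsg.Agent.H1.U2

set_option autoImplicit false
open Cfsg

namespace Cfsg.Agent.S0577

open H7 H1B Subgroup

/-- Let G be a finite minimal non-nilpotent group and Q a normal Sylow q-subgroup of G, and let D be the commutator subgroup of Q regarded in G (a normal subgroup). Then G modulo D is non-abelian and all its proper subgroups are abelian. -/
theorem result {G : Type*} [Group G] [Finite G] (hG : Cfsg.IsMinimalNonNilpotent G) (q : ℕ) [Fact q.Prime] (hq : q ∣ Nat.card G) (Q : Sylow q G) (hQ : (Q : Subgroup G).Normal) (D : Subgroup G) [D.Normal] (hD : D = (commutator ↥(Q : Subgroup G)).map (Q : Subgroup G).subtype) : ¬ IsMulCommutative (G ⧸ D) ∧ ∀ K : Subgroup (G ⧸ D), K ≠ ⊤ → IsMulCommutative K := by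
  obtain ⟨p, r, hp, hr, e, x, R, a, b, c, d, f⟩ := schmidt (H := (⊤ : Subgroup G))
    (fun h => hG.1 (nilp_top.1 h)) fun K h => hG.2 K h.ne
  haveI := Fact.mk hp; haveI := Fact.mk hr
  have xn := zpowers_le.2 (c (mem_top x))
  have pc : ∀ s, s.Prime → s ∣ Nat.card G → s = p ∨ s = r := fun s hs h =>
    prime_cases a.isPGroup b.isPGroup xn hs (by rwa [d, card_top])
  have cp := coprime_pgroups a.isPGroup b.isPGroup e
  rcases pc q Fact.out hq with rfl | rfl
  · exact absurd (le_cen_of_coprime xn (le_top.trans (syl_eq_of_normal a (syl_top Q) (top_nrm _) ▸ top_nrm _))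
      cp (mem_zpowers x)) f
  obtain rfl := syl_eq_of_normal b (syl_top Q) (top_nrm _)
  rw [der_map] at hD
  refine ⟨fun h => f (cen_of_comm_le_Phi xn cp (((commutator_mono le_top le_top).trans
    ((comm_quot_iff D).1 h)).trans (hD ▸ comm_le_Phi (nilp_of_isPGroup Q.2))) (mem_zpowers x)), fun K hK => ?_⟩
  have k : im (res (QuotientGroup.mk' D) ⊤) (pre (res (QuotientGroup.mk' D) ⊤) K) = K :=
    im_pre_of_le ((im_mk_top D).symm ▸ le_top)
  refine isComm_of_syl (k ▸ nilp_im _ (hG.2 _ fun e => hK (by rw [← k, e, im_mk_top]))) fun s hs h P _ hP => ?_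
  haveI := Fact.mk hs
  rcases pc s hs (h.trans ((card_subgroup_dvd_card K).trans (card_quotient_dvd_card D))) with rfl | rfl
  · exact isComm_of_syl_comm (syl_im a le_rfl _) (isComm_im _ (isComm_zpowers x)) ((im_mk_top D).symm ▸ le_top) hP
  refine isComm_of_syl_comm (syl_im b le_rfl _) ?_ ((im_mk_top D).symm ▸ le_top) hP
  rw [isComm_iff, im_le_cen_iff le_top le_top, ker_mk, hD]

end Cfsg.Agent.S0577
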