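import Cfsg.Statements.S0578
import Cfsg.Agent.H1.U2

set_option autoImplicit false
open Cfsg

namespace Cfsg.Agent.S0578

open H7 H1B Subgroup

/-- If in a finite group the normalizer of each abelian subgroup coincides with its centralizer, then the group is abelian. -/
theorem result {G : Type*} [Group G] [Finite G] (h : ∀ A : Subgroup G, IsMulCommutative A → Subgroup.normalizer (A : Set G) = Subgroup.centralizer (A : Set G)) : IsMulCommutative G := by
  have k : ∀ p, p.Prime → ∀ P : Subgroup G, IsPGroup p P → IsMulCommutative P := fun p hp P hP => by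
    haveI := Fact.mk hp
    obtain ⟨A, -, a⟩ := exists_scn (nilp_of_isPGroup hP) bot_le isComm_bot (le_nrm_bot P)
    exact isComm_of_le (scn_comm a) (a.2.2 ▸ le_inf le_rfl (h A (scn_comm a) ▸ a.2.1))
  refine comm_top'.1 (isComm_of_syl (nilp_of_npc fun p hp _ => ?_) fun p hp _ P _ => k p hp P)
  haveI := Fact.mk hp
  obtain ⟨P, hP⟩ := exists_syl p (⊤ : Subgroup G)
  exact npc_burnside hP (inf_le_right.trans (h P (k p hp P hP.isPGroup)).le)

end Cfsg.Agent.S0578
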