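import Cfsg.Statements.S0582
import Cfsg.Agent.H1.SS
import Cfsg.Agent.H1.Section

set_option autoImplicit false
open Pointwise
open Cfsg

namespace Cfsg.Agent.S0582

open Pointwise
universe u
theorem aux (n : ℕ) : ∀ (G : Type u) [Group G] [Finite G] (H K : Subgroup G), Nat.card H = n →
    H1.SS H → H1.SS K → Nat.card H = Nat.card K → (Nat.card H).Coprime H.index →
    ∃ x : G, MulAut.conj x • H = K := by
  induction n using Nat.strong_induction_on with | _ n ih
  intro G _ _ H K hn hH hK hc hi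
  by_cases h1 : Nat.card H = 1
  · rw [Subgroup.card_eq_one.1 (hc ▸ h1 : Nat.card K = 1), Subgroup.card_eq_one.1 h1]
    exact ⟨1, by simp⟩
  obtain ⟨p, hp, hd, hmax⟩ := H1.exists_max_prime_dvd (Nat.card_pos (α := H)).ne' h1
  have := Fact.mk hp
  have hidx : ∀ L : Subgroup G, Nat.card H = Nat.card L → L.index = H.index := fun L h => by
    have := (Subgroup.card_mul_index H).trans (Subgroup.card_mul_index L).symm
    exact (Nat.eq_of_mul_eq_mul_left Nat.card_pos (h ▸ this)).symm
  have hsyl : ∀ L P : Subgroup G, Nat.card H = Nat.card L → H1.IsSylowIn p P L →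
      H1.IsSylowIn p P ⊤ := fun L P h hP => ⟨le_top, hP.isPGroup, by
    rw [Subgroup.relIndex_top_right, ← Subgroup.relIndex_mul_index hP.le, hp.dvd_mul, hidx L h]
    exact fun h => h.elim hP.not_dvd (hp.coprime_iff_not_dvd.1 (hi.of_dvd_left hd))⟩
  obtain ⟨P, hP⟩ := H1.exists_isSylowIn p H
  obtain ⟨Q, hQ⟩ := H1.exists_isSylowIn p K
  obtain ⟨g, -, hg⟩ := (hsyl K Q hc hQ).exists_conj (hsyl H P rfl hP)
  have h2 := hH.le_normalizer_sylow hmax hP
  have h3 : H1.IsSylowIn p P (MulAut.conj g • K) := hg ▸ hQ.conj_smul g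
  have hc' : Nat.card H = Nat.card (MulAut.conj g • K : Subgroup G) := by rw [H1.card_conj_smul, hc]
  have hK' : H1.SS (MulAut.conj g • K : Subgroup G) := hK.map _
  have h4 := hK'.le_normalizer_sylow (hc' ▸ hmax) h3
  have h5 : ∀ L : Subgroup G, H1.SS L → L ≤ Subgroup.normalizer (P : Set G) → H1.SS (H1.bar P L) :=
    fun L h hL => (h.of_equiv (Subgroup.subgroupOfEquivOfLe hL).symm).map _
  obtain ⟨x, hx⟩ := ih _ (hn ▸ H1.card_bar_lt h2 (by rw [inf_eq_left.2 hP.le]; exact hP.ne_bot hd))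
    (H1.Sec P) (H1.bar P H) (H1.bar P (MulAut.conj g • K)) rfl (h5 _ hH h2) (h5 _ hK' h4)
    (by
      rw [H1.card_bar h2, H1.card_bar h4]
      exact Nat.eq_of_mul_eq_mul_left Nat.card_pos
        ((H1.card_mul_relIndex hP.le).trans (hc'.trans (H1.card_mul_relIndex h3.le).symm)))
    (by
      refine (hi.of_dvd_left (H1.card_bar_dvd h2)).of_dvd_right ?_
      rw [← Subgroup.relIndex_top_right, ← H1.bar_normalizer, H1.relIndex_bar le_rfl h2,
        sup_eq_left.2 hP.le, sup_eq_left.2 Subgroup.le_normalizer]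
      exact Subgroup.relIndex_dvd_index_of_le h2)
  obtain ⟨x, rfl⟩ := H1.secMk_surjective x
  rw [← H1.bar_conj_smul, H1.bar_eq_bar_iff (H1.conj_smul_le_of_mem h2 x.2) h4,
    sup_eq_left.2 h3.le, sup_eq_left.2 ((H1.conj_smul_eq_self_iff.2 x.2).ge.trans
      (H1.conj_smul_le_conj_smul.2 hP.le))] at hx
  exact ⟨g⁻¹ * x, by rw [← H1.conj_smul_conj_smul, hx, H1.conj_inv_smul_conj_smul]⟩

/-- Let H and K be supersolvable subgroups of a finite group G of the same order, that order being coprime to their index. Then H and K are conjugate in G. -/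
theorem result {G : Type*} [Group G] [Finite G] (H K : Subgroup G) (hH : Cfsg.IsSupersolvable H) (hK : Cfsg.IsSupersolvable K) (hcard : Nat.card H = Nat.card K) (hHall : (Nat.card H).Coprime H.index) : ∃ x : G, MulAut.conj x • H = K := by
  exact aux _ G H K rfl (H1.isSupersolvable_iff.1 hH) (H1.isSupersolvable_iff.1 hK) hcard hHall

end Cfsg.Agent.S0582
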