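import Cfsg.Statements.S0584
import Cfsg.Agent.H1.Fitting

set_option autoImplicit false
open Cfsg

namespace Cfsg.Agent.S0584

/-- Let B ≤ A be normal subgroups of a finite group G with B contained in the Frattini subgroup of G. If A modulo B is nilpotent then A is nilpotent. -/
theorem result {G : Type*} [Group G] [Finite G] (A B : Subgroup G) [A.Normal] [B.Normal] (hBA : B ≤ A) (hB : B ≤ frattini G) (h : Group.IsNilpotent (↥A ⧸ B.subgroupOf A)) : Group.IsNilpotent A := by
  have : Group.IsNilpotent (A.map (QuotientGroup.mk' B)) := by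
    refine Group.nilpotent_of_surjective (G := A ⧸ B.subgroupOf A)
      (QuotientGroup.lift _ ((QuotientGroup.mk' B).subgroupMap A) fun x hx => ?_) ?_
    · exact Subtype.ext ((QuotientGroup.eq_one_iff _).2 hx)
    · rintro ⟨_, x, hx, rfl⟩
      exact ⟨QuotientGroup.mk ⟨x, hx⟩, rfl⟩
  exact H1.isNilpotent_of_map_of_ker_le_frattini (f := QuotientGroup.mk' B)
    (by rwa [QuotientGroup.ker_mk']) A

end Cfsg.Agent.S0584
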