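import Cfsg.Statements.S0586
import Cfsg.Agent.H1.U2

set_option autoImplicit false
open Cfsg

namespace Cfsg.Agent.S0586

open H7 H1B Subgroup

/-- If the Frattini subgroup of a finite group G is trivial, then the Fitting subgroup of G equals the join of all abelian minimal normal subgroups of G. -/
theorem result {G : Type*} [Group G] [Finite G] (hΦ : frattini G = ⊥) : Cfsg.fittingSubgroup G = sSup {N : Subgroup G | N.Normal ∧ N ≠ ⊥ ∧ IsMulCommutative N ∧ ∀ K : Subgroup G, K.Normal → K ≤ N → K = ⊥ ∨ K = N} := by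
  set S := sSup {N : Subgroup G | N.Normal ∧ N ≠ ⊥ ∧ IsMulCommutative N ∧
    ∀ K : Subgroup G, K.Normal → K ≤ N → K = ⊥ ∨ K = N}
  rw [fitting_eq]
  have a : S ≤ Fit ⊤ := sSup_le fun N h => le_Fit le_top (normal_iff_top_le_nrm.1 h.1) (nilp_of_comm h.2.2.1)
  have c : IsMulCommutative (Fit (⊤ : Subgroup G)) := isComm_of_der (eq_bot_mono ((comm_le_Phi
    (nilp_Fit ⊤)).trans (Phi_le_of_normal (le_nrm_Fit ⊤) le_top)) (Phi_top.trans hΦ))
  haveI : S.Normal := normal_of (nrm_sSup fun g _ K h => by haveI := h.1; rwa [cj_normal])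
  haveI := isComm_of_le c a
  obtain ⟨U, hU⟩ := H1.exists_complement_of_inf_frattini S (by simp [hΦ])
  obtain ⟨u1, u2⟩ := compl_iff.1 hU
  have n : ⊤ ≤ nrm (U ⊓ Fit ⊤) := u1.ge.trans (sup_le (nrm_inf (le_nrm_self U) (le_top.trans (le_nrm_Fit ⊤)))
    (le_nrm_of_le_cen (le_cen_of_comm c a inf_le_right)))
  have := modular' (A := S) (B := U) (le_nrm_of_normal _ _) a
  rw [sup_comm, u1, top_inf_eq] at this
  by_cases e : U ⊓ Fit ⊤ = ⊥
  · rwa [e, sup_bot_eq] at this
  obtain ⟨M, m1, m2, m3, m4⟩ := exists_min_normal e n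
  refine absurd (eq_bot_mono (le_inf (m1.trans inf_le_left) (le_sSup ?_)) u2) m2
  exact ⟨normal_of m3, m2, isComm_of_le c (m1.trans inf_le_right),
    fun K a b => m4 K b (normal_iff_top_le_nrm.1 a)⟩

end Cfsg.Agent.S0586
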