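import Cfsg.Statements.S0587
import Cfsg.Agent.H1.U2

set_option autoImplicit false
open Cfsg

namespace Cfsg.Agent.S0587

open H7 H1B Subgroup

/-- Let G be a finite group whose largest normal p-subgroup L is nontrivial, and M a maximal subgroup of G with trivial normal core. Then L is elementary abelian, M is a complement to L, L is a minimal normal subgroup of G, the centralizer of L is L, and for every prime q such that the largest normal q-subgroup of M is nontrivial, the order of L is congruent to 1 modulo q and q ≠ p. -/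
theorem result {G : Type*} [Group G] [Finite G] (p : ℕ) [Fact p.Prime] (hL : Cfsg.pCore p G ≠ ⊥) (M : Subgroup G) (hM : IsCoatom M) (hcore : M.normalCore = ⊥) : Cfsg.IsElementaryAbelian p (Cfsg.pCore p G) ∧ Subgroup.IsComplement' (Cfsg.pCore p G) M ∧ (∀ K : Subgroup G, K.Normal → K ≤ Cfsg.pCore p G → K = ⊥ ∨ K = Cfsg.pCore p G) ∧ Subgroup.centralizer ((Cfsg.pCore p G : Subgroup G) : Set G) = Cfsg.pCore p G ∧ ∀ (q : ℕ) [Fact q.Prime], Cfsg.pCore q ↥M ≠ ⊥ → Nat.card (Cfsg.pCore p G) % q = 1 % q ∧ q ≠ p := by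
  rw [pCore_eq] at *
  have n := le_nrm_Opi {p} (⊤ : Subgroup G)
  have g := isPGroup_Op p (⊤ : Subgroup G)
  haveI := normal_of n
  haveI := normal_of (nrm_center n)
  have i : Op p ⊤ ⊓ M = ⊥ := eq_bot_mono (inf_le_inf_right _ (le_cen_symm inf_le_right))
    (H1.centralizer_inf_eq_bot_of_corefree hM hcore (nilp_inf_cen_ne_bot (nilp_of_isPGroup g) le_rfl
      (le_nrm_self _) hL))
  have m : ∀ K : Subgroup G, K.Normal → K ≤ Op p ⊤ → K = ⊥ ∨ K = Op p ⊤ := fun K _ a => (em _).imp_right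
    fun e => (H1.eq_of_le_of_sup_of_inf (H1.sup_eq_top_of_corefree hM hcore e) i a).symm
  obtain ⟨q, hq, e⟩ := ea_of_min (solv_of_isPGroup g) n hL fun L a b => m L (normal_of b) a
  haveI := Fact.mk hq
  obtain rfl : q = p := mem_of_pgroup (p := q) (π := {p}) e.isPGroup hL (piN_iff_isPGroup.2 g)
  have s := H1.sup_eq_top_of_corefree hM hcore hL
  refine ⟨e, compl_iff.2 ⟨s, inf_comm M _ ▸ i⟩, m, H1.eq_of_le_of_sup_of_inf s
    (H1.centralizer_inf_eq_bot_of_corefree hM hcore hL) e.le_cen, fun r _ h => ?_⟩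
  rw [Ne, pCore_eq_bot_iff] at h
  have := card_modEq_cen (isPGroup_Op r M) (le_top.trans n)
  rw [eq_bot_mono (inf_le_inf_left _ ((cen_le_nrm _).trans (H1.normalizer_eq_of_corefree hM hcore
    (Opi_le _ _) (le_nrm_Opi _ _) h).le)) i, card_bot] at this
  refine ⟨this, ?_⟩
  rintro rfl
  exact hq.one_lt.ne' (Nat.dvd_one.1 ((this.dvd_iff dvd_rfl).1 (dvd_card_of_isPGroup g hL)))

end Cfsg.Agent.S0587
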