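import Cfsg.Statements.S0588
import Cfsg.Agent.H1.Misc

set_option autoImplicit false
open Cfsg

namespace Cfsg.Agent.S0588

/-- If a subgroup H of a finite group G contains the centralizer of every non-identity element of H, then the order of H is coprime to its index. -/
theorem result {G : Type*} [Group G] [Finite G] (H : Subgroup G) (h : ∀ x ∈ H, x ≠ 1 → Subgroup.centralizer ({x} : Set G) ≤ H) : (Nat.card H).Coprime H.index := by
  refine Nat.coprime_of_dvd fun p hp h1 h2 => ?_
  have := Fact.mk hp
  obtain ⟨x, hx, hxp⟩ := H1.exists_mem_orderOf_eq_prime hp h1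
  have hx1 : x ≠ 1 := by rintro rfl; exact hp.ne_one (by simpa using hxp.symm)
  obtain ⟨S, hS⟩ := (IsPGroup.of_card (G := Subgroup.zpowers x) (n := 1)
    (by rw [Nat.card_zpowers, hxp, pow_one])).exists_le_sylow
  have h3 := H1.inf_centralizer_ne_bot_of_isPGroup S.isPGroup' S.isPGroup' Subgroup.le_normalizer
    fun e => hx1 (by simpa [e] using hS)
  obtain ⟨⟨z, hz, hz2⟩, h4⟩ := Subgroup.ne_bot_iff_exists_ne_one.1 h3
  rw [sup_idem] at hz2
  have h5 : z ∈ H := h x hx hx1 (Subgroup.mem_centralizer_singleton_iff.2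
    (hz2 x (hS (Subgroup.mem_zpowers x))).symm)
  have h6 : (S : Subgroup G) ≤ H := fun s hs => h z h5 (fun e => h4 (Subtype.ext e))
    (Subgroup.mem_centralizer_singleton_iff.2 (hz2 s hs))
  exact S.not_dvd_index (h2.trans (Subgroup.index_dvd_of_le h6))

end Cfsg.Agent.S0588
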