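import Cfsg.Statements.S0590
import Cfsg.Agent.H7.FF1

set_option autoImplicit false
open Cfsg

namespace Cfsg.Agent.S0590
open H7
open scoped commutatorElement

/-- Quadratic action on an elementary abelian p-group forces the acting group modulo the kernel of the action to be elementary abelian. -/
theorem result {G : Type*} [Group G] [Finite G] {p : ℕ} [Fact p.Prime] (V H : Subgroup G) (hV : Cfsg.IsElementaryAbelian p V) (hHV : H ≤ Subgroup.normalizer (V : Set G)) (hq : ⁅⁅V, H⁆, H⁆ = ⊥) : ⁅H, H⁆ ≤ Subgroup.centralizer (V : Set G) ∧ ∀ a ∈ H, a ^ p ∈ Subgroup.centralizer (V : Set G) := by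
  open Subgroup in
  exact ⟨quad_comm_le hq, fun a ha => quad_pow_mem hV hHV hq ha⟩

end Cfsg.Agent.S0590
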