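import Cfsg.Statements.S0592
import Mathlib.Tactic.NoncommRing
import Mathlib.Tactic.Module
import Mathlib.LinearAlgebra.Matrix.Charpoly.Coeff
import Mathlib.FieldTheory.Finite.Basic

set_option autoImplicit false
open Cfsg

namespace Cfsg.Agent.S0592

open Polynomial

section Alg
variable {K R : Type*} [Field K] [Ring R] [Algebra K R]

/-- elements `αA + βB + γAB` modulo `C = AB + BA` -/
def TT (K : Type*) [Field K] [Algebra K R] (A B x : R) : Prop :=
  ∃ (α β γ : K) (y : R), Commute (A * B + B * A) y ∧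
    x = α • A + β • B + γ • (A * B) + (A * B + B * A) * y

variable {A B : R} (hA : A * A = 0) (hB : B * B = 0)
include hA hB

theorem cA : Commute (A * B + B * A) A := by
  have h1 : ∀ x, A * (A * x) = 0 := fun x => by rw [← mul_assoc, hA, zero_mul]
  simp [Commute, SemiconjBy, add_mul, mul_add, mul_assoc, hA, h1]

theorem cB : Commute (A * B + B * A) B := by
  have h1 : ∀ x, B * (B * x) = 0 := fun x => by rw [← mul_assoc, hB, zero_mul]
  simp [Commute, SemiconjBy, add_mul, mul_add, mul_assoc, hB, h1]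

theorem TT.mulA {x : R} (h : TT K A B x) (s : K) : TT K A B ((1 + s • A) * (1 + x) - 1) := by
  obtain ⟨α, β, γ, y, hy, rfl⟩ := h
  have h1 : ∀ x, A * (A * x) = 0 := fun x => by rw [← mul_assoc, hA, zero_mul]
  refine ⟨α + s, β, γ + s * β, y + s • (A * y),
    hy.add_right (((cA hA hB).mul_right hy).smul_right s), ?_⟩
  simp only [add_mul, mul_add, mul_assoc, hA, h1, smul_mul_assoc, mul_smul_comm, one_mul, mul_one,
    smul_zero, mul_zero, smul_add]
  module

theorem TT.mulB {x : R} (h : TT K A B x) (s : K) : TT K A B ((1 + s • B) * (1 + x) - 1) := by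
  obtain ⟨α, β, γ, y, hy, rfl⟩ := h
  have h1 : ∀ x, B * (B * x) = 0 := fun x => by rw [← mul_assoc, hB, zero_mul]
  refine ⟨α, β + s, γ - s * α, y + s • (B * y) + (s * α) • 1 + (s * γ) • B,
    ((hy.add_right (((cB hA hB).mul_right hy).smul_right s)).add_right
      ((Commute.one_right _).smul_right _)).add_right ((cB hA hB).smul_right _), ?_⟩
  simp only [add_mul, mul_add, mul_assoc, hB, h1, smul_mul_assoc, mul_smul_comm, one_mul, mul_one,
    smul_zero, mul_zero, smul_add]
  module

theorem TT.nil {x : R} (h : TT K A B x) (hC : IsNilpotent (A * B + B * A)) : IsNilpotent x := by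
  obtain ⟨α, β, γ, y, hy, rfl⟩ := h
  have h1 : ∀ x, A * (A * x) = 0 := fun x => by rw [← mul_assoc, hA, zero_mul]
  have h2 : ∀ x, B * (B * x) = 0 := fun x => by rw [← mul_assoc, hB, zero_mul]
  obtain ⟨u, hu⟩ : ∃ u, u = α • A + β • B + γ • (A * B) := ⟨_, rfl⟩
  obtain ⟨v, hv⟩ : ∃ v, v = (α * β) • (1 : R) + (α * γ) • A + (β * γ) • B + (γ * γ) • (A * B) :=
    ⟨_, rfl⟩
  have e : u * u = (A * B + B * A) * v := by
    simp only [hu, hv, add_mul, mul_add, mul_assoc, hA, hB, h1, h2, smul_mul_assoc, mul_smul_comm,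
      mul_one, smul_zero, mul_zero, smul_add]
    module
  have cu : Commute (A * B + B * A) u := hu ▸
    (((cA hA hB).smul_right _).add_right ((cB hA hB).smul_right _)).add_right
      (((cA hA hB).mul_right (cB hA hB)).smul_right _)
  have cv : Commute (A * B + B * A) v := hv ▸
    ((((Commute.one_right _).smul_right _).add_right ((cA hA hB).smul_right _)).add_right
      ((cB hA hB).smul_right _)).add_right (((cA hA hB).mul_right (cB hA hB)).smul_right _)
  rw [← hu]
  generalize A * B + B * A = C at *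
  have e2 : (u + C * y) ^ 2 = C * (v + u * y + y * u + y * C * y) := by
    have := cu.eq
    rw [sq, add_mul, mul_add, mul_add, e, ← mul_assoc u, ← this]
    noncomm_ring
  have cw : Commute C (v + u * y + y * u + y * C * y) :=
    ((cv.add_right (cu.mul_right hy)).add_right (hy.mul_right cu)).add_right
      ((hy.mul_right (Commute.refl C)).mul_right hy)
  exact IsNilpotent.of_pow (m := 2) (e2 ▸ cw.isNilpotent_mul_right hC)

end Alg

/-- Two quadratically acting generators of a linear group that is not a p-group, with the p'-part of the order of their product dividing q - 1, give a homomorphism onto a subgroup of SL(2, q) that is not a p-group. -/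
theorem result {K : Type*} [Field K] [Fintype K] {p : ℕ} [Fact p.Prime] [CharP K p] {W : Type*} [AddCommGroup W] [Module K W] [FiniteDimensional K W] [Finite W] [Nontrivial W] (H : Subgroup (W ≃ₗ[K] W)) (a b : W ≃ₗ[K] W) (hH : H = Subgroup.closure {a, b}) (ha : ∀ w : W, a (a w - w) = a w - w) (hb : ∀ w : W, b (b w - w) = b w - w) (hnp : ¬ IsPGroup p H) (hk : ∃ e k : ℕ, orderOf (a * b) = p ^ e * k ∧ k ∣ Fintype.card K - 1) : ∃ φ : H →* Matrix.SpecialLinearGroup (Fin 2) K, ¬ IsPGroup p φ.range := by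
  classical
  obtain ⟨A, hAd⟩ : ∃ A : Module.End K W, A = (a : W →ₗ[K] W) - 1 := ⟨_, rfl⟩
  obtain ⟨B, hBd⟩ : ∃ B : Module.End K W, B = (b : W →ₗ[K] W) - 1 := ⟨_, rfl⟩
  have hA : A * A = 0 := LinearMap.ext fun w => by
    have := ha w
    simp only [map_sub] at this
    simp [hAd, this]
  have hB : B * B = 0 := LinearMap.ext fun w => by
    have := hb w
    simp only [map_sub] at this
    simp [hBd, this]
  let ι : (W ≃ₗ[K] W) →* Module.End K W := LinearEquiv.automorphismGroup.toLinearMapMonoidHom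
  have ιa : ι a = 1 + A := by rw [hAd]; simp [ι]
  have ιb : ι b = 1 + B := by rw [hBd]; simp [ι]
  have ιinv : ∀ (x : W ≃ₗ[K] W) (X : Module.End K W), X * X = 0 → ι x = 1 + X → ι x⁻¹ = 1 - X := by
    intro x X hX e
    have : ι x * (1 - X) = 1 := by rw [e, add_mul, mul_sub, mul_sub, hX]; simp
    calc ι x⁻¹ = ι x⁻¹ * (ι x * (1 - X)) := by rw [this, mul_one]
      _ = 1 - X := by rw [← mul_assoc, ← map_mul]; simp
  have ιa' := ιinv a A hA ιa
  have ιb' := ιinv b B hB ιb
  have hchar : CharP (Module.End K W) p :=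
    charP_of_injective_algebraMap (algebraMap K (Module.End K W)).injective p
  have ιinj : Function.Injective ι := fun x y e => LinearEquiv.toLinearMap_injective e
  have hC : ¬ IsNilpotent (A * B + B * A) := by
    intro hC
    apply hnp
    rintro ⟨h, hh⟩
    have hT : TT K A B (ι h - 1) := by
      rw [hH] at hh
      induction hh using Subgroup.closure_induction_left with
      | one => exact ⟨0, 0, 0, 0, Commute.zero_right _, by simp⟩
      | mul_left x hx y _ ih =>
        rcases hx with rfl | rfl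
        · simpa [ιa] using ih.mulA hA hB 1
        · simpa [ιb] using ih.mulB hA hB 1
      | inv_mul_cancel x hx y _ ih =>
        rcases hx with rfl | rfl
        · simpa [ιa', sub_eq_add_neg] using ih.mulA hA hB (-1)
        · simpa [ιb', sub_eq_add_neg] using ih.mulB hA hB (-1)
    obtain ⟨m, hm⟩ := hT.nil hA hB hC
    refine ⟨m, Subtype.ext (ιinj ?_)⟩
    have h1 : (ι h - 1) ^ p ^ m = 0 :=
      pow_eq_zero_of_le (Nat.lt_pow_self (Fact.out : p.Prime).one_lt).le hm
    rw [sub_pow_char_pow_of_commute p m (Commute.one_right _), one_pow, sub_eq_zero] at h1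
    simpa using h1
  obtain ⟨g, hg⟩ : ∃ g, g = ι (a * b) := ⟨_, rfl⟩
  obtain ⟨g', hg'⟩ : ∃ g', g' = ι (a * b)⁻¹ := ⟨_, rfl⟩
  have hgg : g' * g = 1 := by rw [hg, hg', ← map_mul]; simp
  have hgg' : g * g' = 1 := by rw [hg, hg', ← map_mul]; simp
  have hCg : A * B + B * A = g' * (g - 1) ^ 2 := by
    have : g' * (g - 1) ^ 2 = g + g' - 1 - 1 := by
      have e : g' * (g - 1) ^ 2 = (g' * g) * g - g' * g - g' * g + g' := by noncomm_ring
      rw [e, hgg]
      noncomm_ring
    rw [this, hg, hg', mul_inv_rev, map_mul, map_mul, ιa, ιb, ιa', ιb']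
    noncomm_ring
  have hev : ∃ μ : K, μ ≠ 1 ∧ ∃ v : W, v ≠ 0 ∧ g v = μ • v := by
    by_contra hc
    push Not at hc
    apply hC
    obtain ⟨e, k, h1, k', h2⟩ := hk
    have hu : IsUnit (aeval g (∏ μ ∈ Finset.univ.erase (1 : K), (X - C μ))) := by
      refine Finset.prod_induction _ (fun f => IsUnit (aeval g f))
        (fun f f' h h' => by rw [map_mul]; exact h.mul h') (by simp) fun μ hμ => ?_
      rw [LinearMap.isUnit_iff_ker_eq_bot, LinearMap.ker_eq_bot']
      intro v hv
      by_contra hv0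
      exact hc μ (Finset.ne_of_mem_erase hμ) v hv0 (by simpa [sub_eq_zero] using hv)
    have hp : (X - C 1) * ∏ μ ∈ Finset.univ.erase (1 : K), (X - C μ) =
        X ^ Fintype.card K - X := by
      rw [Finset.mul_prod_erase _ (fun μ : K => X - C μ) (Finset.mem_univ _)]
      have hmon : (X ^ Fintype.card K - X : K[X]).Monic :=
        monic_X_pow_sub (by rw [degree_X]; exact_mod_cast Fintype.one_lt_card)
      have := prod_multiset_X_sub_C_of_monic_of_roots_card_eq hmon (by
          rw [FiniteField.roots_X_pow_card_sub_X, FiniteField.X_pow_card_sub_X_natDegree_eq K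
            Fintype.one_lt_card]
          rfl)
      rw [FiniteField.roots_X_pow_card_sub_X] at this
      exact this
    have h3 : g ^ (p ^ e * k) = 1 := by rw [hg, ← map_pow, ← h1, pow_orderOf_eq_one, map_one]
    have h4 : (g ^ Fintype.card K - g) ^ p ^ e = 0 := by
      rw [sub_pow_char_pow_of_commute p e ((Commute.refl g).pow_left _), ← pow_mul,
        show Fintype.card K = k * k' + 1 by have := Fintype.card_pos (α := K); omega,
        show (k * k' + 1) * p ^ e = p ^ e * k * k' + p ^ e by ring, pow_add, pow_mul, h3]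
      simp
    have h5 : aeval g ((X - C 1 : K[X]) ^ p ^ e) *
        aeval g (∏ μ ∈ Finset.univ.erase (1 : K), (X - C μ)) ^ p ^ e = 0 := by
      rw [← map_pow, ← map_mul, ← mul_pow, hp]
      simpa using h4
    rw [(hu.pow _).mul_left_eq_zero] at h5
    have h6 : IsNilpotent (g - 1) := ⟨p ^ e, by simpa using h5⟩
    rw [hCg]
    refine Commute.isNilpotent_mul_left ?_ (h6.pow_succ 1)
    exact (Commute.sub_right (hgg.trans hgg'.symm) (Commute.one_right _)).pow_right _
  obtain ⟨μ, hμ, v, hv0, hv⟩ := hev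
  have hv' : μ • g' v = v := by rw [← map_smul, ← hv, ← Module.End.mul_apply, hgg]; rfl
  have hμ0 : μ ≠ 0 := by rintro rfl; exact hv0 (by simpa using hv'.symm)
  obtain ⟨l, hl⟩ : ∃ l : K, l = μ⁻¹ * (μ - 1) ^ 2 := ⟨_, rfl⟩
  have hl0 : l ≠ 0 := by rw [hl]; exact mul_ne_zero (inv_ne_zero hμ0) (pow_ne_zero _ (sub_ne_zero.2 hμ))
  have hCv : (A * B + B * A) v = l • v := by
    have e1 : g' v = μ⁻¹ • v := by rw [eq_inv_smul_iff₀ hμ0, hv']
    rw [hCg, hl]
    simp only [sq, Module.End.mul_apply, LinearMap.sub_apply, Module.End.one_apply, hv, map_sub,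
      map_smul, e1]
    module
  have hAA : ∀ x, A (A x) = 0 := fun x => by rw [← Module.End.mul_apply, hA]; rfl
  have hBB : ∀ x, B (B x) = 0 := fun x => by rw [← Module.End.mul_apply, hB]; rfl
  obtain ⟨w, hw0, hAw, hCw⟩ : ∃ w : W, w ≠ 0 ∧ A w = 0 ∧ A (B w) = l • w := by
    have e1 : A (B v) + B (A v) = l • v := hCv
    by_cases h : A v = 0
    · exact ⟨v, hv0, h, by simpa [h] using e1⟩
    · exact ⟨A v, h, hAA v, by simpa [hAA] using congrArg A e1⟩
  have hind : ∀ s t : K, s • w + t • B w = 0 → s = 0 ∧ t = 0 := by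
    intro s t e
    have := congrArg A e
    simp only [map_add, map_smul, hAw, hCw, smul_zero, zero_add, map_zero, smul_smul,
      smul_eq_zero, mul_eq_zero, hl0, hw0, or_false] at this
    simpa [this, hw0] using e
  let Rep : (W ≃ₗ[K] W) → Matrix (Fin 2) (Fin 2) K → Prop := fun h M =>
    ι h w = M 0 0 • w + M 1 0 • B w ∧ ι h (B w) = M 0 1 • w + M 1 1 • B w
  have uniq : ∀ h M N, Rep h M → Rep h N → M = N := by
    intro h M N ⟨m1, m2⟩ ⟨n1, n2⟩
    have e1 := hind (M 0 0 - N 0 0) (M 1 0 - N 1 0) (by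
      rw [m1] at n1; rw [← sub_eq_zero] at n1; rw [← n1]; module)
    have e2 := hind (M 0 1 - N 0 1) (M 1 1 - N 1 1) (by
      rw [m2] at n2; rw [← sub_eq_zero] at n2; rw [← n2]; module)
    simp only [sub_eq_zero] at e1 e2
    ext i j
    fin_cases i <;> fin_cases j <;> simp [e1.1, e1.2, e2.1, e2.2]
  have rmul : ∀ h h' M N, Rep h M → Rep h' N → Rep (h * h') (M * N) := by
    intro h h' M N ⟨m1, m2⟩ ⟨n1, n2⟩
    constructor <;>
    · simp only [map_mul, Module.End.mul_apply, n1, n2, map_add, map_smul, m1, m2,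
        Matrix.mul_apply, Fin.sum_univ_two]
      module
  have ra : Rep a !![1, l; 0, 1] := by constructor <;> simp [ιa, hAw, hCw, add_comm]
  have rb : Rep b !![1, 0; 1, 1] := by constructor <;> simp [ιb, hBB]
  have ra' : Rep a⁻¹ !![1, -l; 0, 1] := by
    constructor <;> simp [ιa', hAw, hCw, sub_eq_add_neg, add_comm]
  have rb' : Rep b⁻¹ !![1, 0; -1, 1] := by constructor <;> simp [ιb', hBB, sub_eq_add_neg]
  have r1 : Rep 1 1 := by constructor <;> simp
  have hex : ∀ h : H, ∃ M : Matrix.SpecialLinearGroup (Fin 2) K, Rep h M := by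
    rintro ⟨h, hh⟩
    rw [hH] at hh
    induction hh using Subgroup.closure_induction_left with
    | one => exact ⟨1, r1⟩
    | mul_left x hx y hy ih =>
      obtain ⟨M, hM⟩ := ih (hH ▸ hy)
      rcases hx with rfl | rfl
      · exact ⟨⟨_, by simp [Matrix.det_fin_two]⟩ * M, rmul _ _ _ _ ra hM⟩
      · exact ⟨⟨_, by simp [Matrix.det_fin_two]⟩ * M, rmul _ _ _ _ rb hM⟩
    | inv_mul_cancel x hx y hy ih =>
      obtain ⟨M, hM⟩ := ih (hH ▸ hy)
      rcases hx with rfl | rfl
      · exact ⟨⟨_, by simp [Matrix.det_fin_two]⟩ * M, rmul _ _ _ _ ra' hM⟩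
      · exact ⟨⟨_, by simp [Matrix.det_fin_two]⟩ * M, rmul _ _ _ _ rb' hM⟩
  choose f hf using hex
  let φ : H →* Matrix.SpecialLinearGroup (Fin 2) K := MonoidHom.mk' f fun x y =>
    Subtype.ext (uniq _ _ _ (hf (x * y)) (rmul _ _ _ _ (hf x) (hf y)))
  refine ⟨φ, fun hP => ?_⟩
  have hab : a * b ∈ H := hH ▸ mul_mem (Subgroup.subset_closure (by simp))
    (Subgroup.subset_closure (by simp))
  obtain ⟨m, hm⟩ := hP ⟨φ ⟨_, hab⟩, _, rfl⟩
  have e1 : ((φ ⟨_, hab⟩ : Matrix.SpecialLinearGroup (Fin 2) K) : Matrix (Fin 2) (Fin 2) K) =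
      !![1, l; 0, 1] * !![1, 0; 1, 1] := uniq _ _ _ (hf _) (rmul _ _ _ _ ra rb)
  have e2 : ((φ ⟨_, hab⟩ : Matrix.SpecialLinearGroup (Fin 2) K) : Matrix (Fin 2) (Fin 2) K) ^
      p ^ m = 1 := by
    have := congrArg (fun x : φ.range =>
      ((x : Matrix.SpecialLinearGroup (Fin 2) K) : Matrix (Fin 2) (Fin 2) K)) hm
    simpa using this
  rw [e1] at e2
  have e3 : IsNilpotent ((!![1, l; 0, 1] * !![1, 0; 1, 1] : Matrix (Fin 2) (Fin 2) K) - 1) :=
    ⟨p ^ m, by rw [sub_pow_char_pow_of_commute p m (Commute.one_right _), e2]; simp⟩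
  have e4 := (Matrix.isNilpotent_trace_of_isNilpotent e3).eq_zero
  simp [Matrix.trace_fin_two] at e4
  exact hl0 (by linear_combination e4)

end Cfsg.Agent.S0592
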