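import Cfsg.Statements.S0593
import Cfsg.Agent.H7.FF2

set_option autoImplicit false
open Cfsg

namespace Cfsg.Agent.S0593
open H7
open scoped commutatorElement

/-- For odd p, a faithful group on an elementary abelian p-group generated by two quadratically acting elements is a p-group or has non-abelian Sylow 2-subgroups. -/
theorem result {G : Type*} [Group G] [Finite G] {p : ℕ} [Fact p.Prime] (hp : p ≠ 2) (V H : Subgroup G) (hV : Cfsg.IsElementaryAbelian p V) (hHV : H ≤ Subgroup.normalizer (V : Set G)) (hf : H ⊓ Subgroup.centralizer (V : Set G) = ⊥) (a b : G) (hab : H = Subgroup.closure {a, b}) (ha : ⁅⁅V, Subgroup.zpowers a⁆, Subgroup.zpowers a⁆ = ⊥) (hb : ⁅⁅V, Subgroup.zpowers b⁆, Subgroup.zpowers b⁆ = ⊥) (hnp : ¬ IsPGroup p H) (T : Sylow 2 H) : ¬ IsMulCommutative T := by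
  open Subgroup in
  have ha' : a ∈ H := hab ▸ subset_closure (by simp)
  have hb' : b ∈ H := hab ▸ subset_closure (by simp)
  have h : a ∉ Op p H ∨ b ∉ Op p H := by
    by_contra hc
    push_neg at hc
    refine hnp ((isPGroup_Op p H).to_le ?_)
    refine hab.le.trans ((closure_le _).2 ?_)
    rintro x (rfl | rfl)
    exacts [hc.1, hc.2]
  have hi : Cfsg.Involves (Matrix.SpecialLinearGroup (Fin 2) (ZMod p)) H :=
    h.elim (inv_sl2_of_quad' hp (EA.isPGroup hV) hHV hf ha' ha) (inv_sl2_of_quad' hp (EA.isPGroup hV) hHV hf hb' hb)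
  haveI : Fact (Nat.Prime 2) := ⟨Nat.prime_two⟩
  rw [H2.isMulCommutative_map_subtype]
  exact not_comm_syl_of_sl2 hp hi (H2.isSylowIn_map_subtype T)

end Cfsg.Agent.S0593
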