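import Cfsg.Statements.S0594
import Cfsg.Agent.H7.FF2

set_option autoImplicit false
open Cfsg

namespace Cfsg.Agent.S0594
open H7
open scoped commutatorElement

/-- For odd p, two quadratic generators of a faithful group that is not a p-group, one of which acts nontrivially on a normal subgroup of order prime to p, force p = 3 and a section isomorphic to SL(2,3). -/
theorem result {G : Type*} [Group G] [Finite G] {p : ℕ} [Fact p.Prime] (hp : p ≠ 2) (V H : Subgroup G) (hV : Cfsg.IsElementaryAbelian p V) (hHV : H ≤ Subgroup.normalizer (V : Set G)) (hf : H ⊓ Subgroup.centralizer (V : Set G) = ⊥) (a b : G) (hab : H = Subgroup.closure {a, b}) (ha : ⁅⁅V, Subgroup.zpowers a⁆, Subgroup.zpowers a⁆ = ⊥) (hb : ⁅⁅V, Subgroup.zpowers b⁆, Subgroup.zpowers b⁆ = ⊥) (hnp : ¬ IsPGroup p H) (Q : Subgroup G) (hQH : Q ≤ H) (hQn : H ≤ Subgroup.normalizer (Q : Set G)) (hQ : (Nat.card Q).Coprime p) (hQa : ⁅Q, Subgroup.zpowers a⁆ ≠ ⊥) : p = 3 ∧ ∃ (K L : Subgroup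 G) (hL : (L.subgroupOf K).Normal), K ≤ H ∧ Nonempty ((K ⧸ L.subgroupOf K) ≃* Matrix.SpecialLinearGroup (Fin 2) (ZMod 3)) := by
  open Subgroup in
  have ha' : a ∈ H := hab ▸ subset_closure (by simp)
  have hz : zpowers a ≤ H := zpowers_le.2 ha'
  have hX : zpowers a ⊔ Q ≤ H := sup_le hz hQH
  have hap : a ^ p = 1 := mem_bot.1 (hf ▸ ⟨pow_mem ha' p,
    quad_pow_mem hV (hz.trans hHV) ha (mem_zpowers a)⟩)
  have hP : IsPGroup p (zpowers a) := isPGroup_zpowers (k := 1) (by simpa)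
  have hi := inv_sl2_of_quad' hp (EA.isPGroup hV) (hX.trans hHV)
    (eq_bot_of_le (inf_le_inf_right _ hX) hf) (mem_sup_left (mem_zpowers a)) ha (fun m => hQa
      (comm_eq_bot'.2 ((zpowers_le.2 m).trans ((Op_le_cen p _).trans (cen_anti
        (le_Op' le_sup_right (hX.trans hQn) hQ))))))
  have h3 := (not_ps_sl2 (ps_of_inv hi (npc_of_sup hP hQ (hz.trans hQn)).ps)).resolve_left hp
  subst h3
  exact ⟨rfl, sec_of_inv (H2.inv_trans hi (H2.inv_of_le hX))⟩

end Cfsg.Agent.S0594
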