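import Cfsg.Statements.S0600
import Cfsg.Agent.H7.FF1

set_option autoImplicit false
open Cfsg

namespace Cfsg.Agent.S0600
open H7
open scoped commutatorElement

/-- A normal elementary abelian p-subgroup generated by the fixed points of the Sylow p-subgroups admits no nontrivial normal p-subgroup of G modulo its centralizer. -/
theorem result {G : Type*} [Group G] [Finite G] {p : ℕ} [Fact p.Prime] (V : Subgroup G) [V.Normal] (hV : Cfsg.IsElementaryAbelian p V) (hgen : V = ⨆ S : Sylow p G, V ⊓ Subgroup.centralizer ((S : Subgroup G) : Set G)) : Cfsg.pCore p (G ⧸ Subgroup.centralizer (V : Set G)) = ⊥ := by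
  open Subgroup in
  have := Omod_le_cen_of_gen (p := p) (H := ⊤) (le_nrm_of_normal _ V) fun K hK =>
    hgen.le.trans (iSup_le fun S => hK _ (H2.sylow_isSylowIn_top S))
  refine eq_bot_iff.2 fun x hx => ?_
  obtain ⟨g, rfl⟩ := QuotientGroup.mk_surjective x
  exact (QuotientGroup.eq_one_iff g).2 (this (H2.mem_pCore_quot'.1 hx))

end Cfsg.Agent.S0600
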