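import Cfsg.Statements.S0602
import Cfsg.Agent.H7.FF1

set_option autoImplicit false
open Cfsg

namespace Cfsg.Agent.S0602
open H7
open scoped commutatorElement

/-- The Thompson subgroup is characteristic, and nontrivial as soon as p divides the group order. -/
theorem result {G : Type*} [Group G] [Finite G] {p : ℕ} [Fact p.Prime] : (Cfsg.thompsonSubgroup p G).Characteristic ∧ (p ∣ Nat.card G → Cfsg.thompsonSubgroup p G ≠ ⊥) := by
  open Subgroup in
  refine ⟨characteristic_iff_map_eq.2 fun φ => ?_, fun hd e => ?_⟩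
  · rw [thompson_top, ← H2.img_hom, (H2.homOn_hom φ.toMonoidHom ⊤).img_J fun _ _ _ _ e => φ.injective e,
      H2.img_hom, map_top_of_surjective _ φ.surjective]
  · obtain ⟨A, hA⟩ := H2.exists_mx (P := (⊤ : Subgroup G)) p
    obtain ⟨x, -, hx⟩ := exists_orderOf_eq (H := (⊤ : Subgroup G)) (Fact.out : p.Prime) (by rwa [card_top])
    have h1 := hA.2.2 _ le_top (ea_zpowers (hx ▸ pow_orderOf_eq_one x))
    have h2 := hA.le_J
    rw [← thompson_top, e, le_bot_iff] at h2
    rw [h2, card_bot, card_zpowers_eq, hx] at h1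
    exact absurd h1 (not_le.2 (Fact.out : p.Prime).one_lt)

end Cfsg.Agent.S0602
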