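import Cfsg.Statements.S0604
import Cfsg.Agent.H7.FF4

set_option autoImplicit false
open Cfsg

namespace Cfsg.Agent.S0604
open H7
open scoped commutatorElement

/-- The Thompson subgroup of G is the join of the Thompson subgroups of its Sylow p-subgroups. -/
theorem result {G : Type*} [Group G] [Finite G] {p : ℕ} [Fact p.Prime] : Cfsg.thompsonSubgroup p G = ⨆ S : Sylow p G, Cfsg.thompsonSubgroupOf p (S : Subgroup G) := by
  open Subgroup in
  rw [thompson_top]
  exact le_antisymm (J_le_of_syl fun S hS => le_iSup_of_le hS.toSylowTop le_rfl)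
    (iSup_le fun S => J_syl_le (H2.sylow_isSylowIn_top S))

end Cfsg.Agent.S0604
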