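import Cfsg.Statements.S0609
import Cfsg.Agent.H7.FF4

set_option autoImplicit false
open Cfsg

namespace Cfsg.Agent.S0609
open H7
open scoped commutatorElement

/-- Thompson factorizability passes to and from the quotient by the largest normal subgroup of order prime to p. -/
theorem result {G : Type*} [Group G] [Finite G] {p : ℕ} [Fact p.Prime] : Cfsg.IsThompsonFactorizable p G ↔ Cfsg.IsThompsonFactorizable p (G ⧸ Cfsg.pPrimeCore p G) := by
  open Subgroup in
  rw [tf_top, tf_top, ← tf_im (f := res (QuotientGroup.mk' (Cfsg.pPrimeCore p G)) ⊤) le_rfl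
    (by rw [kr_top, QuotientGroup.ker_mk', top_inf_eq, pPrimeCore_eq]; exact coprime_Op' p _),
    im_top, map_top_of_surjective _ (QuotientGroup.mk'_surjective _)]

end Cfsg.Agent.S0609
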