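import Cfsg.Statements.S0612
import Cfsg.Agent.H7.FF3

set_option autoImplicit false
open Cfsg

namespace Cfsg.Agent.S0612
open H7
open scoped commutatorElement

/-- In such a faithful group every nontrivial best offender decomposes as a direct product of minimal nontrivially-acting best offenders. -/
theorem result {G : Type*} [Group G] [Finite G] {p : ℕ} [Fact p.Prime] (V H : Subgroup G) (hV : Cfsg.IsElementaryAbelian p V) (hHV : H ≤ Subgroup.normalizer (V : Set G)) (hf : H ⊓ Subgroup.centralizer (V : Set G) = ⊥) (hS1 : Subgroup.centralizer (Cfsg.pPrimeCore p ↥H : Set ↥H) ≤ Cfsg.pPrimeCore p ↥H) (hS3 : H = ⨆ A : {A : Subgroup G // A ≤ H ∧ Cfsg.IsBestOffenderOn p V A}, (A : Subgroup G)) (hH1 : H ≠ ⊥) (A : Subgroup G) (hAH : A ≤ H) (hA : Cfsg.IsBestOffenderOn p V A) (hA1 : A ≠ ⊥) : ∃ (k : ℕ) (B : Fin k → Subgroup G), (∀ i, B i ≤ A ∧ Cfsg.IsBestOffenderOn p V (B i) ∧ ⁅V, B i⁆ ≠ ⊥ ∧ ∀ C : Subgroup G, C ≤ B i → Cfsg.IsBestOffenderOn p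 V C → ⁅V, C⁆ ≠ ⊥ → C = B i) ∧ iSupIndep B ∧ ⨆ i, B i = A := by
  open Subgroup in
  classical
  have h := ffs_of hV hHV hf hS1
  have hex : ∃ n, ∃ s : Finset (Subgroup G), s.card = n ∧ (∀ B ∈ s, B ≤ A ∧ TV p V B) ∧ s.sup id = A := by
    haveI : Finite (Subgroup G) := inferInstance
    refine ⟨_, (Set.toFinite {B | B ≤ A ∧ TV p V B}).toFinset, rfl, fun B hB => by simpa using hB,
      le_antisymm (Finset.sup_le fun B hB => (by simpa using hB : B ≤ A ∧ TV p V B).1)
        (h.le_of_tv hAH hA fun B b1 b2 => Finset.le_sup (f := id) (by simpa using ⟨b1, b2⟩))⟩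
  obtain ⟨s, s1, s2, s3⟩ := Nat.find_spec hex
  refine ⟨s.card, fun i => (s.equivFin.symm i : Subgroup G), fun i => ?_, fun i => ?_, ?_⟩
  · obtain ⟨b1, b2⟩ := s2 _ (s.equivFin.symm i).2
    exact ⟨b1, b2.mo⟩
  · obtain ⟨b1, b2⟩ := s2 _ (s.equivFin.symm i).2
    refine disjoint_iff.2 (inf_eq_bot_of_card_p b2.card fun l => ?_)
    refine Nat.find_min hex (m := (s.erase (s.equivFin.symm i)).card)
      (s1 ▸ Finset.card_erase_lt_of_mem (s.equivFin.symm i).2)
      ⟨_, rfl, fun B hB => s2 B (Finset.mem_of_mem_erase hB), le_antisymm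
        (Finset.sup_le fun B hB => (s2 B (Finset.mem_of_mem_erase hB)).1) ?_⟩
    refine s3.ge.trans (Finset.sup_le fun B hB => ?_)
    by_cases e : B = s.equivFin.symm i
    · refine e.le.trans (l.trans (iSup₂_le fun j hj => Finset.le_sup (f := id) ?_))
      exact Finset.mem_erase.2 ⟨fun e => hj (s.equivFin.symm.injective (Subtype.ext e)),
        (s.equivFin.symm j).2⟩
    · exact Finset.le_sup (f := id) (Finset.mem_erase.2 ⟨e, hB⟩)
  · refine le_antisymm (iSup_le fun i => (s2 _ (s.equivFin.symm i).2).1)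
      (s3.ge.trans (Finset.sup_le fun B hB => le_iSup_of_le (s.equivFin ⟨B, hB⟩) (by simp)))

end Cfsg.Agent.S0612
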