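import Cfsg.Statements.S0617
import Cfsg.Agent.H7.FF3

set_option autoImplicit false
open Cfsg

namespace Cfsg.Agent.S0617
open H7
open scoped commutatorElement

/-- Structure Theorem for failure of factorization: a faithful group generated by best offenders, with self-centralizing p'-core, is a direct product of copies of SL(2, p) (p = 2 or 3), each acting on its own plane in V, which is the direct product of these planes and C_V(H). -/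
theorem result {G : Type*} [Group G] [Finite G] {p : ℕ} [Fact p.Prime] (V H : Subgroup G) (hV : Cfsg.IsElementaryAbelian p V) (hHV : H ≤ Subgroup.normalizer (V : Set G)) (hf : H ⊓ Subgroup.centralizer (V : Set G) = ⊥) (hS1 : Subgroup.centralizer (Cfsg.pPrimeCore p ↥H : Set ↥H) ≤ Cfsg.pPrimeCore p ↥H) (hS3 : H = ⨆ A : {A : Subgroup G // A ≤ H ∧ Cfsg.IsBestOffenderOn p V A}, (A : Subgroup G)) (hH1 : H ≠ ⊥) : (p = 2 ∨ p = 3) ∧ (∀ E : {E : Subgroup G // ∃ A : Subgroup G, A ≤ H ∧ Cfsg.IsBestOffenderOn p V A ∧ ⁅V, A⁆ ≠ ⊥ ∧ (∀ B : Subgroup G, B ≤ A → Cfsg.IsBestOffenderOn p V B → ⁅V, B⁆ ≠ ⊥ → B = A) ∧ E = ⁅((Cfsg.pPrimeCore p ↥H).map H.subtype), A⁆ ⊔ A}, H ≤ Subgroup.normalizer ((E : Subgroup G) : Set G) ∧ Nonempty (↥(E : Subgroup G) ≃* Matrix.SpecialLinearGroup (Fin 2) (ZMod p)) ∧ Nat.card ↥(⁅V, (E : Subgroup G)⁆) = p ^ 2) ∧ iSupIndep (fun E : {E :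 Subgroup G // ∃ A : Subgroup G, A ≤ H ∧ Cfsg.IsBestOffenderOn p V A ∧ ⁅V, A⁆ ≠ ⊥ ∧ (∀ B : Subgroup G, B ≤ A → Cfsg.IsBestOffenderOn p V B → ⁅V, B⁆ ≠ ⊥ → B = A) ∧ E = ⁅((Cfsg.pPrimeCore p ↥H).map H.subtype), A⁆ ⊔ A} => (E : Subgroup G)) ∧ (⨆ E : {E : Subgroup G // ∃ A : Subgroup G, A ≤ H ∧ Cfsg.IsBestOffenderOn p V A ∧ ⁅V, A⁆ ≠ ⊥ ∧ (∀ B : Subgroup G, B ≤ A → Cfsg.IsBestOffenderOn p V B → ⁅V, B⁆ ≠ ⊥ → B = A) ∧ E = ⁅((Cfsg.pPrimeCore p ↥H).map H.subtype), A⁆ ⊔ A}, (E : Subgroup G)) = H ∧ iSupIndep (fun o : Option {E : Subgroup G // ∃ A : Subgroup G, A ≤ H ∧ Cfsg.IsBestOffenderOn p V A ∧ ⁅V, A⁆ ≠ ⊥ ∧ (∀ B : Subgroup G, B ≤ A → Cfsg.IsBestOffenderOn p V B → ⁅V, B⁆ ≠ ⊥ → B = A) ∧ E = ⁅((Cfsg.pPrimeCore p ↥H).map H.subtype), A⁆ ⊔ A} => o.elim (V ⊓ Subgroup.centralizer (H : Set G)) (fun E => ⁅V, (E : Subgroup G)⁆)) ∧ (V ⊓ Subgroup.centralizer (H : Set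 G)) ⊔ (⨆ E : {E : Subgroup G // ∃ A : Subgroup G, A ≤ H ∧ Cfsg.IsBestOffenderOn p V A ∧ ⁅V, A⁆ ≠ ⊥ ∧ (∀ B : Subgroup G, B ≤ A → Cfsg.IsBestOffenderOn p V B → ⁅V, B⁆ ≠ ⊥ → B = A) ∧ E = ⁅((Cfsg.pPrimeCore p ↥H).map H.subtype), A⁆ ⊔ A}, ⁅V, (E : Subgroup G)⁆) = V := by
  open Subgroup in
  have h := ffs_of hV hHV hf hS1
  have hg := h.gen_of hS3
  rw [pPrimeCore_map]
  obtain ⟨A0, a1, a2⟩ := h.exists_tv hg hH1
  set S := {E : Subgroup G // ∃ A : Subgroup G, A ≤ H ∧ Cfsg.IsBestOffenderOn p V A ∧ ⁅V, A⁆ ≠ ⊥ ∧ (∀ B : Subgroup G, B ≤ A → Cfsg.IsBestOffenderOn p V B → ⁅V, B⁆ ≠ ⊥ → B = A) ∧ E = ⁅Op' p H, A⁆ ⊔ A} with hS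
  have key : ∀ E : S, ∃ A ≤ H, TV p V A ∧ (E : Subgroup G) = ⁅Op' p H, A⁆ ⊔ A := fun E =>
    let ⟨A, b1, b2, b3, b4, b5⟩ := E.2; ⟨A, b1, h.tv b1 ⟨b2, b3, b4⟩, b5⟩
  have mk : ∀ A ≤ H, TV p V A → ∃ E : S, (E : Subgroup G) = ⁅Op' p H, A⁆ ⊔ A := fun A b1 b2 =>
    ⟨⟨_, A, b1, b2.mo.1, b2.mo.2.1, b2.mo.2.2, rfl⟩, rfl⟩
  have hne : ∀ E E' : S, E' ≠ E → (E' : Subgroup G) ≤ cen ⁅V, (E : Subgroup G)⁆ := fun E E' hn => by
    obtain ⟨A, b1, b2, e⟩ := key E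
    obtain ⟨B, c1, c2, e'⟩ := key E'
    rw [e, e']
    exact (h.dich' hg b1 b2 c1 c2).resolve_left fun l => hn (Subtype.ext (by rw [e, e', l]))
  have hH : ∀ E : S, (E : Subgroup G) ≤ H := fun E => by
    obtain ⟨A, b1, b2, e⟩ := key E
    rw [e]; exact h.QE_le b1
  have hV' : ∀ E : S, ⁅V, (E : Subgroup G)⁆ ≤ V := fun E => comm_le_left ((hH E).trans hHV)
  refine ⟨h.p23 a1 a2, fun E => ?_, fun E => ?_, ?_, ?_, ?_⟩
  · obtain ⟨A, b1, b2, e⟩ := key E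
    rw [e]
    exact ⟨h.nrm_E hg b1 b2, (h.main b1 b2).1, (h.main b1 b2).2.1⟩
  · refine disjoint_iff.2 (eq_bot_of_le (inf_le_inf_left _ (iSup₂_le fun E' hn => hne E E' hn)) ?_)
    obtain ⟨A, b1, b2, e⟩ := key E
    show (E : Subgroup G) ⊓ _ = ⊥
    rw [e]; exact (h.main b1 b2).2.2.1
  · refine le_antisymm (iSup_le hH) (hg _ fun B b1 b2 => ?_)
    obtain ⟨E, e⟩ := mk B b1 b2
    exact le_iSup_of_le E (e ▸ le_sup_right)
  · rintro (_ | E)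
    · refine disjoint_iff.2 (eq_bot_of_le (B := ⁅V, Op' p H⁆ ⊓ (V ⊓ cen (Op' p H))) (le_inf
        (inf_le_right.trans (iSup₂_le ?_)) (inf_le_left.trans
          (inf_le_inf_left _ (cen_anti (Opi_le _ _))))) (h.split le_rfl).1)
      rintro (_ | E) hn
      · exact absurd rfl hn
      · obtain ⟨A, b1, b2, e⟩ := key E
        show ⁅V, (E : Subgroup G)⁆ ≤ _
        rw [e, ← (h.main b1 b2).2.2.2.1]
        exact commutator_mono le_rfl (comm_le_left (h.nF b1))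
    · refine disjoint_iff.2 (eq_bot_of_le (B := ⁅V, (E : Subgroup G)⁆ ⊓ (V ⊓ cen (E : Subgroup G)))
        (inf_le_inf_left _ (iSup₂_le ?_)) ?_)
      · rintro (_ | E') hn
        · exact inf_le_inf_left _ (cen_anti (hH E))
        · exact le_inf (hV' E') (le_cen_symm (hne E' E fun e => hn (by rw [e])))
      · obtain ⟨A, b1, b2, e⟩ := key E
        rw [e, ← (h.main b1 b2).2.2.2.1, ← (h.main b1 b2).2.2.2.2.2.2.2.2]
        exact (h.split (comm_le_left (h.nF b1))).1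
  · refine le_antisymm (sup_le inf_le_left (iSup_le hV')) ?_
    have hQ : (⨆ A : {A // A ≤ H ∧ TV p V A}, ⁅Op' p H, A.1⁆) ≤ Op' p H :=
      iSup_le fun A => comm_le_left (h.nF A.2.1)
    refine (h.split hQ).2.ge.trans ?_
    rw [sup_comm]
    refine sup_le_sup (le_inf inf_le_left (le_cen_symm (hg _ fun B b1 b2 => le_cen_symm ?_))) ?_
    · refine le_trans (inf_le_inf_left _ (cen_anti (le_iSup_of_le (f := fun A : {A // A ≤ H ∧ TV p V A} =>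
        ⁅Op' p H, A.1⁆) ⟨B, b1, b2⟩ le_rfl))) ?_
      rw [(h.main b1 b2).2.2.2.2.2.2.2.2]
      exact inf_le_right.trans (cen_anti le_sup_right)
    · rw [commutator_comm]
      have : ∀ A : {A // A ≤ H ∧ TV p V A}, ⁅V, ⁅Op' p H, A.1⁆⁆ ≤ ⨆ E : S, ⁅V, (E : Subgroup G)⁆ :=
        fun A => by
          obtain ⟨E, e⟩ := mk A.1 A.2.1 A.2.2
          exact le_iSup_of_le E (e ▸ commutator_mono le_rfl le_sup_left)
      exact comm_iSup_le (fun A => le_nrm_of_comm_le' (iSup_le hV') (this A))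
        fun A => (commutator_comm _ _).le.trans (this A)

end Cfsg.Agent.S0617
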