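import Cfsg.Statements.S0627
import Cfsg.Agent.H7.FF5

set_option autoImplicit false
open Cfsg

namespace Cfsg.Agent.S0627
open H7
open scoped commutatorElement

/-- In a p-separable group with p at least 5, the normalizer of W(S) supplements the largest normal subgroup of order prime to p. -/
theorem result {G : Type*} [Group G] [Finite G] {p : ℕ} [Fact p.Prime] (hp : 5 ≤ p) (hsep : Cfsg.IsPSolvable p G) (S : Sylow p G) : Cfsg.pPrimeCore p G ⊔ Subgroup.normalizer (((Cfsg.stableNormalClosure p ↥(S : Subgroup G)).map (S : Subgroup G).subtype) : Set G) = ⊤ := by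
  open Subgroup in
  have hS := H2.sylow_isSylowIn_top S
  have hn : (⊤ : Subgroup G) ≤ nrm (Op' p ⊤) := le_nrm_Opi _ _
  have hs := ps_im (f := qm (Op' p ⊤)) (ps_top.2 hsep) hn
  have hi : im (qm (Op' p (⊤ : Subgroup G))) ⊤ = ⊤ := eq_top_iff.2 ((im_qm_dom _).ge.trans (im_mono _ le_top))
  have hO := Opi_im_qm {p}ᶜ (⊤ : Subgroup G)
  have h1 := syl_im hS hn (qm (Op' p ⊤))
  rw [hi] at hs hO h1
  have := WS_normal (actionStable_of_free (by omega) fun h => by
    have := not_ps_sl2 (ps_of_inv (H2.inv_trans h H2.inv_top) hs)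
    omega) (ps_chP hs hO) h1
  rw [← im_WS (le_top.trans hn) (by rw [kr_qm]; exact inf_eq_bot_of_isPGroup hS.2 (coprime_Op' p _))] at this
  have c : Cop (WS p (S : Subgroup G)) (⊤ ⊓ kr (qm (Op' p (⊤ : Subgroup G)))) := by
    rw [kr_qm, top_inf_eq]
    exact cop_of_pgroup (EA.isPGroup ea_WS) (coprime_Op' p _) (le_top.trans hn)
  have e := c.im_nrm hn le_top
  rw [inf_eq_left.2 (le_top.trans this), top_inf_eq] at e
  have := (im_le_im_iff hn (le_top.trans hn)).1 e.le
  rwa [kr_qm, sup_comm, ← pPrimeCore_eq, top_le_iff] at this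

end Cfsg.Agent.S0627
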