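import Cfsg.Statements.S0628
import Cfsg.Agent.H7.CF
import Cfsg.Agent.H2.FS20

set_option autoImplicit false
open Cfsg

namespace Cfsg.Agent.S0628
open H7
open scoped commutatorElement

/-- The normal p-complement Theorem of Thompson in the form with W(S): for odd p, G has a normal p-complement as soon as the normalizer of the characteristic subgroup W(S) of a Sylow p-subgroup S has one. -/
theorem result {G : Type*} [Group G] [Finite G] {p : ℕ} [Fact p.Prime] (hp : p ≠ 2) (S : Sylow p G) (hN : Cfsg.HasNormalPComplement p ↥(Subgroup.normalizer (((Cfsg.stableNormalClosure p ↥(S : Subgroup G)).map (S : Subgroup G).subtype) : Set G))) : Cfsg.HasNormalPComplement p G := by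
  open Subgroup in
  have hW : IsCharPFunctor.{u_1} p (fun Q _ => stableNormalClosure p Q) := ⟨fun Q _ _ hQ _ e => by
    replace e : stableNormalClosure p Q = ⊥ := e
    have k := OZ_le_WS (p := p) (S := (⊤ : Subgroup Q))
    have e' : WS p (⊤ : Subgroup Q) = ⊥ := by
      have := ws_map (p := p) (Subgroup.topEquiv (G := Q)).symm
      rw [e, Subgroup.map_bot] at this
      show Subgroup.map _ _ = ⊥
      rw [← this, Subgroup.map_bot]
    have hT : IsPGroup p (⊤ : Subgroup Q) := hQ.to_subgroup _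
    exact Om_ne_bot' hT.to_inf_left (pgroup_inf_cen_ne_bot' hT hT (le_nrm_self _) top_ne_bot) (le_bot_iff.1 (k.trans e'.le)),
    fun Q R _ _ _ _ φ => ws_map φ⟩
  refine H2.npc_top.1 ((H2.pf_induced hW).npc H2.secCl_top (H2.upto_self fun L _ _ _ _ P Q h h2 => ?_)
    (H2.sylow_isSylowIn_top S) trivial (by rwa [top_inf_eq]))
  obtain ⟨T, hT⟩ := H2.exists_isSylowIn 2 Q
  have sT : H2.IsSylowIn 2 T ⊤ := hT.trans h.le (by
    intro d
    have k : PiN {p} ((Op p (⊤ : Subgroup L) ⊔ Q).relIndex ⊤) := h.piN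
    rw [← relIndex_mul_relIndex Q (Op p ⊤ ⊔ Q) ⊤ le_sup_right le_top] at d
    rcases (Nat.prime_two.dvd_mul).1 d with d | d
    · exact hp ((piN_Opi {p} ⊤ 2 Nat.prime_two (d.trans (relIndex_dvd_of_sup (h.le.trans (le_nrm_Opi _ _)) (sup_comm _ _)))).symm)
    exact hp (k 2 Nat.prime_two d).symm)
  have fr : ¬ Involves (Matrix.SpecialLinearGroup (Fin 2) (ZMod p)) (⊤ : Subgroup L) := fun k =>
    not_comm_syl_of_sl2 hp k sT (isComm_of_le h.comm hT.le)
  have fr' : ¬ Involves (Matrix.SpecialLinearGroup (Fin 2) (ZMod p)) L := fun k => fr (H2.inv_trans k H2.inv_top)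
  exact h2.of_le (le_inf le_rfl (WS_normal (actionStable_of_free hp fr') h.cenO h.syl))

end Cfsg.Agent.S0628
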