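import Cfsg.Statements.S0629
import Cfsg.Agent.H7.FF4

set_option autoImplicit false
open Cfsg

namespace Cfsg.Agent.S0629
open H7
open scoped commutatorElement

/-- A group in which the centralizer of a Sylow p-subgroup of O_{p',p}(G) is p-solvable is p-constrained. -/
theorem result {G : Type*} [Group G] [Finite G] {p : ℕ} [Fact p.Prime] (P : Sylow p ↥(Cfsg.pPrimePCore p G)) (hsol : Cfsg.IsPSolvable p ↥(Subgroup.centralizer (((P : Subgroup ↥(Cfsg.pPrimePCore p G)).map (Cfsg.pPrimePCore p G).subtype : Subgroup G) : Set G))) : Cfsg.IsPConstrained p G := by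
  open Subgroup in
  have hP := H2.isSylowIn_map_subtype P
  set Q := (P : Subgroup (Cfsg.pPrimePCore p G)).map (Cfsg.pPrimePCore p G).subtype
  rw [pPrimePCore_eq] at hP
  have hn : (⊤ : Subgroup G) ≤ nrm (Op' p ⊤) := le_nrm_Opi _ _
  have hc : ⁅PLay p ⊤ ⊔ Op' p ⊤, Q⁆ ≤ Op' p ⊤ := comm_sup_le (le_top.trans hn) (le_top.trans hn)
    (comm_sSup_le (fun _ _ => le_top.trans hn) fun K hK =>
      (commutator_mono le_rfl hP.1).trans (IsPComp.comm_Omod_le hK)) (comm_le_left (le_top.trans hn))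
  have e := (cop_of_pgroup hP.2 (coprime_Op' p _) (le_top.trans hn)).sup_cen_of_comm_le le_sup_right hc
  have h1 : Cfsg.IsPSolvable p ↥(PLay p ⊤ ⊔ Op' p (⊤ : Subgroup G)) := by
    refine ps_of_normal le_sup_right (le_top.trans hn) (Or.inr (coprime_Op' p _)) ?_
    rw [← e, im_qm_sup' (le_top.trans hn)]
    exact ps_im (ps_of_le hsol inf_le_right) (le_top.trans hn)
  exact isPConstrained_iff_top.2 (eq_bot_of_le (PLay_le_PLay le_top le_sup_left) (ps_pcon h1))

end Cfsg.Agent.S0629
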