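import Cfsg.Statements.S0630
import Cfsg.Agent.H7.FF2

set_option autoImplicit false
open Cfsg

namespace Cfsg.Agent.S0630
open H7
open scoped commutatorElement

/-- p-constraint passes to and from the quotient by the largest normal subgroup of order prime to p. -/
theorem result {G : Type*} [Group G] [Finite G] {p : ℕ} [Fact p.Prime] : Cfsg.IsPConstrained p G ↔ Cfsg.IsPConstrained p (G ⧸ Cfsg.pPrimeCore p G) := by
  open Subgroup in
  have hk : ⊤ ⊓ kr (res (QuotientGroup.mk' (Cfsg.pPrimeCore p G)) ⊤) = Op' p ⊤ := by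
    rw [kr_top, QuotientGroup.ker_mk', top_inf_eq, pPrimeCore_eq]
  have hi : im (res (QuotientGroup.mk' (Cfsg.pPrimeCore p G)) ⊤) ⊤ = ⊤ := by
    rw [im_top, map_top_of_surjective _ (QuotientGroup.mk'_surjective _)]
  have hO := Opi_im_eq_bot le_rfl hk
  rw [isPConstrained_iff_top, isPConstrained_iff_top, PLay_eq_bot_iff_im le_rfl hk, hi]
  rw [hi] at hO
  rw [PLay_eq_Lay hO]

end Cfsg.Agent.S0630
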