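import Cfsg.Statements.S0632
import Cfsg.Agent.H7.FF5

set_option autoImplicit false
open Cfsg

namespace Cfsg.Agent.S0632
open H7
open scoped commutatorElement

/-- For a group with a nontrivial normal p-subgroup, p-stability passes to and from the quotient by the largest normal subgroup of order prime to p. -/
theorem result {G : Type*} [Group G] [Finite G] {p : ℕ} [Fact p.Prime] (hO : Cfsg.pCore p G ≠ ⊥) : Cfsg.IsPStable p G ↔ Cfsg.IsPStable p (G ⧸ Cfsg.pPrimeCore p G) := by
  open Subgroup in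
  have hk : ⊤ ⊓ kr (res (QuotientGroup.mk' (Cfsg.pPrimeCore p G)) ⊤) = Op' p ⊤ := by
    rw [kr_top, QuotientGroup.ker_mk', top_inf_eq, pPrimeCore_eq]
  have hi : im (res (QuotientGroup.mk' (Cfsg.pPrimeCore p G)) ⊤) ⊤ = ⊤ := by
    rw [im_top, map_top_of_surjective _ (QuotientGroup.mk'_surjective _)]
  have h0 := Opi_im_eq_bot le_rfl hk
  rw [hi] at h0
  have h1 : Cfsg.pCore p (G ⧸ Cfsg.pPrimeCore p G) ≠ ⊥ := fun e => hO (by
    have := im_Opi_le (f := res (QuotientGroup.mk' (Cfsg.pPrimeCore p G)) ⊤) {p} le_rfl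
    rw [hi, ← pCore_eq, ← pCore_eq, e, le_bot_iff, im_eq_bot_iff le_top] at this
    rw [pCore_eq] at this ⊢
    exact eq_bot_of_le (le_inf le_rfl ((le_inf le_top this).trans hk.le)) (Opi_inf_compl _ _ _))
  rw [stable_iff, stable_iff, gst_iff_pst le_rfl hk, hi, gst_iff_pst (f := res (MonoidHom.id _) ⊤) le_rfl
    (by rw [kr_top, MonoidHom.ker_id, inf_bot_eq, h0]), im_top, Subgroup.map_id]
  tauto

end Cfsg.Agent.S0632
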