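import Cfsg.Statements.S0634
import Cfsg.Agent.H7.FF4

set_option autoImplicit false
open Cfsg

namespace Cfsg.Agent.S0634
open H7
open scoped commutatorElement

section
open Subgroup

theorem comap_Op' {G : Type*} [Group G] [Finite G] {p : ℕ} [Fact p.Prime] (N : Subgroup G) [N.Normal] :
    (Cfsg.pPrimeCore p (G ⧸ N)).comap (QuotientGroup.mk' N) = Omod {p}ᶜ N ⊤ := by
  rw [Omod_eq_pre (f := res (QuotientGroup.mk' N) ⊤) _ le_rfl (by rw [kr_top, QuotientGroup.ker_mk']),
    im_top, map_top_of_surjective _ (QuotientGroup.mk'_surjective N), pre_top', top_inf_eq, pPrimeCore_eq]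

theorem ups_odd {G : Type*} [Group G] {p : ℕ} (k : ℕ) : (Cfsg.upperPSeries p G (2 * k + 1)).1 =
    (Cfsg.pPrimeCore p (G ⧸ (Cfsg.upperPSeries p G (2 * k)).1)).comap (QuotientGroup.mk' _) := by
  simp only [Cfsg.upperPSeries, if_pos (even_two_mul k)]

theorem ups_even {G : Type*} [Group G] {p : ℕ} (k : ℕ) : (Cfsg.upperPSeries p G (2 * k + 1 + 1)).1 =
    (Cfsg.pCore p (G ⧸ (Cfsg.upperPSeries p G (2 * k + 1)).1)).comap (QuotientGroup.mk' _) := by
  have : ¬ Even (2 * k + 1) := by simp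
  generalize 2 * k + 1 = n at *
  simp only [Cfsg.upperPSeries, if_neg this]

theorem core_eq_bot {G : Type*} [Group G] [Finite G] {p : ℕ} [Fact p.Prime] (k : ℕ) :
    Cfsg.pPrimeCore p (G ⧸ (Cfsg.upperPSeries p G (2 * k + 1)).1) = ⊥ := by
  have e : (Cfsg.upperPSeries p G (2 * k + 1)).1 = Omod {p}ᶜ (Cfsg.upperPSeries p G (2 * k)).1 ⊤ := by
    rw [← comap_Op', ups_odd]
  rw [← map_comap_eq_self_of_surjective (QuotientGroup.mk'_surjective _) (Cfsg.pPrimeCore p _), comap_Op',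
    Subgroup.map_eq_bot_iff, QuotientGroup.ker_mk', e]
  have n := le_nrm_of_normal ⊤ (Cfsg.upperPSeries p G (2 * k)).1
  refine le_Omod le_top (le_nrm_Omod _ _ _) ?_
  rw [← relIndex_mul_relIndex _ _ _ (self_le_Omod {p}ᶜ le_top n) (self_le_Omod {p}ᶜ le_top (le_nrm_Omod _ _ _))]
  exact (piN_relIndex_Omod _ n).mul (piN_relIndex_Omod _ (le_nrm_Omod _ _ _))

theorem map_eq {G : Type*} [Group G] [Finite G] {p : ℕ} [Fact p.Prime] (k : ℕ) :
    (Cfsg.upperPSeries p G (2 * k + 2)).1.map (QuotientGroup.mk' (Cfsg.upperPSeries p G (2 * k + 1)).1) =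
      Cfsg.pCore p _ := by
  rw [ups_even]
  exact map_comap_eq_self_of_surjective (QuotientGroup.mk'_surjective _) _

end

/-- In a p-soluble group each p-factor of the upper p-series contains its own centralizer in the corresponding quotient. -/
theorem result {G : Type*} [Group G] [Finite G] {p : ℕ} [Fact p.Prime] (hsol : Cfsg.IsPSolvable p G) (k : ℕ) : Subgroup.centralizer ((((Cfsg.upperPSeries p G (2 * k + 2)).1.map (QuotientGroup.mk' (Cfsg.upperPSeries p G (2 * k + 1)).1)) : Subgroup (G ⧸ (Cfsg.upperPSeries p G (2 * k + 1)).1)) : Set (G ⧸ (Cfsg.upperPSeries p G (2 * k + 1)).1)) ≤ (Cfsg.upperPSeries p G (2 * k + 2)).1.map (QuotientGroup.mk' (Cfsg.upperPSeries p G (2 * k + 1)).1) := by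
  open Subgroup in
  rw [map_eq]
  exact H1.centralizer_pCore_le_of_isPSolvable (ps_of_surj hsol _ (QuotientGroup.mk'_surjective _)) (core_eq_bot k)

end Cfsg.Agent.S0634
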