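import Cfsg.Statements.S0635
import Cfsg.Agent.H7.FF4
import Cfsg.Agent.S0634

set_option autoImplicit false
open Cfsg

namespace Cfsg.Agent.S0635
open H7
open scoped commutatorElement

/-- The p-length of a p-soluble group is at most the nilpotency class of its Sylow p-subgroups. -/
theorem result {G : Type*} [Group G] [Finite G] {p : ℕ} [Fact p.Prime] (hsol : Cfsg.IsPSolvable p G) (S : Sylow p G) : Cfsg.PLengthLE p (Group.nilpotencyClass ↥(S : Subgroup G)) G := by
  open Subgroup in
  have hS := H2.sylow_isSylowIn_top S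
  have odd : ∀ k, (Cfsg.upperPSeries p G (2 * k + 1)).1 = Omod {p}ᶜ (Cfsg.upperPSeries p G (2 * k)).1 ⊤ := fun k => by
    rw [← S0634.comap_Op', S0634.ups_odd]
  have key : ∀ k, (Subgroup.upperCentralSeries S k).map (S : Subgroup G).subtype ≤ (Cfsg.upperPSeries p G (2 * k)).1 := by
    intro k
    induction k with
    | zero => simp
    | succ k ih =>
      rintro _ ⟨z, hz, rfl⟩
      have l : (Cfsg.upperPSeries p G (2 * k)).1 ≤ (Cfsg.upperPSeries p G (2 * k + 1)).1 := by
        rw [odd]; exact self_le_Omod _ le_top (le_nrm_of_normal _ _)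
      have h1 := hS.map (QuotientGroup.mk' (Cfsg.upperPSeries p G (2 * k + 1)).1)
      rw [map_top_of_surjective _ (QuotientGroup.mk'_surjective _)] at h1
      have h2 := S0634.result hsol k (x := QuotientGroup.mk' _ (z : G)) (by
        rw [S0634.map_eq, pCore_eq]
        refine cen_anti (Op_le_of_sylow h1) (mem_cen.2 ?_)
        rintro _ ⟨s, hs, rfl⟩
        rw [eq_comm, ← commutatorElement_eq_one_iff_mul_comm, ← map_commutatorElement]
        exact (QuotientGroup.eq_one_iff _).2 (l (ih ⟨_, Subgroup.mem_upperCentralSeries_succ_iff.1 hz ⟨s, hs⟩, rfl⟩)))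
      rw [S0634.map_eq] at h2
      rw [show 2 * (k + 1) = 2 * k + 1 + 1 by ring, S0634.ups_even]
      exact h2
  haveI : Group.IsNilpotent S := S.2.isNilpotent
  have h := key (Group.nilpotencyClass S)
  rw [Subgroup.upperCentralSeries_nilpotencyClass, map_subtype_top] at h
  unfold Cfsg.PLengthLE
  rw [odd, Omod_eq_self_iff (le_nrm_of_normal _ _), piN_compl_iff']
  exact fun d => hS.3 (d.trans (relIndex_dvd_of_le_left _ h))

end Cfsg.Agent.S0635
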