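import Cfsg.Statements.S0640
import Cfsg.Agent.H1.Top

set_option autoImplicit false
open Cfsg

namespace Cfsg.Agent.S0640

open H7 H1B

/-- For odd p, a prime q ≠ p dividing the order of the automorphism group of a p-group of rank at most 2 divides p² - 1 and is less than p. -/
theorem result {R : Type*} [Group R] [Finite R] {p : ℕ} [Fact p.Prime] (hp : p ≠ 2) (hR : IsPGroup p R) (hrk : Cfsg.PRankLE p 2 R) (q : ℕ) (hq : q.Prime) (hqp : q ≠ p) (hdvd : q ∣ Nat.card (MulAut R)) : q ∣ p ^ 2 - 1 ∧ q < p := by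
  open Subgroup in
  refine dvd_of_relIndex_rk2 hp (pg_hL (pg_top hR)) (rk_hL.2 (pRankLE_top.1 hrk)) hq hqp (hR_le_nrm ⊤ ⊤) ?_
  rwa [← inf_relIndex_right, show cen (hL ⊤) ⊓ H1B.hR ⊤ = ⊥ from ?_, relIndex_bot_left, H1.card_sdR_top]
  refine le_bot_iff.1 ?_
  rintro _ ⟨h, a, -, rfl⟩
  rw [show a = 1 from MulEquiv.ext fun g => H1.inr_mem_centralizer_sdL.1 h g (mem_top g), map_one]
  exact one_mem _

end Cfsg.Agent.S0640
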