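import Cfsg.Statements.S0642
import Cfsg.Agent.H1.V1

set_option autoImplicit false
open Cfsg

namespace Cfsg.Agent.S0642

open H7 H1B Subgroup
open scoped commutatorElement

/-- Among finite 2-groups the regular ones are exactly the abelian ones. -/
theorem result {G : Type*} [Group G] [Finite G] (hG : IsPGroup 2 G) : Cfsg.IsRegularPGroup 2 G ↔ ∀ a b : G, a * b = b * a := by
  constructor
  · intro h a b
    obtain ⟨c, hc, e⟩ := h.2 b a 1
    have e1 : closure ({b, a} : Set G) = zpowers b ⊔ zpowers a := by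
      rw [zpowers_eq_closure, zpowers_eq_closure, ← Subgroup.closure_union]; rfl
    rw [e1] at hc
    set H := zpowers b ⊔ zpowers a with hH
    have hn : H ≤ nrm (Phi ⁅H, H⁆) := nrm_Phi (nrm_commutator (le_nrm_self _) (le_nrm_self _))
    have h1 : c ∈ Phi ⁅H, H⁆ := by
      refine (closure_le _).2 ?_ hc
      rintro _ ⟨x, hx, rfl⟩
      exact pow_mem_Phi (hG.to_subgroup _) hx
    have ha : a ∈ H := mem_sup_right (mem_zpowers a)
    have hb : b ∈ H := mem_sup_left (mem_zpowers b)
    have h2 : ⁅a, b⁆ ∈ Phi ⁅H, H⁆ := by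
      have := conj_mem hn (mul_mem hb (mul_mem ha ha)) h1
      convert this using 1
      have e2 : c = (b ^ 2 * a ^ 2)⁻¹ * (b * a) ^ 2 := by rw [eq_inv_mul_iff_mul_eq]; exact e.symm
      rw [e2, commutatorElement_def]
      simp [pow_two, mul_assoc]
    have h3 : ⁅H, H⁆ ≤ Phi ⁅H, H⁆ := comm_sup_zpowers_le (isComm_zpowers b) (le_sup_left.trans hn) (hn ha)
      (comm_zpowers_zpowers_le (hn ha) (hn hb) h2)
    have h4 : ⁅H, H⁆ = ⊥ := by
      by_contra h
      exact (Phi_lt h).not_ge h3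
    exact comm_of_le_cen (comm_eq_bot.1 h4) ha hb
  · exact fun h => ⟨hG, fun a b n => ⟨1, one_mem _, by rw [mul_one, Commute.mul_pow (h a b)]⟩⟩

end Cfsg.Agent.S0642
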