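import Cfsg.Statements.S0645
import Cfsg.Agent.H1.Two4

set_option autoImplicit false
open Cfsg

namespace Cfsg.Agent.S0645

open H7 H1B Subgroup
open scoped commutatorElement

/-- Classification of p-groups with a cyclic maximal subgroup, odd p: a non-abelian one of order p^n has generators a of order p^(n-1) and b of order p, b outside the cyclic subgroup generated by a, with b a b⁻¹ = a^(1 + p^(n-2)). -/
theorem result {G : Type*} [Group G] [Finite G] {p : ℕ} [Fact p.Prime] (hp : p ≠ 2) (n : ℕ) (hn : 3 ≤ n) (hG : Nat.card G = p ^ n) (C : Subgroup G) (hC : IsCyclic C) (hCi : C.index = p) (hna : ∃ x y : G, x * y ≠ y * x) : ∃ a b : G, orderOf a = p ^ (n - 1) ∧ orderOf b = p ∧ b ∉ Subgroup.zpowers a ∧ b * a * b⁻¹ = a ^ (1 + p ^ (n - 2)) := by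
  have hP : IsPGroup p (⊤ : Subgroup G) := pg_top (IsPGroup.of_card hG)
  obtain ⟨x, y, hxy⟩ := hna
  obtain ⟨a, rfl⟩ := (Subgroup.isCyclic_iff_exists_zpowers_eq_top C).1 hC
  have hi : (zpowers a).relIndex ⊤ = p := by rwa [relIndex_top_right]
  obtain ⟨b, -, hb, hbp⟩ := exists_order_p_of_cyc_index hp hP le_top hC hi fun h =>
    hxy (comm_top.1 inferInstance x y)
  obtain ⟨d1, d2, d3, d4⟩ := der_of_cyc_index hp hP trivial trivial hi hb
  have pp : p.Prime := Fact.out
  have oa : orderOf a = p ^ (n - 1) := by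
    have := (zpowers a).card_mul_index
    rw [hCi, hG, Nat.card_zpowers, show n = n - 1 + 1 by omega, pow_succ] at this
    exact Nat.eq_of_mul_eq_mul_right pp.pos this
  have c1 : ⁅b, a⁆ ≠ 1 := fun e => hxy (commutatorElement_eq_one_iff_mul_comm.1
    (by simpa [e] using d1 (commutator_mem_commutator (mem_top x) (mem_top y))))
  have oz : orderOf (a ^ p ^ (n - 2)) = p := by
    rw [orderOf_pow_of_dvd (pow_ne_zero _ pp.ne_zero) (oa ▸ pow_dvd_pow p (by omega)), oa,
      Nat.pow_div (by omega) pp.pos, show n - 1 - (n - 2) = 1 by omega, pow_one]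
  obtain ⟨k, hk⟩ := mem_powers_iff_mem_zpowers.2 (H8.mem_zpowers_of_orderOf_dvd
    (npow_mem_zpowers a (p ^ (n - 2))) d2 (by rw [oz, orderOf_eq_prime d3 c1]))
  have pw : ∀ k : ℕ, b ^ k * a * (b ^ k)⁻¹ = a * ⁅b, a⁆ ^ k := fun k => by
    induction k with
    | zero => simp
    | succ k ih =>
      rw [pow_succ', show b * b ^ k * a * (b * b ^ k)⁻¹ = b * (b ^ k * a * (b ^ k)⁻¹) * b⁻¹ by group, ih,
        ← conj_mul, mem_cen.1 (pow_mem d4 k) b trivial, mul_inv_cancel_right, pow_succ', ← mul_assoc,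
        mem_cen.1 d4 a trivial, commutatorElement_def]
      group
  have e : b ^ k * a * (b ^ k)⁻¹ = a ^ (1 + p ^ (n - 2)) := by
    rw [pw, show ⁅b, a⁆ ^ k = _ from hk, pow_add, pow_one]
  have nb : b ^ k ∉ zpowers a := fun h => by
    rw [(zp_comm h (mem_zpowers a)).eq, mul_inv_cancel_right, pow_add, pow_one, left_eq_mul] at e
    rw [e, orderOf_one] at oz; exact pp.one_lt.ne oz
  exact ⟨a, b ^ k, oa, orderOf_eq_prime (by rw [← pow_mul, mul_comm, pow_mul, hbp, one_pow])
    fun h => nb (h ▸ one_mem _), nb, e⟩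

end Cfsg.Agent.S0645
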