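import Cfsg.Statements.S0646
import Cfsg.Agent.H1.Two4

set_option autoImplicit false
open Cfsg

namespace Cfsg.Agent.S0646

open H7 H1B Subgroup

/-- Classification of non-abelian 2-groups with a cyclic maximal subgroup: dihedral, generalized quaternion, and for order at least 16 the modular group and the semidihedral group, each given by generators a (of index 2) and b with the stated relations. -/
theorem result {G : Type*} [Group G] [Finite G] (n : ℕ) (hn : 3 ≤ n) (hG : Nat.card G = 2 ^ n) (C : Subgroup G) (hC : IsCyclic C) (hCi : C.index = 2) (hna : ∃ x y : G, x * y ≠ y * x) : ∃ a b : G, orderOf a = 2 ^ (n - 1) ∧ b ∉ Subgroup.zpowers a ∧ ((b ^ 2 = 1 ∧ b * a * b⁻¹ = a⁻¹) ∨ (b ^ 2 = a ^ (2 ^ (n - 2)) ∧ b * a * b⁻¹ = a⁻¹) ∨ (4 ≤ n ∧ b ^ 2 = 1 ∧ b * a * b⁻¹ = a ^ (1 + 2 ^ (n - 2))) ∨ (4 ≤ n ∧ b ^ 2 = 1 ∧ b * a * b⁻¹ = a ^ (2 ^ (n - 2) - 1))) := by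
  obtain ⟨x, y, hxy⟩ := hna
  obtain ⟨a, rfl⟩ := (Subgroup.isCyclic_iff_exists_zpowers_eq_top C).1 hC
  obtain ⟨k, rfl⟩ := Nat.exists_eq_add_of_le' (show 1 ≤ n by omega)
  have oa : orderOf a = 2 ^ k := by
    have := (zpowers a).card_mul_index
    rw [hCi, hG, Nat.card_zpowers, pow_succ] at this
    omega
  rcases cyc_two (mem_top a) oa (by rwa [card_top]) (fun h => hxy (comm_top.1 h x y)) with
    ⟨w, m, rfl, h⟩ | ⟨b, m, rfl, h⟩
  · rcases h.hw with e | e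
    · obtain ⟨b, hb, hba⟩ := h.ex
      have i := h.inv b hb hba
      rw [e, mul_one] at i
      refine ⟨a, b, oa, hba, ?_⟩
      rcases h.sq_out hb hba with e2 | e2
      exacts [.inl ⟨by rw [pow_two, e2], i⟩, .inr (.inl ⟨by rw [pow_two, e2]; rfl, i⟩)]
    · obtain ⟨t, ht, hta, h2, -⟩ := h.exists_t e.1
      refine ⟨a, t, oa, hta, .inr (.inr (.inr ⟨by omega, by rw [pow_two, h2], ?_⟩))⟩
      show t * a * t⁻¹ = a ^ (2 ^ (m + 1) - 1)
      rw [h.inv t ht hta, e.1, inv_mul_eq_iff_eq_mul, ← pow_succ',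
        Nat.sub_add_cancel Nat.one_le_two_pow]
  · exact ⟨a, b, oa, h.out, .inr (.inr (.inl ⟨by omega, by rw [pow_two, h.sq],
      by rw [h.inv, pow_add a, pow_one]; rfl⟩))⟩

end Cfsg.Agent.S0646
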