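import Cfsg.Statements.S0656
import Cfsg.Agent.H2.FS18

set_option autoImplicit false
open Cfsg

namespace Cfsg.Agent.S0656

open Subgroup H2 Cfsg.FusionSystem


/-- For odd p, a faithful group on an elementary abelian p-group with no nontrivial normal p-subgroup in which some nontrivial p-element acts quadratically has a section isomorphic to SL(2, p). -/
theorem result {G : Type*} [Group G] [Finite G] {p : ℕ} [Fact p.Prime] (hp : p ≠ 2) (V H : Subgroup G) (hV : Cfsg.IsElementaryAbelian p V) (hHV : H ≤ Subgroup.normalizer (V : Set G)) (hf : H ⊓ Subgroup.centralizer (V : Set G) = ⊥) (hO : Cfsg.pCore p ↥H = ⊥) (x : G) (hxH : x ∈ H) (hx1 : x ≠ 1) (hxp : ∃ k : ℕ, orderOf x = p ^ k) (hq : ⁅⁅V, Subgroup.zpowers x⁆, Subgroup.zpowers x⁆ = ⊥) : ∃ (K L : Subgroup G) (hL : (L.subgroupOf K).Normal), K ≤ H ∧ Nonempty ((K ⧸ L.subgroupOf K) ≃* Matrix.SpecialLinearGroup (Fin 2) (ZMod p)) := by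
  have h1 : x ∉ H7.Omod {p} (centralizer (V : Set G)) H := fun h => hx1 (by
    have := H7.Omod_le_Op (hHV.trans (H7.nrm_cen le_rfl)) (by rw [hf]; exact IsPGroup.of_bot) h
    rwa [H7.pCore_eq_bot_iff.1 hO] at this)
  obtain ⟨K, hK, f, f1, f2, -⟩ := (natSec_of_quad hp (H7.EA.isPGroup hV) hHV hxH
    (quad_iff.1 hq) h1).exists_hom
  have hs : Function.Surjective f1.toHom := fun M => let ⟨g, hg, e⟩ := f2 M; ⟨⟨g, hg⟩, e⟩
  have e : (f1.toHom.ker.map K.subtype).subgroupOf K = f1.toHom.ker :=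
    comap_map_eq_self_of_injective K.subtype_injective _
  have hn : ((f1.toHom.ker.map K.subtype).subgroupOf K).Normal := by rw [e]; infer_instance
  refine ⟨K, f1.toHom.ker.map K.subtype, hn, hK, ⟨?_⟩⟩
  exact (QuotientGroup.quotientMulEquivOfEq e).trans
    (QuotientGroup.quotientKerEquivOfSurjective _ hs)

end Cfsg.Agent.S0656
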