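import Cfsg.Statements.S0657
import Cfsg.Agent.H2.FS18

set_option autoImplicit false
open Cfsg

namespace Cfsg.Agent.S0657

open Subgroup H2 Cfsg.FusionSystem


/-- For odd p, a group that fails to be p-stable modulo its largest normal subgroup of order prime to p, and whose upper p-series does not stop there, has a section isomorphic to SL(2, p). -/
theorem result {G : Type*} [Group G] [Finite G] {p : ℕ} [Fact p.Prime] (hp : p ≠ 2) (hO : Cfsg.pPrimeCore p G < Cfsg.pPrimePCore p G) (hns : ¬ Cfsg.IsPStable p (G ⧸ Cfsg.pPrimeCore p G)) : ∃ (K L : Subgroup G) (hL : (L.subgroupOf K).Normal), K ≤ ⊤ ∧ Nonempty ((K ⧸ L.subgroupOf K) ≃* Matrix.SpecialLinearGroup (Fin 2) (ZMod p)) := by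
  by_contra hne
  refine hns (stable_of_nst ((Fact.out : p.Prime).odd_of_ne_two hp) (fun h => hO.ne ?_)
    (nst_of_sl2free hp fun h => hne ?_))
  · rw [pPrimePCore, h, MonoidHom.comap_bot, QuotientGroup.ker_mk']
  · obtain ⟨K, R, h1, h2⟩ := inv_trans (inv_trans h (inv_subgroup _))
      (inv_of_surj _ (QuotientGroup.mk'_surjective _))
    exact ⟨K, R, h1, le_top, h2⟩

end Cfsg.Agent.S0657
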