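import Cfsg.Statements.S0658
import Cfsg.Agent.H7.PP

set_option autoImplicit false
open Cfsg

namespace Cfsg.Agent.S0658
open H7
open scoped commutatorElement

/-- In a group of characteristic p type all of whose p-locals are p-stable (p odd), the normalizer of Z(J(P)) contains the normalizer of every nontrivial subgroup of the Sylow p-subgroup P. -/
theorem result {G : Type*} [Group G] [Finite G] {p : ℕ} [Fact p.Prime] (hp : p ≠ 2) (hloc : ∀ Q : Subgroup G, IsPGroup p Q → Q ≠ ⊥ → Cfsg.pPrimeCore p ↥(Subgroup.normalizer (Q : Set G)) = ⊥ ∧ Cfsg.IsPConstrained p ↥(Subgroup.normalizer (Q : Set G)) ∧ Cfsg.IsPStable p ↥(Subgroup.normalizer (Q : Set G))) (P : Sylow p G) (Q : Subgroup G) (hQP : Q ≤ (P : Subgroup G)) (hQ1 : Q ≠ ⊥) : Subgroup.normalizer (Q : Set G) ≤ Subgroup.normalizer (Cfsg.centerThompsonAOf ((P : Subgroup G)) : Set G) := by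
  open Subgroup in
  rw [H2.centerThompsonA_eq_zero]
  have zj : ∀ Q R : Subgroup G, IsPGroup p Q → Q ≠ ⊥ → H2.IsSylowIn p R (nrm Q) → nrm Q ≤ nrm (centerThompsonOf 0 R) := fun Q R a b c => by
    obtain ⟨k1, k2, k3⟩ := hloc Q a b
    have o : Op' p (nrm Q) = ⊥ := by rw [← pPrimeCore_map, k1, Subgroup.map_bot]
    have := (H2.gst_of_stable k3).pst_im (f := res (nrm Q).subtype ⊤) le_rfl (by
      rw [kr_top, ker_subtype, inf_bot_eq, ← pPrimeCore_eq, k1])
    rw [im_top, map_subtype_top] at this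
    exact H2.zj_normal hp (Or.inl rfl) c this (Fst_eq_Op_iff.1 (Fst_eq_of_PLay (isPConstrained_iff.1 k2) o))
  have hP := H2.sylow_isSylowIn_top P
  have PM : (P : Subgroup G) ≤ nrm (centerThompsonOf 0 (P : Subgroup G)) := H2.nrm_ZJ (le_nrm_self _)
  generalize hM : nrm (centerThompsonOf 0 (P : Subgroup G)) = M at PM
  have key : ∀ n, ∀ R : Subgroup G, R.index = n → R ≤ M → IsPGroup p R → ∀ Q : Subgroup G, Q ≠ ⊥ → Q ≤ R → R ≤ nrm Q → nrm Q ≤ M := by
    intro n
    induction n using Nat.strong_induction_on with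
    | _ n ih =>
    rintro R rfl l pR Q q0 q1 q2
    have up : ∀ R', R < R' → R' ≤ M → IsPGroup p R' → ∀ Q : Subgroup G, Q ≠ ⊥ → Q ≤ R' → R' ≤ nrm Q → nrm Q ≤ M :=
      fun R' a => ih _ (index_strictAnti a) R' rfl
    obtain ⟨R', s, l'⟩ := H1B.exists_syl_ge pR (le_inf q2 l)
    rcases l'.lt_or_eq with c | rfl
    · exact up R' c (s.le.trans inf_le_right) s.isPGroup Q q0 (q1.trans l') (s.le.trans inf_le_left)
    have r0 : R ≠ ⊥ := fun e => q0 (le_bot_iff.1 (q1.trans e.le))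
    obtain ⟨T, t, lt⟩ := H1B.exists_syl_ge pR (le_inf l (le_nrm_self R))
    rcases lt.lt_or_eq with c | rfl
    · have k : ∀ C : Subgroup G, C ≠ ⊥ → C ≤ R → nrm R ≤ nrm C → nrm C ≤ M := fun C a b d =>
        up T c (t.le.trans inf_le_left) t.isPGroup C a (b.trans lt) ((t.le.trans inf_le_right).trans d)
      have s' : H2.IsSylowIn p R (nrm Q) := syl_of_nrm_le s (k R r0 le_rfl le_rfl)
      exact (zj Q R (pR.to_le q1) q0 s').trans (k _ (H2.ZJ_ne_bot (Or.inl rfl) pR r0) (H2.ZJ_le R) (H2.nrm_ZJ le_rfl))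
    have sM := syl_of_nrm l t
    obtain ⟨g, hg, e⟩ := (hP.mono PM le_top).exists_cj_eq sM
    have := zj Q R (pR.to_le q1) q0 ((e ▸ hP.cj_of_mem_normalizer (by simp) : H2.IsSylowIn p R ⊤).mono q2 le_top)
    rwa [← e, ← H2.cj_ZJ, cj_of_mem_nrm (hM ▸ hg), hM] at this
  exact key _ (P ⊓ nrm Q) rfl (inf_le_left.trans PM) P.2.to_inf_left Q hQ1 (le_inf hQP (le_nrm_self Q)) inf_le_right

end Cfsg.Agent.S0658
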