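import Cfsg.Statements.S0661
import Cfsg.Agent.H7.FF2

set_option autoImplicit false
open Cfsg

namespace Cfsg.Agent.S0661
open H7
open scoped commutatorElement

/-- If, modulo the largest normal subgroup of order prime to p, the largest normal p-subgroup contains its centralizer, then for every p-subgroup P the p'-core of N_G(P) is just O_p'(G) ∩ N_G(P). -/
theorem result {G : Type*} [Group G] [Finite G] {p : ℕ} [Fact p.Prime] (hc : Subgroup.centralizer (Cfsg.pCore p (G ⧸ Cfsg.pPrimeCore p G) : Set (G ⧸ Cfsg.pPrimeCore p G)) ≤ Cfsg.pCore p (G ⧸ Cfsg.pPrimeCore p G)) (P : Subgroup G) (hP : IsPGroup p P) : (Cfsg.pPrimeCore p ↥(Subgroup.normalizer (P : Set G))).map (Subgroup.normalizer (P : Set G)).subtype = Cfsg.pPrimeCore p G ⊓ Subgroup.normalizer (P : Set G) := by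
  open Subgroup in
  have hk : ⊤ ⊓ kr (res (QuotientGroup.mk' (Cfsg.pPrimeCore p G)) ⊤) = Op' p ⊤ := by
    rw [kr_top, QuotientGroup.ker_mk', top_inf_eq, pPrimeCore_eq]
  have hi : im (res (QuotientGroup.mk' (Cfsg.pPrimeCore p G)) ⊤) ⊤ = ⊤ := by
    rw [im_top, map_top_of_surjective _ (QuotientGroup.mk'_surjective _)]
  have h : PLay p (⊤ : Subgroup G) = ⊥ := by
    rw [PLay_eq_bot_iff_im le_rfl hk, hi]
    have c := H2.chP_top.2 hc
    have := (le_inf (Lay_le _) (Lay_le_cen_Op p _)).trans c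
    exact eq_bot_of_solv_of_perfect (solv_of_isPGroup ((isPGroup_Op p _).to_le this)) (Lay_perfect _)
  have h1 := (pcon_nrm h hP le_top).2
  rw [top_inf_eq] at h1
  rw [pPrimeCore_map, pPrimeCore_eq]
  exact le_antisymm (le_inf h1 (Opi_le _ _)) (inf_le_Opi _ le_top)

end Cfsg.Agent.S0661
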