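import Cfsg.Statements.S0663
import Cfsg.Agent.H7.FF4
import Cfsg.Agent.H2.WC

set_option autoImplicit false
open Cfsg

namespace Cfsg.Agent.S0663
open H7
open scoped commutatorElement

section
open Subgroup

theorem iter_bot {L : Type*} [Group L] [Finite L] {p : ℕ} [Fact p.Prime] {U P : Subgroup L} (hU : IsPGroup p U)
    (hP : IsPGroup p P) (hn : P ≤ nrm U) {m : ℕ} (i : ℕ) (h : ord U ≤ p ^ (m + i)) :
    ord (Cfsg.iterCommutator U P i) ≤ p ^ m := by
  induction i generalizing m with
  | zero => exact h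
  | succ i ih =>
    exact card_comm_le hP (hU.to_le (H2.iterComm_le hn le_rfl i))
      (H2.nrm_iterComm hn (le_nrm_self P) i) (ih (by rwa [add_assoc, add_comm 1]))

theorem card_iter {L : Type*} [Group L] [Finite L] {p : ℕ} [hp : Fact p.Prime] {U P : Subgroup L}
    (hU : IsPGroup p U) (hP : IsPGroup p P) (hn : P ≤ nrm U) {n : ℕ} (h : ord U ≤ p ^ n)
    (h1 : Cfsg.iterCommutator U P (n - 1) ≠ ⊥ ∨ n = 0) (i : ℕ) (hi : i ≤ n) :
    ord (Cfsg.iterCommutator U P i) = p ^ (n - i) := by
  refine le_antisymm (iter_bot hU hP hn i (by rwa [Nat.sub_add_cancel hi])) ?_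
  rcases hi.lt_or_eq with hi | rfl
  · have pg := hU.to_le (H2.iterComm_le hn le_rfl i)
    by_contra hlt
    obtain ⟨m, rfl⟩ := Nat.exists_eq_add_of_lt hi
    rw [show i + m + 1 - i = m + 1 by omega] at hlt
    have := iter_bot pg hP (H2.nrm_iterComm hn (le_nrm_self P) i) (m := 0) m
      (by simpa using card_le_of_not_le pg hlt)
    rw [← H2.iterComm_add, pow_zero, card_le_one_iff_eq_bot] at this
    exact h1.elim (fun e => e this) (by omega)
  · rw [Nat.sub_self]; exact card_pos' _

end

/-- A p-group acts uniserially on a p-group N of order p^n exactly when the iterated commutator chain from N has length n; in that case the chain terms are all the invariant subgroups of N and they are normal in N. -/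
theorem result {L : Type*} [Group L] [Finite L] {p : ℕ} [Fact p.Prime] (N G : Subgroup L) (hN : IsPGroup p N) (hG : IsPGroup p G) (hGN : G ≤ Subgroup.normalizer (N : Set L)) (n : ℕ) (hn : Nat.card N = p ^ n) : ((∀ H : Subgroup L, H ≤ N → G ≤ Subgroup.normalizer (H : Set L) → H ≠ ⊥ → (⁅H, G⁆).relIndex H = p) ↔ Cfsg.iterCommutator N G (n - 1) ≠ ⊥ ∨ n = 0) ∧ ((∀ H : Subgroup L, H ≤ N → G ≤ Subgroup.normalizer (H : Set L) → H ≠ ⊥ → (⁅H, G⁆).relIndex H = p) → ∀ H : Subgroup L, H ≤ N → G ≤ Subgroup.normalizer (H : Set L) → (∃ i ≤ n, H = Cfsg.iterCommutator N G i) ∧ N ≤ Subgroup.normalizer (H : Set L)) := by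
  open Subgroup in
  have hp : p.Prime := Fact.out
  have cls : (∀ i ≤ n, ord (Cfsg.iterCommutator N G i) = p ^ (n - i)) → ∀ H : Subgroup L, H ≤ N → G ≤ nrm H →
      (∃ i ≤ n, H = Cfsg.iterCommutator N G i) ∧ N ≤ nrm H := by
    intro C H h1 h2
    have nP : G ⊔ N ≤ nrm N := sup_le hGN (le_nrm_self N)
    have e : ∀ i ≤ n, Cfsg.iterCommutator N G i = Cfsg.iterCommutator N (G ⊔ N) i := fun i hi =>
      eq_of_le_of_card_le (H2.iterComm_mono le_rfl le_sup_left i) (C i hi ▸ iter_bot hN (isPGroup_sup hGN hG hN)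
        nP i (by rw [Nat.sub_add_cancel hi, hn]))
    have nn : ∀ i ≤ n, G ⊔ N ≤ nrm (Cfsg.iterCommutator N G i) := fun i hi =>
      e i hi ▸ H2.nrm_iterComm nP (le_nrm_self _) i
    suffices ∃ i ≤ n, H = Cfsg.iterCommutator N G i from
      ⟨this, let ⟨i, hi, e⟩ := this; e ▸ le_sup_right.trans (nn i hi)⟩
    classical
    have hb : Cfsg.iterCommutator N G n = ⊥ := by
      have := C n le_rfl
      rwa [Nat.sub_self, pow_zero, card_eq_one] at this
    set i := Nat.findGreatest (fun i => H ≤ Cfsg.iterCommutator N G i) n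
    have i1 : H ≤ Cfsg.iterCommutator N G i :=
      Nat.findGreatest_spec (P := fun i => H ≤ Cfsg.iterCommutator N G i) (Nat.zero_le n) h1
    have i2 : i ≤ n := Nat.findGreatest_le n
    refine ⟨i, i2, le_antisymm i1 ?_⟩
    rcases i2.lt_or_eq with i3 | i3
    swap
    · rw [i3, hb]; exact bot_le
    have i4 : ¬ H ≤ Cfsg.iterCommutator N G (i + 1) :=
      Nat.findGreatest_is_greatest (P := fun i => H ≤ Cfsg.iterCommutator N G i) (Nat.lt_succ_self i) i3
    have lN : ∀ j, Cfsg.iterCommutator N G j ≤ N := H2.iterComm_le hGN le_rfl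
    have l : H ⊔ Cfsg.iterCommutator N G (i + 1) ≤ Cfsg.iterCommutator N G i :=
      sup_le i1 (comm_le_left (le_sup_left.trans (nn i i2)))
    have s0 := eq_of_le_of_card_le l (by
      have := mul_card_le_of_lt (hN.to_le (sup_le h1 (lN _)))
        (lt_of_le_not_ge (le_sup_right (a := H)) fun l => i4 (le_sup_left.trans l))
      rwa [C _ i3, ← pow_succ', show n - (i + 1) + 1 = n - i by omega, ← C _ i2] at this)
    have key : ∀ j, i + 1 ≤ j → j ≤ n → Cfsg.iterCommutator N G i ≤ H ⊔ Cfsg.iterCommutator N G j := by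
      intro j hj
      induction j, hj using Nat.le_induction with
      | base => exact fun _ => s0.ge
      | succ j hj ih =>
        intro hj'
        refine s0.ge.trans (sup_le le_sup_left ((commutator_mono (ih (by omega)) le_rfl).trans
          (comm_sup_le (le_sup_left.trans (le_nrm_self _)) (le_nrm_of_comm_le ?_)
            ((comm_le_left h2).trans le_sup_left) le_sup_right)))
        refine le_trans ?_ (le_sup_right.trans' (e _ hj').ge)
        rw [commutator_comm, H2.iterComm_succ N (G ⊔ N), ← e j (by omega)]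
        exact commutator_mono le_rfl ((sup_le h1 (lN _)).trans le_sup_right)
    simpa [hb] using key n i3 le_rfl
  have uni : (∀ H : Subgroup L, H ≤ N → G ≤ nrm H → H ≠ ⊥ → (⁅H, G⁆).relIndex H = p) →
      ∀ i ≤ n, ord (Cfsg.iterCommutator N G i) = p ^ (n - i) := by
    intro h i
    induction i with
    | zero => exact fun _ => hn
    | succ i ih =>
      intro hi
      have n1 := H2.nrm_iterComm hGN (le_nrm_self G) i
      have e := ih (by omega)
      have := card_of_hyper (comm_le_left n1) (h _ (H2.iterComm_le hGN le_rfl i) n1 fun b => by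
        rw [b, card_bot] at e
        exact (Nat.one_lt_pow (by omega) hp.one_lt).ne e)
      rw [e, show n - i = n - (i + 1) + 1 by omega, pow_succ'] at this
      exact (Nat.eq_of_mul_eq_mul_left hp.pos this).symm
  refine ⟨⟨fun h => (Nat.eq_zero_or_pos n).symm.imp_left fun h0 e => ?_, fun h H h1 h2 h3 => ?_⟩,
    fun h => cls (uni h)⟩
  · have := uni h (n - 1) (by omega)
    rw [e, card_bot] at this
    exact (Nat.one_lt_pow (by omega) hp.one_lt).ne this
  · have C := card_iter hN hG hGN hn.le h
    obtain ⟨i, hi, rfl⟩ := (cls C H h1 h2).1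
    have hi' : i < n := lt_of_le_of_ne hi fun e => h3 (by
      have := C i hi
      rwa [e, Nat.sub_self, pow_zero, card_eq_one, ← e] at this)
    have := relIndex_mul_card' (comm_le_left h2)
    rw [← H2.iterComm_succ, C _ hi', C _ hi, show n - i = n - (i + 1) + 1 by omega, pow_succ'] at this
    exact Nat.eq_of_mul_eq_mul_right (pow_pos hp.pos _) this

end Cfsg.Agent.S0663
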