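import Cfsg.Statements.S0662
import Cfsg.Agent.H7.FF4
import Cfsg.Agent.S0663

set_option autoImplicit false
open Cfsg

namespace Cfsg.Agent.S0662
open H7
open scoped commutatorElement

section
open Subgroup

theorem lcs_eq {Ω : Type*} [Group Ω] (S : Subgroup Ω) (n : ℕ) :
    S.lowerCentralSeries n = Cfsg.iterCommutator S S n := by
  induction n with
  | zero => rfl
  | succ n ih => rw [Subgroup.lowerCentralSeries_succ, ih, H2.iterComm_succ]

theorem card_lines {Γ : Type*} [Group Γ] [Finite Γ] {p : ℕ} [hp : Fact p.Prime] (h : ∀ x : Γ, x ^ p = 1) :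
    Nat.card {L : Subgroup Γ // ord L = p} * (p - 1) = Nat.card Γ - 1 := by
  classical
  let f : {x : Γ // x ≠ 1} → {L : Subgroup Γ // ord L = p} := fun x =>
    ⟨zpowers x.1, by rw [card_zpowers_eq, orderOf_eq_prime (h _) x.2]⟩
  have key : ∀ (Δ : Type _) [Group Δ] [Finite Δ], Nat.card {x : Δ // x ≠ 1} = Nat.card Δ - 1 := fun Δ _ _ => by
    haveI := Fintype.ofFinite Δ
    rw [Nat.card_eq_fintype_card, Nat.card_eq_fintype_card, Fintype.card_subtype_compl, Fintype.card_subtype_eq]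
  haveI := Fintype.ofFinite {L : Subgroup Γ // ord L = p}
  rw [← key, ← Nat.card_congr (Equiv.sigmaFiberEquiv f), Nat.card_sigma, Finset.sum_eq_card_nsmul
    (b := p - 1) fun L _ => ?_, Finset.card_univ, Nat.card_eq_fintype_card, smul_eq_mul]
  refine Eq.trans ?_ ((key L.1).trans (by rw [L.2]))
  refine Nat.card_congr ⟨fun x => ⟨⟨x.1.1, (congrArg Subtype.val x.2).le (mem_zpowers _)⟩,
    fun e => x.1.2 (congrArg Subtype.val e)⟩, fun x => ⟨⟨x.1.1, fun e => x.2 (Subtype.ext e)⟩,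
    Subtype.ext (eq_zpowers_of_card L.2 x.1.2 fun e => x.2 (Subtype.ext e)).symm⟩, fun _ => rfl, fun _ => rfl⟩

end

/-- In a p-group of maximal class of order at least p³ the normal subgroups of index at least p² are exactly the terms of the lower central series, and there are exactly p + 1 normal subgroups of index p. -/
theorem result {G : Type*} [Group G] [Finite G] {p : ℕ} [Fact p.Prime] (n : ℕ) (hG : Nat.card G = p ^ n) (hcl : Group.nilpotencyClass G = n - 1) (hn : 3 ≤ n) : (∀ (N : Subgroup G) [N.Normal] (r : ℕ), 2 ≤ r → N.index = p ^ r → N = (⊤ : Subgroup G).lowerCentralSeries (r - 1)) ∧ Nat.card {N : Subgroup G // N.Normal ∧ N.index = p} = p + 1 := by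
  open Subgroup in
  have hp : p.Prime := Fact.out
  have hP : IsPGroup p (⊤ : Subgroup G) := pgroup_of_card (by rwa [card_top])
  haveI : Group.IsNilpotent G := (IsPGroup.of_card hG).isNilpotent
  obtain ⟨m, rfl⟩ : ∃ m, n = m + 2 := ⟨n - 2, by omega⟩
  have D := card_der_le hP (n := m) (by rw [card_top, hG])
  have h1 : (⊤ : Subgroup G).lowerCentralSeries m ≠ ⊥ := fun e => by
    have := Subgroup.lowerCentralSeries_eq_bot_iff_nilpotencyClass_le.1 e
    omega
  have C := S0663.card_iter (hP.to_le le_top) hP (le_nrm_of_normal ⊤ ⁅⊤, ⊤⁆) D (Or.inl (by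
    rwa [← H2.iterComm_succ', Nat.sub_add_cancel (by omega), ← lcs_eq]))
  have A : ∀ (N : Subgroup G) [N.Normal] (r : ℕ), 2 ≤ r → N.index = p ^ r →
      N = (⊤ : Subgroup G).lowerCentralSeries (r - 1) := by
    intro N _ r hr hN
    obtain ⟨k, rfl⟩ : ∃ k, r = k + 2 := ⟨r - 2, by omega⟩
    have hk : k ≤ m := by
      have := N.index_dvd_card
      rw [hN, hG, Nat.pow_dvd_pow_iff_le_right hp.one_lt] at this; omega
    have q1 : IsPGroup p (⊤ : Subgroup (G ⧸ N)) := pgroup_of_card (by rw [card_top]; exact hN)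
    have q2 := S0663.iter_bot (q1.to_le le_top) q1 (le_nrm_of_normal ⊤ ⁅⊤, ⊤⁆) (m := 0) k
      (by simpa using card_der_le q1 (n := k) (by rw [card_top]; exact hN.le))
    rw [pow_zero, card_le_one_iff_eq_bot, ← map_top_of_surjective _ (QuotientGroup.mk'_surjective N),
      ← map_commutator, ← H2.map_iterComm, Subgroup.map_eq_bot_iff, QuotientGroup.ker_mk'] at q2
    rw [lcs_eq, show k + 2 - 1 = k + 1 from rfl, H2.iterComm_succ']
    refine (eq_of_le_of_card_le q2 (le_of_eq ?_)).symm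
    have := N.card_mul_index
    rw [hN, hG, show m + 2 = m - k + (k + 2) by omega, pow_add p (m - k)] at this
    rw [C k hk]
    exact Nat.eq_of_mul_eq_mul_right (pow_pos hp.pos _) this
  refine ⟨A, ?_⟩
  have c0 : ord ⁅(⊤ : Subgroup G), (⊤ : Subgroup G)⁆ = p ^ m := C 0 (Nat.zero_le m)
  have i0 : Nat.card (G ⧸ ⁅(⊤ : Subgroup G), (⊤ : Subgroup G)⁆) = p ^ 2 := by
    have := ⁅(⊤ : Subgroup G), (⊤ : Subgroup G)⁆.card_mul_index
    rw [c0, hG, pow_add] at this
    exact Nat.eq_of_mul_eq_mul_left (pow_pos hp.pos _) this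
  have ex : ∀ x : G ⧸ ⁅(⊤ : Subgroup G), (⊤ : Subgroup G)⁆, x ^ p = 1 := fun x => by
    by_contra hx
    have o : orderOf x = p ^ 2 := orderOf_eq_prime_pow (n := 1) (by simpa) (by rw [← i0]; exact pow_card_eq_one')
    obtain ⟨g, rfl⟩ := QuotientGroup.mk_surjective x
    have z : zpowers (g : G ⧸ ⁅(⊤ : Subgroup G), (⊤ : Subgroup G)⁆) = ⊤ := eq_top_of_card_eq _ (by rw [card_zpowers_eq, o, i0])
    have t : ⊤ ≤ zpowers g ⊔ Phi ⊤ := fun y _ => by
      obtain ⟨k, hk⟩ := mem_zpowers_iff.1 (z.ge (mem_top (y : G ⧸ ⁅(⊤ : Subgroup G), (⊤ : Subgroup G)⁆)))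
      rw [show y = g ^ k * ((g ^ k)⁻¹ * y) by group]
      exact mul_mem_sup (zpow_mem (mem_zpowers g) k) (comm_le_Phi (nilp_of_isPGroup hP) (QuotientGroup.eq.1 hk))
    rw [der_eq_bot (eq_of_sup_Phi le_top t ▸ isComm_zpowers g), card_bot] at c0
    exact (Nat.one_lt_pow (by omega) hp.one_lt).ne c0
  have := card_lines ex
  rw [i0, show p ^ 2 - 1 = (p + 1) * (p - 1) by rw [← Nat.sq_sub_sq, one_pow]] at this
  rw [← Nat.eq_of_mul_eq_mul_right (by have := hp.one_lt; omega) this]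
  have le : ∀ N : Subgroup G, N.Normal → N.index = p → ⁅(⊤ : Subgroup G), (⊤ : Subgroup G)⁆ ≤ N := fun N _ hN =>
    der_le_of_relIndex_le hP (le_nrm_of_normal _ N) (by
      rw [relIndex_top_right, hN]; exact Nat.le_self_pow two_ne_zero p)
  have sj := QuotientGroup.mk'_surjective ⁅(⊤ : Subgroup G), (⊤ : Subgroup G)⁆
  have ic : ∀ L : Subgroup (G ⧸ ⁅(⊤ : Subgroup G), (⊤ : Subgroup G)⁆), L.index = p ↔ ord L = p := fun L => by
    have := L.card_mul_index
    rw [i0, sq] at this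
    exact ⟨fun e => Nat.eq_of_mul_eq_mul_right hp.pos (e ▸ this), fun e => Nat.eq_of_mul_eq_mul_left hp.pos (e ▸ this)⟩
  refine Nat.card_congr ⟨fun N => ⟨N.1.map (QuotientGroup.mk' _), (ic _).1 ?_⟩, fun L =>
    ⟨L.1.comap (QuotientGroup.mk' _), ?_, ?_⟩, fun N => Subtype.ext ?_, fun L => Subtype.ext ?_⟩
  · rw [index_map_eq _ sj (by rw [QuotientGroup.ker_mk']; exact le _ N.2.1 N.2.2), N.2.2]
  · refine normal_iff_top_le_nrm.2 (le_nrm_of_comm_le' le_top fun x hx => ?_)
    rw [mem_comap, QuotientGroup.mk'_apply, (QuotientGroup.eq_one_iff x).2 hx]; exact one_mem _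
  · rw [index_comap_of_surjective _ sj, (ic _).2 L.2]
  · exact comap_map_eq_self (by rw [QuotientGroup.ker_mk']; exact le _ N.2.1 N.2.2)
  · exact map_comap_eq_self_of_surjective sj _

end Cfsg.Agent.S0662
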