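import Cfsg.Statements.S0666
import Cfsg.Agent.H1.BG3a
import Cfsg.Agent.H1.FrobK

set_option autoImplicit false
open Cfsg

namespace Cfsg.Agent.S0666

open H7 H1B

/-- A Frobenius group acting on a nontrivial abelian group of order prime to that of its kernel, with the kernel acting without nontrivial fixed points, has a complement with a nontrivial fixed point. -/
theorem result {G : Type*} [Group G] [Finite G] (V F : Subgroup G) (hVab : IsMulCommutative V) (hV1 : V ≠ ⊥) (hFV : F ≤ Subgroup.normalizer (V : Set G)) (H : Subgroup ↥F) (hH : Cfsg.IsFrobeniusComplement H) (hcop : (Nat.card V).Coprime (Nat.card (Cfsg.frobeniusKernel H))) (hCK : V ⊓ Subgroup.centralizer (Subtype.val '' Cfsg.frobeniusKernel H : Set G) = ⊥) : V ⊓ Subgroup.centralizer ((H.map F.subtype : Subgroup G) : Set G) ≠ ⊥ := by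
  open Subgroup in
  obtain ⟨N, h1, h2, h3⟩ := H1.FrobC.exists_kernel hH
  have f : Reg H N := H1.FrobC.fpf hH (disjoint_iff.1 h3.symm.disjoint)
  have f' := f.im (le_nrm_of_normal _ _) le_top le_top (res F.subtype ⊤)
  rw [im_top, im_top] at f'
  rw [← h1] at hcop hCK
  intro h
  have := H1.frobenius_centralizes_of_centralizer_eq_bot ((map_subtype_le N).trans hFV)
    ((map_subtype_le H).trans hFV) (map_le_nrm_map _ (le_nrm_of_normal _ _)) f'
    (by rw [card_map_subtype]; exact hcop.symm) h
  exact hV1 (by rw [← hCK]; exact (inf_eq_left.2 (le_cen_symm this)).symm)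

end Cfsg.Agent.S0666
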