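import Cfsg.Statements.S0667
import Cfsg.Agent.H2.FS18

set_option autoImplicit false
open Cfsg

namespace Cfsg.Agent.S0667

open Subgroup H2 Cfsg.FusionSystem


/-- Glauberman's Theorem in the p-constrained, p-stable vocabulary: for odd p such a group is the product of its largest normal subgroup of order prime to p with the normalizer of Z(J(P)), and Z(J(P)) is normal when that p'-subgroup is trivial. -/
theorem result {G : Type*} [Group G] [Finite G] {p : ℕ} [Fact p.Prime] (hp : p ≠ 2) (hc : Cfsg.IsPConstrained p G) (hs : Cfsg.IsPStable p G) (P : Sylow p G) : Cfsg.pPrimeCore p G ⊔ Subgroup.normalizer (Cfsg.centerThompsonAOf ((P : Subgroup G)) : Set G) = ⊤ ∧ (Cfsg.pPrimeCore p G = ⊥ → (Cfsg.centerThompsonAOf ((P : Subgroup G))).Normal) := by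
  have hS := sylow_isSylowIn_top P
  have h0 : (⊤ : Subgroup G) ≤ _ := H7.le_nrm_Opi {p}ᶜ ⊤
  have h1 := (charF_ZJ (p := p) (Or.inl rfl)).pf.sup_nrm_of_im h0 (coprime_kr_qm p ⊤) hS.isPGroup le_top
    (zj_normal hp (Or.inl rfl) (H7.syl_im hS h0 _) ((gst_of_stable hs).pst_im h0
      (by rw [H7.kr_qm, top_inf_eq])) (pcon_iff_chP_top.1 hc))
  rw [H7.kr_qm, top_inf_eq, top_inf_eq, ← H7.pPrimeCore_eq, ← centerThompsonA_eq_zero] at h1
  refine ⟨top_le_iff.1 h1, fun h => H7.normal_iff_top_le_nrm.2 ?_⟩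
  rwa [h, bot_sup_eq] at h1

end Cfsg.Agent.S0667
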