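import Cfsg.Statements.S0668
import Mathlib

set_option autoImplicit false
open Cfsg

namespace Cfsg.Agent.S0668

open MulAction in
/-- orbit functions to equivariant maps -/
noncomputable def orbMap (G : Type*) [Group G] (K : Type*) [Field K] (Ω₁ Ω₂ : Type*) [Fintype Ω₁]
    [MulAction G Ω₁] [MulAction G Ω₂] :
    (orbitRel.Quotient G (Ω₁ × Ω₂) → K) →ₗ[K] ((Ω₁ → K) →ₗ[K] (Ω₂ → K)) where
  toFun φ :=
    { toFun := fun f y => ∑ x, φ (Quotient.mk'' (x, y)) * f x
      map_add' := fun f g => by ext y; simp [mul_add, Finset.sum_add_distrib]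
      map_smul' := fun c f => by ext y; simp [Finset.mul_sum, mul_left_comm] }
  map_add' φ ψ := by ext f y; simp [add_mul, Finset.sum_add_distrib]
  map_smul' c φ := by ext f y; simp [Finset.mul_sum, mul_assoc]

/-- The equivariant linear maps between the permutation modules of two finite `G`-sets form a space whose dimension is the number of `G`-orbits on the product of the two sets. -/
theorem result {G : Type*} [Group G] {K : Type*} [Field K] {Ω₁ Ω₂ : Type*} [Fintype Ω₁] [Fintype Ω₂] [MulAction G Ω₁] [MulAction G Ω₂] : Module.finrank K ((Cfsg.permRep K G Ω₁).linHom (Cfsg.permRep K G Ω₂)).invariants = Nat.card (MulAction.orbitRel.Quotient G (Ω₁ × Ω₂)) := by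
  classical
  have hinj : Function.Injective (orbMap G K Ω₁ Ω₂) := by
    rw [injective_iff_map_eq_zero]
    intro φ h
    ext q
    induction q using Quotient.inductionOn' with | _ p => ?_
    have := congrFun (LinearMap.congr_fun h (Pi.single p.1 1)) p.2
    simpa [orbMap, Pi.single_apply] using this
  have hrange : LinearMap.range (orbMap G K Ω₁ Ω₂) =
      ((Cfsg.permRep K G Ω₁).linHom (Cfsg.permRep K G Ω₂)).invariants := by
    ext T
    rw [Representation.mem_invariants]
    constructor
    · rintro ⟨φ, rfl⟩ g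
      refine LinearMap.ext fun f => funext fun y => ?_
      change ∑ x, φ (Quotient.mk'' (x, g⁻¹ • y)) * f (g⁻¹⁻¹ • x) = ∑ x, φ (Quotient.mk'' (x, y)) * f x
      refine Fintype.sum_equiv (MulAction.toPerm g) _ _ fun x => ?_
      have : (Quotient.mk'' (x, g⁻¹ • y) : MulAction.orbitRel.Quotient G (Ω₁ × Ω₂)) =
          Quotient.mk'' (g • x, y) := Quotient.sound' ⟨g⁻¹, by simp⟩
      simp [this]
    · intro hT
      refine ⟨Quotient.lift (fun p : Ω₁ × Ω₂ => T (Pi.single p.1 1) p.2) ?_, ?_⟩
      · rintro p q ⟨g, rfl⟩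
        have := congrFun (LinearMap.congr_fun (hT g) (Pi.single (g • q.1) 1)) (g • q.2)
        rw [Prod.smul_fst, Prod.smul_snd, ← this]
        change T (fun x => (Pi.single (g • q.1) 1 : Ω₁ → K) (g⁻¹⁻¹ • x)) (g⁻¹ • g • q.2) = _
        rw [inv_smul_smul]
        have : (fun x => (Pi.single (g • q.1) 1 : Ω₁ → K) (g⁻¹⁻¹ • x)) = Pi.single q.1 1 := by
          ext x
          simp [Pi.single_apply]
        rw [this]
      · refine LinearMap.ext fun f => funext fun y => ?_
        change ∑ x, T (Pi.single x 1) y * f x = T f y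
        conv_rhs => rw [pi_eq_sum_univ' f]
        simp [map_sum, mul_comm]
  rw [← hrange, LinearMap.finrank_range_of_inj hinj]
  have : Finite (MulAction.orbitRel.Quotient G (Ω₁ × Ω₂)) := inferInstance
  have := Fintype.ofFinite (MulAction.orbitRel.Quotient G (Ω₁ × Ω₂))
  simp

end Cfsg.Agent.S0668
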