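import Cfsg.Statements.S0672
import Mathlib
import Cfsg.Agent.H8.PD2

set_option autoImplicit false
open Cfsg

namespace Cfsg.Agent.S0672

/-- Let a finite group act faithfully and doubly transitively with point stabilisers of even order, and let `K` have characteristic `p` dividing the degree. If the heart of the permutation module admits no non-zero equivariant map to the permutation module on unordered pairs (phrased: every intertwining map from the sum-zero functions vanishing on the constants is zero), the action is triply transitive. -/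
theorem result {G : Type*} [Group G] [Finite G] {K : Type*} [Field K] {p : ℕ} [Fact p.Prime] [CharP K p] {Ω : Type*} [Fintype Ω] [DecidableEq Ω] [MulAction G Ω] [FaithfulSMul G Ω] (h2 : MulAction.IsMultiplyPretransitive G Ω 2) (hp : p ∣ Fintype.card Ω) (heven : ∀ a : Ω, Even (Nat.card (MulAction.stabilizer G a))) (h : ∀ f : Representation.IntertwiningMap (Cfsg.permSumZero K G Ω).toRepresentation (Cfsg.permRep K G (Set.powersetCard Ω 2)), (∀ v : (Cfsg.permSumZero K G Ω).toSubmodule, (v : Ω → K) ∈ (Cfsg.permConstants K G Ω).toSubmodule → f v = 0) → f = 0) : MulAction.IsMultiplyPretransitive G Ω 3 := by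
  classical
  have key : ∀ F : Set.powersetCard Ω 2 → Ω → K, (∀ (g : G) s x, F (g • s) (g • x) = F s x) →
      (∀ s, ∑ x, F s x = 0) → ∀ s x y, F s x = F s y := fun F hF h0 s x y => by
    let L : (permSumZero K G Ω).toSubmodule →ₗ[K] (Set.powersetCard Ω 2 → K) :=
      { toFun := fun v s => ∑ x, v.1 x * F s x
        map_add' := fun u v => by ext s; simp [add_mul, Finset.sum_add_distrib]
        map_smul' := fun c v => by ext s; simp [Finset.mul_sum, mul_assoc] }
    have := h (L.intertwiningMap_of_isIntertwiningMap _ _ fun g v => funext fun s => by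
      change ∑ x, v.1 (g⁻¹ • x) * F s x = ∑ x, v.1 x * F (g⁻¹ • s) x
      rw [← Equiv.sum_comp (MulAction.toPerm g⁻¹) fun x => v.1 x * F (g⁻¹ • s) x]
      simp [hF]) fun v hv => by
      obtain ⟨c, hc⟩ := Submodule.mem_span_singleton.1 hv
      funext s
      change ∑ x, v.1 x * F s x = 0
      simp [← hc, ← Finset.mul_sum, h0]
    have e : ∑ z, (Pi.single x 1 - Pi.single y 1 : Ω → K) z * F s z = 0 := congrFun
      (DFunLike.congr_fun this ⟨Pi.single x 1 - Pi.single y 1, show ∑ z, _ = 0 by simp⟩) s
    simpa [sub_mul, Pi.single_apply, sub_eq_zero] using e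
  rcases isEmpty_or_nonempty Ω with hn | ⟨⟨c⟩⟩
  · exact ⟨fun x => (hn.false (x 0)).elim⟩
  obtain ⟨r, hr⟩ := exists_prime_orderOf_dvd_card' (G := MulAction.stabilizer G c) 2
    (heven c).two_dvd
  obtain ⟨a, ha⟩ : ∃ a : Ω, r.1 • a ≠ a := by
    by_contra hn
    push Not at hn
    rw [show r = 1 from Subtype.ext (eq_of_smul_eq_smul fun x : Ω => by simp [hn])] at hr
    simp at hr
  have rr : r.1 • r.1 • a = a := by
    have := congrArg (fun g : MulAction.stabilizer G c => g.1 • a) (hr ▸ pow_orderOf_eq_one r)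
    simpa [sq, mul_smul] using this
  have ca : c ≠ a := fun e => ha (e ▸ r.2)
  have cb : c ≠ r.1 • a := fun e => ca (smul_left_cancel r.1 (r.2.trans e))
  refine H8.three_of_swap h2 ha.symm rfl rr r.2 fun d da db => ?_
  generalize r.1 • a = b at *
  let s : Set.powersetCard Ω 2 := ⟨{a, b}, Finset.card_pair ha.symm⟩
  have mem : ∀ (g : G) (s : Set.powersetCard Ω 2) (x : Ω), g • x ∈ (g • s).1 ↔ x ∈ s.1 :=
    fun g s x => Finset.smul_mem_smul_finset_iff g
  have sm : ∀ s : Set.powersetCard Ω 2, ∑ x, (if x ∈ s.1 then (1 : K) else 0) = 2 := fun s => by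
    simp [Set.powersetCard.mem_iff.1 s.2]
  by_cases t2 : (2 : K) = 0
  · simpa [s, da, db] using key (fun s x => if x ∈ s.1 then 1 else 0) (by simp [mem])
      (fun s => (sm s).trans t2) s a d
  let R := fun (t : Set.powersetCard Ω 2) (x : Ω) => ∃ g : G, g • s = t ∧ g • c = x
  have hR : ∀ (g : G) t x, R (g • t) (g • x) ↔ R t x := fun g t x =>
    ⟨fun ⟨u, a, b⟩ => ⟨g⁻¹ * u, by simp [mul_smul, a], by simp [mul_smul, b]⟩,
      fun ⟨u, a, b⟩ => ⟨g * u, by simp [mul_smul, a], by simp [mul_smul, b]⟩⟩
  have := key (fun t x => 2 * (if R t x then 1 else 0) -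
    (∑ y, if R t y then 1 else 0) * if x ∈ t.1 then 1 else 0) (fun g t x => by
      rw [← Equiv.sum_comp (MulAction.toPerm g)]
      simp only [MulAction.toPerm_apply, hR, mem]) (fun t => by
      rw [Finset.sum_sub_distrib, ← Finset.mul_sum, ← Finset.mul_sum, sm]; ring) s c d
  have k : R s c := ⟨1, one_smul .., one_smul ..⟩
  obtain ⟨g, h1, h2⟩ : R s d := by
    by_contra hn
    simp [s, ca, cb, da, db, k, hn, t2] at this
  refine ⟨g, ?_, h2⟩
  have := congrArg (fun t : Set.powersetCard Ω 2 => (t.1 : Set Ω)) h1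
  simpa [s, Set.smul_set_insert, Set.pair_eq_pair_iff] using this

end Cfsg.Agent.S0672
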