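import Cfsg.Statements.S0677
import Mathlib
import Cfsg.Agent.H8.PD3
import Cfsg.Agent.H8.Spectrum
import Cfsg.Agent.S0002

set_option autoImplicit false
open Cfsg

namespace Cfsg.Agent.S0677

/-- In a transitive permutation group of prime degree `p` whose Sylow `p`-normaliser has even order, the point stabilisers are the only subgroups of index `p`. -/
theorem result {α : Type*} [Fintype α] [DecidableEq α] {p : ℕ} [Fact p.Prime] (hα : Fintype.card α = p) (G : Subgroup (Equiv.Perm α)) [MulAction.IsPretransitive G α] (P : Sylow p G) (heven : Even (Nat.card (Subgroup.normalizer ((P : Subgroup G) : Set G)))) (H : Subgroup G) (hH : H.index = p) : ∃ a : α, H = MulAction.stabilizer G a := by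
  classical
  have hp : p.Prime := Fact.out
  obtain ⟨a⟩ : Nonempty α := Fintype.card_pos_iff.1 (hα ▸ hp.pos)
  have cP := H8.card_syl_prime hα G P
  have ix : ∀ a : α, (MulAction.stabilizer G a).index = p := fun a => by
    rw [MulAction.index_stabilizer_of_transitive, Nat.card_eq_fintype_card, hα]
  have cK : ∀ K : Subgroup G, K.index = p → Nat.card K = (P : Subgroup G).index := fun K hK =>
    Nat.eq_of_mul_eq_mul_right hp.pos (by
      have := K.card_mul_index.trans (P : Subgroup G).card_mul_index.symm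
      rwa [hK, cP, mul_comm p] at this)
  by_cases hG : Group.IsSolvable G
  · obtain ⟨V, q, n, V0, -, hq, e, -⟩ := H8.exists_elem_ab_normal_of_solvable (⊤ : Subgroup G)
      (fun e => hp.ne_one (by rw [← hH, Subgroup.index_eq_one, eq_top_iff, e]; exact bot_le))
      inferInstance
    have d := H8.dvd_card_normal hα G V n V0
    haveI := Fact.mk hq
    have hV : IsPGroup q V := fun x => ⟨1, Subtype.ext (by simpa using e x x.2)⟩
    obtain ⟨k, hk⟩ := hV.exists_card_eq
    obtain rfl : p = q := (Nat.prime_dvd_prime_iff_eq hp hq).1 (hp.dvd_of_dvd_pow (hk ▸ d))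
    obtain rfl : V = P := Subgroup.eq_of_le_of_card_ge (hV.le_sylow_of_normal P)
      (cP.trans_le (Nat.le_of_dvd Nat.card_pos d))
    haveI := isCyclic_of_prime_card cP
    have c : (Nat.card (P : Subgroup G)).Coprime (P : Subgroup G).index :=
      by rw [cP]; exact (Nat.Prime.coprime_iff_not_dvd hp).2 P.not_dvd_index
    have k : ∀ K : Subgroup G, K.index = p → (P : Subgroup G).IsComplement' K := fun K hK =>
      Subgroup.isComplement'_of_coprime (by rw [cK K hK, Subgroup.card_mul_index]) (cK K hK ▸ c)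
    obtain ⟨g, -, rfl⟩ := S0002.result (P : Subgroup G) c _ _ (k _ (ix a)) (k _ hH)
    exact ⟨g • a, (MulAction.stabilizer_smul_eq_stabilizer_map_conj g a).symm⟩
  have p2 := H8.ne_two_of_not_solvable hα G hG
  have h2 := (S0675.result (hα ▸ hp) G).resolve_left hG
  obtain ⟨e, τ, t, hτ, ht⟩ := H8.exists_refl_coords hα G p2 P heven
  haveI := Fintype.ofFinite (G ⧸ H)
  obtain ⟨q, hq⟩ := Equiv.Perm.exists_fixed_point_of_prime (p := 2) (n := 1)
    (σ := MulAction.toPermHom G (G ⧸ H) t) (fun d => p2 ((Nat.prime_dvd_prime_iff_eq Nat.prime_two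
      hp).1 (by rwa [← Nat.card_eq_fintype_card, ← Subgroup.index, hH] at d)).symm) (by
      rw [← map_pow, show t ^ 2 ^ 1 = 1 from Subtype.ext (Equiv.ext fun x => by
        obtain ⟨j, rfl⟩ := e.surjective x
        exact show (t * t) • e j = e j by simp [mul_smul, ht]), map_one])
  have hq : t • q = q := hq
  suffices ∃ b : α, ∀ g : G, g • q = q → g • b = b by
    obtain ⟨b, hb⟩ := this
    obtain ⟨g, rfl⟩ := QuotientGroup.mk_surjective q
    refine ⟨g⁻¹ • b, Subgroup.eq_of_le_of_card_ge (fun h hh => ?_) (by rw [cK _ hH, cK _ (ix _)])⟩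
    rw [MulAction.mem_stabilizer_iff, eq_inv_smul_iff, smul_smul, smul_smul]
    exact hb _ (QuotientGroup.eq.2 (by simpa using hh))
  by_contra! n
  let I : α → G ⧸ H → ZMod p := fun x r => if ∃ g : G, g • q = r ∧ g • e 1 = x then 1 else 0
  have hI : ∀ (g : G) x r, I (g • x) (g • r) = I x r := fun g x r => if_congr
    ⟨fun ⟨k, h1, h2⟩ => ⟨g⁻¹ * k, by simp [mul_smul, *]⟩, fun ⟨k, h1, h2⟩ =>
      ⟨g * k, by simp [mul_smul, *]⟩⟩ rfl rfl
  have tr := H8.isPretransitive_sylow (f := 1) (Ω := G ⧸ H) (by rw [pow_one, ← hH]; rfl) P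
  have b : Function.Bijective fun c => (τ c : G) • q := (Nat.bijective_iff_surjective_and_card _).2
    ⟨fun r => by
      obtain ⟨v, rfl⟩ := tr.exists_smul_eq q r
      exact ⟨τ.symm v, by simp [Subgroup.smul_def]⟩, by simp [← hH, Subgroup.index]⟩
  have N : ∀ z : Multiplicative (ZMod p), ∑ c : Multiplicative (ZMod p), I (e c.toAdd) q *
      I (e (c⁻¹ * z).toAdd) q = ∑ r, I (e 0) r * I (e z.toAdd) r := fun z => by
    rw [← b.sum_comp]
    refine Finset.sum_congr rfl fun c _ => ?_
    rw [← hI t, hq, ht, ← hI (τ c), ← hI (τ c) _ q]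
    simp [show ∀ j, (τ c : G) • e j = _ from hτ c.toAdd]
  have cO : ¬ p ∣ Nat.card (MulAction.orbit (MulAction.stabilizer G q) (e 1)) := fun d =>
    P.not_dvd_index (cK (MulAction.stabilizer G q) (by
      rw [MulAction.index_stabilizer_of_transitive, ← hH]; rfl) ▸ d.trans (by
        rw [Nat.card_coe_set_eq, ← MulAction.index_stabilizer]; exact Subgroup.index_dvd_card _))
  have iO : ∀ x, I x q = if x ∈ MulAction.orbit (MulAction.stabilizer G q) (e 1) then 1 else 0 :=
    fun x => if_congr ⟨fun ⟨g, h1, h2⟩ => ⟨⟨g, h1⟩, h2⟩, fun ⟨g, h⟩ => ⟨g, g.2, h⟩⟩ rfl rfl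
  obtain ⟨c, hc⟩ := H8.sq_const (K := Multiplicative (ZMod p)) (by simp) p2
    (f := fun c => I (e c.toAdd) q) (l := ∑ r, I (e 0) r * I (e 1) r) (fun h => cO (by
      rw [← ZMod.natCast_eq_zero_iff, ← h]
      refine .trans ?_ (Equiv.sum_comp (Multiplicative.toAdd.trans e) (I · q)).symm
      simp [iO, Fintype.card_subtype])) fun z hz => by
    obtain ⟨g, h0, h1⟩ := MulAction.is_two_pretransitive_iff.1 h2 (e.injective.ne zero_ne_one)
      (e.injective.ne (show 0 ≠ z.toAdd from fun h => hz (toAdd_eq_zero.1 h.symm)))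
    rw [N, ← Equiv.sum_comp (MulAction.toPerm g)]
    nth_rw 1 [← h0, ← h1]
    simp [hI]
  have k : ∀ x, x ≠ e 0 → x ∈ MulAction.orbit (MulAction.stabilizer G q) (e 1) := fun x hx => by
    obtain ⟨j, rfl⟩ := e.surjective x
    have := (hc (.ofAdd j) (by simpa using hx)).trans (hc (.ofAdd 1) (by simp)).symm
    simpa [iO] using this
  obtain ⟨g, h1, h2⟩ := n (e 0)
  obtain ⟨u, hu⟩ := k _ h2
  refine cO ?_
  rw [Set.eq_univ_of_forall (s := MulAction.orbit _ _) fun x => (em (x = e 0)).elim (fun h =>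
    ⟨⟨g, h1⟩⁻¹ * u, by rw [h]; exact (mul_smul ..).trans (inv_smul_eq_iff.2 hu)⟩) (k x)]
  simp [hα]

end Cfsg.Agent.S0677
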