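import Cfsg.Statements.S0678
import Mathlib
import Cfsg.Agent.H8.PD
import Cfsg.Agent.H8.DR1

set_option autoImplicit false
open Cfsg

namespace Cfsg.Agent.S0678

/-- A non-solvable transitive permutation group on 7 points that does not contain the alternating group is a simple group of order 168. -/
theorem result {α : Type*} [Fintype α] [DecidableEq α] (hα : Fintype.card α = 7) (G : Subgroup (Equiv.Perm α)) [MulAction.IsPretransitive G α] (hG : ¬ Group.IsSolvable G) (hA : ¬ alternatingGroup α ≤ G) : Nat.card G = 168 ∧ IsSimpleGroup G := by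
  haveI : Fact (Nat.Prime 7) := ⟨by norm_num⟩
  have prim := MulAction.IsPreprimitive.of_prime_card (G := G) (X := α)
    (by rw [Nat.card_eq_fintype_card, hα]; norm_num)
  have cP := G.card_mul_index
  rw [Nat.card_perm, Nat.card_eq_fintype_card (α := α), hα] at cP
  have key : ∀ r, r.Prime → r ≤ 7 → ¬ r ∣ G.index → ∃ g ∈ G, g.cycleType = {r} := fun r hr h7 h => by
    obtain ⟨x, hx⟩ := (Equiv.Perm.exists_with_cycleType_iff α (m := {r})).2
      ⟨by simpa [hα] using h7, by simpa using hr.two_le⟩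
    obtain ⟨g, -, hg⟩ := H6.exists_conj_mem hr (le_top (a := G)) rfl
      (Subgroup.card_top.trans G.card_mul_index.symm) h (Subgroup.mem_top x)
      (by rw [← orderOf_dvd_iff_pow_eq_one, ← Equiv.Perm.lcm_cycleType, hx]; simp)
    exact ⟨_, hg, by rw [← hx, ← Equiv.Perm.cycleType_conj (τ := g⁻¹) (σ := x), inv_inv]⟩
  have h2 : 2 ∣ G.index := by_contra fun h => by
    obtain ⟨g, a, b⟩ := key 2 Nat.prime_two (by norm_num) h
    exact hA ((Equiv.Perm.subgroup_eq_top_of_isPreprimitive_of_isSwap_mem prim g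
      (Equiv.Perm.isSwap_iff_cycleType.2 b) a).ge.trans' le_top)
  have h3 : 3 ∣ G.index := by_contra fun h => by
    obtain ⟨g, a, b⟩ := key 3 Nat.prime_three (by norm_num) h
    exact hA (Equiv.Perm.alternatingGroup_le_of_isPreprimitive_of_isThreeCycle_mem prim b a)
  have hK := H8.dvd_card_normal hα G
  have hd : 7 ∣ Nat.card G := by
    have := hK ⊤ inferInstance fun e => hG (Group.isSolvable_of_top_eq_bot G e)
    rwa [Subgroup.card_top] at this
  obtain ⟨x, x1, hx⟩ := H8.exists_cen_cycle (p := 7) (by omega) (by norm_num) G hd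
  have ox : orderOf x = 7 := ((Nat.dvd_prime (by norm_num)).1 (hx ▸ Subgroup.orderOf_dvd_natCard _
    (Subgroup.mem_centralizer_singleton_iff.2 rfl))).resolve_left (mt orderOf_eq_one_iff.1 x1)
  obtain ⟨P, hP, hc⟩ := H8.sylow_of_cen ox (Subgroup.eq_of_le_of_card_ge (Subgroup.zpowers_le.2
    (Subgroup.mem_centralizer_singleton_iff.2 rfl)) (by rw [hx, Nat.card_zpowers, ox])).symm
  have e6 := H8.relIndex_centralizer_normalizer_dvd_of_prime (P : Subgroup G) (by norm_num) hP
  haveI := Fintype.ofFinite G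
  have c1 := H8.card_eq_syl (P := P) rfl
  have c2 := (P : Subgroup G).card_mul_index
  have c3 := card_sylow_modEq_one 7 G
  rw [show Subgroup.centralizer ((P : Subgroup G) : Set G) = P from hc] at e6
  rw [hc] at c1
  rw [c1, show Nat.card (P : Subgroup G) = 7 from hP] at c2
  have sq : ¬ Squarefree (Nat.card G) := fun h => by
    haveI := IsZGroup.of_squarefree h
    exact hG inferInstance
  have sim := H8.simple_of_dvd hP (hK := hK)
  change (P : Subgroup G).relIndex (H9.nrm (P : Subgroup G)) ∣ _ at e6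
  generalize (P : Subgroup G).relIndex (H9.nrm (P : Subgroup G)) = e at *
  generalize Nat.card (Sylow 7 G) = n at *
  obtain ⟨k, hk⟩ := Nat.Coprime.mul_dvd_of_dvd_of_dvd (by norm_num) h2 h3
  have hn : e * n ∣ 120 := ⟨k, by rw [hk, ← c2] at cP; norm_num [Nat.factorial] at cP; nlinarith⟩
  have key : ∀ n ∈ Nat.divisors 120, ∀ e ∈ Nat.divisors 6, n % 7 = 1 → e * n ∣ 120 →
      7 * (e * n) ∣ 210 ∨ n ≠ 1 ∧ (∀ d ∈ Nat.divisors e, d = 1 ∨ d = e) ∧ ¬ (7 * (e * n)).Prime ∧
        7 * (e * n) ≤ 1092 ∧ (7 * (e * n) ∈ [60, 168, 360, 504, 660, 1092] → 7 * (e * n) = 168) := by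
    decide +kernel
  rcases key n (Nat.mem_divisors.2 ⟨dvd_of_mul_left_dvd hn, by norm_num⟩) e
    (Nat.mem_divisors.2 ⟨e6, by norm_num⟩) c3 hn with h | ⟨a1, a2, a3, a4, a5⟩
  · exact (sq (Squarefree.squarefree_of_dvd (c2 ▸ h) (by decide +kernel))).elim
  haveI := sim a1 fun d h => a2 d (Nat.mem_divisors.2 ⟨h, by rintro rfl; simp at hn⟩)
  rw [c2] at a3 a4 a5
  exact ⟨a5 (H8.DC.small_orders a3 a4), this⟩

end Cfsg.Agent.S0678
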