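import Cfsg.Statements.S0680
import Mathlib
import Cfsg.Agent.H8.Burnside2T

set_option autoImplicit false
open Cfsg

namespace Cfsg.Agent.S0680

/-- A finite sharply doubly transitive permutation group has degree a prime power `p ^ j`; a Sylow `p`-subgroup is normal, elementary abelian and regular, and consists of the identity together with the elements without fixed points. (Frobenius' Theorem is not needed.) -/
theorem result {α : Type*} [Fintype α] [DecidableEq α] (G : Subgroup (Equiv.Perm α)) [MulAction.IsMultiplyPretransitive G α 2] (hsharp : ∀ x : Fin 2 ↪ α, MulAction.stabilizer G x = ⊥) (h2 : 2 ≤ Fintype.card α) : ∃ p j : ℕ, p.Prime ∧ 1 ≤ j ∧ Fintype.card α = p ^ j ∧ ∀ (hp : Fact p.Prime) (P : Sylow p G), (P : Subgroup G).Normal ∧ IsMulCommutative (P : Subgroup G) ∧ (∀ x ∈ (P : Subgroup G), x ^ p = 1) ∧ MulAction.IsPretransitive (P : Subgroup G) α ∧ (∀ a : α, MulAction.stabilizer (P : Subgroup G) a = ⊥) ∧ ∀ g : G, g ∈ (P : Subgroup G) ↔ g = 1 ∨ ∀ a : α, g • a ≠ a := by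
  have h2t : MulAction.IsMultiplyPretransitive G α 2 := inferInstance
  have ht : MulAction.IsPretransitive G α := MulAction.isPretransitive_of_is_two_pretransitive
  have hs : ∀ x : G, ∀ a b : α, a ≠ b → x • a = a → x • b = b → x = 1 := by
    intro x a b hab ha hb
    have : x ∈ MulAction.stabilizer G (⟨![a, b], by
        intro i j; fin_cases i <;> fin_cases j <;> simp [hab, hab.symm]⟩ : Fin 2 ↪ α) := by
      rw [MulAction.mem_stabilizer_iff]
      ext i
      fin_cases i
      · exact ha
      · exact hb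
    rwa [hsharp, Subgroup.mem_bot] at this
  obtain ⟨p, j, hp, hj, hc, D, hDn, hD, hDc, h1, h3, h4⟩ := H8.frobenius_kernel_of_two_transitive h2t
    (by rwa [Nat.card_eq_fintype_card]) ⊤ ⟨fun x y => by
      obtain ⟨g, hg⟩ := ht.exists_smul_eq x y
      exact ⟨⟨g, trivial⟩, hg⟩⟩ (fun x _ => hs x)
  refine ⟨p, j, hp, hj, by rwa [← Nat.card_eq_fintype_card], fun hp' P => ?_⟩
  have hDp : IsPGroup p D := IsPGroup.of_card hDc
  have hPD : (P : Subgroup G) = D := by
    refine le_antisymm (fun x hx => ?_) (hDp.le_sylow_of_normal P)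
    rw [hD]
    refine ⟨trivial, ?_⟩
    by_cases hx1 : x = 1
    · exact Or.inl hx1
    right
    intro a ha
    obtain ⟨k, hk⟩ := P.2 ⟨x, hx⟩
    refine H8.not_dvd_card_of_unique_fixed (p := p) (k := k) (congrArg Subtype.val hk) ha
      (fun b hb => ?_) (hc ▸ dvd_pow_self p (by omega))
    by_contra hne
    exact hx1 (hs x b a hne hb ha)
  rw [hPD]
  refine ⟨hDn, ⟨⟨fun x y => Subtype.ext (h1 x x.2 y y.2)⟩⟩, h3, h4, fun a => ?_, fun g => ?_⟩
  · rw [eq_bot_iff]
    intro m hm
    exact Subgroup.mem_bot.mpr (Subtype.ext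
      (((hD m).mp m.2).2.resolve_right fun h => h a hm))
  · simpa using hD g

end Cfsg.Agent.S0680
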