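import Cfsg.Statements.S0681
import Mathlib

set_option autoImplicit false
open Cfsg

namespace Cfsg.Agent.S0681

open Cfsg

section
variable {F : Type*} [NearField F]

theorem nf_zero_mul (a : F) : (0 : F) * a = 0 := by
  have := NearField.right_distrib (0 : F) 0 a
  rw [add_zero] at this
  exact left_eq_add.1 this

/-- right multiplication as an additive homomorphism -/
def rm (a : F) : F →+ F := AddMonoidHom.mk' (· * a) fun x y => NearField.right_distrib x y a

theorem nf_neg_mul (x a : F) : (-x) * a = -(x * a) := map_neg (rm a) x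

theorem nf_mul_ne_zero {a b : F} (ha : a ≠ 0) (hb : b ≠ 0) : a * b ≠ 0 := by
  intro h
  obtain ⟨c, h1, -⟩ := NearField.exists_inv b hb
  apply ha
  rw [← mul_one a, ← h1, ← mul_assoc, h, nf_zero_mul]

theorem nf_inv_ne {a c : F} (h : a * c = 1) : c ≠ 0 := by
  rintro rfl
  rw [NearField.mul_zero] at h
  exact NearField.zero_ne_one h

theorem nf_cancel {d a b : F} (hd : d ≠ 0) (h : d * a = d * b) : a = b := by
  obtain ⟨c, -, h1⟩ := NearField.exists_inv d hd
  rw [← one_mul a, ← h1, mul_assoc, h, ← mul_assoc, h1, one_mul]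

/-- affine permutation -/
def aff (a c b : F) (h1 : a * c = 1) (h2 : c * a = 1) : Equiv.Perm F where
  toFun x := x * a + b
  invFun x := (x + -b) * c
  left_inv x := by simp [mul_assoc, h1]
  right_inv x := by simp [mul_assoc, h2]

/-- the affine group -/
def affG (F : Type*) [NearField F] : Subgroup (Equiv.Perm F) where
  carrier := {σ | ∃ a b : F, a ≠ 0 ∧ ∀ x : F, σ x = x * a + b}
  one_mem' := ⟨1, 0, NearField.zero_ne_one.symm, by simp⟩
  mul_mem' := by
    rintro σ τ ⟨a, b, ha, h⟩ ⟨c, d, hc, h'⟩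
    exact ⟨c * a, d * a + b, nf_mul_ne_zero hc ha, fun x => by
      simp [h, h', NearField.right_distrib, mul_assoc, add_assoc]⟩
  inv_mem' := by
    rintro σ ⟨a, b, ha, h⟩
    obtain ⟨c, h1, h2⟩ := NearField.exists_inv a ha
    refine ⟨c, -b * c, nf_inv_ne h1, fun x => ?_⟩
    rw [Equiv.Perm.inv_eq_iff_eq, h, ← NearField.right_distrib, mul_assoc, h2]
    simp
end

/-- The affine maps `x ↦ x * a + b`, `a ≠ 0`, of a near-field form a sharply doubly transitive permutation group. -/
theorem result {F : Type*} [Cfsg.NearField F] : ∃ H : Subgroup (Equiv.Perm F), (∀ σ : Equiv.Perm F, σ ∈ H ↔ ∃ a b : F, a ≠ 0 ∧ ∀ x : F, σ x = x * a + b) ∧ MulAction.IsMultiplyPretransitive H F 2 ∧ ∀ x : Fin 2 ↪ F, MulAction.stabilizer H x = ⊥ := by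
  refine ⟨affG F, fun σ => Iff.rfl, ?_, fun x => ?_⟩
  · rw [MulAction.is_two_pretransitive_iff]
    intro a b c d hab hcd
    have h1 : -a + b ≠ 0 := fun h => hab (by simpa [neg_add_eq_zero] using h)
    have h2 : -c + d ≠ 0 := fun h => hcd (by simpa [neg_add_eq_zero] using h)
    have h1' : b + -a ≠ 0 := fun h => hab (by simpa [add_neg_eq_zero, eq_comm] using h)
    have h2' : d + -c ≠ 0 := fun h => hcd (by simpa [add_neg_eq_zero, eq_comm] using h)
    obtain ⟨u, u1, u2⟩ := NearField.exists_inv _ h1'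
    have hm := nf_mul_ne_zero (nf_inv_ne u1) h2'
    obtain ⟨v, v1, v2⟩ := NearField.exists_inv _ hm
    refine ⟨⟨aff _ v (-(a * (u * (d + -c))) + c) v1 v2, _, _, hm, fun x => rfl⟩, ?_, ?_⟩
    · show a * _ + _ = c
      simp
    · show b * _ + _ = d
      rw [← add_assoc, ← nf_neg_mul, ← NearField.right_distrib, ← mul_assoc, u1]
      simp
  · rw [eq_bot_iff]
    rintro ⟨σ, a, b, ha, h⟩ hσ
    have e0 : σ (x 0) = x 0 := congrArg (· 0) hσ
    have e1 : σ (x 1) = x 1 := congrArg (· 1) hσ
    rw [h] at e0 e1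
    have hd : x 0 + -x 1 ≠ 0 := fun h => by
      have := x.injective (add_neg_eq_zero.1 h); simp at this
    have h3 : (x 0 + -x 1) * a = (x 0 + -x 1) * 1 := by
      rw [NearField.right_distrib, nf_neg_mul, mul_one, eq_add_neg_of_add_eq e0,
        eq_add_neg_of_add_eq e1]
      simp [add_assoc]
    have ha1 := nf_cancel hd h3
    subst ha1
    have hb : b = 0 := by simpa using e0
    apply Subtype.ext
    ext y
    simp [h, hb]

end Cfsg.Agent.S0681
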