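import Cfsg.Statements.S0682
import Mathlib
import Cfsg.Agent.S0681
import Cfsg.Agent.S0680

set_option autoImplicit false
open Cfsg

namespace Cfsg.Agent.S0682

/-- A finite near-field has prime-power order; its additive group is commutative of prime exponent. -/
theorem result {F : Type*} [Cfsg.NearField F] [Finite F] : ∃ p j : ℕ, p.Prime ∧ 1 ≤ j ∧ Nat.card F = p ^ j ∧ (∀ x y : F, x + y = y + x) ∧ ∀ x : F, p • x = 0 := by
  classical
  haveI := Fintype.ofFinite F
  obtain ⟨H, hH, h2, hs⟩ := @S0681.result F _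
  haveI : Nontrivial F := ⟨⟨0, 1, NearField.zero_ne_one⟩⟩
  obtain ⟨p, j, hp, hj, hc, h⟩ := S0680.result H hs Fintype.one_lt_card
  haveI := Fact.mk hp
  obtain ⟨P⟩ : Nonempty (Sylow p H) := inferInstance
  obtain ⟨-, hcomm, hexp, -, -, hmem⟩ := h this P
  let t : F → H := fun b => ⟨Equiv.addRight b, (hH _).2 ⟨1, b, NearField.zero_ne_one.symm, by simp⟩⟩
  have ht : ∀ b, t b ∈ (P : Subgroup H) := fun b => (hmem _).2 (by
    by_cases hb : b = 0
    · left; subst hb; ext; simp [t]
    · right; intro a h; exact hb (by simpa [t] using h))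
  refine ⟨p, j, hp, hj, Nat.card_eq_fintype_card.trans hc, fun x y => ?_, fun x => ?_⟩
  · have := congrArg (fun g : (P : Subgroup H) => (g : Equiv.Perm F) 0)
      (hcomm.is_comm.comm ⟨_, ht y⟩ ⟨_, ht x⟩)
    simpa [t] using this
  · have := congrArg (fun g : H => (g : Equiv.Perm F) 0) (hexp _ (ht x))
    have e : ∀ n : ℕ, ((t x ^ n : H) : Equiv.Perm F) 0 = n • x := by
      intro n
      induction n with
      | zero => simp
      | succ n ih => rw [pow_succ', succ_nsmul, ← ih]; rfl
    exact (e p).symm.trans this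

end Cfsg.Agent.S0682
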