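import Cfsg.Statements.S0683
import Mathlib
import Cfsg.Agent.S0680

set_option autoImplicit false
open Cfsg

namespace Cfsg.Agent.S0683

/-- A finite sharply doubly transitive permutation group is the affine group of a near-field: the permuted set carries a near-field structure for which the group consists exactly of the maps `x ↦ x * a + b` with `a ≠ 0`. -/
theorem result {α : Type*} [Fintype α] [DecidableEq α] (H : Subgroup (Equiv.Perm α)) [MulAction.IsMultiplyPretransitive H α 2] (hsharp : ∀ x : Fin 2 ↪ α, MulAction.stabilizer H x = ⊥) (h2 : 2 ≤ Fintype.card α) : ∃ _ : Cfsg.NearField α, ∀ σ : Equiv.Perm α, σ ∈ H ↔ ∃ a b : α, a ≠ 0 ∧ ∀ x : α, σ x = x * a + b := by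
  obtain ⟨p, j, hp, hj, hc, h⟩ := S0680.result H hsharp h2
  haveI := Fact.mk hp
  obtain ⟨P⟩ : Nonempty (Sylow p H) := inferInstance
  obtain ⟨hn, hcomm, hexp, htr, hreg, hmem⟩ := h this P
  haveI : Nontrivial α := Fintype.one_lt_card_iff_nontrivial.1 h2
  obtain ⟨o, e, hoe⟩ := exists_pair_ne α
  have h2t : ∀ {a b c d : α}, a ≠ b → c ≠ d → ∃ g : H, g • a = c ∧ g • b = d :=
    (MulAction.is_two_pretransitive_iff (G := H) (α := α)).1 inferInstance
  have hsh : ∀ g : H, ∀ a b : α, a ≠ b → g • a = a → g • b = b → g = 1 := by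
    intro g a b hab h1 h2
    have : g ∈ MulAction.stabilizer H (⟨![a, b], by
        intro i j h; fin_cases i <;> fin_cases j <;> first | rfl | exact absurd h hab | exact absurd h hab.symm⟩ : Fin 2 ↪ α) := by
      rw [MulAction.mem_stabilizer_iff]
      ext i; fin_cases i
      · exact h1
      · exact h2
    rwa [hsharp] at this
  -- translations
  choose t ht using fun a => htr.exists_smul_eq o a
  have tu : ∀ g g' : (P : Subgroup H), g • o = g' • o → g = g' := by
    intro g g' h
    have : g'⁻¹ * g ∈ MulAction.stabilizer (P : Subgroup H) o := by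
      rw [MulAction.mem_stabilizer_iff, mul_smul, h, inv_smul_smul]
    rw [hreg, Subgroup.mem_bot, inv_mul_eq_one] at this
    exact this.symm
  let E : α ≃ Additive (P : Subgroup H) :=
    ⟨fun a => Additive.ofMul (t a), fun g => g.toMul • o, ht, fun g => tu _ _ (ht _)⟩
  -- multiplications
  have hm : ∀ a, ∃ g : H, a ≠ o → g • o = o ∧ g • e = a := fun a => by
    by_cases ha : a = o
    · exact ⟨1, fun h => absurd ha h⟩
    · obtain ⟨g, hg⟩ := h2t hoe (Ne.symm ha); exact ⟨g, fun _ => hg⟩
  choose m hm using hm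
  have mu : ∀ g g' : H, g • o = o → g' • o = o → g • e = g' • e → g = g' := by
    intro g g' h1 h2 h3
    have := hsh (g'⁻¹ * g) o e hoe (by rw [mul_smul, h1, inv_smul_eq_iff, h2])
      (by rw [mul_smul, h3, inv_smul_smul])
    exact (inv_mul_eq_one.1 this).symm
  have mne : ∀ g : H, g • o = o → ∀ x, x ≠ o → g • x ≠ o := fun g hg x hx h =>
    hx (MulAction.injective g (h.trans hg.symm))
  have me : m e = 1 := mu _ _ (hm e hoe.symm).1 (one_smul _ _) (by rw [(hm e hoe.symm).2, one_smul])
  have mm : ∀ g : H, g • o = o → ∀ a, a ≠ o → m (g • a) = g * m a := fun g hg a ha =>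
    mu _ _ (hm _ (mne g hg a ha)).1 (by rw [mul_smul, (hm a ha).1, hg])
      (by rw [(hm _ (mne g hg a ha)).2, mul_smul, (hm a ha).2])
  letI : AddGroup α := E.addGroup
  have hzero : (0 : α) = o := one_smul (P : Subgroup H) o
  have hadd : ∀ x y : α, x + y = (t x : H) • y := fun x y => by
    show (t x * t y) • o = _
    rw [mul_smul, ht]; rfl
  have hadd' : ∀ x y : α, x + y = (t y : H) • x := fun x y => by
    show (t x * t y) • o = _
    rw [hcomm.is_comm.comm, mul_smul, ht]; rfl
  have hdist : ∀ g : H, g • o = o → ∀ x y : α, g • (x + y) = g • x + g • y := by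
    intro g hg x y
    have : (⟨g * t x * g⁻¹, hn.conj_mem _ (t x).2 g⟩ : (P : Subgroup H)) = t (g • x) := tu _ _ (by
      rw [ht]
      show (g * t x * g⁻¹) • o = _
      rw [mul_smul, inv_smul_eq_iff.2 hg.symm, mul_smul]
      exact congrArg _ (ht x))
    rw [hadd, hadd, ← this]
    simp [mul_smul]
  letI : Mul α := ⟨fun x a => if a = o then o else m a • x⟩
  have hmul : ∀ x a : α, a ≠ o → x * a = m a • x := fun x a h => if_neg h
  have hmul0 : ∀ x : α, x * o = o := fun x => if_pos rfl
  have h0mul : ∀ a : α, o * a = o := fun a => by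
    by_cases h : a = o
    · rw [h, hmul0]
    · rw [hmul _ _ h, (hm a h).1]
  letI : Monoid α :=
    { one := e
      mul_assoc := fun x a b => by
        by_cases hb : b = o
        · rw [hb, hmul0, hmul0, hmul0]
        by_cases ha : a = o
        · rw [ha, hmul0, h0mul, hmul0]
        rw [hmul _ _ hb, hmul _ _ ha, hmul _ _ hb, hmul _ _ (mne _ (hm b hb).1 a ha),
          mm _ (hm b hb).1 a ha, mul_smul]
      one_mul := fun a => by
        show e * a = a
        by_cases ha : a = o
        · rw [ha, hmul0]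
        · rw [hmul _ _ ha, (hm a ha).2]
      mul_one := fun a => by
        show a * e = a
        rw [hmul _ _ hoe.symm, me, one_smul] }
  letI NF : NearField α :=
    { right_distrib := fun a b c => by
        by_cases hc : c = o
        · rw [hc, hmul0, hmul0, hmul0, ← hzero, add_zero]
        · rw [hmul _ _ hc, hmul _ _ hc, hmul _ _ hc, hdist _ (hm c hc).1]
      mul_zero := fun a => by rw [hzero, hmul0]
      zero_ne_one := by rw [hzero]; exact hoe
      exists_inv := fun a ha => by
        rw [hzero] at ha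
        have h1 : (m a)⁻¹ • o = o := inv_smul_eq_iff.2 (hm a ha).1.symm
        refine ⟨(m a)⁻¹ • e, ?_, ?_⟩
        · rw [hmul _ _ (mne _ h1 e hoe.symm), mm _ h1 e hoe.symm, me, mul_one, inv_smul_eq_iff]
          exact (hm a ha).2.symm
        · rw [hmul _ _ ha, smul_inv_smul]; rfl }
  refine ⟨NF, fun σ => ⟨fun hσ => ?_, ?_⟩⟩
  · let g : H := ((t (σ o) : H))⁻¹ * ⟨σ, hσ⟩
    have hg : g • o = o := by
      rw [mul_smul, inv_smul_eq_iff]; exact (ht _).symm
    have ha := mne g hg e hoe.symm
    refine ⟨g • e, σ o, by rw [hzero]; exact ha, fun x => ?_⟩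
    rw [hmul _ _ ha, hadd', mm g hg e hoe.symm, me, mul_one, mul_smul, smul_inv_smul]; rfl
  · rintro ⟨a, b, ha, h⟩
    rw [hzero] at ha
    have : σ = ((t b : H) * m a : H) := by
      ext x
      rw [h, hmul _ _ ha, hadd']; rfl
    rw [this]; exact Subtype.prop _

end Cfsg.Agent.S0683
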