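import Cfsg.Statements.S0684
import Mathlib

set_option autoImplicit false
open Cfsg

namespace Cfsg.Agent.S0684

/-- Point stabiliser of a sharply doubly transitive group not of semilinear type: a maximal normal abelian subgroup `A` of a linear group `H` that is regular on non-zero vectors and has no irreducible cyclic normal subgroup is cyclic and reducible, and the order of `A` divides `p ^ k - 1` for `k` the dimension of a minimal `A`-invariant subspace. -/
theorem result {p : ℕ} [Fact p.Prime] {V : Type*} [AddCommGroup V] [Module (ZMod p) V] [Finite V] (H : Subgroup (V ≃ₗ[ZMod p] V)) (hreg : ∀ v w : V, v ≠ 0 → w ≠ 0 → ∃! h : H, (h : V ≃ₗ[ZMod p] V) v = w) (hI : ∀ A : Subgroup H, A.Normal → IsCyclic A → ∃ W : Submodule (ZMod p) V, W ≠ ⊥ ∧ W ≠ ⊤ ∧ ∀ a ∈ A, ∀ v ∈ W, ((a : H) : V ≃ₗ[ZMod p] V) v ∈ W) (A : Subgroup H) (hAn : A.Normal) (hAc : IsMulCommutative A) (hAmax : ∀ B : Subgroup H, B.Normal → IsMulCommutative B → A ≤ B → B = A) : IsCyclic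 A ∧ ∃ W : Submodule (ZMod p) V, W ≠ ⊥ ∧ W ≠ ⊤ ∧ (∀ a ∈ A, ∀ v ∈ W, ((a : H) : V ≃ₗ[ZMod p] V) v ∈ W) ∧ (∀ W' : Submodule (ZMod p) V, W' ≤ W → (∀ a ∈ A, ∀ v ∈ W', ((a : H) : V ≃ₗ[ZMod p] V) v ∈ W') → W' = ⊥ ∨ W' = W) ∧ Nat.card A ∣ p ^ Module.finrank (ZMod p) W - 1 := by
  classical
  let I := fun W : Submodule (ZMod p) V => ∀ a ∈ A, ∀ v ∈ W, ((a : H) : V ≃ₗ[ZMod p] V) v ∈ W
  obtain ⟨W0, h0, -⟩ := hI ⊥ inferInstance inferInstance
  obtain ⟨W, ⟨hW, iW⟩, mW⟩ := wellFounded_lt.has_min {W | W ≠ ⊥ ∧ I W}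
    ⟨⊤, ne_bot_of_le_ne_bot h0 le_top, fun _ _ _ _ => trivial⟩
  have mn : ∀ W' ≤ W, I W' → W' = ⊥ ∨ W' = W := fun W' h i =>
    or_iff_not_imp_left.2 fun n => h.eq_of_not_lt (mW W' ⟨n, i⟩)
  have fr : ∀ (h : H) (v : V), v ≠ 0 → (h : V ≃ₗ[ZMod p] V) v = v → h = 1 := fun h v hv e =>
    (hreg v v hv hv).unique e rfl
  haveI := Submodule.nontrivial_iff_ne_bot.2 hW
  obtain ⟨w, hw⟩ := exists_ne (0 : W)
  haveI : Finite H := Finite.of_injective (fun h : H => ((h : V ≃ₗ[ZMod p] V) : V → V))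
    (DFunLike.coe_injective.comp Subtype.val_injective)
  let f : A →* Module.End (ZMod p) W :=
    { toFun := fun a => (a.1.1 : V →ₗ[ZMod p] V).restrict (iW a.1 a.2)
      map_one' := LinearMap.ext fun _ => rfl
      map_mul' := fun _ _ => LinearMap.ext fun _ => rfl }
  let C := Subring.centralizer (Set.range f)
  haveI : Finite (Module.End (ZMod p) W) := Finite.of_injective _ DFunLike.coe_injective
  haveI : NoZeroDivisors C := ⟨fun {x y} e => or_iff_not_imp_left.2 fun hx => by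
    rcases mn ((LinearMap.ker x.1).map W.subtype) (Submodule.map_subtype_le ..) (by
      rintro a ha _ ⟨v, hv, rfl⟩
      refine ⟨f ⟨a, ha⟩ v, ?_, rfl⟩
      have := DFunLike.congr_fun (x.2 _ ⟨⟨a, ha⟩, rfl⟩) v
      simpa [LinearMap.mem_ker.1 hv] using this.symm) with h | h
    · replace h : Function.Injective x.1 := (injective_iff_map_eq_zero _).2 fun v hv =>
        Subtype.ext (h.le ⟨v, hv, rfl⟩)
      exact Subtype.ext (LinearMap.ext fun v => h (by
        simpa using DFunLike.congr_fun (congrArg Subtype.val e) v))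
    · exact (hx (Subtype.ext (LinearMap.ext fun v => by
        obtain ⟨u, hu, e⟩ := h.ge v.2
        rwa [← show u = v from Subtype.ext e]))).elim⟩
  haveI := NoZeroDivisors.to_isDomain C
  have cy : IsCyclic A := by
    letI := (Finite.isDomain_to_isField C).toField
    refine isCyclic_of_injective_ringHom (f.codRestrict C ?_) ((injective_iff_map_eq_one _).2
      fun a h => Subtype.ext (fr _ w (by simpa using hw) (congrArg Subtype.val
        (DFunLike.congr_fun (congrArg Subtype.val h) w))))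
    rintro a _ ⟨b, rfl⟩
    rw [← map_mul, ← map_mul, hAc.is_comm.comm]
  refine ⟨cy, W, hW, fun h => ?_, iW, mn, ?_⟩
  · obtain ⟨W', h1, h2, h3⟩ := hI A hAn cy
    exact (mn W' (h ▸ le_top) h3).elim h1 fun e => h2 (e.trans h)
  let S : SubMulAction A V := ⟨(W : Set V) \ {0}, fun a v hv => ⟨iW a.1 a.2 v hv.1,
    fun h => hv.2 ((a.1.1.map_eq_zero_iff).1 h)⟩⟩
  have := Nat.card_congr (MulAction.selfEquivOrbitsQuotientProd (G := A) (X := S) fun v =>
    (Subgroup.eq_bot_iff_forall _).2 fun a h =>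
      Subtype.ext (fr _ v v.2.2 (congrArg Subtype.val (show a • v = v from h))))
  rw [Nat.card_prod] at this
  refine Dvd.intro_left _ (this.symm.trans ?_)
  have e := Module.natCard_eq_pow_finrank (K := ZMod p) (V := W)
  rw [Nat.card_zmod] at e
  rw [← e]
  exact Set.ncard_sdiff_singleton_of_mem W.zero_mem

end Cfsg.Agent.S0684
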