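import Cfsg.Statements.S0685
import Mathlib
import Cfsg.Agent.S0684

set_option autoImplicit false
open Cfsg

namespace Cfsg.Agent.S0685

/-- In a linear group over the prime field that is regular on non-zero vectors and has no irreducible cyclic normal subgroup, a maximal normal abelian subgroup is properly contained in its centraliser, which is non-abelian. -/
theorem result {p : ℕ} [Fact p.Prime] {V : Type*} [AddCommGroup V] [Module (ZMod p) V] [Finite V] (H : Subgroup (V ≃ₗ[ZMod p] V)) (hreg : ∀ v w : V, v ≠ 0 → w ≠ 0 → ∃! h : H, (h : V ≃ₗ[ZMod p] V) v = w) (hI : ∀ A : Subgroup H, A.Normal → IsCyclic A → ∃ W : Submodule (ZMod p) V, W ≠ ⊥ ∧ W ≠ ⊤ ∧ ∀ a ∈ A, ∀ v ∈ W, ((a : H) : V ≃ₗ[ZMod p] V) v ∈ W) (A : Subgroup H) (hAn : A.Normal) (hAc : IsMulCommutative A) (hAmax : ∀ B : Subgroup H, B.Normal → IsMulCommutative B → A ≤ B → B = A) : A < Subgroup.centralizer (A : Set H) ∧ ¬ IsMulCommutative (Subgroup.centralizer (A : Set H)) := by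
  classical
  obtain ⟨cy, W, hW, hT, iW, mn, hd⟩ := Cfsg.Agent.S0684.result H hreg hI A hAn hAc hAmax
  have le : A ≤ Subgroup.centralizer (A : Set H) := A.le_centralizer
  suffices h : A ≠ Subgroup.centralizer (A : Set H) from
    ⟨le.lt_of_ne h, fun c => h (hAmax _ inferInstance c le).symm⟩
  intro e
  haveI : Finite H := Finite.of_injective (fun h : H => ((h : V ≃ₗ[ZMod p] V) : V → V))
    (DFunLike.coe_injective.comp Subtype.val_injective)
  obtain ⟨v, hv, v0⟩ := W.ne_bot_iff.1 hW
  obtain ⟨w, hw⟩ : ∃ w, w ∉ W := by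
    by_contra h
    push Not at h
    exact hT (eq_top_iff.2 fun x _ => h x)

  obtain ⟨g, hg, -⟩ := hreg v w v0 fun h => hw (h ▸ W.zero_mem)
  let U := W.map (g.1 : V →ₗ[ZMod p] V)
  have fU : Module.finrank (ZMod p) U = Module.finrank (ZMod p) W := LinearEquiv.finrank_map_eq ..
  have d : W ⊓ U = ⊥ := (mn _ inf_le_left fun a ha x hx => ⟨iW a ha x hx.1, by
    obtain ⟨y, hy, rfl⟩ := hx.2
    exact ⟨_, iW _ (hAn.conj_mem' a ha g) y hy, by simp⟩⟩).resolve_right fun h => hw
      ((Submodule.eq_of_le_of_finrank_eq (inf_eq_left.1 h) fU.symm).ge ⟨v, hv, hg⟩)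
  have k2 := Submodule.finrank_sup_add_finrank_inf_eq W U
  have k3 := (W ⊔ U).finrank_le
  rw [d, finrank_bot, fU] at k2
  have cV := Module.natCard_eq_pow_finrank (K := ZMod p) (V := V)
  rw [Nat.card_zmod] at cV
  have cH : Nat.card V - 1 ≤ Nat.card H := by
    rw [← Set.ncard_univ V, ← Set.ncard_sdiff_singleton_of_mem (Set.mem_univ (0 : V)),
      ← Set.ncard_univ H]
    refine (Set.ncard_le_ncard (t := (fun h : H => h.1 v) '' Set.univ) fun x hx => ?_).trans
      (Set.ncard_image_le ..)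
    obtain ⟨h, hh, -⟩ := hreg v x v0 hx.2
    exact ⟨h, trivial, hh⟩
  have i : A.index ≤ Nat.card A := by
    have : (MulAut.conjNormal : H →* MulAut A).ker = A := by
      refine .trans (Subgroup.ext fun x => ?_) e.symm
      simp [Subgroup.mem_centralizer_iff, MulEquiv.ext_iff, Subtype.ext_iff, eq_comm,
        eq_mul_inv_iff_mul_eq]
    rw [← congrArg Subgroup.index this, Subgroup.index_ker]
    exact (Nat.card_le_card_of_injective _ Subtype.val_injective).trans
      ((IsCyclic.card_mulAut A).le.trans (Nat.totient_le _))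
  have p1 : 1 < p ^ Module.finrank (ZMod p) W := Nat.one_lt_pow
    (mt Submodule.finrank_eq_zero.1 hW) (Fact.out : p.Prime).one_lt
  have a := Nat.le_of_dvd (by omega) hd
  have b := Nat.pow_le_pow_right (Fact.out : p.Prime).pos (k2.ge.trans k3)
  rw [pow_add, ← cV] at b
  have c := A.card_mul_index
  generalize p ^ Module.finrank (ZMod p) W = m at *
  obtain ⟨m, rfl⟩ := Nat.exists_eq_add_of_lt p1
  have := Nat.mul_le_mul a (i.trans a)
  simp only [Nat.add_sub_cancel] at this
  have : Nat.card V ≤ Nat.card H + 1 := by omega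
  nlinarith

end Cfsg.Agent.S0685
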