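import Cfsg.Statements.S0691
import Mathlib
import Cfsg.Agent.H8.Table

set_option autoImplicit false
open Cfsg

namespace Cfsg.Agent.S0691

def T1 : ℕ := 0x31010800c40420031010800c40420010c2100
def T2 : ℕ := 0x20820840410410841041030c30c3040000000
def T3 : ℕ := 0x40821020430c30421040c30c30c20010820c0
instance factP : Fact (Nat.Prime 5) := ⟨by norm_num⟩

/-- An exceptional sharply doubly transitive group of degree 5^2: the listed matrices generate a subgroup of GL(2,5) of order 24 acting regularly on the non-zero vectors. -/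
theorem result (A : Matrix.GeneralLinearGroup (Fin 2) (ZMod 5)) (B : Matrix.GeneralLinearGroup (Fin 2) (ZMod 5)) (C : Matrix.GeneralLinearGroup (Fin 2) (ZMod 5)) (hA : (A : Matrix (Fin 2) (Fin 2) (ZMod 5)) = !![2, 0; 0, -2]) (hB : (B : Matrix (Fin 2) (Fin 2) (ZMod 5)) = !![0, -1; 1, 0]) (hC : (C : Matrix (Fin 2) (Fin 2) (ZMod 5)) = !![1, 2; 1, -2]) : Nat.card (Subgroup.closure ({A, B, C} : Set (Matrix.GeneralLinearGroup (Fin 2) (ZMod 5)))) = 24 ∧ ∀ v w : Fin 2 → ZMod 5, v ≠ 0 → w ≠ 0 → ∃! h : Subgroup.closure ({A, B, C} : Set (Matrix.GeneralLinearGroup (Fin 2) (ZMod 5))), Matrix.mulVec ((h : Matrix.GeneralLinearGroup (Fin 2) (ZMod 5)) : Matrix (Fin 2) (Fin 2) (ZMod 5)) v = w := by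
  have := H8.regular_of_table (F := ZMod 5) {A, B, C} [(2, 0, 0, 3), (0, 4, 1, 0), (1, 2, 1, 3)]
    (by
      rintro g (rfl | rfl | rfl)
      · exact ⟨(2, 0, 0, 3), by simp, hA.trans (by decide)⟩
      · exact ⟨(0, 4, 1, 0), by simp, hB.trans (by decide)⟩
      · exact ⟨(1, 2, 1, 3), by simp, hC.trans (by decide)⟩
      )
    (by
      intro t ht
      simp only [List.mem_cons, List.not_mem_nil, or_false] at ht
      rcases ht with rfl | rfl | rfl
      · exact ⟨A, by simp, hA.trans (by decide)⟩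
      · exact ⟨B, by simp, hB.trans (by decide)⟩
      · exact ⟨C, by simp, hC.trans (by decide)⟩
      )
    (fun x y => H8.tget T1 6 (x.val * 5 + y.val)) (fun x y => H8.tget T2 6 (x.val * 5 + y.val))
    (fun x y => H8.tget T3 6 (x.val * 5 + y.val)) (by decide +kernel)
    (by simp only [List.forall_mem_cons, List.not_mem_nil, List.exists_mem_cons_iff, false_and,
      exists_false, IsEmpty.forall_iff, implies_true]; decide +kernel)
  rw [ZMod.card] at this
  exact this

end Cfsg.Agent.S0691
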