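import Cfsg.Statements.S0692
import Mathlib
import Cfsg.Agent.H8.Table

set_option autoImplicit false
open Cfsg

namespace Cfsg.Agent.S0692

def T1 : ℕ := 0xa0441c51880832401c920a1460020c11072482821431060010062072411020c52892851c62000c108424a2000c51060421c62091ca0840c50010051c818904308428a2090051810c21070882431461072810011840c90881c5280
def T2 : ℕ := 0x904014208010404a0c318304114208a1420840831830c31c72000c400410104420618504814224618214508918328614524728a1c70072000c310820814824724910124918a2881482062871c02491802820401012841c1287000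
def T3 : ℕ := 0x71882ca1c908510210a2c32481492c714130a18b1492c924820420c18b30310c24a1c82851873061c724828510730624814b08530920b28618a1cb24b1cc10c28328524b0c61c528808718310724828a20500120720610a2460c0
instance factP : Fact (Nat.Prime 11) := ⟨by norm_num⟩

/-- An exceptional sharply doubly transitive group of degree 11^2: the listed matrices generate a subgroup of GL(2,11) of order 120 acting regularly on the non-zero vectors. -/
theorem result (A : Matrix.GeneralLinearGroup (Fin 2) (ZMod 11)) (B : Matrix.GeneralLinearGroup (Fin 2) (ZMod 11)) (hA : (A : Matrix (Fin 2) (Fin 2) (ZMod 11)) = !![0, -1; 1, 0]) (hB : (B : Matrix (Fin 2) (Fin 2) (ZMod 11)) = !![2, 4; 1, -3]) : Nat.card (Subgroup.closure ({A, B} : Set (Matrix.GeneralLinearGroup (Fin 2) (ZMod 11)))) = 120 ∧ ∀ v w : Fin 2 → ZMod 11, v ≠ 0 → w ≠ 0 → ∃! h : Subgroup.closure ({A, B} : Set (Matrix.GeneralLinearGroup (Fin 2) (ZMod 11))), Matrix.mulVec ((h : Matrix.GeneralLinearGroup (Fin 2) (ZMod 11)) : Matrix (Fin 2) (Fin 2) (ZMod 11)) v = w := by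
  have := H8.regular_of_table (F := ZMod 11) {A, B} [(0, 10, 1, 0), (2, 4, 1, 8)]
    (by
      rintro g (rfl | rfl)
      · exact ⟨(0, 10, 1, 0), by simp, hA.trans (by decide)⟩
      · exact ⟨(2, 4, 1, 8), by simp, hB.trans (by decide)⟩
      )
    (by
      intro t ht
      simp only [List.mem_cons, List.not_mem_nil, or_false] at ht
      rcases ht with rfl | rfl
      · exact ⟨A, by simp, hA.trans (by decide)⟩
      · exact ⟨B, by simp, hB.trans (by decide)⟩
      )
    (fun x y => H8.tget T1 6 (x.val * 11 + y.val)) (fun x y => H8.tget T2 6 (x.val * 11 + y.val))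
    (fun x y => H8.tget T3 6 (x.val * 11 + y.val)) (by decide +kernel)
    (by simp only [List.forall_mem_cons, List.not_mem_nil, List.exists_mem_cons_iff, false_and,
      exists_false, IsEmpty.forall_iff, implies_true]; decide +kernel)
  rw [ZMod.card] at this
  exact this

end Cfsg.Agent.S0692
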