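import Cfsg.Statements.S0694
import Mathlib

set_option autoImplicit false
open Cfsg

namespace Cfsg.Agent.S0694

open Finset

theorem succ_eq (x i : ℕ) : ∑ k ∈ range (i + 1), (x + 1) ^ k = (x + 1) * ∑ k ∈ range i, (x + 1) ^ k + 1 := by
  rw [geom_sum_succ]

theorem modeq_iff {x : ℕ} (hx : 0 < x) (n i : ℕ) :
    (x + 1) ^ i ≡ 1 [MOD n * x] ↔ n ∣ ∑ k ∈ range i, (x + 1) ^ k := by
  rw [← geom_sum_mul_add, Nat.ModEq.comm, Nat.modEq_iff_dvd' (by omega), Nat.add_sub_cancel,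
    Nat.mul_dvd_mul_iff_right hx]

theorem par {x : ℕ} (hx : 2 ∣ x) (i : ℕ) : (∑ k ∈ range i, (x + 1) ^ k) % 2 = i % 2 := by
  obtain ⟨y, rfl⟩ := hx
  induction i with
  | zero => simp
  | succ i ih =>
    rw [succ_eq, add_mul, mul_assoc]
    omega

theorem key {x n : ℕ} (hx : 0 < x) (hn : 0 < n) (h1 : ∀ r : ℕ, r.Prime → r ∣ n → r ∣ x) (h2 : 4 ∣ n → 4 ∣ x)
    {i : ℕ} (hi : 0 < i) : n ∣ ∑ k ∈ range i, (x + 1) ^ k ↔ n ∣ i := by
  set S := ∑ k ∈ range i, (x + 1) ^ k with hS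
  have hS0 : S ≠ 0 := by
    obtain ⟨j, rfl⟩ := Nat.exists_eq_succ_of_ne_zero hi.ne'
    rw [hS, succ_eq]; omega
  have he : (x + 1) ^ i - 1 ^ i = S * x := by rw [← geom_sum_mul_add, one_pow, Nat.add_sub_cancel]
  rw [← Nat.factorization_prime_le_iff_dvd hn.ne' hS0, ← Nat.factorization_prime_le_iff_dvd hn.ne' hi.ne']
  refine forall₂_congr fun r hr => ?_
  haveI := Fact.mk hr
  simp only [Nat.factorization_def _ hr]
  by_cases hrn : r ∣ n
  swap
  · simp [padicValNat.eq_zero_of_not_dvd hrn]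
  have hrx := h1 r hr hrn
  have hnd : ¬ r ∣ x + 1 := fun h => hr.one_lt.ne' (Nat.dvd_one.1 ((Nat.dvd_add_right hrx).1 h))
  rcases hr.eq_two_or_odd' with rfl | hodd
  · have hp := par hrx i
    rw [← hS] at hp
    rcases Nat.even_or_odd i with hev | hod
    · have h3 := padicValNat.pow_two_sub_pow (x := x + 1) (y := 1) (by omega) (by simpa using hrx) hnd hi.ne' hev
      rw [he, padicValNat.mul hS0 hx.ne', Nat.add_sub_cancel] at h3
      have h4 : 1 ≤ padicValNat 2 (x + 1 + 1) := one_le_padicValNat_of_dvd (by omega) (by omega)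
      have h5 : 1 ≤ padicValNat 2 i := one_le_padicValNat_of_dvd hi.ne' hev.two_dvd
      by_cases h4n : 4 ∣ n
      · have h6 : ¬ 2 ≤ padicValNat 2 (x + 1 + 1) := by
          rw [← padicValNat_dvd_iff_le (by omega)]
          have := h2 h4n
          omega
        omega
      · have h6 : ¬ 2 ≤ padicValNat 2 n := by
          rw [← padicValNat_dvd_iff_le hn.ne']; exact h4n
        omega
    · have h3 := Nat.odd_iff.1 hod
      rw [padicValNat.eq_zero_of_not_dvd (n := S) (by omega), padicValNat.eq_zero_of_not_dvd (n := i) (by omega)]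
  · have h3 := padicValNat.pow_sub_pow hodd (x := x + 1) (y := 1) (by omega) (by simpa using hrx) hnd hi.ne'
    rw [he, padicValNat.mul hS0 hx.ne', Nat.add_sub_cancel] at h3
    omega

/-- The Dickson pair condition: for a prime power `q` and `n > 1`, (every prime factor of `n` divides `q - 1`, and `4 ∣ n → 4 ∣ q - 1`) holds exactly when `q ^ n ≡ 1` modulo `n * (q - 1)` but `q ^ i` is not, for `0 < i < n`. -/
theorem result (q n : ℕ) (hq : IsPrimePow q) (hn : 1 < n) : ((∀ r : ℕ, r.Prime → r ∣ n → r ∣ q - 1) ∧ (4 ∣ n → 4 ∣ q - 1)) ↔ (q ^ n ≡ 1 [MOD n * (q - 1)] ∧ ∀ i : ℕ, 0 < i → i < n → ¬ q ^ i ≡ 1 [MOD n * (q - 1)]) := by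
  obtain ⟨x, rfl⟩ : ∃ x, q = x + 1 := ⟨q - 1, by have := hq.two_le; omega⟩
  have hx : 0 < x := by have := hq.two_le; omega
  simp only [Nat.add_sub_cancel, modeq_iff hx]
  constructor
  · rintro ⟨h1, h2⟩
    refine ⟨(key hx (by omega) h1 h2 (by omega)).2 dvd_rfl, fun i hi hin h => ?_⟩
    exact absurd (Nat.le_of_dvd hi ((key hx (by omega) h1 h2 hi).1 h)) (by omega)
  · rintro ⟨h1, h2⟩
    haveI : NeZero n := ⟨by omega⟩
    have hcop : Nat.Coprime n (x + 1) := by
      obtain ⟨j, rfl⟩ := Nat.exists_eq_succ_of_ne_zero (NeZero.ne n)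
      rw [succ_eq] at h1
      refine Nat.Coprime.coprime_dvd_left h1 ?_
      simp
    have hlt : ∀ i j, i < j → j < n → ((∑ k ∈ range i, (x + 1) ^ k : ℕ) : ZMod n) ≠ (∑ k ∈ range j, (x + 1) ^ k : ℕ) := by
      intro i j hij hj h
      obtain ⟨d, rfl⟩ := Nat.exists_eq_add_of_le hij.le
      rw [sum_range_add, Nat.cast_add, left_eq_add, ZMod.natCast_eq_zero_iff] at h
      simp only [pow_add, ← mul_sum] at h
      exact h2 d (by omega) (by omega) ((hcop.pow_right i).dvd_of_dvd_mul_left h)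
    have hinj : Function.Injective fun i : Fin n => ((∑ k ∈ range i, (x + 1) ^ k : ℕ) : ZMod n) := by
      intro i j h
      rcases lt_trichotomy i j with h3 | h3 | h3
      · exact absurd h (hlt i j h3 j.2)
      · exact h3
      · exact absurd h.symm (hlt j i h3 i.2)
    have hs := (hinj.bijective_of_nat_card_le (by simp)).2
    have hs' : ∀ a : ℕ, ∃ i, (∑ k ∈ range i, (x + 1) ^ k) ≡ a [MOD n] := fun a => by
      obtain ⟨i, hi⟩ := hs (a : ZMod n)
      exact ⟨i, (ZMod.natCast_eq_natCast_iff _ _ _).1 hi⟩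
    have h3 : ∀ r : ℕ, r.Prime → r ∣ n → r ∣ x := by
      intro r hr hrn
      by_contra hrx
      haveI := Fact.mk hr
      have hx0 : (x : ZMod r) ≠ 0 := by rwa [Ne, ZMod.natCast_eq_zero_iff]
      obtain ⟨i, hi⟩ := hs' (-(x : ZMod r)⁻¹).val
      have h4 := (ZMod.natCast_eq_natCast_iff _ _ _).2 (hi.of_dvd hrn)
      rw [ZMod.natCast_zmod_val] at h4
      have h5 : (((x + 1) ^ i : ℕ) : ZMod r) = 0 := by
        rw [← geom_sum_mul_add, Nat.cast_add, Nat.cast_mul, h4, neg_mul, inv_mul_cancel₀ hx0]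
        simp
      rw [ZMod.natCast_eq_zero_iff] at h5
      exact hr.one_lt.ne' (Nat.eq_one_of_dvd_coprimes hcop hrn (hr.dvd_of_dvd_pow h5))
    refine ⟨h3, fun h4 => ?_⟩
    by_contra h5
    have h6 := h3 2 Nat.prime_two (Dvd.dvd.trans (by norm_num) h4)
    obtain ⟨y, rfl⟩ : ∃ y, x = 4 * y + 2 := ⟨x / 4, by omega⟩
    have h7 : ∀ i, (∑ k ∈ range i, (4 * y + 2 + 1) ^ k) % 4 ≤ 1 := by
      intro i
      induction i with
      | zero => simp
      | succ i ih =>
        rw [succ_eq, add_mul, add_mul, mul_assoc]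
        generalize ∑ k ∈ range i, (4 * y + 2 + 1) ^ k = S at ih ⊢
        generalize y * S = T
        obtain ⟨k, rfl | rfl⟩ : ∃ k, S = 4 * k ∨ S = 4 * k + 1 := ⟨S / 4, by omega⟩ <;> omega
    obtain ⟨i, hi⟩ := hs' 2
    have h8 : _ % 4 = 2 % 4 := hi.of_dvd h4
    have := h7 i
    omega

end Cfsg.Agent.S0694
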