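import Cfsg.Statements.S0695
import Mathlib
import Cfsg.Agent.H8.Jordan2

set_option autoImplicit false
open Cfsg

namespace Cfsg.Agent.S0695

/-- A regular normal subgroup of a doubly primitive group of finite degree at least 2 is an elementary abelian 2-group (and the degree is a power of 2), unless the degree is 3. -/
theorem result {G : Type*} [Group G] {X : Type*} [Fintype X] [MulAction G X] (hX : 2 ≤ Fintype.card X) (h2 : MulAction.IsMultiplyPreprimitive G X 2) (N : Subgroup G) [N.Normal] (htrans : MulAction.IsPretransitive N X) (hreg : ∀ x : X, MulAction.stabilizer N x = ⊥) : Fintype.card X = 3 ∨ (IsMulCommutative N ∧ (∀ n ∈ N, n ^ 2 = 1) ∧ ∃ m : ℕ, Fintype.card X = 2 ^ m) := by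
  classical
  have hreg' : ∀ n ∈ N, ∀ b : X, n • b = b → n = 1 := fun n hn b hb =>
    congrArg Subtype.val ((Subgroup.eq_bot_iff_forall _).1 (hreg b) ⟨n, hn⟩ hb)
  obtain ⟨b⟩ : Nonempty X := Fintype.card_pos_iff.1 (by omega)
  by_cases h3 : Fintype.card X = 3
  · exact Or.inl h3
  right
  have hsq : ∀ n ∈ N, n * n = 1 := fun n hn =>
    (H8.mul_self_eq_one_or_card N ∅ (b := b) (by simp) (fun n hn _ h => hreg' n hn b h)
      (h2.isPreprimitive_ofFixingSubgroup (by simp; rfl)) hn (by simp)).resolve_right (by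
        simpa using h3)
  refine ⟨H8.isMulCommutative_of_mul_self hsq, fun n hn => by rw [sq, hsq n hn], ?_⟩
  have hc : Nat.card N = Nat.card X := by
    refine Nat.card_congr (Equiv.ofBijective (fun n => n • b) ⟨fun m n e => ?_, fun x => htrans.exists_smul_eq b x⟩)
    have := hreg' _ (n⁻¹ * m).2 b (by
      show (n⁻¹ * m) • b = b
      rw [mul_smul, inv_smul_eq_iff]; exact e)
    exact (inv_mul_eq_one.1 (Subtype.ext this)).symm
  haveI : Finite N := Nat.finite_of_card_ne_zero (by rw [hc, Nat.card_eq_fintype_card]; omega)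
  have hp : IsPGroup 2 N := fun n => ⟨1, Subtype.ext (by simpa [sq] using hsq n n.2)⟩
  obtain ⟨m, hm⟩ := IsPGroup.iff_card.1 hp
  exact ⟨m, by rw [← hm, hc, Nat.card_eq_fintype_card]⟩

end Cfsg.Agent.S0695
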