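import Cfsg.Statements.S0696
import Mathlib
import Cfsg.Agent.H8.Jordan2

set_option autoImplicit false
open Cfsg

namespace Cfsg.Agent.S0696

/-- A triply primitive group of degree at least 3 having a regular normal subgroup has degree 3 or 4. -/
theorem result {G : Type*} [Group G] {X : Type*} [Fintype X] [MulAction G X] (hX : 3 ≤ Fintype.card X) (h3 : MulAction.IsMultiplyPreprimitive G X 3) (N : Subgroup G) [N.Normal] (htrans : MulAction.IsPretransitive N X) (hreg : ∀ x : X, MulAction.stabilizer N x = ⊥) : Fintype.card X = 3 ∨ Fintype.card X = 4 := by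
  classical
  have hreg' : ∀ n ∈ N, ∀ b : X, n • b = b → n = 1 := fun n hn b hb =>
    congrArg Subtype.val ((Subgroup.eq_bot_iff_forall _).1 (hreg b) ⟨n, hn⟩ hb)
  obtain ⟨b, c, hbc⟩ := Fintype.exists_pair_of_one_lt_card (by omega : 1 < Fintype.card X)
  by_cases h3' : Fintype.card X = 3
  · exact Or.inl h3'
  right
  have hsq : ∀ n ∈ N, n * n = 1 := fun n hn =>
    (H8.mul_self_eq_one_or_card N ∅ (b := b) (by simp) (fun n hn _ h => hreg' n hn b h)
      (H8.isPreprimitive_ofFixing_of_isMPT h3.isMultiplyPretransitive (by simpa using hX) _ (by simp))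
      hn (by simp)).resolve_right (by simpa using h3')
  have := H8.card_le_four_of_regular N htrans hreg' hsq hbc
    (h3.isPreprimitive_ofFixingSubgroup (by
      rw [Set.encard_coe_eq_coe_finsetCard, Finset.card_pair hbc]; rfl))
  rw [Nat.card_eq_fintype_card] at this
  omega

end Cfsg.Agent.S0696
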