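import Cfsg.Statements.S0697
import Mathlib
import Cfsg.Agent.H8.Jordan2

set_option autoImplicit false
open Cfsg

namespace Cfsg.Agent.S0697

/-- In a `k`-primitive permutation group which is not the whole symmetric group, a non-trivial non-regular normal subgroup is `k`-transitive. -/
theorem result {α : Type*} [Fintype α] [DecidableEq α] (G : Subgroup (Equiv.Perm α)) {k : ℕ} (hk : 1 ≤ k) (hkn : k ≤ Fintype.card α) (hG : MulAction.IsMultiplyPreprimitive G α k) (htop : G ≠ ⊤) (H : Subgroup G) [H.Normal] (hH : H ≠ ⊥) (hnr : ∃ a : α, MulAction.stabilizer H a ≠ ⊥) : MulAction.IsMultiplyPretransitive H α k := by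
  have hmt := hG.isMultiplyPretransitive
  have hkn' : k ≤ Nat.card α := by simpa using hkn
  have hk2 : k + 2 ≤ Nat.card α := by
    by_contra h
    haveI : MulAction.IsMultiplyPretransitive G α (Nat.card α - 1) :=
      MulAction.isMultiplyPretransitive_of_le (n := k) (by omega) hkn'
    exact htop (Equiv.Perm.eq_top_of_isMultiplyPretransitive this)
  have hprim : ∀ U : Finset α, U.card < k → MulAction.IsPreprimitive (fixingSubgroup G (U : Set α))
      (SubMulAction.ofFixingSubgroup G (U : Set α)) := fun U hU => by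
    by_cases h : U.card + 1 = k
    · exact hG.isPreprimitive_ofFixingSubgroup (by
        rw [Set.encard_coe_eq_coe_finsetCard, ← h]; rfl)
    · exact H8.isPreprimitive_ofFixing_of_isMPT hmt hkn' U (by omega)
  refine H8.isMPT_normal_of_ne H hprim ?_
  by_contra hU
  obtain ⟨j, hj, h1, h2⟩ := H8.exists_min_fixing hmt hkn' (by omega) H hH hU
  rcases j with _ | j
  · obtain ⟨a, ha⟩ := hnr
    exact ha ((Subgroup.eq_bot_iff_forall _).2 fun n hn =>
      Subtype.ext (h1 n n.2 {a} (by simp) (by simpa [Subgroup.smul_def] using hn)))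
  obtain ⟨U, -, hU⟩ := Finset.exists_subset_card_eq (s := (Finset.univ : Finset α)) (n := j + 1)
    (by rw [Finset.card_univ]; omega)
  obtain ⟨n, hn, hn1, hnU⟩ := h2 U hU
  refine hn1 (H8.fixing_normal_step hmt (by omega) H h1 hn U hU hnU ?_)
  by_cases h4 : j + 4 ≤ k
  · exact Or.inl h4
  refine Or.inr ⟨by omega, ?_⟩
  obtain ⟨b, hb⟩ := H8.exists_notMem_of_card_lt U (by omega)
  have hc := Finset.card_insert_of_notMem hb
  refine (H8.mul_self_eq_one_or_card H U hb (fun m hm h3 h5 => h1 m hm (insert b U) (by omega)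
    fun v hv => ?_) (hprim _ (by omega)) hn hnU).resolve_right (by omega)
  rcases Finset.mem_insert.1 hv with rfl | hv
  exacts [h5, h3 v hv]

end Cfsg.Agent.S0697
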