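import Cfsg.Statements.S0699
import Mathlib
import Cfsg.Agent.H8.Generous

set_option autoImplicit false
open Cfsg

namespace Cfsg.Agent.S0699

open scoped Pointwise

/-- Wagner's Theorem: a non-trivial normal subgroup of a triply transitive permutation group of odd degree at least 5 is triply transitive. -/
theorem result {α : Type*} [Fintype α] [DecidableEq α] (G : Subgroup (Equiv.Perm α)) (hodd : Odd (Fintype.card α)) (h5 : 5 ≤ Fintype.card α) (hG : MulAction.IsMultiplyPretransitive G α 3) (N : Subgroup G) [N.Normal] (hN : N ≠ ⊥) : MulAction.IsMultiplyPretransitive N α 3 := by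
  have h5' : 5 ≤ Nat.card α := by simpa using h5
  have hodd' : ¬ 2 ∣ Nat.card α := by simpa [← even_iff_two_dvd] using hodd
  have hinv : ∀ t : G, t * t = 1 → ∀ S : Set α, (∀ x ∈ S, t • x ∈ S) → ¬ 2 ∣ S.ncard →
      ∃ x ∈ S, t • x = x := fun t ht S hS hc => by
    have ho : orderOf t ∣ 2 := orderOf_dvd_of_pow_eq_one (by rw [sq, ht])
    obtain ⟨x, hx, e⟩ := H8.exists_fixed_of_isPGroup (p := 2) (P := Subgroup.zpowers t)
      (IsPGroup.of_card_dvd_pow (n := 1) (by simpa [Nat.card_zpowers] using ho)) S (by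
        intro g hg x hx
        obtain ⟨n, rfl⟩ := (Submonoid.mem_powers_iff _ _).1 (mem_powers_iff_mem_zpowers.2 hg)
        clear hg
        induction n with
        | zero => simpa using hx
        | succ n ih => rw [pow_succ', mul_smul]; exact hS _ ih) hc
    exact ⟨x, hx, e t (Subgroup.mem_zpowers t)⟩
  have h2 : MulAction.IsMultiplyPretransitive N α 2 := by
    refine (H8.isMPT_normal (k := 2) (by omega) hG N hN).resolve_right fun ⟨_, h1, h2⟩ => hN ?_
    refine (Subgroup.eq_bot_iff_forall _).2 fun n hn => ?_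
    obtain ⟨x, -, e⟩ := hinv n (h1 n hn) Set.univ (by simp) (by simpa using hodd')
    exact h2 n hn x e
  obtain ⟨t, ht, htt, a, ha⟩ : ∃ t ∈ N, t * t = 1 ∧ ∃ a : α, t • a ≠ a := by
    obtain ⟨a, b, hab⟩ := Fintype.exists_pair_of_one_lt_card (by omega : 1 < Fintype.card α)
    obtain ⟨g, hg⟩ := H8.exists_smul_eq_of_isMPT' h2 (ι := Fin 2) (by simp) (x := ![a, b]) (y := ![b, a])
      (by simp [Function.Injective, hab, hab.symm]) (by simp [Function.Injective, hab, hab.symm])
    have hd : 2 ∣ orderOf g := by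
      by_contra hnd
      obtain ⟨m, hm⟩ : Odd (orderOf g) := by simpa [← even_iff_two_dvd] using hnd
      have e1 : g • a = b := hg 0
      have e2 : g • b = a := hg 1
      have e3 : ∀ m : ℕ, (g ^ 2) ^ m • b = b := fun m => by
        induction m with
        | zero => simp
        | succ m ih => rw [pow_succ, mul_smul, sq g, mul_smul, e2, e1, ← sq, ih]
      have := pow_orderOf_eq_one g
      rw [hm, pow_succ, pow_mul] at this
      exact hab (by rw [← e3 m, ← e1, ← mul_smul, this, one_smul])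
    obtain ⟨t, ht⟩ := exists_prime_orderOf_dvd_card' (G := N) 2 (hd.trans (orderOf_dvd_natCard g))
    refine ⟨t, t.2, congrArg Subtype.val (show t * t = 1 by rw [← sq, ← ht, pow_orderOf_eq_one]), ?_⟩
    by_contra h'
    push Not at h'
    have : t = 1 := Subtype.ext (Subtype.ext (Equiv.ext h'))
    simp [this] at ht
  obtain ⟨c, -, hc⟩ := hinv t htt Set.univ (by simp) (by simpa using hodd')
  have htt' : ∀ x : α, t • t • x = x := fun x => by rw [← mul_smul, htt, one_smul]
  have hca : c ≠ a := fun e => ha (e ▸ hc)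
  have hca' : c ≠ t • a := fun e => hca (by rw [← hc, e, htt'])
  have hgen : H8.Generous N α 2 := H8.generous_of_swaps fun s hs x hx y hy hxy => by
    obtain ⟨z, hz⟩ : ∃ z, s \ {x, y} = {z} := Finset.card_eq_one.1 (by
      rw [Finset.card_sdiff_of_subset (by intro u; simp; rintro (rfl | rfl) <;> assumption),
        Finset.card_pair hxy, hs])
    have hz' : z ∈ s \ {x, y} := hz ▸ Finset.mem_singleton_self z
    simp only [Finset.mem_sdiff, Finset.mem_insert, Finset.mem_singleton, not_or] at hz'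
    obtain ⟨g, hg⟩ := H8.exists_smul_eq_of_isMPT' hG (ι := Fin 3) (by simp) (x := ![a, t • a, c])
      (y := ![x, y, z]) (by simp [Function.Injective, Fin.forall_fin_succ, ha, ha.symm, hca, hca', hca.symm, hca'.symm])
      (by simp [Function.Injective, Fin.forall_fin_succ, hxy, hxy.symm, hz'.2.1, hz'.2.2, Ne.symm hz'.2.1, Ne.symm hz'.2.2])
    have e1 : g • a = x := hg 0
    have e2 : g • t • a = y := hg 1
    have e3 : g • c = z := hg 2
    refine ⟨⟨g * t * g⁻¹, ‹N.Normal›.conj_mem t ht g⟩, fun u hu => ?_⟩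
    show (g * t * g⁻¹) • u = _
    by_cases hux : u = x
    · rw [hux, Equiv.swap_apply_left, ← e1, ← e2]; simp [mul_smul]
    by_cases huy : u = y
    · rw [huy, Equiv.swap_apply_right, ← e1, ← e2]; simp [mul_smul, htt']
    have : u = z := Finset.mem_singleton.1 (hz ▸ by simp [hu, hux, huy])
    rw [Equiv.swap_apply_of_ne_of_ne hux huy, this, ← e3]; simp [mul_smul, hc]
  refine H8.isMPT_of_fixing_eq (k := 2) (by omega) fun U hU x y hx hy => ?_
  by_contra hno
  set K := fixingSubgroup N (U : Set α)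
  have hcard : ∀ x y, x ∉ U → y ∉ U →
      Nat.card (MulAction.orbit K x) = Nat.card (MulAction.orbit K y) := fun x y hx hy => by
    have key : ∀ x y, x ∉ U → y ∉ U →
        (MulAction.orbit K x).ncard ≤ (MulAction.orbit K y).ncard := fun x y hx hy => by
      obtain ⟨g, hg, rfl⟩ := H8.fixing_of_isMPT hG (by omega) U (by omega) hx hy
      refine Set.ncard_le_ncard_of_injOn (g • ·) ?_ (MulAction.injective g).injOn
      rintro _ ⟨u, rfl⟩
      refine ⟨⟨⟨g * u.1.1 * g⁻¹, ‹N.Normal›.conj_mem _ u.1.2 g⟩, (mem_fixingSubgroup_iff N).2 fun v hv => ?_⟩, ?_⟩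
      · show (g * u.1.1 * g⁻¹) • v = v
        rw [mul_smul, mul_smul, inv_smul_eq_iff.2 (hg v hv).symm,
          show u.1.1 • v = v from (mem_fixingSubgroup_iff N).1 u.2 v hv, hg v hv]
      · show (g * u.1.1 * g⁻¹) • g • x = g • u.1.1 • x
        simp [mul_smul]
    exact le_antisymm (key x y hx hy) (key y x hy hx)
  obtain ⟨S⟩ : Nonempty (Sylow 2 K) := inferInstance
  obtain ⟨z, hz, hS⟩ := H8.exists_fixed_of_isPGroup (G := K) S.2 (U : Set α)ᶜ (by
    intro g _ v hv h
    exact hv (MulAction.injective g ((mem_fixingSubgroup_iff N).1 g.2 _ h) ▸ h)) (by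
    have := Set.ncard_add_ncard_compl (U : Set α)
    rw [Set.ncard_coe_finset] at this
    omega)
  have hzo : ¬ 2 ∣ Nat.card (MulAction.orbit K z) := fun h => S.not_dvd_index (h.trans (by
    rw [Nat.card_coe_set_eq, ← MulAction.index_stabilizer]
    exact Subgroup.index_dvd_of_le hS))
  obtain ⟨i, hi⟩ := hgen.exists_dvd (by omega) Nat.prime_two le_rfl U hU ![x, y]
    (by simp [Fin.forall_fin_succ, hx, hy]) (by
      have h1 : y ∉ MulAction.orbit K x := fun ⟨u, e⟩ => hno ⟨u, (mem_fixingSubgroup_iff N).1 u.2, e⟩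
      have h2 : x ∉ MulAction.orbit K y := fun h => h1 (MulAction.mem_orbit_symm.1 h)
      simp [Fin.forall_fin_succ, h1, h2, K])
  exact hzo (by rw [← hcard (![x, y] i) z (by fin_cases i <;> simpa) hz]; exact hi)

end Cfsg.Agent.S0699
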