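import Cfsg.Statements.S0700
import Mathlib
import Cfsg.Agent.H8.Burnside2T

set_option autoImplicit false
open Cfsg

namespace Cfsg.Agent.S0700

/-- Burnside's Theorem on doubly transitive groups: a minimal normal subgroup of a finite doubly transitive permutation group is elementary abelian and regular, or simple and primitive. -/
theorem result {α : Type*} [Fintype α] [DecidableEq α] (G : Subgroup (Equiv.Perm α)) (hG : MulAction.IsMultiplyPretransitive G α 2) (N : Subgroup G) [N.Normal] (hN : N ≠ ⊥) (hmin : ∀ M : Subgroup G, M.Normal → M ≤ N → M = ⊥ ∨ M = N) : (IsMulCommutative N ∧ (∃ p : ℕ, p.Prime ∧ ∀ n ∈ N, n ^ p = 1) ∧ ∀ a : α, MulAction.stabilizer N a = ⊥) ∨ (IsSimpleGroup N ∧ MulAction.IsPreprimitive N α) := by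
  rcases H8.burnside_two_transitive hG N hN hmin with ⟨h1, ⟨p, j, hp, -, -, h2⟩, h3⟩ | ⟨h1, h2, -⟩
  · refine Or.inl ⟨⟨⟨fun x y => Subtype.ext (h1 x x.2 y y.2)⟩⟩, ⟨p, hp, h2⟩, fun a => ?_⟩
    rw [eq_bot_iff]
    intro m hm
    exact Subgroup.mem_bot.mpr (Subtype.ext (h3 m m.2 a hm))
  · exact Or.inr ⟨h1, h2⟩

end Cfsg.Agent.S0700
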