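import Cfsg.Statements.S0701
import Mathlib

set_option autoImplicit false
open Cfsg

namespace Cfsg.Agent.S0701

/-- The centraliser in the full symmetric group of a transitive permutation group `G` is semiregular, and it is transitive if and only if `G` is regular. -/
theorem result {α : Type*} (G : Subgroup (Equiv.Perm α)) [MulAction.IsPretransitive G α] : (∀ c ∈ Subgroup.centralizer (G : Set (Equiv.Perm α)), ∀ a : α, c a = a → c = 1) ∧ (MulAction.IsPretransitive (Subgroup.centralizer (G : Set (Equiv.Perm α))) α ↔ ∀ a : α, MulAction.stabilizer G a = ⊥) := by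
  have h1 : ∀ c ∈ Subgroup.centralizer (G : Set (Equiv.Perm α)), ∀ a : α, c a = a → c = 1 := by
    intro c hc a ha
    ext x
    obtain ⟨g, rfl⟩ := MulAction.exists_smul_eq G a x
    have := hc g.1 g.2
    have h2 := congrArg (fun σ : Equiv.Perm α => σ a) this
    simp only [Equiv.Perm.coe_mul, Function.comp_apply, ha] at h2
    exact h2.symm
  refine ⟨h1, ⟨fun ht a => ?_, fun hr => ⟨fun a b => ?_⟩⟩⟩
  · rw [eq_bot_iff]
    intro g hg
    rw [Subgroup.mem_bot]
    ext x
    obtain ⟨c, rfl⟩ := ht.exists_smul_eq a x
    have := c.2 g.1 g.2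
    have h2 := congrArg (fun σ : Equiv.Perm α => σ a) this
    have hg' : (g : Equiv.Perm α) a = a := hg
    simp only [Equiv.Perm.coe_mul, Function.comp_apply, hg'] at h2
    exact h2
  · have key : ∀ (x : α) (g h : G), g • x = h • x → g = h := by
      intro x g h hgh
      have : h⁻¹ * g ∈ MulAction.stabilizer G x := by
        rw [MulAction.mem_stabilizer_iff, mul_smul, hgh, inv_smul_smul]
      rw [hr x, Subgroup.mem_bot, inv_mul_eq_one] at this
      exact this.symm
    have bij : ∀ x : α, Function.Bijective (fun g : G => g • x) := fun x =>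
      ⟨fun g h => key x g h, fun y => MulAction.exists_smul_eq G x y⟩
    let c : Equiv.Perm α := (Equiv.ofBijective _ (bij a)).symm.trans (Equiv.ofBijective _ (bij b))
    have hc : ∀ g : G, c (g • a) = g • b := by
      intro g
      have : (Equiv.ofBijective _ (bij a)).symm (g • a) = g :=
        (Equiv.ofBijective _ (bij a)).symm_apply_apply g
      simp only [c, Equiv.trans_apply, this]
      rfl
    refine ⟨⟨c, fun h hh => ?_⟩, ?_⟩
    · ext x
      obtain ⟨g, rfl⟩ := MulAction.exists_smul_eq G a x
      have e1 := hc (⟨h, hh⟩ * g)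
      rw [mul_smul, mul_smul] at e1
      simp only [Equiv.Perm.coe_mul, Function.comp_apply, hc]
      exact e1.symm
    · have := hc 1
      simp only [one_smul] at this
      exact this

end Cfsg.Agent.S0701
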