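import Cfsg.Statements.S0702
import Mathlib

set_option autoImplicit false
open Cfsg

namespace Cfsg.Agent.S0702

open MulAction in
theorem aux {G : Type*} [Group G] {α : Type*} [MulAction G α] [IsPretransitive G α] (a : α) :
    ∃ φ : Subgroup.normalizer ((stabilizer G a : Subgroup G) : Set G) →* Equiv.Perm α,
      ∀ n (g : G), φ n (g • a) = g • (n : G)⁻¹ • a := by
  choose t ht using fun x => exists_smul_eq G a x
  let N := Subgroup.normalizer ((stabilizer G a : Subgroup G) : Set G)
  let f : N → α → α := fun n x => t x • (n : G)⁻¹ • a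
  have hf : ∀ (n : N) (g : G), f n (g • a) = g • (n : G)⁻¹ • a := by
    intro n g
    have h1 : g⁻¹ * t (g • a) ∈ stabilizer G a := by
      rw [mem_stabilizer_iff, mul_smul, ht, inv_smul_smul]
    have h2 := (Subgroup.mem_normalizer_iff.mp n.2 _).mp h1
    rw [mem_stabilizer_iff, mul_smul, mul_smul, mul_smul, smul_eq_iff_eq_inv_smul,
      inv_smul_eq_iff] at h2
    exact h2
  have hmul : ∀ (n m : N) x, f (n * m) x = f n (f m x) := by
    intro n m x
    obtain ⟨g, rfl⟩ := exists_smul_eq G a x
    rw [hf, hf, ← mul_smul g, ← mul_smul g, hf]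
    simp [mul_smul]
  have hone : ∀ x, f 1 x = x := by
    intro x
    obtain ⟨g, rfl⟩ := exists_smul_eq G a x
    rw [hf]; simp
  refine ⟨MonoidHom.mk' (fun n => ⟨f n, f n⁻¹, fun x => by rw [← hmul]; simp [hone],
    fun x => by rw [← hmul]; simp [hone]⟩) (fun n m => Equiv.ext (hmul n m)), hf⟩

/-- For a transitive permutation group `G` on a finite set, the centraliser of `G` in the symmetric group is isomorphic to `N_G(G_ω)/G_ω`, and its orbit of `ω` is the set of fixed points of `G_ω`. -/
theorem result {α : Type*} [Finite α] (G : Subgroup (Equiv.Perm α)) [MulAction.IsPretransitive G α] (a : α) : Nonempty (Subgroup.centralizer (G : Set (Equiv.Perm α)) ≃* Subgroup.normalizer ((MulAction.stabilizer G a : Subgroup G) : Set G) ⧸ (MulAction.stabilizer G a).subgroupOf (Subgroup.normalizer ((MulAction.stabilizer G a : Subgroup G) : Set G))) ∧ MulAction.orbit (Subgroup.centralizer (G : Set (Equiv.Perm α))) a = MulAction.fixedPoints (MulAction.stabilizer G a) α := by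
  obtain ⟨φ, hφ⟩ := aux (G := G) a
  have hfix : ∀ g : G, g • a ∈ MulAction.fixedPoints (MulAction.stabilizer G a) α →
      g⁻¹ ∈ Subgroup.normalizer ((MulAction.stabilizer G a : Subgroup G) : Set G) := by
    intro g hg
    apply Subgroup.mem_normalizer_fintype
    intro h hh
    have : h • g • a = g • a := hg ⟨h, hh⟩
    change _ ∈ MulAction.stabilizer G a
    rw [MulAction.mem_stabilizer_iff, mul_smul, mul_smul, inv_inv, this, inv_smul_smul]
  have hcfix : ∀ c ∈ Subgroup.centralizer (G : Set (Equiv.Perm α)),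
      c a ∈ MulAction.fixedPoints (MulAction.stabilizer G a) α := by
    intro c hc h
    have := congrArg (fun σ : Equiv.Perm α => σ a) (hc h.1.1 h.1.2)
    have h2 : (h.1.1 : Equiv.Perm α) a = a := h.2
    simp only [Equiv.Perm.coe_mul, Function.comp_apply, h2] at this
    exact this
  have hrange : φ.range = Subgroup.centralizer (G : Set (Equiv.Perm α)) := by
    ext c
    constructor
    · rintro ⟨n, rfl⟩ h hh
      ext x
      obtain ⟨g, rfl⟩ := MulAction.exists_smul_eq G a x
      have e1 := hφ n (⟨h, hh⟩ * g)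
      rw [mul_smul, mul_smul] at e1
      simp only [Equiv.Perm.coe_mul, Function.comp_apply, hφ]
      exact e1.symm
    · intro hc
      obtain ⟨g, hg⟩ := MulAction.exists_smul_eq G a (c a)
      refine ⟨⟨g⁻¹, hfix g (hg ▸ hcfix c hc)⟩, ?_⟩
      ext x
      obtain ⟨k, rfl⟩ := MulAction.exists_smul_eq G a x
      rw [hφ, inv_inv, hg]
      exact congrArg (fun σ : Equiv.Perm α => σ a) (hc k.1 k.2)
  have hker : φ.ker = (MulAction.stabilizer G a).subgroupOf
      (Subgroup.normalizer ((MulAction.stabilizer G a : Subgroup G) : Set G)) := by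
    ext n
    rw [MonoidHom.mem_ker, Subgroup.mem_subgroupOf, MulAction.mem_stabilizer_iff]
    constructor
    · intro h
      have := hφ n 1
      rw [h, one_smul, one_smul, Equiv.Perm.one_apply, eq_inv_smul_iff] at this
      exact this
    · intro h
      ext x
      obtain ⟨k, rfl⟩ := MulAction.exists_smul_eq G a x
      rw [hφ, inv_smul_eq_iff.mpr h.symm]; rfl
  refine ⟨⟨((MulEquiv.subgroupCongr hrange.symm).trans
    (QuotientGroup.quotientKerEquivRange φ).symm).trans
      (QuotientGroup.quotientMulEquivOfEq hker)⟩, ?_⟩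
  ext b
  constructor
  · rintro ⟨c, rfl⟩
    exact hcfix c c.2
  · intro hb
    obtain ⟨g, rfl⟩ := MulAction.exists_smul_eq G a b
    refine ⟨⟨φ ⟨g⁻¹, hfix g hb⟩, hrange ▸ ⟨_, rfl⟩⟩, ?_⟩
    have := hφ ⟨g⁻¹, hfix g hb⟩ 1
    simp only [one_smul, inv_inv] at this
    exact this

end Cfsg.Agent.S0702
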