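import Cfsg.Statements.S0703
import Mathlib
import Cfsg.Agent.H8.PermBasic

set_option autoImplicit false
open Cfsg

namespace Cfsg.Agent.S0703

/-- An abelian transitive minimal normal subgroup `M` of a permutation group on a finite set is self-centralising in the symmetric group, regular, elementary abelian, and is the unique minimal normal subgroup. -/
theorem result {α : Type*} [Finite α] (G : Subgroup (Equiv.Perm α)) (M : Subgroup G) [M.Normal] (hM : M ≠ ⊥) (hmin : ∀ L : Subgroup G, L.Normal → L ≤ M → L = ⊥ ∨ L = M) (hab : IsMulCommutative M) (htrans : MulAction.IsPretransitive M α) : Subgroup.centralizer ((M.map G.subtype : Subgroup (Equiv.Perm α)) : Set (Equiv.Perm α)) = M.map G.subtype ∧ (∀ a : α, MulAction.stabilizer M a = ⊥) ∧ (∃ p : ℕ, p.Prime ∧ ∀ m ∈ M, m ^ p = 1) ∧ ∀ L : Subgroup G, L.Normal → L ≠ ⊥ → (∀ L' : Subgroup G, L'.Normal → L' ≤ L → L' = ⊥ ∨ L' = L) → L = M := by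
  have hc : ∀ x ∈ M, ∀ y ∈ M, x * y = y * x := fun x hx y hy =>
    congrArg Subtype.val (hab.is_comm.comm (⟨x, hx⟩ : M) ⟨y, hy⟩)
  have hne : Nonempty α := by
    by_contra hne
    rw [not_nonempty_iff] at hne
    exact hM (Subsingleton.elim _ _)
  obtain ⟨a⟩ := hne
  have ht' : MulAction.IsPretransitive (M.map G.subtype) α := ⟨fun x y => by
    obtain ⟨m, hm⟩ := htrans.exists_smul_eq x y
    exact ⟨⟨m.1, m.1, m.2, rfl⟩, hm⟩⟩
  have h1 : Subgroup.centralizer ((M.map G.subtype : Subgroup (Equiv.Perm α)) : Set (Equiv.Perm α)) =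
      M.map G.subtype := by
    have hle : M.map G.subtype ≤
        Subgroup.centralizer ((M.map G.subtype : Subgroup (Equiv.Perm α)) : Set (Equiv.Perm α)) := by
      rintro _ ⟨x, hx, rfl⟩ _ ⟨y, hy, rfl⟩
      exact congrArg Subtype.val (hc y hy x hx)
    refine le_antisymm (fun c hc' => ?_) hle
    obtain ⟨m, hm⟩ := ht'.exists_smul_eq a (c • a)
    have := H8.eq_one_of_commute_of_fix _ ht' (c := (m : Equiv.Perm α)⁻¹ * c)
      (Subgroup.mul_mem _ (Subgroup.inv_mem _ (hle m.2)) hc') (a := a) (by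
        rw [mul_smul, inv_smul_eq_iff]; exact hm.symm)
    rw [inv_mul_eq_one] at this
    exact this ▸ m.2
  refine ⟨h1, fun b => ?_, H8.exists_prime_pow_eq_one_of_minimal M hM hmin hab, fun L hL hLb hLmin => ?_⟩
  · rw [eq_bot_iff]
    intro m hm
    rw [Subgroup.mem_bot]
    exact Subtype.ext (H8.eq_one_of_commute_of_fix M htrans (fun x hx => hc x hx m m.2) hm)
  · by_contra hne
    have hle : L ≤ M := by
      intro y hy
      have : (y : Equiv.Perm α) ∈ M.map G.subtype := by
        rw [← h1]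
        rintro _ ⟨x, hx, rfl⟩
        exact congrArg Subtype.val (H8.commute_of_minimal hmin hLmin hne hx hy)
      obtain ⟨z, hz, e⟩ := this
      rwa [← Subtype.ext e]
    rcases hmin L hL hle with h | h
    · exact hLb h
    · exact hne h

end Cfsg.Agent.S0703
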