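import Cfsg.Statements.S0704
import Mathlib
import Cfsg.Agent.H8.PermBasic

set_option autoImplicit false
open Cfsg

namespace Cfsg.Agent.S0704

theorem cent {α : Type*} (G : Subgroup (Equiv.Perm α)) (M N : Subgroup G) (a : α)
    (hc : ∀ x ∈ M, ∀ y ∈ N, x * y = y * x)
    (hMt : MulAction.IsPretransitive M α) (hNt : MulAction.IsPretransitive N α) :
    Subgroup.centralizer ((M.map G.subtype : Subgroup (Equiv.Perm α)) : Set (Equiv.Perm α)) =
      N.map G.subtype := by
  have ht' : MulAction.IsPretransitive (M.map G.subtype) α := ⟨fun x y => by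
    obtain ⟨m, hm⟩ := hMt.exists_smul_eq x y
    exact ⟨⟨m.1, m.1, m.2, rfl⟩, hm⟩⟩
  have hle : N.map G.subtype ≤
      Subgroup.centralizer ((M.map G.subtype : Subgroup (Equiv.Perm α)) : Set (Equiv.Perm α)) := by
    rintro _ ⟨x, hx, rfl⟩ _ ⟨y, hy, rfl⟩
    exact congrArg Subtype.val (hc y hy x hx)
  refine le_antisymm (fun c hc' => ?_) hle
  obtain ⟨m, hm⟩ := hNt.exists_smul_eq a (c • a)
  have hm' : (m : Equiv.Perm α) ∈ N.map G.subtype := ⟨m.1, m.2, rfl⟩
  have := H8.eq_one_of_commute_of_fix _ ht' (c := (m : Equiv.Perm α)⁻¹ * c)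
    (Subgroup.mul_mem _ (Subgroup.inv_mem _ (hle hm')) hc') (a := a) (by
      rw [mul_smul, inv_smul_eq_iff]; exact hm.symm)
  rw [inv_mul_eq_one] at this
  exact this ▸ hm'

/-- Two distinct transitive minimal normal subgroups `M`, `N` of a permutation group are regular, non-abelian, isomorphic, each other's centraliser in the symmetric group, and the only minimal normal subgroups. -/
theorem result {α : Type*} (G : Subgroup (Equiv.Perm α)) (M N : Subgroup G) [M.Normal] [N.Normal] (hM : M ≠ ⊥) (hN : N ≠ ⊥) (hMmin : ∀ L : Subgroup G, L.Normal → L ≤ M → L = ⊥ ∨ L = M) (hNmin : ∀ L : Subgroup G, L.Normal → L ≤ N → L = ⊥ ∨ L = N) (hMN : M ≠ N) (hMt : MulAction.IsPretransitive M α) (hNt : MulAction.IsPretransitive N α) : (∀ a : α, MulAction.stabilizer M a = ⊥) ∧ (∀ a : α, MulAction.stabilizer N a = ⊥) ∧ ¬ IsMulCommutative M ∧ Nonempty (M ≃* N) ∧ Subgroup.centralizer ((M.map G.subtype : Subgroup (Equiv.Perm α)) : Set (Equiv.Perm α)) = N.map G.subtype ∧ Subgroup.centralizer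 ((N.map G.subtype : Subgroup (Equiv.Perm α)) : Set (Equiv.Perm α)) = M.map G.subtype ∧ ∀ L : Subgroup G, L.Normal → L ≠ ⊥ → (∀ L' : Subgroup G, L'.Normal → L' ≤ L → L' = ⊥ ∨ L' = L) → L = M ∨ L = N := by
  have hc : ∀ x ∈ M, ∀ y ∈ N, x * y = y * x := fun x hx y hy =>
    H8.commute_of_minimal hMmin hNmin hMN.symm hx hy
  have hne : Nonempty α := by
    by_contra hne
    rw [not_nonempty_iff] at hne
    exact hM (Subsingleton.elim _ _)
  obtain ⟨a⟩ := hne
  have hMr : ∀ x ∈ M, ∀ b : α, x • b = b → x = 1 := fun x hx b hb =>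
    H8.eq_one_of_commute_of_fix N hNt (fun y hy => (hc x hx y hy).symm) hb
  have hNr : ∀ x ∈ N, ∀ b : α, x • b = b → x = 1 := fun x hx b hb =>
    H8.eq_one_of_commute_of_fix M hMt (fun y hy => hc y hy x hx) hb
  have c1 := cent G M N a hc hMt hNt
  have c2 := cent G N M a (fun x hx y hy => (hc y hy x hx).symm) hNt hMt
  have hcent : ∀ y : G, (∀ x ∈ M, x * y = y * x) → y ∈ N := by
    intro y hy
    have : (y : Equiv.Perm α) ∈ N.map G.subtype := by
      rw [← c1]
      rintro _ ⟨x, hx, rfl⟩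
      exact congrArg Subtype.val (hy x hx)
    obtain ⟨z, hz, e⟩ := this
    rwa [← Subtype.ext e]
  refine ⟨fun b => ?_, fun b => ?_, fun hab => ?_, ?_, c1, c2, fun L hL hLb hLmin => ?_⟩
  · rw [eq_bot_iff]
    intro m hm
    exact Subgroup.mem_bot.mpr (Subtype.ext (hMr m m.2 b hm))
  · rw [eq_bot_iff]
    intro m hm
    exact Subgroup.mem_bot.mpr (Subtype.ext (hNr m m.2 b hm))
  · have hle : M ≤ N := fun y hy => hcent y fun x hx =>
      congrArg Subtype.val (hab.is_comm.comm (⟨x, hx⟩ : M) ⟨y, hy⟩)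
    rcases hNmin M inferInstance hle with h | h
    · exact hM h
    · exact hMN h
  · choose ψ hψ using fun m : M => hNt.exists_smul_eq ((m : G) • a) a
    have hψ' : ∀ m : M, (ψ m : G) • (m : G) • a = a := hψ
    have huniq : ∀ (m : M) (n : N), (n : G) • (m : G) • a = a → ψ m = n := by
      intro m n h
      have := hNr ((n : G)⁻¹ * ψ m) (N.mul_mem (N.inv_mem n.2) (ψ m).2) ((m : G) • a) (by
        rw [mul_smul, hψ', inv_smul_eq_iff, h])
      rw [inv_mul_eq_one] at this
      exact (Subtype.ext this).symm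
    let f : M →* N := MonoidHom.mk' ψ (fun m₁ m₂ => huniq _ _ (by
      simp only [Subgroup.coe_mul, mul_smul]
      rw [← mul_smul (ψ m₂ : G), ← hc _ m₁.2 _ (ψ m₂).2, mul_smul, hψ', hψ']))
    refine ⟨MulEquiv.ofBijective f ⟨?_, ?_⟩⟩
    · rw [injective_iff_map_eq_one]
      intro m hm
      have := hψ' m
      rw [show ψ m = 1 from hm] at this
      exact Subtype.ext (hMr m m.2 a (by simpa using this))
    · intro n
      obtain ⟨m, hm⟩ := hMt.exists_smul_eq a ((n : G)⁻¹ • a)
      exact ⟨m, huniq m n (by rw [show (m : G) • a = _ from hm, smul_inv_smul])⟩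
  · by_cases hLM : L = M
    · exact Or.inl hLM
    · right
      have hle : L ≤ N := fun y hy => hcent y fun x hx =>
        H8.commute_of_minimal hMmin hLmin hLM hx hy
      exact (hNmin L hL hle).resolve_left hLb

end Cfsg.Agent.S0704
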