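import Cfsg.Statements.S0709
-- import your own Cfsg.Agent.* helpers here

set_option autoImplicit false
open Cfsg

namespace Cfsg.Agent.S0709

/-- the chain of groups -/
def K {Γ : Type*} [Group Γ] (G1 : Subgroup Γ) (s : ℕ → Γ) : ℕ → Subgroup Γ
  | 0 => G1
  | (i + 1) => Subgroup.closure ((K G1 s i : Set Γ) ∪ {s (i + 1)})

section Aux
variable {Γ : Type*} [Group Γ] (G1 : Subgroup Γ) (s : ℕ → Γ)

theorem K_le_succ (i : ℕ) : K G1 s i ≤ K G1 s (i + 1) :=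
  fun _ hx => Subgroup.subset_closure (Or.inl hx)

theorem K_mono {i j : ℕ} (h : i ≤ j) : K G1 s i ≤ K G1 s j :=
  monotone_nat_of_le_succ (K_le_succ G1 s) h

theorem s_mem {i j : ℕ} (h1 : 1 ≤ j) (h : j ≤ i) : s j ∈ K G1 s i := by
  obtain ⟨j, rfl⟩ : ∃ k, j = k + 1 := ⟨j - 1, by omega⟩
  exact K_mono G1 s h (Subgroup.subset_closure (Or.inr rfl))

theorem K_le {L : Subgroup Γ} (i : ℕ) (h0 : G1 ≤ L) (h : ∀ j, 1 ≤ j → j ≤ i → s j ∈ L) :
    K G1 s i ≤ L := by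
  induction i with
  | zero => exact h0
  | succ i ih =>
    refine (Subgroup.closure_le _).mpr ?_
    rintro x (hx | rfl)
    · exact ih (fun j h1 h2 => h j h1 (by omega)) hx
    · exact h _ (by omega) le_rfl

/-- double coset step -/
theorem step (A B : Subgroup Γ) (hAB : A ≤ B) (u v : Γ) (hu : u ∈ B) (hv2 : v ^ 2 ∈ A)
    (hbr : (u * v) ^ 3 ∈ B) (hn : ∀ a ∈ A, v * a * v⁻¹ ∈ A)
    (hD : ∀ g ∈ B, g ∈ A ∨ ∃ a ∈ A, ∃ b ∈ A, g = a * u * b) :
    ∀ g ∈ Subgroup.closure ((B : Set Γ) ∪ {v}), g ∈ B ∨ ∃ a ∈ B, ∃ b ∈ B, g = a * v * b := by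
  have hB : ∀ x ∈ B, ∀ y, (y ∈ B ∨ ∃ a ∈ B, ∃ b ∈ B, y = a * v * b) →
      (x * y ∈ B ∨ ∃ a ∈ B, ∃ b ∈ B, x * y = a * v * b) := by
    rintro x hx y (hy | ⟨a, ha, b, hb, rfl⟩)
    · exact Or.inl (B.mul_mem hx hy)
    · exact Or.inr ⟨x * a, B.mul_mem hx ha, b, hb, by group⟩
  have hv : ∀ y, (y ∈ B ∨ ∃ a ∈ B, ∃ b ∈ B, y = a * v * b) →
      (v * y ∈ B ∨ ∃ a ∈ B, ∃ b ∈ B, v * y = a * v * b) := by
    rintro y (hy | ⟨a, ha, b, hb, rfl⟩)
    · exact Or.inr ⟨1, B.one_mem, y, hy, by group⟩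
    rcases hD a ha with ha' | ⟨c, hc, d, hd, rfl⟩
    · left
      have : v * (a * v * b) = (v * a * v⁻¹) * v ^ 2 * b := by group
      rw [this]
      exact B.mul_mem (B.mul_mem (hAB (hn a ha')) (hAB hv2)) hb
    · right
      refine ⟨(v * c * v⁻¹) * (u⁻¹ * (u * v) ^ 3 * (v ^ 2)⁻¹), ?_,
        u⁻¹ * ((v ^ 2)⁻¹ * (v * d * v⁻¹) * v ^ 2) * b, ?_, ?_⟩
      · exact B.mul_mem (hAB (hn c hc))
          (B.mul_mem (B.mul_mem (B.inv_mem hu) hbr) (B.inv_mem (hAB hv2)))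
      · exact B.mul_mem (B.mul_mem (B.inv_mem hu)
          (hAB (A.mul_mem (A.mul_mem (A.inv_mem hv2) (hn d hd)) hv2))) hb
      · simp only [pow_succ, pow_zero, one_mul]
        group
  intro g hg
  induction hg using Subgroup.closure_induction_left with
  | one => exact Or.inl B.one_mem
  | mul_left x hx y _ ih =>
    rcases hx with hx | rfl
    · exact hB x hx y ih
    · exact hv y ih
  | inv_mul_cancel x hx y _ ih =>
    rcases hx with hx | rfl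
    · exact hB _ (B.inv_mem hx) y ih
    · have : x⁻¹ * y = (x ^ 2)⁻¹ * (x * y) := by group
      rw [this]
      exact hB _ (B.inv_mem (hAB hv2)) _ (hv y ih)

end Aux

/-- Witt's Lemma for constructing transitive extensions. Points `q 1, …, q t` (`t ≥ 2`) of a finite set are given; `G` fixes `q i` for `i ≥ 3` and is doubly transitive on the remaining points; `s 1 ∈ G` swaps `q 1, q 2`; for `2 ≤ i ≤ t-1`, `s i` swaps `q i, q (i+1)` and fixes the other `q j`; with `H` the stabiliser of `q 1, q 2` in `G`: `s i ^ 2 ∈ H`, `(s i * s (i+1)) ^ 3 ∈ H`, `(s i * s j) ^ 2 ∈ H` for `j ≥ i + 2`, and `s i` (`i ≥ 2`) normalises the stabiliser of `q 2` in `G`. Then `G` and the `s i` generate a `t`-transitive group whose pointwise stabiliser of the `q`'s is `H`. -/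
theorem result {α : Type*} [Fintype α] [DecidableEq α] (t : ℕ) (ht : 2 ≤ t) (q : ℕ → α) (hq : ∀ i j : ℕ, 1 ≤ i → i ≤ t → 1 ≤ j → j ≤ t → q i = q j → i = j) (G : Subgroup (Equiv.Perm α)) (hfix : ∀ g ∈ G, ∀ i : ℕ, 3 ≤ i → i ≤ t → g (q i) = q i) (h2 : ∀ a b c d : α, (∀ i, 3 ≤ i → i ≤ t → a ≠ q i ∧ b ≠ q i ∧ c ≠ q i ∧ d ≠ q i) → a ≠ b → c ≠ d → ∃ g ∈ G, g a = c ∧ g b = d) (s : ℕ → Equiv.Perm α) (hs1 : s 1 ∈ G) (hs1q : s 1 (q 1) = q 2 ∧ s 1 (q 2) = q 1) (hsq : ∀ i : ℕ, 2 ≤ i → i + 1 ≤ t → s i (q i) = q (i + 1) ∧ s i (q (i + 1)) = q i ∧ ∀ j : ℕ, 1 ≤ j → j ≤ t → j ≠ i → j ≠ i + 1 → s i (q j) = q j) (H : Subgroup (Equiv.Perm α)) (hH : H = G ⊓ MulAction.stabilizer (Equiv.Perm α) (q 1) ⊓ MulAction.stabilizer (Equiv.Perm α) (q 2)) (hsq2 : ∀ i : ℕ, 1 ≤ i → i + 1 ≤ t → s i ^ 2 ∈ H) (hbraid : ∀ i : ℕ, 1 ≤ i → i + 2 ≤ t → (s i * s (i + 1)) ^ 3 ∈ H) (hcomm : ∀ i j : ℕ, 1 ≤ i → i + 2 ≤ j → j + 1 ≤ t → (s i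 * s j) ^ 2 ∈ H ∧ (s j * s i) ^ 2 ∈ H) (hnorm : ∀ i : ℕ, 2 ≤ i → i + 1 ≤ t → ∀ g ∈ G ⊓ MulAction.stabilizer (Equiv.Perm α) (q 2), s i * g * (s i)⁻¹ ∈ G ⊓ MulAction.stabilizer (Equiv.Perm α) (q 2)) : MulAction.IsMultiplyPretransitive ↥(Subgroup.closure ((G : Set (Equiv.Perm α)) ∪ {x | ∃ i : ℕ, 2 ≤ i ∧ i + 1 ≤ t ∧ x = s i})) α t ∧ Subgroup.closure ((G : Set (Equiv.Perm α)) ∪ {x | ∃ i : ℕ, 2 ≤ i ∧ i + 1 ≤ t ∧ x = s i}) ⊓ fixingSubgroup (Equiv.Perm α) {x | ∃ i : ℕ, 1 ≤ i ∧ i ≤ t ∧ x = q i} = H := by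
  obtain ⟨G1, hG1⟩ : ∃ G1, G1 = G ⊓ MulAction.stabilizer (Equiv.Perm α) (q 2) := ⟨_, rfl⟩
  rw [← hG1] at hnorm
  have mG1 : ∀ g, g ∈ G1 ↔ g ∈ G ∧ g (q 2) = q 2 := fun g => by rw [hG1]; rfl
  have hHG1 : H ≤ G1 := by
    rw [hH, hG1]
    exact fun g hg => ⟨hg.1.1, hg.2⟩
  have hH' : ∀ i, H ≤ K G1 s i := fun i => hHG1.trans (K_mono G1 s (Nat.zero_le i))
  -- `K i` fixes `q j` for `j ≥ i + 2`
  have hF : ∀ i j, i + 2 ≤ j → j ≤ t → ∀ g ∈ K G1 s i, g (q j) = q j := by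
    intro i j h1 h2'
    refine K_le G1 s (L := MulAction.stabilizer (Equiv.Perm α) (q j)) i ?_ ?_
    · intro g hg
      rcases (show j = 2 ∨ 3 ≤ j by omega) with rfl | h3
      · exact ((mG1 g).1 hg).2
      · exact hfix g ((mG1 g).1 hg).1 j h3 h2'
    · intro l hl1 hl2
      rcases (show l = 1 ∨ 2 ≤ l by omega) with rfl | h3
      · exact hfix _ hs1 j (by omega) h2'
      · exact (hsq l h3 (by omega)).2.2 j (by omega) h2' (by omega) (by omega)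
  have hsw : ∀ i, 1 ≤ i → i + 1 ≤ t → s i (q (i + 1)) = q i := by
    intro i h1 h2'
    rcases (show i = 1 ∨ 2 ≤ i by omega) with rfl | h3
    · exact hs1q.2
    · exact (hsq i h3 h2').2.1
  have hq12 : q 1 ≠ q 2 := fun e => by have := hq 1 2 le_rfl (by omega) (by omega) ht e; omega
  have hq1 : ∀ i, 3 ≤ i → i ≤ t → q 1 ≠ q i := fun i h3 hi e => by
    have := hq 1 i le_rfl (by omega) (by omega) hi e; omega
  have hq2 : ∀ i, 3 ≤ i → i ≤ t → q 2 ≠ q i := fun i h3 hi e => by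
    have := hq 2 i (by omega) (by omega) (by omega) hi e; omega
  have hD0 : ∀ g ∈ G, g ∈ G1 ∨ ∃ a ∈ G1, ∃ b ∈ G1, g = a * s 1 * b := by
    intro g hg
    by_cases hg2 : g (q 2) = q 2
    · exact Or.inl ((mG1 g).2 ⟨hg, hg2⟩)
    right
    obtain ⟨a, ha, ha1, ha2⟩ := h2 (q 1) (q 2) (g (q 2)) (q 2) (fun i h3 hi =>
      ⟨hq1 i h3 hi, hq2 i h3 hi, fun e => hq2 i h3 hi
        (g.injective (e.trans (hfix g hg i h3 hi).symm)), hq2 i h3 hi⟩) hq12 hg2
    refine ⟨a, (mG1 a).2 ⟨ha, ha2⟩, (a * s 1)⁻¹ * g, (mG1 _).2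
      ⟨G.mul_mem (G.inv_mem (G.mul_mem ha hs1)) hg, ?_⟩, by group⟩
    rw [Equiv.Perm.mul_apply, Equiv.Perm.inv_eq_iff_eq, Equiv.Perm.mul_apply, hs1q.2, ha1]
  have hK1 : K G1 s 1 = G := by
    apply le_antisymm
    · refine K_le G1 s 1 (fun g hg => ((mG1 g).1 hg).1) fun j h1 h2' => ?_
      obtain rfl : j = 1 := by omega
      exact hs1
    · intro g hg
      rcases hD0 g hg with h | ⟨a, ha, b, hb, rfl⟩
      · exact K_le_succ G1 s 0 h
      · exact mul_mem (mul_mem (K_le_succ G1 s 0 ha) (s_mem G1 s le_rfl le_rfl))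
          (K_le_succ G1 s 0 hb)
  -- normalisation
  have hN : ∀ i, i + 3 ≤ t → ∀ a ∈ K G1 s i, s (i + 2) * a * (s (i + 2))⁻¹ ∈ K G1 s i := by
    intro i hi
    refine K_le G1 s (L := (K G1 s i).comap (MulAut.conj (s (i + 2))).toMonoidHom) i ?_ ?_
    · intro g hg
      exact K_mono G1 s (Nat.zero_le i) (hnorm (i + 2) (by omega) (by omega) g hg)
    · intro j h1 hj
      show s (i + 2) * s j * (s (i + 2))⁻¹ ∈ K G1 s i
      have : s (i + 2) * s j * (s (i + 2))⁻¹ =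
          (s (i + 2) * s j) ^ 2 * (s j)⁻¹ * (s (i + 2) ^ 2)⁻¹ := by
        simp only [pow_succ, pow_zero, one_mul]
        group
      rw [this]
      exact mul_mem (mul_mem (hH' i (hcomm j (i + 2) h1 (by omega) (by omega)).2)
        (inv_mem (s_mem G1 s h1 hj))) (inv_mem (hH' i (hsq2 (i + 2) (by omega) (by omega))))
  have hD : ∀ i, i + 2 ≤ t → ∀ g ∈ K G1 s (i + 1),
      g ∈ K G1 s i ∨ ∃ a ∈ K G1 s i, ∃ b ∈ K G1 s i, g = a * s (i + 1) * b := by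
    intro i
    induction i with
    | zero => intro _; rw [hK1]; exact hD0
    | succ i ih =>
      intro hi
      exact step (K G1 s i) (K G1 s (i + 1)) (K_le_succ G1 s i) (s (i + 1)) (s (i + 2))
        (s_mem G1 s (by omega) le_rfl) (hH' i (hsq2 (i + 2) (by omega) (by omega)))
        (hH' _ (hbraid (i + 1) (by omega) (by omega))) (hN i (by omega)) (ih (by omega))
  have hS : ∀ i, i + 2 ≤ t → ∀ g ∈ K G1 s (i + 1), g (q (i + 2)) = q (i + 2) →
      g ∈ K G1 s i := by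
    intro i hi g hg hgq
    rcases hD i hi g hg with h | ⟨a, ha, b, hb, rfl⟩
    · exact h
    · exfalso
      rw [Equiv.Perm.mul_apply, Equiv.Perm.mul_apply, hF i (i + 2) le_rfl hi b hb,
        hsw (i + 1) (by omega) hi] at hgq
      have := a.injective (hgq.trans (hF i (i + 2) le_rfl hi a ha).symm)
      have := hq _ _ (by omega) (by omega) (by omega) hi this
      omega
  -- transitivity
  have hT : ∀ i, i + 1 ≤ t → ∀ x, (∀ j, i + 2 ≤ j → j ≤ t → x ≠ q j) →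
      ∃ g ∈ K G1 s i, g (q (i + 1)) = x := by
    intro i
    induction i with
    | zero =>
      intro _ x hx
      obtain ⟨a, ha, ha1, ha2⟩ := h2 (q 1) (q 2) x (q 2) (fun i h3 hi =>
        ⟨hq1 i h3 hi, hq2 i h3 hi, hx i (by omega) hi, hq2 i h3 hi⟩) hq12 (hx 2 le_rfl ht)
      exact ⟨a, (mG1 a).2 ⟨ha, ha2⟩, ha1⟩
    | succ i ih =>
      intro hi x hx
      by_cases hxq : x = q (i + 2)
      · exact ⟨1, one_mem _, hxq.symm⟩
      obtain ⟨g, hg, hgx⟩ := ih (by omega) x (fun j h1 hj => by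
        rcases (show j = i + 2 ∨ i + 1 + 2 ≤ j by omega) with rfl | h3
        · exact hxq
        · exact hx j h3 hj)
      refine ⟨g * s (i + 1), mul_mem (K_le_succ G1 s i hg) (s_mem G1 s (by omega) le_rfl), ?_⟩
      rw [Equiv.Perm.mul_apply, hsw (i + 1) (by omega) hi, hgx]
  have hM : ∀ i, i + 1 ≤ t → ∀ x : ℕ → α,
      (∀ a b, 1 ≤ a → a ≤ i + 1 → 1 ≤ b → b ≤ i + 1 → x a = x b → a = b) →
      (∀ a j, 1 ≤ a → a ≤ i + 1 → i + 2 ≤ j → j ≤ t → x a ≠ q j) →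
      ∃ g ∈ K G1 s i, ∀ a, 1 ≤ a → a ≤ i + 1 → g (q a) = x a := by
    intro i
    induction i with
    | zero =>
      intro hi x _ hx
      obtain ⟨g, hg, hgx⟩ := hT 0 hi (x 1) (fun j h1 hj => hx 1 j le_rfl le_rfl h1 hj)
      refine ⟨g, hg, fun a h1 h2' => ?_⟩
      obtain rfl : a = 1 := by omega
      exact hgx
    | succ i ih =>
      intro hi x hinj hx
      obtain ⟨g, hg, hgx⟩ := hT (i + 1) hi (x (i + 2))
        (fun j h1 hj => hx (i + 2) j (by omega) le_rfl h1 hj)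
      obtain ⟨g', hg', hgx'⟩ := ih (by omega) (fun a => g⁻¹ (x a))
        (fun a b h1 h2' h3 h4 e => hinj a b h1 (by omega) h3 (by omega) (g⁻¹.injective e))
        (fun a j h1 h2' h3 h4 e => by
          rw [Equiv.Perm.inv_eq_iff_eq] at e
          rcases (show j = i + 2 ∨ i + 1 + 2 ≤ j by omega) with rfl | h5
          · have := hinj a (i + 2) h1 (by omega) (by omega) le_rfl (e.trans hgx)
            omega
          · exact hx a j h1 (by omega) h5 h4 (e.trans (hF (i + 1) j h5 h4 g hg)))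
      refine ⟨g * g', mul_mem hg (K_le_succ G1 s i hg'), fun a h1 h2' => ?_⟩
      rw [Equiv.Perm.mul_apply]
      rcases (show a = i + 2 ∨ a ≤ i + 1 by omega) with rfl | h5
      · rw [hF i (i + 2) le_rfl hi g' hg', hgx]
      · rw [hgx' a h1 h5]; simp
  obtain ⟨r, rfl⟩ : ∃ r, t = r + 2 := ⟨t - 2, by omega⟩
  have hcl : Subgroup.closure ((G : Set (Equiv.Perm α)) ∪
      {x | ∃ i : ℕ, 2 ≤ i ∧ i + 1 ≤ r + 2 ∧ x = s i}) = K G1 s (r + 1) := by
    apply le_antisymm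
    · refine (Subgroup.closure_le _).mpr ?_
      rintro x (hx | ⟨i, h1, h2', rfl⟩)
      · exact K_mono G1 s (show 1 ≤ r + 1 by omega) (hK1.symm ▸ hx)
      · exact s_mem G1 s (by omega) (by omega)
    · refine K_le G1 s _ (fun g hg => Subgroup.subset_closure (Or.inl ((mG1 g).1 hg).1)) ?_
      intro j h1 hj
      rcases (show j = 1 ∨ 2 ≤ j by omega) with rfl | h3
      · exact Subgroup.subset_closure (Or.inl hs1)
      · exact Subgroup.subset_closure (Or.inr ⟨j, h3, by omega, rfl⟩)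
  rw [hcl]
  constructor
  · have key : ∀ x : Fin (r + 2) ↪ α, ∃ g ∈ K G1 s (r + 1), ∀ a : Fin (r + 2),
        g (q (a + 1)) = x a := by
      intro x
      obtain ⟨g, hg, hgx⟩ := hM (r + 1) le_rfl
        (fun a => if h : a - 1 < r + 2 then x ⟨a - 1, h⟩ else q 0)
        (fun a b h1 h2' h3 h4 e => by
          simp only [dif_pos (show a - 1 < r + 2 by omega),
            dif_pos (show b - 1 < r + 2 by omega)] at e
          have := congrArg Fin.val (x.injective e)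
          simp only at this
          omega)
        (fun a j h1 h2' h3 h4 => by omega)
      refine ⟨g, hg, fun a => ?_⟩
      have := hgx (a + 1) (by omega) (by omega)
      simpa using this
    rw [MulAction.isMultiplyPretransitive_iff]
    intro x y
    obtain ⟨g, hg, hgx⟩ := key x
    obtain ⟨g', hg', hgy⟩ := key y
    refine ⟨⟨g' * g⁻¹, mul_mem hg' (inv_mem hg)⟩, ?_⟩
    ext a
    show (g' * g⁻¹) (x a) = y a
    rw [Equiv.Perm.mul_apply, ← hgx a, ← hgy a]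
    simp
  · apply le_antisymm
    · rintro g ⟨hg, hgf⟩
      have hgf' : ∀ i, 1 ≤ i → i ≤ r + 2 → g (q i) = q i := fun i h1 hi =>
        (mem_fixingSubgroup_iff _).1 hgf (q i) ⟨i, h1, hi, rfl⟩
      have : ∀ i, i ≤ r + 1 → g ∈ K G1 s i → g ∈ G1 := by
        intro i
        induction i with
        | zero => exact fun _ h => h
        | succ i ih =>
          exact fun hi h => ih (by omega) (hS i (by omega) g h (hgf' _ (by omega) (by omega)))
      have h1 := (mG1 g).1 (this _ le_rfl hg)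
      rw [hH]
      exact ⟨⟨h1.1, hgf' 1 le_rfl (by omega)⟩, h1.2⟩
    · intro g hg
      refine ⟨hH' _ hg, (mem_fixingSubgroup_iff _).2 ?_⟩
      rintro _ ⟨i, h1, hi, rfl⟩
      rcases (show i = 1 ∨ 2 ≤ i by omega) with rfl | h3
      · rw [hH] at hg
        exact hg.1.2
      · exact hF 0 i h3 hi g (hHG1 hg)

end Cfsg.Agent.S0709
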