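import Cfsg.Statements.S0710
import Mathlib
import Cfsg.Agent.H8.PermMod
import Cfsg.Agent.H8.PermBasic
import Cfsg.Agent.H8.SylowCount
import Cfsg.Agent.H1.Basic

set_option autoImplicit false
open Cfsg

namespace Cfsg.Agent.S0710

instance fact13 : Fact (Nat.Prime 13) := ⟨by norm_num⟩

/-- No transitive permutation group on 13 points has order `13 * 12 * 11 * 10 * 9 * 8`. -/
theorem result {α : Type*} [Fintype α] [DecidableEq α] (hα : Fintype.card α = 13) (G : Subgroup (Equiv.Perm α)) [MulAction.IsPretransitive G α] : Nat.card G ≠ 13 * 12 * 11 * 10 * 9 * 8 := by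
  intro hG
  obtain ⟨P⟩ : Nonempty (Sylow 13 G) := inferInstance
  have hP : Nat.card P = 13 := by
    rw [H8.card_sylow_of_dvd_of_not_dvd P (k := 1) (by rw [hG]; norm_num) (by rw [hG]; norm_num), pow_one]
  have htr : MulAction.IsPretransitive P α := H8.isPretransitive_sylow (f := 1) (by simpa using hα) P
  obtain ⟨a⟩ : Nonempty α := Fintype.card_pos_iff.1 (by omega)
  set C := Subgroup.centralizer ((P : Subgroup G) : Set G)
  have hC : Nat.card C ≤ 13 := by
    rw [← hα, ← Nat.card_eq_fintype_card]
    refine Nat.card_le_card_of_injective (fun c : C => c • a) fun c d e => ?_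
    have := H8.eq_one_of_commute_of_fix (P : Subgroup G) htr (c := (d⁻¹ * c : C)) (a := a)
      (fun m hm => (d⁻¹ * c).2 m hm) (by
        show (d⁻¹ * c) • a = a
        rw [mul_smul, inv_smul_eq_iff]; exact e)
    exact (inv_mul_eq_one.1 (Subtype.ext this)).symm
  haveI : IsCyclic P := isCyclic_of_prime_card hP
  have hPC : (P : Subgroup G) ≤ C := Subgroup.le_centralizer _
  have hC' : Nat.card C = 13 := le_antisymm hC (hP ▸ Subgroup.card_le_of_le hPC)
  have h1 := H8.relIndex_centralizer_normalizer_dvd_of_prime (P : Subgroup G) (by norm_num) hP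
  have h2 := H1.card_mul_relIndex (Subgroup.centralizer_le_normalizer ((P : Subgroup G) : Set G))
  have h3 := (Subgroup.normalizer ((P : Subgroup G) : Set G)).card_mul_index
  have h4 : (Subgroup.normalizer ((P : Subgroup G) : Set G)).index ≡ 1 [MOD 13] := by
    have := card_sylow_modEq_one 13 G
    rwa [P.card_eq_index_normalizer] at this
  rw [← h2, hC', hG] at h3
  generalize (Subgroup.normalizer ((P : Subgroup G) : Set G)).index = n at h3 h4
  generalize C.relIndex _ = r at h1 h3
  have : r ≤ 12 := Nat.le_of_dvd (by norm_num) h1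
  unfold Nat.ModEq at h4
  interval_cases r <;> omega

end Cfsg.Agent.S0710
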