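import Cfsg.Statements.S0712
import Mathlib
import Cfsg.Agent.H8.PermBasic

set_option autoImplicit false
open Cfsg

namespace Cfsg.Agent.S0712

/-- Jordan: a primitive group in which the pointwise stabiliser of a set `s` is doubly transitive on the complement of `s` (which has at least 2 points) is `(|s| + 2)`-transitive. -/
theorem result {α : Type*} [Fintype α] [DecidableEq α] (G : Subgroup (Equiv.Perm α)) (hG : MulAction.IsPreprimitive G α) (s : Set α) {m : ℕ} (hsm : s.ncard = m) (hm : m + 2 ≤ Fintype.card α) (h2 : MulAction.IsMultiplyPretransitive (fixingSubgroup G s) (SubMulAction.ofFixingSubgroup G s) 2) : MulAction.IsMultiplyPretransitive G α (m + 2) := by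
  have hfin : s.Finite := Set.toFinite s
  have hm' : MulAction.IsMultiplyPretransitive G α m := by
    rcases Nat.eq_zero_or_pos m with rfl | hpos
    · exact MulAction.is_zero_pretransitive'
    · obtain ⟨n, rfl⟩ : ∃ n, m = n + 1 := ⟨m - 1, by omega⟩
      have := hG.isMultiplyPreprimitive hsm (by rw [Nat.card_eq_fintype_card]; omega)
        (MulAction.isPreprimitive_of_is_two_pretransitive h2)
      exact MulAction.isMultiplyPretransitive_of_le (n := n + 2) (by omega)
        (by rw [Nat.card_eq_fintype_card]; omega)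
  rw [MulAction.isMultiplyPretransitive_iff]
  intro x y
  have : Finite s := hfin
  let e : Fin m ≃ s := (Finite.equivFinOfCardEq (by simpa using hsm)).symm
  have hmove : ∀ z : Fin (m + 2) ↪ α, ∃ g : G, (∀ i : Fin m, g • z (i.castAdd 2) = e i) ∧
      ∀ j : Fin 2, g • z (Fin.natAdd m j) ∉ s := by
    intro z
    obtain ⟨g, hg⟩ := H8.exists_smul_eq_of_isMPT' hm' (ι := Fin m) (by simp)
      (x := fun i => z (i.castAdd 2)) (y := fun i => (e i : α))
      (z.injective.comp (Fin.castAdd_injective _ _)) (Subtype.val_injective.comp e.injective)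
    refine ⟨g, hg, fun j hj => ?_⟩
    have := hg (e.symm ⟨_, hj⟩)
    rw [Equiv.apply_symm_apply, smul_left_cancel_iff] at this
    have := congrArg Fin.val (z.injective this)
    simp at this
    omega
  obtain ⟨g1, h11, h12⟩ := hmove x
  obtain ⟨g2, h21, h22⟩ := hmove y
  have inj : ∀ (z : Fin (m + 2) ↪ α) (g : G) (h : ∀ j : Fin 2, g • z (Fin.natAdd m j) ∉ s),
      Function.Injective (fun j : Fin 2 =>
        (⟨g • z (Fin.natAdd m j), h j⟩ : SubMulAction.ofFixingSubgroup G s)) := by
    intro z g h i j hij
    have := congrArg Subtype.val hij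
    simp only [smul_left_cancel_iff] at this
    exact Fin.natAdd_injective _ _ (z.injective this)
  obtain ⟨h, hh⟩ := H8.exists_smul_eq_of_isMPT' h2 (by simp) (inj x g1 h12) (inj y g2 h22)
  refine ⟨g2⁻¹ * h * g1, DFunLike.ext _ _ fun i => ?_⟩
  change (g2⁻¹ * h * g1) • x i = y i
  rw [mul_smul, mul_smul, inv_smul_eq_iff]
  induction i using Fin.addCases with
  | left i => rw [h11, h21]; exact h.2 (e i)
  | right j => exact congrArg Subtype.val (hh j)

end Cfsg.Agent.S0712
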