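import Cfsg.Statements.S0714
import Mathlib
import Cfsg.Agent.H8.PermMod2

set_option autoImplicit false
open Cfsg

namespace Cfsg.Agent.S0714

open MulAction

/-- Over any field, the permutation module of the alternating group of degree at least 5 has exactly four invariant subspaces: zero, the constant functions, the functions with coordinate sum zero, and everything. -/
theorem result {α : Type*} [Fintype α] [DecidableEq α] (hα : 5 ≤ Fintype.card α) {K : Type*} [Field K] (W : Subrepresentation (Cfsg.permRep K (alternatingGroup α) α)) : W.toSubmodule = ⊥ ∨ W = Cfsg.permConstants K (alternatingGroup α) α ∨ W = Cfsg.permSumZero K (alternatingGroup α) α ∨ W.toSubmodule = ⊤ := by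
  by_cases hc : ∀ w ∈ W.toSubmodule, ∀ x y, w x = w y
  · by_cases h0 : W.toSubmodule = ⊥
    · exact Or.inl h0
    right; left
    obtain ⟨w, hw, hw0⟩ := (Submodule.ne_bot_iff _).1 h0
    obtain ⟨a, ha⟩ := Function.ne_iff.1 hw0
    refine Subrepresentation.toSubmodule_injective (le_antisymm (fun v hv => ?_) fun v hv => ?_)
    · exact (H8.mem_permConstants _).2 ⟨v a, fun x => hc v hv x a⟩
    · obtain ⟨c, h⟩ := (H8.mem_permConstants _).1 hv
      have : v = (c / w a) • w := funext fun x => by
        rw [h, Pi.smul_apply, hc w hw x a, smul_eq_mul, div_mul_cancel₀ _ ha]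
      rw [this]; exact W.toSubmodule.smul_mem _ hw
  right; right
  push Not at hc
  obtain ⟨w, hw, a, b, hab⟩ := hc
  have hab' : a ≠ b := by rintro rfl; exact hab rfl
  have hact : ∀ σ : Equiv.Perm α, Equiv.Perm.sign σ = 1 → ∀ w ∈ W.toSubmodule,
      (fun x => w (σ x)) ∈ W.toSubmodule := fun σ hσ w hw =>
    W.apply_mem_toSubmodule (⟨σ, hσ⟩⁻¹ : alternatingGroup α) hw
  have hfree : ∀ s : Finset α, s.card ≤ 4 → ∃ c, c ∉ s := fun s hs => by
    by_contra h; push Not at h
    have := Finset.card_le_univ (s := s)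
    have := Finset.card_le_card (show Finset.univ ⊆ s from fun x _ => h x)
    rw [Finset.card_univ] at this; omega
  obtain ⟨c, hc⟩ := hfree {a, b} (Finset.card_le_two.trans (by norm_num))
  obtain ⟨d, hd⟩ := hfree {a, b, c} (Finset.card_le_three.trans (by norm_num))
  obtain ⟨e, he⟩ := hfree {a, b, c, d} Finset.card_le_four
  simp only [Finset.mem_insert, Finset.mem_singleton, not_or] at hc hd he
  have hsw : ∀ x y z t : α, x ≠ y → z ≠ t → Equiv.Perm.sign (Equiv.swap x y * Equiv.swap z t) = 1 := by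
    intro x y z t h1 h2; simp [Equiv.Perm.sign_swap h1, Equiv.Perm.sign_swap h2]
  -- a vector supported on `{a, b, c}`, then a multiple of `e_a - e_d`
  have h1 := W.toSubmodule.sub_mem hw (hact _ (hsw b c a c (Ne.symm hc.2) (Ne.symm hc.1)) w hw)
  set u : α → K := w - fun x => w ((Equiv.swap b c * Equiv.swap a c) x) with hu
  have hua : u a = w a - w b := by simp [hu]
  have hu0 : ∀ x, x ≠ a → x ≠ b → x ≠ c → u x = 0 := fun x h1 h2 h3 => by
    simp [hu, Equiv.swap_apply_of_ne_of_ne h1 h3, Equiv.swap_apply_of_ne_of_ne h2 h3]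
  have h2 := W.toSubmodule.sub_mem h1 (hact _ (hsw d e a d (Ne.symm he.2.2.2) (Ne.symm hd.1)) u h1)
  have h3 : (Pi.single a 1 - Pi.single d 1 : α → K) ∈ W.toSubmodule := by
    convert W.toSubmodule.smul_mem (w a - w b)⁻¹ h2 using 1
    funext x
    have hne := sub_ne_zero.2 hab
    simp only [Pi.sub_apply, Pi.smul_apply, smul_eq_mul, Equiv.Perm.mul_apply]
    by_cases hxa : x = a
    · subst hxa
      simp [hua, hu0 e he.1 he.2.1 he.2.2.1, Ne.symm hd.1, hne]
    by_cases hxd : x = d
    · subst hxd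
      simp [hua, hu0 x hd.1 hd.2.1 hd.2.2, hd.1, Equiv.swap_apply_of_ne_of_ne (Ne.symm hd.1) (Ne.symm he.1), hne]
      field_simp; ring
    by_cases hxe : x = e
    · subst hxe
      simp [hxa, hxd, Equiv.swap_apply_of_ne_of_ne hxa hxd, hu0 x he.1 he.2.1 he.2.2.1, hu0 d hd.1 hd.2.1 hd.2.2]
    · simp [hxa, hxd, Equiv.swap_apply_of_ne_of_ne hxa hxd, Equiv.swap_apply_of_ne_of_ne hxd hxe]
  have h4 : ∀ x y : α, (Pi.single x 1 - Pi.single y 1 : α → K) ∈ W.toSubmodule := by
    intro x y
    by_cases hxy : x = y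
    · simp [hxy]
    haveI := alternatingGroup.isMultiplyPretransitive α
    have h2t : IsMultiplyPretransitive (alternatingGroup α) α 2 :=
      isMultiplyPretransitive_of_le (n := Nat.card α - 2) (by rw [Nat.card_eq_fintype_card]; omega) (by omega)
    obtain ⟨g, e1, e2⟩ := is_two_pretransitive_iff.1 h2t (Ne.symm hd.1) hxy
    convert W.apply_mem_toSubmodule g h3 using 1
    funext z
    simp [H8.permRep_apply, Pi.single_apply, inv_smul_eq_iff, e1, e2]
  have h5 : (Cfsg.permSumZero K (alternatingGroup α) α).toSubmodule ≤ W.toSubmodule := by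
    intro v hv
    have : v = ∑ x, v x • (Pi.single x 1 - Pi.single a 1 : α → K) := by
      simp only [smul_sub, Finset.sum_sub_distrib, ← Finset.sum_smul, (H8.mem_permSumZero v).1 hv,
        zero_smul, sub_zero]
      funext y; simp [Finset.sum_apply, Pi.single_apply]
    rw [this]
    exact Submodule.sum_mem _ fun x _ => W.toSubmodule.smul_mem _ (h4 x a)
  by_cases h6 : W.toSubmodule ≤ (Cfsg.permSumZero K (alternatingGroup α) α).toSubmodule
  · exact Or.inl (Subrepresentation.toSubmodule_injective (le_antisymm h6 h5))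
  right
  obtain ⟨t, ht, ht0⟩ := SetLike.not_le_iff_exists.1 h6
  rw [H8.mem_permSumZero] at ht0
  refine eq_top_iff.2 fun v _ => ?_
  have : v = (v - ((∑ x, v x) / ∑ x, t x) • t) + ((∑ x, v x) / ∑ x, t x) • t := by simp
  rw [this]
  refine add_mem (h5 ?_) (W.toSubmodule.smul_mem _ ht)
  rw [H8.mem_permSumZero]
  simp [Finset.sum_sub_distrib, ← Finset.mul_sum, div_mul_cancel₀ _ ht0]

end Cfsg.Agent.S0714
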