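import Cfsg.Statements.S0716
import Mathlib
import Cfsg.Agent.H8.Cm2

set_option autoImplicit false
open Cfsg H3

namespace Cfsg.Agent.S0716

/-- (a) If all non-principal irreducible constituents of the permutation character of a transitive group have the same degree `f`, the character is multiplicity-free and all non-trivial subdegrees equal `f`. (b) A transitive group of rank at most 5 has multiplicity-free permutation character. -/
theorem result {G : Type*} [Group G] [Fintype G] {Ω : Type*} [Fintype Ω] [MulAction G Ω] [MulAction.IsPretransitive G Ω] (a : Ω) : ((f : ℕ) → (∀ χ : G → ℂ, Cfsg.IsIrrCharacter G χ → χ ≠ (fun _ => 1) → Cfsg.classInner (fun g : G => (Nat.card (MulAction.fixedBy Ω g) : ℂ)) χ ≠ 0 → χ 1 = f) → (∀ χ : G → ℂ, Cfsg.IsIrrCharacter G χ → Cfsg.classInner (fun g : G => (Nat.card (MulAction.fixedBy Ω g) : ℂ)) χ = 0 ∨ Cfsg.classInner (fun g : G => (Nat.card (MulAction.fixedBy Ω g) : ℂ)) χ = 1) ∧ ∀ b : Ω, b ≠ a → Nat.card (MulAction.orbit (MulAction.stabilizer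 G a) b) = f) ∧ (Nat.card (MulAction.orbitRel.Quotient (MulAction.stabilizer G a) Ω) ≤ 5 → ∀ χ : G → ℂ, Cfsg.IsIrrCharacter G χ → Cfsg.classInner (fun g : G => (Nat.card (MulAction.fixedBy Ω g) : ℂ)) χ = 0 ∨ Cfsg.classInner (fun g : G => (Nat.card (MulAction.fixedBy Ω g) : ℂ)) χ = 1) := by
  classical
  haveI : Nonempty Ω := ⟨a⟩
  set π : G → ℂ := fun g : G => (Nat.card (MulAction.fixedBy Ω g) : ℂ) with hπ
  have c : IsCharacter G π := isCharacter_fixedBy Ω
  choose m hm using fun χ : IrrCharacter G => c.inner_nat χ.2.isCharacter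
  let t : IrrCharacter G := ⟨_, isIrrCharacter_one⟩
  have mt : m t = 1 := Nat.cast_injective (R := ℂ) ((hm t).symm.trans (H8.inner_perm_one.trans (by simp)))
  have r : Nat.card (MulAction.orbitRel.Quotient (MulAction.stabilizer G a) Ω) =
      1 + ∑ χ ∈ Finset.univ.erase t, m χ * m χ := by
    apply Nat.cast_injective (R := ℂ)
    rw [← H8.inner_perm_self, c.isClassFunction.inner_eq_sum,
      ← Finset.add_sum_erase _ _ (Finset.mem_univ t)]
    simp only [← hπ, hm, mt]
    simp
  have A : ∀ f : ℕ, (∀ χ : G → ℂ, IsIrrCharacter G χ → χ ≠ (fun _ => 1) → classInner π χ ≠ 0 → χ 1 = f) →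
      (∀ χ : G → ℂ, IsIrrCharacter G χ → classInner π χ = 0 ∨ classInner π χ = 1) ∧
      ∀ b : Ω, b ≠ a → Nat.card (MulAction.orbit (MulAction.stabilizer G a) b) = f := fun f hf => by
    have d := fun b => H8.dvd_subdeg (G := G) (f := f) (a := a) (b := b) fun χ h1 h2 h3 =>
      ⟨1, by rw [hf χ h1 h2 h3]; simp⟩
    have n : Nat.card Ω = 1 + ∑ χ ∈ Finset.univ.erase t, m χ * f := by
      apply Nat.cast_injective (R := ℂ)
      have := c.isClassFunction.apply_eq_sum 1
      rw [← Finset.add_sum_erase _ _ (Finset.mem_univ t), hm, mt] at this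
      simp only [hπ, MulAction.fixedBy_one_eq_univ, Nat.card_univ] at this
      rw [this]
      push_cast
      congr 1
      · simp [t]
      refine Finset.sum_congr rfl fun χ h => ?_
      by_cases e : classInner π χ = 0
      · rw [← hm, e]; simp
      · rw [← hm, hf χ χ.2 (fun e => Finset.ne_of_mem_erase h (Subtype.ext e)) e]
    haveI := Fintype.ofFinite (MulAction.orbitRel.Quotient (MulAction.stabilizer G a) Ω)
    let q : MulAction.orbitRel.Quotient (MulAction.stabilizer G a) Ω := Quotient.mk'' a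
    have n' := Nat.card_congr (MulAction.selfEquivSigmaOrbits' (MulAction.stabilizer G a) Ω)
    have q1 : Nat.card q.orbit = 1 := by
      rw [Nat.card_coe_set_eq, Set.ncard_eq_one]
      exact ⟨a, Set.eq_singleton_iff_unique_mem.2 ⟨MulAction.mem_orbit_self a, fun _ ⟨g, h⟩ => h ▸ g.2⟩⟩
    rw [Nat.card_sigma, ← Finset.add_sum_erase _ _ (Finset.mem_univ q), q1, n, add_right_inj] at n'
    have l : ∀ ω ∈ Finset.univ.erase q, f ≤ Nat.card ω.orbit := fun ω h => by
      induction ω using Quotient.inductionOn' with | _ b => ?_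
      exact Nat.le_of_dvd (Nat.card_pos_iff.2 ⟨⟨_, MulAction.mem_orbit_self b⟩, inferInstance⟩)
        (d b fun e => Finset.ne_of_mem_erase h (by rw [e]))
    have l1 : ∀ χ ∈ Finset.univ.erase t, m χ * f ≤ m χ * m χ * f := fun χ _ =>
      Nat.mul_le_mul_right _ (Nat.le_mul_self _)
    have e : ∑ χ ∈ Finset.univ.erase t, m χ * m χ * f = ∑ _ω ∈ Finset.univ.erase q, f := by
      rw [← Finset.sum_mul, Finset.sum_const, Finset.card_erase_of_mem (Finset.mem_univ _),
        Finset.card_univ, ← Nat.card_eq_fintype_card, r]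
      simp
    have a1 := Finset.sum_le_sum l
    have a2 := Finset.sum_le_sum l1
    have b1 := (Finset.sum_eq_sum_iff_of_le l).1 (by omega)
    have b2 := (Finset.sum_eq_sum_iff_of_le l1).1 (by omega)
    refine ⟨fun χ hχ => or_iff_not_imp_left.2 fun h0 => ?_, fun b hb => (b1 (Quotient.mk'' b)
      (Finset.mem_erase.2 ⟨fun e => ?_, Finset.mem_univ _⟩)).symm⟩
    · by_cases e : (⟨χ, hχ⟩ : IrrCharacter G) = t
      · rw [hm ⟨χ, hχ⟩, e, mt, Nat.cast_one]
      have f0 : f ≠ 0 := fun z => hχ.deg_ne_zero (by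
        rw [hf χ hχ (fun e' => e (Subtype.ext e')) h0, z, Nat.cast_zero])
      have := Nat.eq_of_mul_eq_mul_right (Nat.pos_of_ne_zero f0)
        (b2 _ (Finset.mem_erase.2 ⟨e, Finset.mem_univ _⟩))
      rw [hm ⟨χ, hχ⟩] at h0 ⊢
      rw [(left_eq_mul₀ (Nat.cast_ne_zero.1 h0)).1 this, Nat.cast_one]
    · obtain ⟨g, h⟩ := Quotient.exact' e
      exact hb (h ▸ g.2)
  refine ⟨A, fun h χ hχ => by_contra fun k => ?_⟩
  have m2 : 2 ≤ m ⟨χ, hχ⟩ := by
    rw [hm ⟨χ, hχ⟩] at k
    norm_cast at k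
    omega
  have e : (⟨χ, hχ⟩ : IrrCharacter G) ≠ t := fun e => by rw [e] at m2; omega
  obtain ⟨f, -, hf⟩ := hχ.exists_deg
  refine k ((A f fun ψ hψ h1 h2 => by_contra fun h3 => ?_).1 χ hχ)
  have e' : (⟨ψ, hψ⟩ : IrrCharacter G) ≠ ⟨χ, hχ⟩ := fun e => h3 (by rw [show ψ = χ from congrArg Subtype.val e, hf])
  have := Finset.sum_le_sum_of_subset (f := fun χ => m χ * m χ)
    (show {⟨ψ, hψ⟩, ⟨χ, hχ⟩} ⊆ Finset.univ.erase t by
      simp only [Finset.insert_subset_iff, Finset.singleton_subset_iff, Finset.mem_erase, Finset.mem_univ, and_true]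
      exact ⟨fun e => h1 (congrArg Subtype.val e), e⟩)
  rw [Finset.sum_pair e'] at this
  rw [hm ⟨ψ, hψ⟩] at h2
  have := Nat.pos_of_ne_zero (Nat.cast_ne_zero.1 h2)
  nlinarith

end Cfsg.Agent.S0716
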