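import Cfsg.Statements.S0717
import Mathlib
import Cfsg.Agent.H8.Cm2

set_option autoImplicit false
open Cfsg H3

namespace Cfsg.Agent.S0717

/-- All suborbits of a transitive group are self-paired (every pair of points is interchanged by some group element) if and only if the permutation character is multiplicity-free and each of its irreducible constituents is real-valued. -/
theorem result {G : Type*} [Group G] [Fintype G] {Ω : Type*} [Fintype Ω] [MulAction G Ω] [MulAction.IsPretransitive G Ω] : (∀ a b : Ω, ∃ g : G, g • a = b ∧ g • b = a) ↔ ∀ χ : G → ℂ, Cfsg.IsIrrCharacter G χ → Cfsg.classInner (fun g : G => (Nat.card (MulAction.fixedBy Ω g) : ℂ)) χ ≠ 0 → Cfsg.classInner (fun g : G => (Nat.card (MulAction.fixedBy Ω g) : ℂ)) χ = 1 ∧ ∀ g : G, (starRingEnd ℂ) (χ g) = χ g := by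
  classical
  rw [← H8.char_perm]
  refine ⟨fun h χ hχ h0 => ?_, fun h a b => ?_⟩
  · have s : ∀ S, H8.IsCm (permRep ℂ G Ω) S → (LinearMap.toMatrix' S).transpose = LinearMap.toMatrix' S :=
      fun S hS => Matrix.ext fun x y => by
        obtain ⟨g, h1, h2⟩ := h x y
        rw [Matrix.transpose_apply, ← hS.inv g x y, h1, h2]
    have m := (H8.mult_le_one (fun S T hS hT => LinearMap.toMatrix'.injective (by
      rw [← s (S * T) fun g => by rw [mul_assoc, hT, ← mul_assoc, hS, mul_assoc],
        LinearMap.toMatrix'_mul, LinearMap.toMatrix'_mul, Matrix.transpose_mul, s S hS, s T hT])) hχ).resolve_left h0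
    refine ⟨m, fun g => ?_⟩
    have e := LinearMap.toMatrix'.injective ((H8.ee_transpose hχ.isCharacter).symm.trans
      (s _ (H8.ee_cm hχ.isClassFunction)))
    have c : IsIrrCharacter G fun g => (starRingEnd ℂ) (χ g) := hχ.gal _
    have e1 := H8.tf_ee (ρ := permRep ℂ G Ω) ⟨_, c⟩
    have e2 := H8.tf_ee (ρ := permRep ℂ G Ω) ⟨_, hχ⟩
    refine congrFun (c.eq_of_inner_ne_zero hχ fun z => ?_) g
    have := congrArg (classInner · χ) (e1.symm.trans ((congrArg _ e).trans e2))
    simp only [H3.inner_smul_left, z, hχ.inner_self, m, mul_zero, mul_one] at this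
    exact div_ne_zero (card_ne_zero G) hχ.deg_ne_zero this.symm
  · obtain ⟨c, hc⟩ := (H8.adj_inv (G := G) a b).cm.span fun χ hχ =>
      or_iff_not_imp_left.2 fun h0 => (h χ hχ h0).1
    have e := congrArg LinearMap.toMatrix' hc
    rw [LinearMap.toMatrix'_toLin'] at e
    have t : (H8.adj G a b).transpose = H8.adj G a b := by
      rw [e, map_sum, Matrix.transpose_sum]
      refine Finset.sum_congr rfl fun χ _ => ?_
      rw [map_smul, Matrix.transpose_smul, H8.ee_transpose χ.1.2.isCharacter,
        funext (h _ χ.1.2 (by rw [χ.2]; exact one_ne_zero)).2]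
    by_contra k
    have := congrFun (congrFun t a) b
    simp only [H8.adj, Matrix.transpose_apply, Matrix.of_apply] at this
    rw [if_neg k, if_pos ⟨1, by simp⟩] at this
    exact zero_ne_one this

end Cfsg.Agent.S0717
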