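import Cfsg.Statements.S0718
import Mathlib
import Cfsg.Agent.H8.Cm2

set_option autoImplicit false
open Cfsg

namespace Cfsg.Agent.S0718

/-- Multiplicity-freeness of the permutation character is equivalent to commutativity of the centraliser ring, i.e. of the algebra of `G`-equivariant endomorphisms of the complex permutation module. -/
theorem result {G : Type*} [Group G] [Fintype G] {Ω : Type*} [Fintype Ω] [MulAction G Ω] : (∀ χ : G → ℂ, Cfsg.IsIrrCharacter G χ → Cfsg.classInner (fun g : G => (Nat.card (MulAction.fixedBy Ω g) : ℂ)) χ = 0 ∨ Cfsg.classInner (fun g : G => (Nat.card (MulAction.fixedBy Ω g) : ℂ)) χ = 1) ↔ ∀ S T : (Ω → ℂ) →ₗ[ℂ] (Ω → ℂ), S ∈ ((Cfsg.permRep ℂ G Ω).linHom (Cfsg.permRep ℂ G Ω)).invariants → T ∈ ((Cfsg.permRep ℂ G Ω).linHom (Cfsg.permRep ℂ G Ω)).invariants → S ∘ₗ T = T ∘ₗ S := by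
  classical
  have k : ∀ S : (Ω → ℂ) →ₗ[ℂ] (Ω → ℂ), S ∈ ((Cfsg.permRep ℂ G Ω).linHom (Cfsg.permRep ℂ G Ω)).invariants ↔
      H8.IsCm (permRep ℂ G Ω) S := fun S => forall_congr' fun g => by
    change permRep ℂ G Ω g * S * permRep ℂ G Ω g⁻¹ = S ↔ _
    refine ⟨fun h => ?_, fun h => ?_⟩
    · conv_lhs => rw [← h, mul_assoc, ← map_mul, inv_mul_cancel, map_one, mul_one]
    · rw [← h, mul_assoc, ← map_mul, mul_inv_cancel, map_one, mul_one]
  simp only [k, ← H8.char_perm]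
  refine ⟨fun h S T hS hT => ?_, fun h χ hχ => H8.mult_le_one h hχ⟩
  obtain ⟨c, rfl⟩ := hS.span h
  change _ * T = T * _
  simp only [Finset.sum_mul, Finset.mul_sum, smul_mul_assoc, mul_smul_comm, hT.ee]

end Cfsg.Agent.S0718
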