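import Cfsg.Statements.S0719
import Mathlib
import Cfsg.Agent.H8.W2s

set_option autoImplicit false
open Cfsg H3

namespace Cfsg.Agent.S0719

/-- Groups of Wielandt type: if a primitive group of degree `2m` has rank 3 and permutation character `1 + χ₁ + χ₂` with irreducible `χ₁, χ₂` of degrees `m - 1` and `m`, then `m = 2a² + 2a + 1` for some positive integer `a` and the two non-trivial subdegrees are `a(2a+1)` and `(a+1)(2a+1)`. -/
theorem result {G : Type*} [Group G] [Fintype G] {Ω : Type*} [Fintype Ω] [MulAction G Ω] (hprim : MulAction.IsPreprimitive G Ω) {m : ℕ} (hm : Fintype.card Ω = 2 * m) (a₀ : Ω) (hrank : Nat.card (MulAction.orbitRel.Quotient (MulAction.stabilizer G a₀) Ω) = 3) (χ₁ χ₂ : G → ℂ) (h₁ : Cfsg.IsIrrCharacter G χ₁) (h₂ : Cfsg.IsIrrCharacter G χ₂) (hπ : (fun g : G => (Nat.card (MulAction.fixedBy Ω g) : ℂ)) = fun g => 1 + χ₁ g + χ₂ g) (hd₁ : χ₁ 1 = (m : ℂ) - 1) (hd₂ : χ₂ 1 = m) : ∃ a : ℕ, 0 < a ∧ m = 2 * a ^ 2 + 2 * a + 1 ∧ ∀ b : Ω, b ≠ a₀ → Nat.card (MulAction.orbit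 (MulAction.stabilizer G a₀) b) = a * (2 * a + 1) ∨ Nat.card (MulAction.orbit (MulAction.stabilizer G a₀) b) = (a + 1) * (2 * a + 1) := by
  classical
  haveI : Nonempty Ω := ⟨a₀⟩
  let t : IrrCharacter G := ⟨_, isIrrCharacter_one⟩
  let x : IrrCharacter G := ⟨_, h₁⟩
  let y : IrrCharacter G := ⟨_, h₂⟩
  have i : ∀ θ : IrrCharacter G, classInner (H8.pc G Ω) θ =
      (if t = θ then 1 else 0) + (if x = θ then 1 else 0) + if y = θ then 1 else 0 := fun θ => by
    rw [← inner_irr, ← inner_irr, ← inner_irr, ← H3.inner_add_left, ← H3.inner_add_left]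
    exact congrArg (classInner · θ.1) hπ
  have xy : x ≠ y := fun e => by
    have : χ₁ 1 = χ₂ 1 := congrFun (congrArg Subtype.val e) 1
    simp [hd₁, hd₂] at this
  have it := (i t).symm.trans H8.inner_perm_one
  have xt : x ≠ t := fun e => by by_cases y = t <;> simp [*] at it
  have yt : y ≠ t := fun e => by simp [*] at it
  obtain ⟨d, d0, hd⟩ := h₁.exists_deg
  obtain rfl : m = d + 1 := by exact_mod_cast (show (m : ℂ) = d + 1 by rw [← hd, hd₁]; ring)
  have z : ∀ θ : IrrCharacter G, θ ∉ ({t, x, y} : Finset _) → classInner (H8.pc G Ω) θ = 0 :=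
    fun θ h => by simp only [Finset.mem_insert, Finset.mem_singleton, not_or] at h; simp [i, Ne.symm, h]
  have gal : ∀ θ : IrrCharacter G, θ = x ∨ θ = y → ∀ (σ : ℂ ≃+* ℂ) g, σ (θ.1 g) = θ.1 g := by
    intro θ h σ g
    let ψ : IrrCharacter G := ⟨_, θ.2.gal σ.toRingHom⟩
    have a := inner_gal (H8.pc G Ω) θ.2.isCharacter.isGen σ.toRingHom
    simp only [map_natCast] at a
    have b : ψ ∈ ({t, x, y} : Finset _) := by_contra fun e => by
      have := (z ψ e).symm.trans a
      rcases h with rfl | rfl <;> simp [i, xy, xt.symm, yt.symm, xy.symm] at this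
    have c : ψ.1 1 = θ.1 1 := by
      obtain ⟨d, -, hd⟩ := θ.2.exists_deg
      simp [ψ, hd]
    have n : ψ ≠ t := fun e => by
      have : θ = t := Subtype.ext (funext fun g => σ.injective
        ((congrFun (congrArg Subtype.val e) g).trans (map_one σ).symm))
      rcases h with rfl | rfl <;> contradiction
    refine congrFun (congrArg Subtype.val (show ψ = θ from ?_)) g
    simp only [Finset.mem_insert, Finset.mem_singleton, n, false_or] at b
    rcases h with rfl | rfl <;> rcases b with b | b <;> try exact b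
    all_goals simp [b, x, y, hd₁, hd₂, eq_comm] at c
  have ne : ∀ b ≠ a₀, Nat.card (MulAction.orbit (MulAction.stabilizer G a₀) b) ≠ 1 := fun b =>
    H8.subdeg_ne_one hprim (by
      rw [Nat.card_eq_fintype_card, hm]
      exact Nat.not_prime_mul (by simp) (by omega))
  have key : ∀ b ≠ a₀, ∃ θ : ℤ, (d + 1 : ℤ) = 2 * θ ^ 2 + 2 * θ + 1 ∧
      Nat.card (MulAction.orbit (MulAction.stabilizer G a₀) b) = (θ + 1) * (2 * θ + 1) := by
    intro b hb
    have v := H8.adj_inv (G := G) a₀ b
    have c := v.cm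
    have I := fun θ : IrrCharacter G => c.integral (H8.adj_integral a₀ b) θ.2.isCharacter
    have r : ∀ (σ : ℂ →+* ℂ) u w, σ (H8.adj G a₀ b u w) = H8.adj G a₀ b u w := fun σ u w => by
      rcases H8.adj_cases (G := G) a₀ b u w with e | e <;> simp [e]
    have Z : ∀ θ : IrrCharacter G, θ = x ∨ θ = y → ∃ n : ℤ, classInner (H8.tf (permRep ℂ G Ω)
        (Matrix.toLin' (H8.adj G a₀ b))) θ = n := fun θ h => exists_int_of_fixed (I θ).1 fun σ => by
      refine (inner_gal _ θ.2.isCharacter.isGen σ.toRingHom).symm.trans ?_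
      congr 1 <;> ext g
      · simp only [H8.tf_toLin', map_sum, r]
      · exact gal θ h σ g
    obtain ⟨θ, hθ⟩ := Z x (.inl rfl)
    obtain ⟨τ, hτ⟩ := Z y (.inr rfl)
    have hk := v.inner_one (H8.adj_row a₀ b)
    have S : ∀ F : IrrCharacter G → ℂ, ∑ ψ : IrrCharacter G, classInner (H8.tf (permRep ℂ G Ω)
        (Matrix.toLin' (H8.adj G a₀ b))) ψ * F ψ = Nat.card (MulAction.orbit
          (MulAction.stabilizer G a₀) b) * F t + (θ * F x + τ * F y) := fun F => by
      rw [← Finset.sum_subset (Finset.subset_univ {t, x, y}) fun ψ _ h => by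
        rw [(I ψ).2 (by rw [H8.char_perm]; exact z ψ h), zero_mul],
        Finset.sum_insert (by simp [xt.symm, yt.symm]), Finset.sum_pair xy, hθ, hτ, ← hk]
    have e1 := (c.cls.apply_eq_sum 1).trans (S _)
    have e2 := c.tr_mul (fun ψ hψ => by
      rw [H8.char_perm]
      by_cases e : (⟨ψ, hψ⟩ : IrrCharacter G) ∈ ({t, x, y} : Finset _)
      · refine .inr ((i ⟨ψ, hψ⟩).trans ?_)
        simp only [Finset.mem_insert, Finset.mem_singleton] at e
        rcases e with e | e | e <;> simp [e, xy, xt, yt, xt.symm, yt.symm, xy.symm]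
      · exact .inl (z _ e)) (Matrix.toLin' (H8.adj G a₀ b).transpose)
    have : ∀ u w, H8.adj G a₀ b u w * H8.adj G a₀ b u w = H8.adj G a₀ b u w := fun u w => by
      rcases H8.adj_cases (G := G) a₀ b u w with e | e <;> simp [e]
    simp only [H8.tr_toLin', Matrix.transpose_apply, this, H8.adj_row, fun θ : IrrCharacter G =>
      H8.inner_tf_transpose v (r _) θ.2.isCharacter, mul_assoc] at e2
    simp only [mul_left_comm _ (classInner _ _), S] at e2
    rw [hθ, hτ, show classInner _ t.1 = _ from hk] at e2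
    simp only [H8.tf_toLin', inv_one, one_smul, H8.adj_diag hb, t, x, y, hd, hd₂, map_natCast,
      map_intCast, Finset.sum_const, Finset.card_univ, hm, nsmul_eq_mul, mul_zero] at e1 e2
    have := ne b hb
    have := H8.sd_pos (K := MulAction.stabilizer G a₀) b
    haveI := Fintype.ofFinite (MulAction.orbitRel.Quotient (MulAction.stabilizer G a₀) Ω)
    obtain ⟨q, -, hq⟩ := Finset.exists_mem_notMem_of_card_lt_card (s := {Quotient.mk'' a₀,
      Quotient.mk'' b}) (t := (Finset.univ : Finset (MulAction.orbitRel.Quotient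
        (MulAction.stabilizer G a₀) Ω))) (Finset.card_le_two.trans_lt (by
          rw [Finset.card_univ, ← Nat.card_eq_fintype_card, hrank]; simp))
    induction q using Quotient.inductionOn' with | _ w => ?_
    have n' := Nat.card_congr (MulAction.selfEquivSigmaOrbits' (MulAction.stabilizer G a₀) Ω)
    rw [Nat.card_sigma, Nat.card_eq_fintype_card, hm] at n'
    have l := (Finset.sum_le_sum_of_subset (Finset.subset_univ {Quotient.mk'' w, Quotient.mk'' a₀,
      Quotient.mk'' b})).trans n'.ge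
    rw [Finset.sum_insert hq, Finset.sum_pair fun e => by
      obtain ⟨g, h⟩ := Quotient.exact' e.symm; exact hb (h ▸ g.2)] at l
    simp only [MulAction.orbitRel.Quotient.orbit_mk] at l
    have := ne w fun e => hq (by simp [e])
    have := H8.sd_pos (K := MulAction.stabilizer G a₀) w
    have := H8.sd_pos (K := MulAction.stabilizer G a₀) a₀
    generalize Nat.card (MulAction.orbit (MulAction.stabilizer G a₀) b) = k at *
    norm_cast at e1 e2
    push_cast at e1 e2
    obtain ⟨c, rfl⟩ : ∃ c, τ = -c - θ := ⟨-τ - θ, by ring⟩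
    have e3 : (k : ℤ) = θ + (d + 1) * c := by linarith
    have e4 : 2 * (θ + c) * (θ + c - 1) + d * (c * (c - 2)) = 0 := by
      apply mul_left_cancel₀ (show (d + 1 : ℤ) ≠ 0 by omega)
      rw [e3] at e2
      linarith
    have n0 : 0 ≤ (θ + c) * (θ + c - 1) := by
      rcases le_or_gt (θ + c) 0 with h | h <;> nlinarith
    have c0 : c * (c - 2) ≤ 0 := by nlinarith
    obtain rfl | rfl | rfl : c = 0 ∨ c = 1 ∨ c = 2 := by
      have : 0 ≤ c := by nlinarith
      have : c ≤ 2 := by nlinarith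
      omega
    · nlinarith [show 2 ≤ θ by omega]
    · exact ⟨θ, by linarith, by linarith⟩
    · nlinarith [show θ ≤ -3 by omega]
  obtain ⟨b, hb⟩ := Fintype.exists_ne_of_one_lt_card (by omega) a₀
  obtain ⟨θ, h, -⟩ := key b hb
  obtain ⟨a, ha⟩ : ∃ a : ℕ, (d + 1 : ℤ) = 2 * a ^ 2 + 2 * a + 1 := by
    obtain ⟨a, rfl | rfl⟩ := Int.eq_nat_or_neg θ
    · exact ⟨a, h⟩
    · obtain _ | a := a
      · simp at h; omega
      · exact ⟨a, by push_cast at h; linarith⟩
  refine ⟨a, Nat.pos_of_ne_zero (by rintro rfl; simp at ha; omega), by exact_mod_cast ha,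
    fun b hb => ?_⟩
  obtain ⟨θ, h1, h2⟩ := key b hb
  rcases mul_eq_zero.1 (show (θ - a) * (θ + a + 1) = 0 by linarith) with e | e
  · right; obtain rfl : θ = a := by omega
    exact_mod_cast h2
  · left; obtain rfl : θ = -a - 1 := by omega
    nlinarith

end Cfsg.Agent.S0719
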