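import Cfsg.Statements.S0720
import Mathlib
import Cfsg.Agent.H8.W2s
import Cfsg.Agent.H8.Jordan

set_option autoImplicit false
open Cfsg

namespace Cfsg.Agent.S0720

/-- Wielandt's Theorem on primitive groups of degree `2p`: such a group is doubly transitive, or it has rank 3, `p = 2a² + 2a + 1`, and subdegrees `a(2a+1)` and `(a+1)(2a+1)`. -/
theorem result {α : Type*} [Fintype α] [DecidableEq α] {p : ℕ} (hp : p.Prime) (hα : Fintype.card α = 2 * p) (G : Subgroup (Equiv.Perm α)) (hG : MulAction.IsPreprimitive G α) (a₀ : α) : MulAction.IsMultiplyPretransitive G α 2 ∨ (Nat.card (MulAction.orbitRel.Quotient (MulAction.stabilizer G a₀) α) = 3 ∧ ∃ a : ℕ, 0 < a ∧ p = 2 * a ^ 2 + 2 * a + 1 ∧ ∀ b : α, b ≠ a₀ → Nat.card (MulAction.orbit (MulAction.stabilizer G a₀) b) = a * (2 * a + 1) ∨ Nat.card (MulAction.orbit (MulAction.stabilizer G a₀) b) = (a + 1) * (2 * a + 1)) := by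
  classical
  haveI := Fact.mk hp
  have p2 := hp.two_le
  obtain ⟨x, hx⟩ := exists_prime_orderOf_dvd_card' (G := G) p (by
    rw [← (MulAction.stabilizer G a₀).card_mul_index, MulAction.index_stabilizer_of_transitive,
      Nat.card_eq_fintype_card (α := α), hα]
    exact ((dvd_mul_left ..).mul_left _))
  have hx' : orderOf (x : Equiv.Perm α) = p := (Subgroup.orderOf_coe x).trans hx
  by_cases h : ∀ u ∈ Subgroup.zpowers x, u ≠ 1 → ∀ y : α, u • y ≠ y
  · haveI := Fintype.ofFinite G
    haveI := Fintype.ofFinite (Subgroup.zpowers x)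
    exact (H8.S2p.exists_W ⟨(Nat.card_zpowers x).trans hx, h, hα, hG⟩).imp_right
      fun ⟨_, h⟩ => h.main a₀
  push Not at h
  obtain ⟨u, hu, u1, y, hy⟩ := h
  have ou : orderOf (u : Equiv.Perm α) = p := (Subgroup.orderOf_coe u).trans (orderOf_eq_prime
    (orderOf_dvd_iff_pow_eq_one.1 (hx ▸ orderOf_dvd_of_mem_zpowers hu)) u1)
  have c := Equiv.Perm.isCycle_of_prime_order (ou ▸ hp) (by
    rw [ou, ← hα]
    exact Finset.card_lt_univ_of_notMem (Equiv.Perm.notMem_support.2 hy))
  have s := c.orderOf.symm.trans ou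
  have A : alternatingGroup α ≤ G := by
    obtain rfl | p3 := p2.eq_or_lt
    · rw [Equiv.Perm.subgroup_eq_top_of_isPreprimitive_of_isSwap_mem hG u
        (Equiv.Perm.card_support_eq_two.1 s) u.2]
      exact le_top
    · exact H8.jordan_prime_cycle G hG hp (by omega) c s u.2
  haveI := alternatingGroup.isMultiplyPretransitive α
  haveI := MulAction.isMultiplyPretransitive_of_le (G := alternatingGroup α) (α := α) (m := 2)
    (n := Nat.card α - 2) (by rw [Nat.card_eq_fintype_card]; omega) (Nat.sub_le ..)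
  refine .inl ⟨fun a b => ?_⟩
  obtain ⟨g, hg⟩ := MulAction.exists_smul_eq (alternatingGroup α) a b
  exact ⟨⟨g, A g.2⟩, hg⟩

end Cfsg.Agent.S0720
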