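import Cfsg.Statements.S0721
import Mathlib
import Cfsg.Agent.H8.DirPow

set_option autoImplicit false
open Cfsg

namespace Cfsg.Agent.S0721

open Subgroup H7 H8

/-- A minimal normal subgroup of a finite group is isomorphic to a direct power `T ^ m` of a simple group `T` (possibly of prime order). -/
theorem result {H : Type*} [Group H] [Finite H] (N : Subgroup H) [N.Normal] (hN : N ≠ ⊥) (hmin : ∀ M : Subgroup H, M.Normal → M ≤ N → M = ⊥ ∨ M = N) : ∃ (T : Type) (_ : Group T) (m : ℕ), IsSimpleGroup T ∧ 0 < m ∧ Nonempty (N ≃* (Fin m → T)) := by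
  exact pow_of_minN ⟨‹_›, hN, hmin⟩

end Cfsg.Agent.S0721
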