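import Cfsg.Statements.S0727
import Mathlib
import Cfsg.Agent.H8.Zas5

set_option autoImplicit false
open Cfsg

namespace Cfsg.Agent.S0727

open H8 Subgroup

/-- A sharply triply transitive permutation group of degree `2^f + 1` is isomorphic to the projective general linear group of degree 2 over the field with `2^f` elements. -/
theorem result {α : Type*} [Fintype α] [DecidableEq α] {f : ℕ} (hf : 1 ≤ f) (hα : Fintype.card α = 2 ^ f + 1) (G : Subgroup (Equiv.Perm α)) (h3 : MulAction.IsMultiplyPretransitive G α 3) (hsharp : ∀ x : Fin 3 ↪ α, MulAction.stabilizer G x = ⊥) : ∃ (F : Type) (_ : Field F) (_ : Fintype F), Fintype.card F = 2 ^ f ∧ Nonempty (G ≃* Matrix.ProjGenLinGroup (Fin 2) F) := by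
  rw [← Nat.card_eq_fintype_card] at hα
  have h2 : 2 ≤ 2 ^ f := Nat.le_self_pow (by omega) 2
  have h := Zs.of_sharp h3 hsharp (by omega)
  obtain ⟨a, b, -, hab, -⟩ := h.exists_triple
  have hd := h.card_S2_of_three hab h3
  have hodd : Odd (Nat.card α) := hα ▸ (Nat.even_pow.2 ⟨even_two, by omega⟩).add_one
  have := h.ker_comm_of_odd hab hd hodd
  have hK := GaloisField.card 2 f (by omega)
  exact ⟨GaloisField 2 f, inferInstance, Fintype.ofFinite _, (@Nat.card_eq_fintype_card _ (Fintype.ofFinite _)).symm.trans hK,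
    (h.pgl_or_psl hab (fun s hs => h.inv_of_odd_deg hab hodd hs) _
      (by rw [hK, h.card_ker', hα]; rfl)).1 hd⟩

end Cfsg.Agent.S0727
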