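import Cfsg.Statements.S0728
import Mathlib
import Cfsg.Agent.H8.Zas5

set_option autoImplicit false
open Cfsg

namespace Cfsg.Agent.S0728

open H8 Subgroup

/-- In a sharply triply transitive group of even degree at least 6 (degree `q + 1`, `q` odd), a two-point stabiliser has at most one subgroup of order 3. -/
theorem result {α : Type*} [Fintype α] [DecidableEq α] (heven : Even (Fintype.card α)) (h6 : 6 ≤ Fintype.card α) (G : Subgroup (Equiv.Perm α)) (h3 : MulAction.IsMultiplyPretransitive G α 3) (hsharp : ∀ x : Fin 3 ↪ α, MulAction.stabilizer G x = ⊥) {a b : α} (hab : a ≠ b) (A B : Subgroup G) (hA : A ≤ MulAction.stabilizer G a ⊓ MulAction.stabilizer G b) (hB : B ≤ MulAction.stabilizer G a ⊓ MulAction.stabilizer G b) (hA3 : Nat.card A = 3) (hB3 : Nat.card B = 3) : A = B := by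
  rw [← Nat.card_eq_fintype_card] at h6
  have h := Zs.of_sharp h3 hsharp (by omega)
  have hd := h.card_S2_of_three hab h3
  have key : ∀ A : Subgroup G, Nat.card A = 3 → ∃ x ∈ A, x ^ 3 = 1 ∧ x ≠ 1 ∧ zpowers x = A := by
    intro A hA
    obtain ⟨⟨x, hx⟩, hx1⟩ := ne_bot_iff_exists_ne_one.1 ((one_lt_card_iff_ne_bot A).1 (by omega))
    have h1 : x ^ 3 = 1 := hA ▸ congrArg Subtype.val (pow_card_eq_one' (x := (⟨x, hx⟩ : A)))
    have h2 : x ≠ 1 := fun e => hx1 (Subtype.ext e)
    exact ⟨x, hx, h1, h2, eq_of_le_of_card_ge (zpowers_le.2 hx)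
      (by rw [Nat.card_zpowers, orderOf_eq_prime h1 h2, hA])⟩
  obtain ⟨x, hx, x3, x1, rfl⟩ := key A hA3
  obtain ⟨y, hy, y3, y1, rfl⟩ := key B hB3
  rcases h.order_three hab hd (hA hx) x3 x1 (hB hy) y3 y1 with rfl | rfl <;> simp

end Cfsg.Agent.S0728
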