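import Cfsg.Statements.S0730
import Mathlib
import Cfsg.Agent.H8.Zas5

set_option autoImplicit false
open Cfsg

namespace Cfsg.Agent.S0730

open H8 Subgroup

/-- A sharply triply transitive group of degree `p^f + 1`, `p` an odd prime and `f` odd, is isomorphic to the projective general linear group of degree 2 over the field with `p^f` elements (for even `f` there is a second, twisted, group). -/
theorem result {α : Type*} [Fintype α] [DecidableEq α] {p f : ℕ} (hp : p.Prime) (hp2 : p ≠ 2) (hfo : Odd f) (hα : Fintype.card α = p ^ f + 1) (G : Subgroup (Equiv.Perm α)) (h3 : MulAction.IsMultiplyPretransitive G α 3) (hsharp : ∀ x : Fin 3 ↪ α, MulAction.stabilizer G x = ⊥) : ∃ (F : Type) (_ : Field F) (_ : Fintype F), Fintype.card F = p ^ f ∧ Nonempty (G ≃* Matrix.ProjGenLinGroup (Fin 2) F) := by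
  rw [← Nat.card_eq_fintype_card] at hα
  have := Fact.mk hp
  have h2 : 2 ≤ p ^ f := hp.two_le.trans (Nat.le_self_pow hfo.pos.ne' p)
  have h := Zs.of_sharp h3 hsharp (by omega)
  obtain ⟨a, b, -, hab, -⟩ := h.exists_triple
  have hd := h.card_S2_of_three hab h3
  have hK := GaloisField.card p f hfo.pos.ne'
  have hn : Nat.card (h.ker a) = p ^ f := by rw [h.card_ker', hα]; rfl
  exact ⟨GaloisField p f, inferInstance, Fintype.ofFinite _, (@Nat.card_eq_fintype_card _ (Fintype.ofFinite _)).symm.trans hK,
    h.pgl_of_odd hab hd hp2 hfo hn _ (hK.trans hn.symm)⟩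

end Cfsg.Agent.S0730
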