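import Cfsg.Statements.S0731
import Mathlib
import Cfsg.Agent.H8.Zas8

set_option autoImplicit false
open Cfsg

namespace Cfsg.Agent.S0731

open H8

/-- A finite Zassenhaus group whose point stabiliser has an abelian regular normal subgroup on the remaining points is sharply triply transitive or isomorphic to `PSL(2, F)` for a finite field `F` of odd characteristic. -/
theorem result {G Ω : Type*} [Group G] [Finite G] [MulAction G Ω] [Finite Ω] (hZ : Cfsg.IsZassenhausGroup G Ω) (x : Ω) (F : Subgroup G) (hFle : F ≤ MulAction.stabilizer G x) (hFn : (F.subgroupOf (MulAction.stabilizer G x)).Normal) (hFab : IsMulCommutative F) (hreg : ∀ y z : Ω, y ≠ x → z ≠ x → ∃! u : F, (u : G) • y = z) : (MulAction.IsMultiplyPretransitive G Ω 3 ∧ ∀ t : Fin 3 ↪ Ω, MulAction.stabilizer G t = ⊥) ∨ ∃ (K : Type) (_ : Field K) (_ : Fintype K), ringChar K ≠ 2 ∧ Nonempty (G ≃* Matrix.ProjectiveSpecialLinearGroup (Fin 2) K) := by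
  classical
  set h := Zs.of_zas hZ
  have h1 := h.eq_ker_of_reg hFle hreg
  subst h1
  obtain ⟨b, hb⟩ := h.exists_ne x
  have hab := hb.symm
  rcases h.eq_or_two_mul_le hab with hd | hd
  · exact Or.inl (h.sharp hab hd)
  right
  obtain ⟨h2, h3⟩ := zas_psl_of_half hZ hab hd
  obtain ⟨-, p, hp, he⟩ := h.elem_of_large hab (exists_S2_ne_one hZ hab) h2.ge
  obtain ⟨f, hf, hn⟩ := h.card_of_elem hp he
  haveI := Fact.mk hp
  haveI := Fintype.ofFinite (GaloisField p f)
  refine ⟨GaloisField p f, inferInstance, inferInstance, ?_, h3 _ (by rw [hn, GaloisField.card p f hf])⟩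
  rw [ringChar.eq (GaloisField p f) p]
  rintro rfl
  have h4 := h.two_le_card_ker x
  change 2 * _ = Nat.card (h.ker x) - 1 at h2
  obtain ⟨k, rfl⟩ : ∃ k, f = k + 1 := ⟨f - 1, by omega⟩
  rw [pow_succ] at hn
  omega

end Cfsg.Agent.S0731
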