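import Cfsg.Statements.S0732
import Mathlib
import Cfsg.Agent.H8.Zas9

set_option autoImplicit false
open Cfsg

namespace Cfsg.Agent.S0732

open H8 Subgroup

/-- A transitive permutation group on `p + 1` points (`p` prime) of order `(p+1) p d` with `d < p` is isomorphic to `PGL(2,p)` with `d = p - 1`, or to `PSL(2,p)` with `2d = p - 1`, or else `p + 1 = 2^q` for a prime `q`, `d = 1` or `d = q`, and the group is permutation-isomorphic to a group of semi-affine maps `x ↦ a φ(x) + b` of the field with `2^q` elements. -/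
theorem result {α : Type*} [Fintype α] [DecidableEq α] {p d : ℕ} (hp : p.Prime) (hα : Fintype.card α = p + 1) (G : Subgroup (Equiv.Perm α)) [MulAction.IsPretransitive G α] (hG : Nat.card G = (p + 1) * p * d) (hd : d < p) : (d = p - 1 ∧ Nonempty (G ≃* Matrix.ProjGenLinGroup (Fin 2) (ZMod p))) ∨ (2 * d = p - 1 ∧ Nonempty (G ≃* Matrix.ProjectiveSpecialLinearGroup (Fin 2) (ZMod p))) ∨ (∃ q : ℕ, q.Prime ∧ p + 1 = 2 ^ q ∧ (d = 1 ∨ d = q) ∧ ∃ e : α ≃ GaloisField 2 q, ∀ g : G, (e.symm.trans (((g : Equiv.Perm α)).trans e)) ∈ Cfsg.semiaffineGroup (GaloisField 2 q)) := by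
  classical
  haveI := Fact.mk hp
  have hα' : Nat.card α = p + 1 := by rw [Nat.card_eq_fintype_card, hα]
  have h : Zs G α := zs_of_prime hp hα' hG hd
  obtain ⟨a, b, -, hab, -⟩ := h.exists_triple
  have hk : Nat.card (h.ker a) = p := by have := h.card_ker a; omega
  haveI : IsCyclic (h.ker a) := isCyclic_of_prime_card hk
  haveI : IsMulCommutative (h.ker a) := IsCyclic.isMulCommutative
  have hc := h.card_G hab
  rw [hG, hk] at hc
  have h2 := hp.two_le
  have hd' : Nat.card (S2 G a b) = d := (Nat.eq_of_mul_eq_mul_left (by positivity) hc).symm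
  by_cases hp2 : p = 2
  · left
    have hd1 : d = 1 := by have : 0 < d := hd' ▸ Nat.card_pos; omega
    refine ⟨by omega, (h.pgl_or_psl hab (fun s hs k hk => ?_) (ZMod p) (by rw [hk, Nat.card_zmod])).1
      (by omega)⟩
    rw [card_eq_one.1 (hd'.trans hd1)] at hk
    rw [mem_bot.1 hk]; simp
  have aff : ∀ D r, RegN (G := G) D α r → ∃ q : ℕ, q.Prime ∧ p + 1 = 2 ^ q ∧ (d = 1 ∨ d = q) ∧
      ∃ e : α ≃ GaloisField 2 q, ∀ g : G, (e.symm.trans (((g : Equiv.Perm α)).trans e)) ∈
        Cfsg.semiaffineGroup (GaloisField 2 q) := by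
    intro D r hD
    obtain ⟨j, hj, hΩ⟩ := hD.card
    have hr : r = 2 := by
      have h3 : 2 ∣ r ^ j := by
        rw [← hΩ, hα']; exact (hp.odd_of_ne_two hp2).add_one.two_dvd
      exact ((Nat.prime_dvd_prime_iff_eq Nat.prime_two hD.prime).1
        (Nat.prime_two.dvd_of_dvd_pow h3)).symm
    subst hr
    have hj1 : j ≠ 1 := by rintro rfl; omega
    have hjp : j.Prime := (Nat.prime_of_pow_sub_one_prime hj1 (a := 2)
      (by rw [← hΩ, hα']; simpa using hp)).2
    refine ⟨j, hjp, by rw [← hα', hΩ], ?_, ?_⟩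
    · refine or_iff_not_imp_left.2 fun hd1 => ?_
      obtain ⟨-, h3, h4⟩ := h.aff_two hD hab le_rfl (fun e => hd1 (by rw [← hd', e, card_bot]))
      rw [hd', hΩ] at h3 h4
      rcases Nat.even_or_odd d with e | e
      · have h5 : j = 2 := Nat.pow_right_injective le_rfl (h4 e)
        have : 0 < d := hd' ▸ Nat.card_pos
        obtain ⟨k, hk⟩ := e
        rw [hΩ, h5] at hα'
        omega
      · exact (Nat.pow_right_injective le_rfl (h3 e)).symm
    · obtain ⟨e, he⟩ := h.semiaffine hD a (GaloisField 2 j)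
        (by rw [GaloisField.card 2 j (by omega), hΩ])
      exact ⟨e, fun g => he g⟩
  by_cases hd1 : d = 1
  · obtain ⟨D, r, hD⟩ := h.exists_regN ⊤ ⟨fun x y => by
      obtain ⟨g, hg⟩ := h.trans x y
      exact ⟨⟨g, trivial⟩, hg⟩⟩ fun x _ c c' hcc e e' => by
        have h3 := h.card_S2_eq hab hcc
        rw [hd', hd1] at h3
        have : x ∈ S2 G c c' := ⟨e, e'⟩
        rwa [card_eq_one.1 h3.symm] at this
    exact Or.inr (Or.inr (aff D r hD))
  by_cases hN : ∃ N : Subgroup G, N.Normal ∧ MulAction.IsPretransitive N α ∧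
      ∀ a : α, MulAction.stabilizer N a = ⊥
  · obtain ⟨N, _, hNt, hNr⟩ := hN
    obtain ⟨D, r, hD⟩ := h.exists_regN N hNt fun x hx a b _ e _ => by
      have : (⟨x, hx⟩ : N) ∈ MulAction.stabilizer N a := e
      rw [hNr] at this
      exact congrArg Subtype.val (Subgroup.mem_bot.1 this)
    exact Or.inr (Or.inr (aff D r hD))
  have hZ : IsZassenhausGroup G α := by
    refine ⟨inferInstance, h.isMPT, fun g a b c h1 h2 h3 => h.three h1 h2 h3, ?_,
      fun N hN' hNt => ?_⟩
    · obtain ⟨x, hx, hx1⟩ := (bot_or_exists_ne_one (S2 G a b)).resolve_left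
        (fun e => hd1 (by rw [← hd', e, card_bot]))
      exact ⟨x, hx1, a, b, hab, hx.1, hx.2⟩
    · by_contra hc
      push Not at hc
      exact hN ⟨N, hN', hNt, hc⟩
  rcases h.eq_or_two_mul_le hab with e | e
  · left
    exact ⟨by omega, h.pgl_of_odd hab e hp2 odd_one (by rw [hk, pow_one]) (ZMod p) (by rw [hk, Nat.card_zmod])⟩
  · obtain ⟨h3, h4⟩ := zas_psl_of_half hZ hab e
    change _ = Nat.card (h.ker a) - 1 at h3
    exact Or.inr (Or.inl ⟨by omega, h4 (ZMod p) (by rw [Nat.card_zmod]; exact hk.symm)⟩)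

end Cfsg.Agent.S0732
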