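import Cfsg.Statements.S0733
import Mathlib

set_option autoImplicit false
open Cfsg

namespace Cfsg.Agent.S0733

/-- A permutation group of affine type — generated by the translations of a finite vector space `V` over `ZMod p` together with a group `G₀` of linear automorphisms — is primitive on `V` if and only if `G₀` is irreducible on `V`. -/
theorem result {p : ℕ} [Fact p.Prime] {V : Type*} [AddCommGroup V] [Module (ZMod p) V] [Finite V] [Nontrivial V] (G₀ : Subgroup (V ≃ₗ[ZMod p] V)) (G : Subgroup (Equiv.Perm V)) (hG : ∀ σ : Equiv.Perm V, σ ∈ G ↔ ∃ g ∈ G₀, ∃ b : V, ∀ x : V, σ x = (g : V ≃ₗ[ZMod p] V) x + b) : MulAction.IsPreprimitive G V ↔ ∀ W : Submodule (ZMod p) V, (∀ g ∈ G₀, ∀ v ∈ W, (g : V ≃ₗ[ZMod p] V) v ∈ W) → W = ⊥ ∨ W = ⊤ := by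
  have htr : ∀ b : V, (Equiv.addRight b : Equiv.Perm V) ∈ G := fun b =>
    (hG _).mpr ⟨1, G₀.one_mem, b, fun x => rfl⟩
  have hlin : ∀ g ∈ G₀, (g.toEquiv : Equiv.Perm V) ∈ G := fun g hg =>
    (hG _).mpr ⟨g, hg, 0, fun x => by simp⟩
  constructor
  · intro hp W hW
    have hB : MulAction.IsBlock G (W : Set V) := by
      rw [MulAction.isBlock_iff_smul_eq_of_mem]
      intro σ x hx hgx
      have key : ∀ (τ : G) (x : V), x ∈ W → τ • x ∈ W → ∀ y ∈ W, τ • y ∈ W := by
        intro τ x hx hτ y hy
        obtain ⟨g, hg, b, hb⟩ := (hG τ).mp τ.2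
        have e1 : τ • x = g x + b := hb x
        have e2 : τ • y = g y + b := hb y
        rw [e1] at hτ
        rw [e2]
        have := W.sub_mem hτ (hW g hg x hx)
        rw [add_sub_cancel_left] at this
        exact W.add_mem (hW g hg y hy) this
      ext y
      rw [Set.mem_smul_set_iff_inv_smul_mem]
      constructor
      · intro hy
        have := key σ x hx hgx _ hy
        rwa [smul_inv_smul] at this
      · intro hy
        exact key σ⁻¹ (σ • x) hgx (by rwa [inv_smul_smul]) y hy
    rcases hB.subsingleton_or_eq_univ with h | h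
    · left
      rw [eq_bot_iff]
      intro x hx
      exact h hx W.zero_mem
    · right
      exact SetLike.coe_injective h
  · intro h
    have : MulAction.IsPretransitive G V := ⟨fun x y => ⟨⟨_, htr (y - x)⟩, by
      change x + (y - x) = y
      abel⟩⟩
    refine MulAction.IsPreprimitive.of_isTrivialBlock_base (0 : V) fun {B} h0 hB => ?_
    rw [MulAction.isBlock_iff_smul_eq_of_mem] at hB
    have hadd : ∀ x ∈ B, ∀ y ∈ B, x + y ∈ B := by
      intro x hx y hy
      have := hB (g := ⟨_, htr y⟩) h0 (by change 0 + y ∈ B; rwa [zero_add])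
      rw [← this]
      exact ⟨x, hx, rfl⟩
    have hn : ∀ (n : ℕ), ∀ x ∈ B, n • x ∈ B := by
      intro n x hx
      induction n with
      | zero => simpa using h0
      | succ n ih => rw [succ_nsmul]; exact hadd _ ih _ hx
    let W : Submodule (ZMod p) V :=
      { carrier := B
        add_mem' := fun {x y} hx hy => hadd x hx y hy
        zero_mem' := h0
        smul_mem' := fun c x hx => by
          have : NeZero p := ⟨(Fact.out : p.Prime).ne_zero⟩
          rw [← ZMod.natCast_zmod_val c, Nat.cast_smul_eq_nsmul]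
          exact hn _ x hx }
    rcases h W (fun g hg v hv => by
      have := hB (g := ⟨_, hlin g hg⟩) h0 (by change g 0 ∈ B; rwa [map_zero])
      change g v ∈ B
      rw [← this]
      exact ⟨v, hv, rfl⟩) with hW | hW
    · left
      intro x hx y hy
      have hx' : x ∈ W := hx
      have hy' : y ∈ W := hy
      rw [hW, Submodule.mem_bot] at hx' hy'
      rw [hx', hy']
    · right
      rw [Set.eq_univ_iff_forall]
      intro x
      have : x ∈ W := hW ▸ Submodule.mem_top
      exact this

end Cfsg.Agent.S0733
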