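import Cfsg.Statements.S0734
import Mathlib

set_option autoImplicit false
open Cfsg

namespace Cfsg.Agent.S0734

/-- Higman's criterion for primitivity: a transitive action on a finite set is primitive if and only if every non-trivial orbital graph (edges = images of a fixed pair of distinct points) is connected. -/
theorem result {G : Type*} [Group G] {Ω : Type*} [Finite Ω] [MulAction G Ω] [MulAction.IsPretransitive G Ω] [Nontrivial Ω] : MulAction.IsPreprimitive G Ω ↔ ∀ a b : Ω, a ≠ b → (SimpleGraph.fromRel fun x y : Ω => ∃ g : G, g • a = x ∧ g • b = y).Connected := by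
  constructor
  · intro hp a b hab
    set Γ := SimpleGraph.fromRel fun x y : Ω => ∃ g : G, g • a = x ∧ g • b = y with hΓ
    have hadj : ∀ (g : G) x y, Γ.Adj x y → Γ.Adj (g • x) (g • y) := by
      intro g x y h
      rw [hΓ, SimpleGraph.fromRel_adj] at h ⊢
      refine ⟨fun e => h.1 (smul_left_cancel g e), ?_⟩
      rcases h.2 with ⟨k, rfl, rfl⟩ | ⟨k, rfl, rfl⟩
      · exact Or.inl ⟨g * k, mul_smul _ _ _, mul_smul _ _ _⟩
      · exact Or.inr ⟨g * k, mul_smul _ _ _, mul_smul _ _ _⟩
    have hreach : ∀ (g : G) x y, Γ.Reachable x y → Γ.Reachable (g • x) (g • y) := by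
      intro g x y h
      exact h.map (⟨fun x => g • x, fun {x y} h => hadj g x y h⟩ : Γ →g Γ)
    have hB : MulAction.IsBlock G {x | Γ.Reachable a x} := by
      rw [MulAction.isBlock_iff_smul_eq_of_mem]
      intro g x hx hgx
      ext y
      rw [Set.mem_smul_set_iff_inv_smul_mem]
      simp only [Set.mem_setOf_eq] at *
      constructor
      · intro hy
        have := hreach g _ _ (hx.symm.trans hy)
        rw [smul_inv_smul] at this
        exact hgx.trans this
      · intro hy
        have := hreach g⁻¹ _ _ (hgx.symm.trans hy)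
        rw [inv_smul_smul] at this
        exact hx.trans this
    rcases hB.subsingleton_or_eq_univ with h | h
    · exfalso
      apply hab
      apply h (SimpleGraph.Reachable.refl a)
      apply SimpleGraph.Adj.reachable
      rw [hΓ, SimpleGraph.fromRel_adj]
      exact ⟨hab, Or.inl ⟨1, by simp, by simp⟩⟩
    · have h' : ∀ x, Γ.Reachable a x := fun x => by
        have : x ∈ {x | Γ.Reachable a x} := h ▸ Set.mem_univ x
        exact this
      have : Nonempty Ω := ⟨a⟩
      exact ⟨fun x y => (h' x).symm.trans (h' y)⟩
  · intro h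
    refine ⟨fun {B} hB => ?_⟩
    by_cases hs : B.Subsingleton
    · exact Or.inl hs
    right
    rw [Set.not_subsingleton_iff] at hs
    obtain ⟨a, ha, b, hb, hab⟩ := hs
    have hc := h a b hab
    rw [MulAction.isBlock_iff_smul_eq_of_mem] at hB
    rw [Set.eq_univ_iff_forall]
    intro x
    have hr := hc.preconnected a x
    rw [SimpleGraph.reachable_iff_reflTransGen] at hr
    induction hr with
    | refl => exact ha
    | tail _ hadj ih =>
      rw [SimpleGraph.fromRel_adj] at hadj
      rcases hadj.2 with ⟨k, rfl, rfl⟩ | ⟨k, rfl, rfl⟩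
      · rw [← hB ha ih]; exact Set.smul_mem_smul_set hb
      · rw [← hB hb ih]; exact Set.smul_mem_smul_set ha

end Cfsg.Agent.S0734
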