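import Cfsg.Statements.S0735
import Mathlib

set_option autoImplicit false
open Cfsg

namespace Cfsg.Agent.S0735

theorem pairs {G : Type*} [Group G] {α : Type*} [DecidableEq α] [MulAction G α]
    (h2 : MulAction.IsPretransitive G (Set.powersetCard α 2)) {a b c d : α} (hab : a ≠ b)
    (hcd : c ≠ d) : ∃ g : G, (g • a = c ∧ g • b = d) ∨ (g • a = d ∧ g • b = c) := by
  obtain ⟨g, hg⟩ := h2.exists_smul_eq ⟨{a, b}, Finset.card_pair hab⟩ ⟨{c, d}, Finset.card_pair hcd⟩
  refine ⟨g, ?_⟩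
  have h := congrArg Subtype.val hg
  rw [Set.powersetCard.coe_smul] at h
  simp only [Finset.smul_finset_insert, Finset.smul_finset_singleton] at h
  have h' := congrArg (fun s : Finset α => (s : Set α)) h
  simp only [Finset.coe_insert, Finset.coe_singleton] at h'
  exact Set.pair_eq_pair_iff.mp h'

/-- A 2-homogeneous permutation group (transitive on 2-subsets) of even order is doubly transitive; a non-trivial 2-homogeneous group is primitive. -/
theorem result {α : Type*} [Fintype α] [DecidableEq α] (G : Subgroup (Equiv.Perm α)) (h2 : MulAction.IsPretransitive G (Set.powersetCard α 2)) (hα : 3 ≤ Fintype.card α) : (Even (Nat.card G) → MulAction.IsMultiplyPretransitive G α 2) ∧ (G ≠ ⊥ → MulAction.IsPreprimitive G α) := by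
  constructor
  · intro heven
    obtain ⟨t, ht⟩ := exists_prime_orderOf_dvd_card' (G := G) 2 (even_iff_two_dvd.mp heven)
    have ht1 : t ≠ 1 := by rintro rfl; simp at ht
    obtain ⟨x, hx⟩ : ∃ x, t • x ≠ x := by
      by_contra hne
      push Not at hne
      exact ht1 (Subtype.ext (Equiv.ext hne))
    have htt : t • t • x = x := by rw [← mul_smul, ← pow_two, ← ht, pow_orderOf_eq_one, one_smul]
    have hswap : ∀ c d : α, c ≠ d → ∃ s : G, s • c = d ∧ s • d = c := by
      intro c d hcd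
      obtain ⟨g, ⟨rfl, rfl⟩ | ⟨rfl, rfl⟩⟩ := pairs h2 hx hcd
      · exact ⟨g * t * g⁻¹, by simp [mul_smul, htt], by simp [mul_smul]⟩
      · exact ⟨g * t * g⁻¹, by simp [mul_smul], by simp [mul_smul, htt]⟩
    rw [MulAction.is_two_pretransitive_iff]
    intro a b c d hab hcd
    obtain ⟨g, h | h⟩ := pairs h2 hab hcd
    · exact ⟨g, h⟩
    · obtain ⟨s, h1, h2⟩ := hswap c d hcd
      exact ⟨s * g, by rw [mul_smul, h.1, h2], by rw [mul_smul, h.2, h1]⟩
  · intro hG
    obtain ⟨t, ht, ht1⟩ := (Subgroup.bot_or_exists_ne_one G).resolve_left hG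
    obtain ⟨x, hx⟩ : ∃ x, (⟨t, ht⟩ : G) • x ≠ x := by
      by_contra hne
      push Not at hne
      exact ht1 (Equiv.ext hne)
    have : MulAction.IsPretransitive G α := ⟨fun a b => by
      by_cases hab : a = b
      · exact ⟨1, by simp [hab]⟩
      obtain ⟨g, ⟨rfl, rfl⟩ | ⟨rfl, rfl⟩⟩ := pairs h2 hx hab
      · exact ⟨g * (⟨t, ht⟩ : G)⁻¹ * g⁻¹, by simp only [mul_smul, inv_smul_smul]⟩
      · exact ⟨g * ⟨t, ht⟩ * g⁻¹, by simp only [mul_smul, inv_smul_smul]⟩⟩
    refine ⟨fun {B} hB => ?_⟩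
    by_cases hs : B.Subsingleton
    · exact Or.inl hs
    right
    rw [Set.not_subsingleton_iff] at hs
    obtain ⟨a, ha, b, hb, hab⟩ := hs
    rw [MulAction.isBlock_iff_smul_eq_of_mem] at hB
    rw [Set.eq_univ_iff_forall]
    intro c
    by_cases hac : a = c
    · exact hac ▸ ha
    obtain ⟨g, ⟨h1, rfl⟩ | ⟨rfl, h1⟩⟩ := pairs h2 hab hac
    · rw [← hB ha (h1.symm ▸ ha)]; exact Set.smul_mem_smul_set hb
    · rw [← hB hb (h1.symm ▸ ha)]; exact Set.smul_mem_smul_set ha

end Cfsg.Agent.S0735
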