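import Cfsg.Statements.S0736
import Mathlib

set_option autoImplicit false
open Cfsg

namespace Cfsg.Agent.S0736

/-- A `k`-homogeneous permutation group of degree `n`, `k ≥ 2`, with `k + q - 1 ≤ n` for every prime power `q` dividing `k`, is `(k-1)`-homogeneous. -/
theorem result {α : Type*} [Fintype α] [DecidableEq α] (G : Subgroup (Equiv.Perm α)) {k : ℕ} (hk : 2 ≤ k) (hG : MulAction.IsPretransitive G (Set.powersetCard α k)) (hq : ∀ q : ℕ, IsPrimePow q → q ∣ k → k + q - 1 ≤ Fintype.card α) : MulAction.IsPretransitive G (Set.powersetCard α (k - 1)) := by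
  open scoped Pointwise in
  classical
  refine ⟨fun A B => ?_⟩
  let O : Finset α → Prop := fun D => ∃ g : G, g • A.1 = D
  let a : Finset α → ℕ := fun S => ((S.powersetCard (k - 1)).filter O).card
  have ha : ∀ S S' : Finset α, S.card = k → S'.card = k → a S ≤ a S' := fun S S' h h' => by
    obtain ⟨g, hg⟩ := hG.exists_smul_eq ⟨S, h⟩ ⟨S', h'⟩
    obtain rfl : g • S = S' := congrArg Subtype.val hg
    refine Finset.card_le_card_of_injOn (g • ·) (fun D hD => ?_) (MulAction.injective g).injOn
    simp only [Finset.coe_filter, Finset.mem_powersetCard, Set.mem_ofPred_eq] at hD ⊢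
    obtain ⟨⟨h1, h2⟩, u, rfl⟩ := hD
    exact ⟨⟨Finset.smul_finset_subset_smul_finset h1, by simpa using h2⟩, g * u, mul_smul ..⟩
  have kn : k ≤ Fintype.card α := by
    have := hq _ (Nat.minFac_prime (show k ≠ 1 by omega)).isPrimePow k.minFac_dvd
    have := k.minFac_pos
    omega
  have ex : ∀ D : Set.powersetCard α (k - 1), ∃ S : Finset α, D.1 ⊆ S ∧ S.card = k := fun D =>
    Finset.exists_superset_card_eq (by rw [D.2]; omega) kn
  obtain ⟨S, hS, cS⟩ := ex B
  have d : k ∣ a S := (Nat.dvd_iff_prime_pow_dvd_dvd ..).2 fun p j hp hj => by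
    rcases j.eq_zero_or_pos with rfl | j0
    · simp
    have q0 := pow_pos hp.pos j
    obtain ⟨T, -, cT⟩ := Finset.exists_subset_card_eq (s := Finset.univ)
      (hq _ (hp.isPrimePow.pow j0.ne') hj)
    have := Finset.card_mul_eq_card_mul (s := T.powersetCard k)
      (t := (T.powersetCard (k - 1)).filter O) (fun S D => D ⊆ S) (m := a S) (n := p ^ j)
      (fun U hU => by
        obtain ⟨h1, h2⟩ := Finset.mem_powersetCard.1 hU
        rw [(ha _ _ cS h2).antisymm (ha _ _ h2 cS)]
        congr 1
        ext D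
        simp only [Finset.mem_bipartiteAbove, Finset.mem_filter, Finset.mem_powersetCard]
        exact ⟨fun h => ⟨⟨h.2, h.1.1.2⟩, h.1.2⟩, fun h => ⟨⟨⟨h.1.1.trans h1, h.1.2⟩, h.2⟩, h.1.1⟩⟩)
      fun D hD => by
        obtain ⟨h1, h2⟩ := Finset.mem_powersetCard.1 (Finset.mem_filter.1 hD).1
        rw [Finset.bipartiteBelow, Finset.card_filter_powersetCard_subset _ _ _ h1 (by omega), cT,
          h2, show k - (k - 1) = 1 by omega, Nat.choose_one_right]
        omega
    rw [Finset.card_powersetCard, cT, show k + p ^ j - 1 = p ^ j - 1 + k by omega] at this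
    refine (Nat.Coprime.pow_left j ((Nat.Prime.coprime_iff_not_dvd hp).2 fun h => ?_)
      ).dvd_of_dvd_mul_left (Dvd.intro_left _ this.symm)
    have := (hp.dvd_iff_one_le_factorization (Nat.choose_pos (by omega)).ne').1 h
    rw [Nat.factorization_choose' hp (Nat.lt_succ_self _), Finset.one_le_card] at this
    obtain ⟨i, hi⟩ := this
    have hi := (Finset.mem_filter.1 hi).2
    have i0 := pow_pos hp.pos i
    rcases le_total i j with h | h
    · rw [Nat.mod_eq_zero_of_dvd ((pow_dvd_pow p h).trans hj)] at hi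
      have := Nat.mod_lt (p ^ j - 1) i0
      omega
    · have e := pow_dvd_pow p h
      have := Nat.le_of_dvd (Nat.sub_pos_of_lt (Nat.mod_lt k i0))
        (Nat.dvd_sub e ((Nat.dvd_mod_iff e).2 hj))
      have := Nat.mod_le (p ^ j - 1) (p ^ i)
      omega
  obtain ⟨S', hS', cS'⟩ := ex A
  have p0 : 0 < a S := lt_of_lt_of_le (Finset.card_pos.2 ⟨A.1, Finset.mem_filter.2
    ⟨Finset.mem_powersetCard.2 ⟨hS', A.2⟩, 1, one_smul ..⟩⟩) (ha _ _ cS' cS)
  have := Finset.filter_card_eq (s := S.powersetCard (k - 1)) (p := O)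
    ((Finset.card_filter_le ..).antisymm (by
      rw [Finset.card_powersetCard, cS, Nat.choose_symm (by omega), Nat.choose_one_right]
      exact Nat.le_of_dvd p0 d)) B.1 (Finset.mem_powersetCard.2 ⟨hS, B.2⟩)
  exact this.imp fun g h => Subtype.ext h

end Cfsg.Agent.S0736
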