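import Cfsg.Statements.S0737
import Mathlib
import Cfsg.Agent.H8.SemiLin2
import Cfsg.Agent.H8.Burnside2T
import Cfsg.Agent.H1.SZ
import Cfsg.Agent.S0735

set_option autoImplicit false
open Cfsg

namespace Cfsg.Agent.S0737

open H8 Subgroup MulAction

/-- A non-trivial 2-homogeneous permutation group that is not doubly transitive has odd order and degree `p^f ≡ 3 (mod 4)`, and is permutation-isomorphic to a group of semi-affine transformations `x ↦ a φ(x) + b` of the field with `p^f` elements containing all translations. -/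
theorem result {α : Type*} [Fintype α] [DecidableEq α] (G : Subgroup (Equiv.Perm α)) (hne : G ≠ ⊥) (h2 : MulAction.IsPretransitive G (Set.powersetCard α 2)) (hn2 : ¬ MulAction.IsMultiplyPretransitive G α 2) : Odd (Nat.card G) ∧ ∃ (p f : ℕ) (_ : Fact p.Prime), p ≠ 2 ∧ Fintype.card α = p ^ f ∧ p ^ f % 4 = 3 ∧ ∃ e : α ≃ GaloisField p f, (∀ g : G, e.symm.trans (((g : Equiv.Perm α)).trans e) ∈ Cfsg.semiaffineGroup (GaloisField p f)) ∧ ∀ b : GaloisField p f, ∃ g : G, ∀ x : α, e ((g : Equiv.Perm α) x) = e x + b := by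
  have h3 : 3 ≤ Fintype.card α := by
    by_contra h3
    apply hn2
    obtain ⟨t, ht, ht1⟩ := (bot_or_exists_ne_one G).resolve_left hne
    obtain ⟨x, hx⟩ : ∃ x, t x ≠ x := by
      by_contra hne
      push Not at hne
      exact ht1 (Equiv.ext hne)
    have hall : ∀ c d y : α, c ≠ d → y = c ∨ y = d := by
      intro c d y hcd
      by_contra hy
      push Not at hy
      exact h3 (Fintype.two_lt_card_iff.2 ⟨c, d, y, hcd, hy.1.symm, hy.2.symm⟩)
    have hsw : ∀ c d : α, c ≠ d → t c = d := by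
      intro c d hcd
      refine (hall c d _ hcd).resolve_left fun h => ?_
      rcases hall c d x hcd with rfl | rfl
      · exact hx h
      · exact hcd (t.injective (h.trans ((hall c x _ hcd).resolve_right hx).symm))
    rw [is_two_pretransitive_iff]
    intro a b c d hab hcd
    obtain ⟨g, h | h⟩ := S0735.pairs h2 hab hcd
    · exact ⟨g, h⟩
    · exact ⟨⟨t, ht⟩ * g, by rw [mul_smul, h.1]; exact hsw _ _ hcd.symm,
        by rw [mul_smul, h.2]; exact hsw _ _ hcd⟩
  obtain ⟨h4, h5⟩ := S0735.result G h2 h3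
  have hodd : Odd (Nat.card G) := Nat.not_even_iff_odd.1 fun h => hn2 (h4 h)
  have hprim := h5 hne
  haveI := FT.odd_solvable hodd
  haveI : Nontrivial G := (nontrivial_iff_ne_bot G).2 hne
  obtain ⟨N, hn, hN, -, hmin⟩ := exists_minimal_normal_le (⊤ : Subgroup G) top_ne_bot
  obtain ⟨_, p, hp, -, hNp⟩ := H1.elementary_of_minimal_invariant (A := ⊤) (M := N)
    le_normalizer_of_normal hN fun L hL => hmin L (normalizer_eq_top_iff.1 (top_le_iff.1 hL))
  have hNt := isPretransitive_of_normal_of_ne_bot hprim N hN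
  haveI : Nontrivial α := Fintype.one_lt_card_iff_nontrivial.1 (by omega)
  obtain ⟨a⟩ : Nonempty α := inferInstance
  have hreg : ∀ x ∈ N, x • a = a → x = 1 := fun x hx h =>
    eq_one_of_commute_of_fix N hNt (fun m hm =>
      congrArg Subtype.val (mul_comm' (⟨m, hm⟩ : N) ⟨x, hx⟩)) h
  have hext : ∀ x ∈ N, ∀ y ∈ N, x • a = y • a → x = y := fun x hx y hy e =>
    (inv_mul_eq_one.1 (hreg _ (mul_mem (inv_mem hy) hx) (by
      rw [mul_smul, inv_smul_eq_iff]; exact e))).symm
  haveI := Fact.mk hp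
  obtain ⟨f, hf⟩ := IsPGroup.iff_card.1 (show IsPGroup p N from fun x =>
    ⟨1, Subtype.ext (by rw [pow_one]; exact hNp x x.2)⟩)
  have hc : Nat.card α = p ^ f := by
    rw [← hf, card_eq_card_mul_card_stabilizer N hNt a,
      show N ⊓ stabilizer G a = ⊥ from eq_bot_iff.2 fun x hx => hreg x hx.1 hx.2, card_bot, mul_one]
  have hc' : Fintype.card α = p ^ f := by rw [← hc, Nat.card_eq_fintype_card]
  have hf0 : f ≠ 0 := by rintro rfl; rw [hc'] at h3; simp at h3
  have ho1 : Odd (p ^ f) := hodd.of_dvd_nat (hf ▸ card_subgroup_dvd_card N)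
  have ho2 : Odd ((p ^ f).choose 2) := by
    obtain ⟨b, hb⟩ := exists_ne a
    rw [← hc, ← Set.powersetCard.card, ← index_stabilizer_of_transitive G
      (⟨{b, a}, Finset.card_pair hb⟩ : Set.powersetCard α 2)]
    exact hodd.of_dvd_nat (index_dvd_card _)
  refine ⟨hodd, p, f, this, ?_, hc', ?_, ?_⟩
  · rintro rfl
    exact absurd (Nat.odd_pow_iff hf0 |>.1 ho1) (by decide)
  · obtain ⟨k, hk⟩ := ho1
    rw [hk, Nat.choose_two_right, Nat.add_sub_cancel, show (2 * k + 1) * (2 * k) = 2 * ((2 * k + 1) * k) by ring,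
      Nat.mul_div_cancel_left _ two_pos, Nat.odd_mul] at ho2
    obtain ⟨l, hl⟩ := ho2.2
    omega
  obtain ⟨e, he1, he2⟩ := semiaff_odd hodd N hNt hp hNp a (fun x hx y hy hx1 hy1 => by
    obtain ⟨g, h | h⟩ := S0735.pairs h2 (a := a) (b := x • a) (c := a) (d := y • a)
      (fun e => hx1 (hreg x hx e.symm)) (fun e => hy1 (hreg y hy e.symm))
    · refine ⟨g, h.1, Or.inl (hext _ (hn.conj_mem _ hx g) _ hy ?_)⟩
      rw [mul_smul, mul_smul, inv_smul_eq_iff.2 h.1.symm, h.2]
    · have h6 : (y⁻¹ * g) • a = a := by rw [mul_smul, h.1, inv_smul_smul]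
      refine ⟨y⁻¹ * g, h6, Or.inr (hext _ (hn.conj_mem _ hx _) _ (inv_mem hy) ?_)⟩
      rw [mul_smul, mul_smul, mul_smul, inv_smul_eq_iff.2 h6.symm, h.2])
    (GaloisField p f) (by rw [GaloisField.card p f hf0, hc])
  refine ⟨e, fun g => ?_, fun b => ?_⟩
  · obtain ⟨c, b, φ, h⟩ := he1 g
    refine ⟨c, b, φ, fun x => ?_⟩
    have := h (e.symm x)
    rwa [e.apply_symm_apply] at this
  · obtain ⟨n, -, h⟩ := he2 b
    exact ⟨n, h⟩

end Cfsg.Agent.S0737
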