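import Cfsg.Statements.S0739
import Mathlib
import Cfsg.Agent.H8.Zas3

set_option autoImplicit false
open Cfsg

namespace Cfsg.Agent.S0739

open H8 Subgroup

/-- In a finite Zassenhaus group whose two-point stabiliser `H = G_{a,b}` has odd order `d`, and which has no normal `q`-complement for any prime `q ∣ d`, `H` is cyclic, `C_G(H) = H`, and every element swapping `a` and `b` inverts each element of `H`. -/
theorem result {G Ω : Type*} [Group G] [Finite G] [MulAction G Ω] [Fintype Ω] (hZ : Cfsg.IsZassenhausGroup G Ω) {a b : Ω} (hab : a ≠ b) (hodd : Odd (Nat.card ↥(MulAction.stabilizer G a ⊓ MulAction.stabilizer G b))) (hnil : ∀ q : ℕ, q.Prime → q ∣ Nat.card ↥(MulAction.stabilizer G a ⊓ MulAction.stabilizer G b) → ¬ ∃ N : Subgroup G, N.Normal ∧ N.index = q ^ (Nat.card G).factorization q) : IsCyclic ↥(MulAction.stabilizer G a ⊓ MulAction.stabilizer G b) ∧ Subgroup.centralizer ((MulAction.stabilizer G a ⊓ MulAction.stabilizer G b : Subgroup G) : Set G) = MulAction.stabilizer G a ⊓ MulAction.stabilizer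 G b ∧ ∀ s : G, s • a = b → s • b = a → ∀ h ∈ MulAction.stabilizer G a ⊓ MulAction.stabilizer G b, s * h * s⁻¹ = h⁻¹ := by
  have h := Zs.of_zas hZ
  have hinv := fun s hs => h.inv_of_no_npc hab hodd hnil (s := s) hs
  obtain ⟨s, hs⟩ := h.exists_sw hab
  have := H1.isMulCommutative_of_inverts (hinv s hs)
  have hne := exists_S2_ne_one hZ hab
  refine ⟨h.isCyclic_of_comm hab le_rfl, le_antisymm (fun g hg => ?_)
    (fun g hg x hx => comm_of_inv (hinv s hs) hx hg), fun s h1 h2 => hinv s ⟨h1, h2⟩⟩
  refine ((h.mem_normalizer_S2 hab hne).1 (centralizer_le_normalizer _ hg)).resolve_right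
    fun hg' => hne (eq_bot_iff.2 fun k hk => eq_one_of_odd hodd hk ?_)
  have := hinv g hg' k hk
  rwa [← hg k hk, mul_inv_cancel_right, ← mul_eq_one_iff_eq_inv] at this

end Cfsg.Agent.S0739
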