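import Cfsg.Statements.S0740
import Mathlib
import Cfsg.Agent.H8.Zas2

set_option autoImplicit false
open Cfsg

namespace Cfsg.Agent.S0740

open H8

/-- In a finite Zassenhaus group any two points `a ≠ b` are swapped by an involution; every such involution has exactly one fixed point when the degree is odd and 0 or 2 fixed points when the degree is even; and if the two-point stabiliser has even order, some such involution has exactly 2 fixed points. -/
theorem result {G Ω : Type*} [Group G] [Finite G] [MulAction G Ω] [Fintype Ω] (hZ : Cfsg.IsZassenhausGroup G Ω) {a b : Ω} (hab : a ≠ b) : (∃ s : G, orderOf s = 2 ∧ s • a = b ∧ s • b = a) ∧ (∀ s : G, orderOf s = 2 → s • a = b → s • b = a → (Odd (Fintype.card Ω) → Nat.card (MulAction.fixedBy Ω s) = 1) ∧ (Even (Fintype.card Ω) → Nat.card (MulAction.fixedBy Ω s) = 0 ∨ Nat.card (MulAction.fixedBy Ω s) = 2)) ∧ (Even (Fintype.card Ω) → Even (Nat.card ↥(MulAction.stabilizer G a ⊓ MulAction.stabilizer G b)) → ∃ s : G, orderOf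 s = 2 ∧ s • a = b ∧ s • b = a ∧ Nat.card (MulAction.fixedBy Ω s) = 2) := by
  have h := Zs.of_zas hZ
  rw [← Nat.card_eq_fintype_card]
  refine ⟨?_, fun s hs _ _ => ?_, fun _ hev => ?_⟩
  · obtain ⟨s, hs, h2⟩ := h.exists_sw_invol hab
    exact ⟨s, orderOf_eq_two_iff'.2 ⟨h2, hs.ne_one hab⟩, hs⟩
  · rw [orderOf_eq_two_iff'] at hs
    exact ⟨fun ho => h.ncard_fixed_of_odd ho hs.1 hs.2, fun he => h.ncard_fixed_of_even he hs.1 hs.2⟩
  · obtain ⟨j, hj, h2, h1⟩ := exists_invol_of_even hev
    obtain ⟨g, hg⟩ := h.sw_of_invol hab h2 h1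
    refine ⟨_, ?_, hg.1, hg.2, ?_⟩
    · rw [orderOf_conj]; exact orderOf_eq_two_iff'.2 ⟨h2, h1⟩
    · exact h.ncard_fixed_S2 (fun e => hab (smul_left_cancel g e)) (conj_mem_S2 hj g) (by simpa using h1)

end Cfsg.Agent.S0740
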