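import Cfsg.Statements.S0744
import Mathlib
import Cfsg.Agent.H8.PermBasic

set_option autoImplicit false
open Cfsg

namespace Cfsg.Agent.S0744

/-- If for some `k > 1` the pointwise stabilisers of all `(k-1)`-subsets have the same order `> 1` and those of all `k`-subsets have the same order, then the group is `(k-1)`-transitive. -/
theorem result {α : Type*} [Fintype α] [DecidableEq α] (G : Subgroup (Equiv.Perm α)) {k : ℕ} (hk : 1 < k) (hkn : k ≤ Fintype.card α) (l m : ℕ) (hl : 1 < l) (hkm1 : ∀ s : Finset α, s.card = k - 1 → Nat.card (fixingSubgroup G (s : Set α)) = l) (hkm : ∀ s : Finset α, s.card = k → Nat.card (fixingSubgroup G (s : Set α)) = m) : MulAction.IsMultiplyPretransitive G α (k - 1) := by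
  refine H8.isMPT_of_fixing (k := k - 1) ?_ 
  suffices h : MulAction.IsMultiplyPretransitive G α (k - 1) from fun U hU x y hx hy =>
    H8.fixing_of_isMPT h (by rw [Nat.card_eq_fintype_card]; omega) U hU hx hy
  have hins : ∀ (s : Finset α) (x : α), x ∉ s → s.card = k - 1 →
      fixingSubgroup G ((insert x s : Finset α) : Set α) ≤ fixingSubgroup G (s : Set α) ∧
      Nat.card (fixingSubgroup G ((insert x s : Finset α) : Set α)) = m := by
    intro s x hx hs
    refine ⟨fixingSubgroup_antitone _ _ (by simp), hkm _ ?_⟩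
    rw [Finset.card_insert_of_notMem hx]; omega
  -- `m` divides `l` properly
  obtain ⟨s0, -, hs0⟩ := Finset.exists_subset_card_eq (s := (Finset.univ : Finset α)) (n := k - 1)
    (by rw [Finset.card_univ]; omega)
  have hex : ∀ s : Finset α, s.card = k - 1 → ∃ x, x ∉ s := by
    intro s hs
    by_contra hne
    push Not at hne
    have := Finset.card_le_card (show Finset.univ ⊆ s from fun x _ => hne x)
    rw [Finset.card_univ] at this
    omega
  obtain ⟨x0, hx0⟩ := hex s0 hs0
  have hdvd : m ∣ l := by
    rw [← hkm1 s0 hs0, ← (hins s0 x0 hx0 hs0).2]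
    exact Subgroup.card_dvd_of_le (hins s0 x0 hx0 hs0).1
  obtain ⟨r, hr⟩ := hdvd
  have hr1 : r ≠ 1 := by
    rintro rfl
    have : fixingSubgroup G (s0 : Set α) = ⊥ := by
      rw [eq_bot_iff]
      intro g hg
      rw [Subgroup.mem_bot]
      ext x
      by_cases hx : x ∈ s0
      · exact hg ⟨x, hx⟩
      · have := Subgroup.eq_of_le_of_card_ge (hins s0 x hx hs0).1 (by
          rw [(hins s0 x hx hs0).2, hkm1 s0 hs0, hr, mul_one])
        rw [← this] at hg
        exact hg ⟨x, by simp⟩
    have h1 := hkm1 s0 hs0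
    rw [this] at h1
    simp at h1
    omega
  obtain ⟨p, hp, hpr⟩ := Nat.exists_prime_and_dvd hr1
  have := Fact.mk hp
  refine H8.gleason hp (by omega) (by rw [Nat.card_eq_fintype_card]; omega) fun s hs => ?_
  obtain ⟨P⟩ : Nonempty (Sylow p (fixingSubgroup G (s : Set α))) := inferInstance
  refine ⟨(P : Subgroup _).map (fixingSubgroup G (s : Set α)).subtype, P.2.map _, ?_⟩
  ext x
  constructor
  · intro hx
    by_contra hxs
    have hle : (P : Subgroup _).map (fixingSubgroup G (s : Set α)).subtype ≤
        fixingSubgroup G ((insert x s : Finset α) : Set α) := by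
      rintro g hg ⟨y, hy⟩
      rcases Finset.mem_insert.mp hy with rfl | hy
      · exact hx ⟨g, hg⟩
      · obtain ⟨g', -, rfl⟩ := hg
        exact g'.2 ⟨y, hy⟩
    have h1 := Subgroup.card_dvd_of_le hle
    rw [(hins s x hxs hs).2, Subgroup.card_map_of_injective (Subgroup.subtype_injective _)] at h1
    have h2 := P.1.card_mul_index
    rw [hkm1 s hs, hr] at h2
    obtain ⟨c, hc⟩ := h1
    have hpos : 0 < Nat.card P := Nat.card_pos
    rw [hc, mul_assoc] at h2
    have h3 := Nat.eq_of_mul_eq_mul_left hpos h2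
    exact P.not_dvd_index (h3 ▸ Dvd.dvd.mul_left hpr c)
  · rintro hx ⟨_, g, -, rfl⟩
    exact g.2 ⟨x, hx⟩

end Cfsg.Agent.S0744
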