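import Cfsg.Statements.S0749
import Cfsg.Agent.H4.Witt

set_option autoImplicit false
open Cfsg

namespace Cfsg.Agent.S0749


/-- Witt's Lemma for alternating forms. If B is a non-degenerate alternating bilinear form on a finite-dimensional vector space V (over any field) and φ is a linear equivalence between subspaces X and Y of V preserving B, then φ extends to a B-preserving linear automorphism of V. -/
theorem result {F V : Type*} [Field F] [AddCommGroup V] [Module F V] [FiniteDimensional F V] (B : LinearMap.BilinForm F V) (hB : B.Nondegenerate) (hA : B.IsAlt) (X Y : Submodule F V) (φ : X ≃ₗ[F] Y) (hφ : ∀ x x' : X, B (φ x : V) (φ x' : V) = B (x : V) (x' : V)) : ∃ g : V ≃ₗ[F] V, (∀ u v : V, B (g u) (g v) = B u v) ∧ ∀ x : X, g (x : V) = (φ x : V) := by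
  obtain ⟨g, hg, h⟩ := H4.Form.witt (f := H4.altForm B hA) (fun x hx => hB.1 x hx)
    (H4.altForm B hA).full_Isom X.subtype (Y.subtype ∘ₗ (φ : X →ₗ[F] Y)) X.injective_subtype
    (Y.injective_subtype.comp φ.injective) (fun _ => rfl) (fun x y => (hφ x y).symm)
  exact ⟨g, hg.1, h⟩

end Cfsg.Agent.S0749
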