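import Cfsg.Statements.S0752
import Cfsg.Agent.H4.WaB

set_option autoImplicit false
open Cfsg

namespace Cfsg.Agent.S0752


/-- Classification of alternating forms: for an alternating bilinear form B on a finite-dimensional space over any field there is a basis indexed by (Fin m ⊕ Fin m) ⊕ Fin k such that B (e_i, f_j) = δ_ij, the e's are pairwise orthogonal, the f's are pairwise orthogonal, and the last k basis vectors are orthogonal to everything (they span the radical). -/
theorem result {F V : Type*} [Field F] [AddCommGroup V] [Module F V] [FiniteDimensional F V] (B : LinearMap.BilinForm F V) (hA : B.IsAlt) : ∃ (m k : ℕ) (b : Module.Basis ((Fin m ⊕ Fin m) ⊕ Fin k) F V), (∀ i j : Fin m, B (b (Sum.inl (Sum.inl i))) (b (Sum.inl (Sum.inr j))) = if i = j then 1 else 0) ∧ (∀ i j : Fin m, B (b (Sum.inl (Sum.inl i))) (b (Sum.inl (Sum.inl j))) = 0) ∧ (∀ i j : Fin m, B (b (Sum.inl (Sum.inr i))) (b (Sum.inl (Sum.inr j))) = 0) ∧ (∀ (j : Fin k) (v : V), B (b (Sum.inr j)) v = 0) := by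
  classical
  let f := H4.altForm B hA
  obtain ⟨X, hX⟩ := (LinearMap.ker B).exists_isCompl
  have hN : (f.restrict X).ND := fun x hx => by
    refine Subtype.ext (Submodule.disjoint_def.1 hX.disjoint _ (LinearMap.ext fun y => ?_) x.2)
    obtain ⟨a, ha, b, hb, rfl⟩ := Submodule.mem_sup.1 (hX.sup_eq_top ▸ Submodule.mem_top (x := y))
    have h1 : B x a = 0 := by rw [← hA.neg_eq, LinearMap.mem_ker.1 ha]; simp
    have h2 : B x b = 0 := hx ⟨b, hb⟩
    simp [h1, h2]
  obtain ⟨m, hm⟩ := H4.alt_even_finrank _ X _ hN rfl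
  obtain ⟨e, he⟩ := H4.alt_exists_isIso _ _ X _ _ (H4.spForm_ND m F) hN (by simp; omega) rfl
  let b1 := (Pi.basisFun F (Fin m ⊕ Fin m)).map (e.trans (LinearEquiv.neg F))
  let b2 := (b1.reindex (Equiv.sumComm _ _))
  let b := (b2.prod (Module.finBasis F (LinearMap.ker B))).map
    (Submodule.prodEquivOfIsCompl _ _ hX.symm)
  have h1 : ∀ i j, B (b (.inl i)) (b (.inl j)) =
      Cfsg.sympForm m F (Pi.single i.swap 1) (Pi.single j.swap 1) := fun i j => by
    rw [← H4.spForm_B, ← he.B]
    simp [b, b2, b1]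
    rfl
  refine ⟨m, _, b, fun i j => ?_, fun i j => ?_, fun i j => ?_, fun j v => ?_⟩
  · simp [h1, H4.sympForm_eq, Pi.single_apply, eq_comm]
  · simp [h1, H4.sympForm_eq, Pi.single_apply]
  · simp [h1, H4.sympForm_eq, Pi.single_apply]
  · have : b (.inr j) ∈ LinearMap.ker B := by simp [b]
    rw [LinearMap.mem_ker.1 this]; rfl

end Cfsg.Agent.S0752
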