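import Cfsg.Statements.S0753
import Cfsg.Agent.H4.Witt

set_option autoImplicit false
open Cfsg

namespace Cfsg.Agent.S0753


/-- If σ is a ring endomorphism of the field F other than the identity and B is a σ-sesquilinear conjugate-symmetric form with B v v = 0 for every v, then B = 0. -/
theorem result {F V : Type*} [Field F] [AddCommGroup V] [Module F V] (σ : F →+* F) (hσ : σ ≠ RingHom.id F) (B : V →ₛₗ[σ] V →ₗ[F] F) (hS : B.IsSymm) (h0 : ∀ v : V, B v v = 0) : B = 0 := by
  have h1 : ∀ x y, B x y + σ (B x y) = 0 := by
    intro x y
    have := h0 (x + y)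
    simp only [map_add, LinearMap.add_apply, h0, zero_add, add_zero] at this
    rw [hS.eq]; linear_combination this
  ext x y
  by_contra hxy
  apply hσ
  ext c
  have h2 := h1 x (c • y)
  have h3 := h1 x y
  simp only [map_smul, smul_eq_mul, map_mul] at h2
  have h4 : B x y * (c - σ c) = 0 := by linear_combination h2 - σ c * h3
  rcases mul_eq_zero.1 h4 with h | h
  · exact absurd h hxy
  · simp only [RingHom.id_apply]; linear_combination -h

end Cfsg.Agent.S0753
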