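import Cfsg.Statements.S0756
import Cfsg.Agent.H4.Misc

set_option autoImplicit false
open Cfsg

namespace Cfsg.Agent.S0756


/-- Classification of symmetric bilinear forms over finite fields of odd characteristic: if B is non-degenerate symmetric on V of dimension n + 1 and α is a fixed non-square of F, there is an orthogonal basis b_0, ..., b_n with B(b_i, b_i) = 1 for i < n and B(b_n, b_n) ∈ {1, α}. -/
theorem result {F V : Type*} [Field F] [Finite F] [AddCommGroup V] [Module F V] [FiniteDimensional F V] (h2 : (2 : F) ≠ 0) (B : LinearMap.BilinForm F V) (hS : B.IsSymm) (hB : B.Nondegenerate) {n : ℕ} (hn : Module.finrank F V = n + 1) (α : F) (hα : ¬ IsSquare α) : ∃ b : Module.Basis (Fin (n + 1)) F V, (∀ i j, i ≠ j → B (b i) (b j) = 0) ∧ (∀ i, i ≠ Fin.last n → B (b i) (b i) = 1) ∧ (B (b (Fin.last n)) (b (Fin.last n)) = 1 ∨ B (b (Fin.last n)) (b (Fin.last n)) = α) := by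
  have hf := H4.symForm_ND h2 hS hB
  have hα0 : α ≠ 0 := by rintro rfl; exact hα IsSquare.zero
  obtain ⟨d, hd, hd0, hd'⟩ : ∃ d : F, (d = 1 ∨ d = α) ∧ d ≠ 0 ∧
      H4.chi d = (H4.symForm h2 B hS).disc := by
    rcases Int.units_eq_one_or (H4.symForm h2 B hS).disc with h | h
    · exact ⟨1, Or.inl rfl, one_ne_zero, by rw [h, H4.chi_one]⟩
    · exact ⟨α, Or.inr rfl, hα0, by rw [h, H4.chi_eq_neg_one.2 hα]⟩
  let w : Fin (n + 1) → F := fun i => if i = Fin.last n then d else 1
  obtain ⟨e, he⟩ := H4.odd_exists_isIso h2 (n + 1) _ _ (H4.diagForm h2 w) _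
    (H4.diagForm_ND h2 fun i => by simp only [w]; split_ifs <;> simp [hd0]) hf (by simp) hn
    (by rw [H4.diagForm_disc, ← hd']; simp [w])
  have key : ∀ i j, B (((Pi.basisFun F _).map e) i) (((Pi.basisFun F _).map e) j) =
      Matrix.diagonal w i j := fun i j => by
    rw [← H4.diagForm_gram h2 w, H4.Form.gram_app, ← he.B]; rfl
  refine ⟨(Pi.basisFun F _).map e, fun i j h => ?_, fun i h => ?_, ?_⟩
  · rw [key, Matrix.diagonal_apply_ne _ h]
  · rw [key]; simp [w, h]
  · rw [key]; simpa [w] using hd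

end Cfsg.Agent.S0756
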