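import Cfsg.Statements.S0757
import Cfsg.Agent.H4.Misc

set_option autoImplicit false
open Cfsg

namespace Cfsg.Agent.S0757


/-- The two diagonal forms Σ x_i^2 and Σ_(i<n) x_i^2 + α x_n^2 on F^(n+1), with α a non-square and 2 ≠ 0 in F, are inequivalent quadratic forms (so over a finite field of odd order there are exactly two classes of non-singular symmetric bilinear forms in each dimension). -/
theorem result {F : Type*} [Field F] (h2 : (2 : F) ≠ 0) (n : ℕ) (α : F) (hα : ¬ IsSquare α) : ¬ (QuadraticMap.weightedSumSquares F (fun _ : Fin (n + 1) => (1 : F))).Equivalent (QuadraticMap.weightedSumSquares F (fun i : Fin (n + 1) => if i = Fin.last n then α else (1 : F))) := by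
  rintro ⟨e⟩
  have hg : ∀ w : Fin (n + 1) → F, (H4.quadForm (QuadraticMap.weightedSumSquares F w)).gram
      (Pi.basisFun F _) = Matrix.diagonal fun i => 2 * w i := by
    intro w
    ext i j
    simp only [H4.Form.gram_app, H4.quadForm_B, QuadraticMap.polar,
      QuadraticMap.weightedSumSquares_apply, Pi.basisFun_apply, Pi.add_apply, smul_eq_mul,
      ← Finset.sum_sub_distrib]
    rw [Finset.sum_eq_single i]
    · by_cases h : i = j
      · subst h; simp; ring
      · simp [h]
    · intro k _ hk
      simp [hk]
    · simp
  have h1 := H4.gram_det_basis (H4.quadForm (QuadraticMap.weightedSumSquares F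
    (fun _ : Fin (n + 1) => (1 : F)))) (Pi.basisFun F _) ((Pi.basisFun F _).map e.toLinearEquiv.symm)
  have h3 : (H4.quadForm (QuadraticMap.weightedSumSquares F
      (fun _ : Fin (n + 1) => (1 : F)))).gram ((Pi.basisFun F _).map e.toLinearEquiv.symm) =
      (H4.quadForm (QuadraticMap.weightedSumSquares F
        (fun i : Fin (n + 1) => if i = Fin.last n then α else (1 : F)))).gram (Pi.basisFun F _) := by
    ext i j
    simp only [H4.Form.gram_app, H4.quadForm_B, QuadraticMap.polar, Module.Basis.map_apply,
      ← map_add]
    simp only [← e.map_app]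
    simp
  rw [h3, hg, hg, Matrix.det_diagonal, Matrix.det_diagonal, Finset.prod_mul_distrib,
    Finset.prod_mul_distrib] at h1
  simp only [Finset.prod_const, Finset.prod_ite_eq', Finset.mem_univ, if_true, one_pow,
    mul_one] at h1
  rw [mul_comm] at h1
  exact hα ⟨_, (mul_right_cancel₀ (pow_ne_zero _ h2) h1).trans (sq _)⟩

end Cfsg.Agent.S0757
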