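import Cfsg.Statements.S0758
import Cfsg.Agent.H4.Misc

set_option autoImplicit false
open Cfsg

namespace Cfsg.Agent.S0758


/-- For a finite field F of odd order q and a non-square α: the form x² + y² is isotropic iff q ≡ 1 mod 4, and the form x² + α y² is isotropic iff q ≡ 3 mod 4. -/
theorem result {F : Type*} [Field F] [Fintype F] (h2 : (2 : F) ≠ 0) (α : F) (hα : ¬ IsSquare α) : ((∃ x y : F, (x ≠ 0 ∨ y ≠ 0) ∧ x ^ 2 + y ^ 2 = 0) ↔ Fintype.card F % 4 = 1) ∧ ((∃ x y : F, (x ≠ 0 ∨ y ≠ 0) ∧ x ^ 2 + α * y ^ 2 = 0) ↔ Fintype.card F % 4 = 3) := by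
  have key : ∀ β : F, β ≠ 0 →
      ((∃ x y : F, (x ≠ 0 ∨ y ≠ 0) ∧ x ^ 2 + β * y ^ 2 = 0) ↔ H4.chi (-β) = 1) := by
    intro β hβ
    rw [H4.chi_eq_one]
    constructor
    · rintro ⟨x, y, h, h1⟩
      have hy : y ≠ 0 := by
        rintro rfl
        simp at h h1
        exact h h1
      exact ⟨x / y, by field_simp; linear_combination -h1⟩
    · rintro ⟨r, hr⟩
      exact ⟨r, 1, Or.inr one_ne_zero, by linear_combination -hr⟩
  have hα0 : α ≠ 0 := by rintro rfl; exact hα IsSquare.zero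
  have h1 := H4.chi_neg_one_eq_one_iff h2
  have h3 := H4.odd_card_iff.2 h2
  rw [Nat.card_eq_fintype_card] at h1 h3
  refine ⟨by simpa [h1] using key 1 one_ne_zero, ?_⟩
  rw [key α hα0, neg_eq_neg_one_mul, H4.chi_mul (by simp) hα0, H4.chi_eq_neg_one.2 hα]
  obtain ⟨k, hk⟩ := h3
  rcases Int.units_eq_one_or (H4.chi (-1 : F)) with h | h
  · have := h1.1 h
    rw [h]
    exact ⟨fun h => absurd h (by decide), fun h => by omega⟩
  · have : Fintype.card F % 4 ≠ 1 := fun h' => by rw [h1.2 h'] at h; exact absurd h (by decide)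
    rw [h]
    exact ⟨fun _ => by omega, fun _ => by decide⟩

end Cfsg.Agent.S0758
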