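import Cfsg.Statements.S0759
import Cfsg.Agent.H4.Misc

set_option autoImplicit false
open Cfsg

namespace Cfsg.Agent.S0759


/-- Type of the orthonormal form: over a finite field of odd order q and for m ≥ 1, the quadratic form Σ_(i<2m) x_i² on F^(2m) admits an m-dimensional subspace on which it vanishes identically if and only if it is not the case that q ≡ 3 (mod 4) and m is odd. -/
theorem result {F : Type*} [Field F] [Fintype F] (h2 : (2 : F) ≠ 0) (m : ℕ) (hm : 1 ≤ m) : (∃ W : Submodule F (Fin (2 * m) → F), Module.finrank F W = m ∧ ∀ w ∈ W, ∑ i, w i ^ 2 = 0) ↔ ¬ (Fintype.card F % 4 = 3 ∧ Odd m) := by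
  have h1 := H4.hasTS_iff_disc h2 (H4.diagForm_ND h2 (w := fun _ : Fin (2 * m) => (1 : F))
    fun _ => one_ne_zero) (m := m) (by simp)
  rw [H4.diagForm_disc, Finset.prod_const_one, H4.chi_one, eq_comm,
    H4.chi_neg_one_pow_eq_one_iff h2, Nat.card_eq_fintype_card] at h1
  have h3 := H4.odd_card_iff.2 h2
  rw [Nat.card_eq_fintype_card] at h3
  refine Iff.trans ?_ (h1.trans ?_)
  · refine exists_congr fun W => ?_
    rw [and_comm, H4.quad_TS_iff]
    simp [H4.diagForm_Q, h2, sq]
  · obtain ⟨k, hk⟩ := h3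
    rw [Nat.pow_mod]
    have : Fintype.card F % 4 = 1 ∨ Fintype.card F % 4 = 3 := by omega
    rcases this with h | h <;> rw [h]
    · simp
    · rcases Nat.even_or_odd' m with ⟨j, rfl | rfl⟩
      · simp [pow_mul, Nat.pow_mod]
      · simp [pow_succ, pow_mul, Nat.mul_mod, Nat.pow_mod]

end Cfsg.Agent.S0759
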