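import Cfsg.Statements.S0761
import Cfsg.Agent.H4.MatBridge

set_option autoImplicit false
open Cfsg

namespace Cfsg.Agent.S0761


/-- Hyperbolic partners: let B be a non-degenerate bilinear form on a finite-dimensional space, either alternating, or symmetric with 2 ≠ 0. If Z is a subspace on which B vanishes, x ∉ Z is isotropic and orthogonal to Z, then there is an isotropic y with B x y = 1 which is orthogonal to Z. -/
theorem result {F V : Type*} [Field F] [AddCommGroup V] [Module F V] [FiniteDimensional F V] (B : LinearMap.BilinForm F V) (hB : B.Nondegenerate) (hform : B.IsAlt ∨ (B.IsSymm ∧ (2 : F) ≠ 0)) (x : V) (Z : Submodule F V) (hxZ : x ∉ Z) (hx : B x x = 0) (hxz : ∀ z ∈ Z, B x z = 0) (hZ : ∀ z ∈ Z, ∀ z' ∈ Z, B z z' = 0) : ∃ y : V, B y y = 0 ∧ B x y = 1 ∧ ∀ z ∈ Z, B z y = 0 := by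
  rcases hform with hA | ⟨hS, h2⟩
  · obtain ⟨w, hw, h⟩ := H4.Form.ND.exists_hyp_perp (f := H4.altForm B hA) (fun x hx => hB.1 x hx)
      hxZ rfl ((H4.altForm B hA).mem_perp'.2 hxz)
    exact ⟨w, h.Bww, h.Buw, hw⟩
  · let f := H4.mkQuad (fun x => B x x / 2) B (fun x y => by
      simp only [map_add, LinearMap.add_apply, hS.eq y x]; field_simp; ring) (fun c x => by
      simp only [map_smul, LinearMap.smul_apply, smul_eq_mul]; ring)
    obtain ⟨w, hw, h⟩ := H4.Form.ND.exists_hyp_perp (f := f) (fun x hx => hB.1 x hx)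
      hxZ (show B x x / 2 = 0 by simp [hx]) (f.mem_perp'.2 hxz)
    exact ⟨w, h.Bww, h.Buw, hw⟩

end Cfsg.Agent.S0761
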