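import Cfsg.Statements.S0763
import Cfsg.Agent.H4.Quad

set_option autoImplicit false
open Cfsg

namespace Cfsg.Agent.S0763


/-- Binary quadratic forms in characteristic two over a finite field: if Q is a quadratic form on a 2-dimensional space whose polar form is non-degenerate, then either there are vectors v, w with Q v = Q w = 0 and polar value 1 (Q is xy in these coordinates), or there are v, w and μ with Q v = 1, Q w = μ, polar value 1 and x² + x + μ without roots in F (Q is x² + xy + μy²). -/
theorem result {F V : Type*} [Field F] [Finite F] [CharP F 2] [AddCommGroup V] [Module F V] (Q : QuadraticForm F V) (h2 : Module.finrank F V = 2) (hQ : (QuadraticMap.polarBilin Q).Nondegenerate) : (∃ v w : V, LinearIndependent F ![v, w] ∧ Q v = 0 ∧ Q w = 0 ∧ QuadraticMap.polar Q v w = 1) ∨ (∃ (v w : V) (μ : F), LinearIndependent F ![v, w] ∧ (∀ x : F, x ^ 2 + x + μ ≠ 0) ∧ Q v = 1 ∧ Q w = μ ∧ QuadraticMap.polar Q v w = 1) := by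
  have : FiniteDimensional F V := Module.finite_of_finrank_pos (by omega)
  have hf : (H4.quadForm Q).ND := fun x hx => hQ.1 x hx
  have h20 : (2 : F) = 0 := by exact_mod_cast CharP.cast_eq_zero F 2
  by_cases ha : ∀ v, Q v = 0 → v = 0
  · right
    obtain ⟨x, hx⟩ := H4.quad_exists_Q_eq' hf h2.ge one_ne_zero
    have hx0 : x ≠ 0 := by rintro rfl; simp at hx
    obtain ⟨y, hy⟩ := hf.exists_eq hx0 1
    have hli : LinearIndependent F ![x, y] := by
      rw [LinearIndependent.pair_iff' hx0]
      rintro a rfl
      simp [H4.quad_B_self, h20] at hy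
    refine ⟨x, y, Q y, hli, fun t ht => ?_, hx, rfl, hy⟩
    have := ha (t • x + (1 : F) • y) (by
      have := H4.quad_Q_comb (H4.quadForm Q) t 1 x y
      rw [hx, hy] at this
      exact this.trans (by simp only [H4.quadForm_Q]; linear_combination ht))
    exact one_ne_zero (LinearIndependent.pair_iff.1 hli _ _ this).2
  · left
    push Not at ha
    obtain ⟨u, hQ, hu⟩ := ha
    obtain ⟨w, h⟩ := hf.exists_hyp hu hQ
    exact ⟨u, w, h.linInd, h.Qu, h.Qw, h.Buw⟩

end Cfsg.Agent.S0763
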