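import Cfsg.Statements.S0767
import Cfsg.Agent.H4.MatBridge

set_option autoImplicit false
open Cfsg

namespace Cfsg.Agent.S0767


/-- The root group of a point: T_v(c) T_v(d) = T_v(c + d), and for A in the symplectic group with A v = a v, the conjugate A T_v(c) A⁻¹ is again some T_v(d). -/
theorem result {F : Type*} [Field F] (m : ℕ) (v : Fin m ⊕ Fin m → F) : (∀ c d : F, Cfsg.sympTransvection m v c * Cfsg.sympTransvection m v d = Cfsg.sympTransvection m v (c + d)) ∧ ∀ (A : Matrix (Fin m ⊕ Fin m) (Fin m ⊕ Fin m) F) (a : F), A ∈ Matrix.symplecticGroup (Fin m) F → A.mulVec v = a • v → ∀ c : F, ∃ d : F, A * Cfsg.sympTransvection m v c * A⁻¹ = Cfsg.sympTransvection m v d := by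
  refine ⟨fun c d => H4.matrix_ext_mulVec fun x => ?_, fun A a hA hAv c => ⟨c * a * a, ?_⟩⟩
  · rw [← Matrix.mulVec_mulVec]
    simp only [H4.sympTransvection_mulVec, ← H4.spForm_B]
    simp [H4.alt_B_self]
    module
  · have hu : IsUnit A.det := SymplecticGroup.symplectic_det hA
    have := Matrix.invertibleOfIsUnitDet A hu
    rw [Matrix.mul_inv_eq_iff_eq_mul_of_invertible]
    refine H4.matrix_ext_mulVec fun x => ?_
    rw [← Matrix.mulVec_mulVec, ← Matrix.mulVec_mulVec]
    simp only [H4.sympTransvection_mulVec, Matrix.mulVec_add, Matrix.mulVec_smul]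
    rw [← H4.mem_symplecticGroup_iff.1 hA x v, hAv]
    simp only [← H4.spForm_B, map_smul, smul_eq_mul]
    module

end Cfsg.Agent.S0767
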