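import Cfsg.Statements.S0768
import Cfsg.Agent.H4.Misc

set_option autoImplicit false
open scoped LinearAlgebra.Projectivization
open Cfsg

namespace Cfsg.Agent.S0768


/-- Primitivity: for m ≥ 1 and F finite, the symplectic group of the form sympForm (as a subgroup of the general linear group) acts primitively on the projective space of F^(2m). -/
theorem result {F : Type*} [Field F] [Finite F] (m : ℕ) (hm : 1 ≤ m) : MulAction.IsPreprimitive ↥(Cfsg.spGL m F) (ℙ F (Fin m ⊕ Fin m → F)) := by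
  have hf := H4.spForm_ND m F
  let f := H4.spForm m F
  let e : Cfsg.spGL m F ≃* f.Isom := (MulEquiv.subgroupCongr (H4.spGL_eq m F)).trans f.matEquiv
  have hact : ∀ (g : f.Isom) (x : Fin m ⊕ Fin m → F) (hx : x ≠ 0),
      e.symm g • Projectivization.mk F x hx =
        Projectivization.mk F (g.1 x) (H4.Form.isom_ne_zero g hx) := by
    intro g x hx
    obtain ⟨g, rfl⟩ := e.surjective g
    rw [MulEquiv.symm_apply_apply]; rfl
  have htr : MulAction.IsPretransitive (Cfsg.spGL m F) (ℙ F (Fin m ⊕ Fin m → F)) := by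
    refine ⟨fun x y => ?_⟩
    induction x using Projectivization.ind with | h x hx => ?_
    induction y using Projectivization.ind with | h y hy => ?_
    obtain ⟨g, hg, h⟩ := H4.Form.witt_one hf hx hy (by rw [H4.alt_Q, H4.alt_Q])
    exact ⟨e.symm ⟨g, hg⟩, by rw [hact]; simp [h]⟩
  refine ⟨fun {B} hB => ?_⟩
  by_contra hnt
  rw [MulAction.IsTrivialBlock, not_or, Set.not_subsingleton_iff] at hnt
  obtain ⟨⟨p, hp, p', hp', hpp⟩, hne⟩ := hnt
  apply hne
  induction p using Projectivization.ind with | h u hu => ?_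
  induction p' using Projectivization.ind with | h x hx => ?_
  let R : (Fin m ⊕ Fin m → F) → (Fin m ⊕ Fin m → F) → Prop := fun a b =>
    ∃ (ha : a ≠ 0) (hb : b ≠ 0) (g : Cfsg.spGL m F), g • Projectivization.mk F a ha ∈ B ∧
      g • Projectivization.mk F b hb ∈ B
  have hkey : ∀ (g g' : Cfsg.spGL m F) (a b : ℙ F (Fin m ⊕ Fin m → F)), g • a ∈ B → g' • a ∈ B →
      g' • b ∈ B → g • b ∈ B := by
    intro g g' a b h1 h2 h3
    have := hB.smul_eq_of_mem (g := g * g'⁻¹) h2 (by rwa [mul_smul, inv_smul_smul])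
    rw [← this]
    exact ⟨_, h3, by simp [mul_smul]⟩
  rw [Set.eq_univ_iff_forall]
  intro y
  induction y using Projectivization.ind with | h y hy => ?_
  obtain ⟨_, _, g, h1, h2⟩ := H4.alt_prim.rel hf R (fun ⟨a, b, g, h1, h2⟩ => ⟨b, a, g, h2, h1⟩)
    (fun ⟨a, b, g, h1, h2⟩ ⟨_, c, g', h3, h4⟩ => ⟨a, c, g, h1, hkey _ _ _ _ h2 h3 h4⟩)
    (fun a c ha _ hc => by
      obtain ⟨g, hg⟩ := htr.exists_smul_eq (Projectivization.mk F a ha) (Projectivization.mk F u hu)
      refine ⟨ha, smul_ne_zero hc ha, g, hg ▸ hp, ?_⟩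
      rw [(Projectivization.mk_eq_mk_iff' F _ _ _ ha).2 ⟨c, rfl⟩]
      exact hg ▸ hp)
    (by
      rintro g - a b ⟨ha, hb, g', h1, h2⟩
      refine ⟨H4.Form.isom_ne_zero g ha, H4.Form.isom_ne_zero g hb, g' * (e.symm g)⁻¹, ?_, ?_⟩
      · rwa [← hact g a ha, mul_smul, inv_smul_smul]
      · rwa [← hact g b hb, mul_smul, inv_smul_smul])
    hu (H4.alt_Q _ _) (H4.alt_Q _ x) (fun h => by
      obtain ⟨c, hc⟩ := Submodule.mem_span_singleton.1 h
      exact hpp ((Projectivization.mk_eq_mk_iff' F _ _ hx hu).2 ⟨c, hc⟩).symm)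
    ⟨hu, hx, 1, by simpa using hp, by simpa using hp'⟩ hy (H4.alt_Q _ _)
  simpa using hkey 1 g _ _ (by simpa using hp) h1 h2

end Cfsg.Agent.S0768
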