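import Cfsg.Statements.S0769


set_option autoImplicit false
open Cfsg

namespace Cfsg.Agent.S0769

/-- Order of the Borel subgroup of GL_n(q): the invertible lower-triangular n × n matrices over a field with q elements number q^(n(n-1)/2) (q-1)^n (unitriangular part times the diagonal torus). -/
theorem result {F : Type*} [Field F] [Fintype F] {q : ℕ} (hF : Fintype.card F = q) (n : ℕ) : Nat.card {g : Matrix.GeneralLinearGroup (Fin n) F // ∀ i j : Fin n, i < j → (g : Matrix (Fin n) (Fin n) F) i j = 0} = q ^ (n * (n - 1) / 2) * (q - 1) ^ n := by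
  set_option maxSynthPendingDepth 3 in
  classical
  subst hF
  let M : (∀ i : Fin n, Fˣ × (Finset.Iio i → F)) → Matrix (Fin n) (Fin n) F := fun x i j =>
    if h : j < i then (x i).2 ⟨j, Finset.mem_Iio.2 h⟩ else if j = i then (x i).1 else 0
  have t : ∀ x i j, i < j → M x i j = 0 := fun x i j h => by simp [M, h.not_gt, h.ne']
  have d : ∀ x, (M x).det ≠ 0 := fun x => by
    rw [Matrix.det_of_lowerTriangular _ fun i j h => t x i j h]
    exact Finset.prod_ne_zero_iff.2 fun i _ => by simp [M]
  rw [← Nat.card_congr (Equiv.ofBijective (fun x => ⟨Matrix.GeneralLinearGroup.mkOfDetNeZero _ (d x), t x⟩)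
    ⟨fun x y e => ?_, fun g => ?_⟩)]
  · rw [Nat.card_pi, ← Finset.sum_range_id, ← Finset.prod_pow_eq_pow_sum, ← Fin.prod_univ_eq_prod_range,
      ← Fin.prod_const, ← Finset.prod_mul_distrib]
    refine Finset.prod_congr rfl fun i _ => ?_
    rw [Nat.card_prod, Nat.card_fun, Nat.card_eq_fintype_card, Nat.card_eq_fintype_card, Nat.card_eq_fintype_card,
      Fintype.card_units, Fintype.card_coe, Fin.card_Iio, mul_comm]
  · have e' : M x = M y := congrArg (fun g => (g.1 : Matrix (Fin n) (Fin n) F)) e
    refine funext fun i => Prod.ext (Units.ext ?_) (funext fun j => ?_)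
    · simpa [M] using congrFun (congrFun e' i) i
    · simpa [M, Finset.mem_Iio.1 j.2] using congrFun (congrFun e' i) j
  · have z := g.1.det_ne_zero
    rw [Matrix.det_of_lowerTriangular _ fun i j h => g.2 i j h, Finset.prod_ne_zero_iff] at z
    refine ⟨fun i => (Units.mk0 _ (z i (Finset.mem_univ i)), fun j => g.1.1 i j), Subtype.ext (Units.ext ?_)⟩
    ext i j
    change M (fun i => (Units.mk0 _ (z i (Finset.mem_univ i)), fun j => g.1.1 i j)) i j = _
    rcases lt_trichotomy j i with h | rfl | h
    · simp [M, h]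
    · simp [M]
    · simp [M, h.not_gt, h.ne', g.2 _ _ h]

end Cfsg.Agent.S0769
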