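import Cfsg.Statements.S0770
import Cfsg.Agent.H4.WaB

set_option autoImplicit false
open Cfsg

namespace Cfsg.Agent.S0770


/-- For a field with at least 3 elements, an invertible matrix normalises the subgroup of invertible diagonal matrices of GL_n if and only if it is monomial (exactly one non-zero entry in each row). -/
theorem result {F : Type*} [Field F] (hF : ∃ a : F, a ≠ 0 ∧ a ≠ 1) (n : ℕ) (g : Matrix.GeneralLinearGroup (Fin n) F) : g ∈ Subgroup.normalizer ((Units.map (Matrix.diagonalRingHom (Fin n) F).toMonoidHom).range : Subgroup (Matrix.GeneralLinearGroup (Fin n) F)) ↔ ∀ i : Fin n, ∃! j : Fin n, (g : Matrix (Fin n) (Fin n) F) i j ≠ 0 := by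
  obtain ⟨a, ha0, ha1⟩ := hF
  have hD : ∀ x : GL (Fin n) F, x ∈ (Units.map (Matrix.diagonalRingHom (Fin n) F).toMonoidHom).range ↔
      ∃ d : Fin n → F, x.1 = Matrix.diagonal d := fun x => by
    refine ⟨fun ⟨d, h⟩ => ⟨d.1, by rw [← h]; rfl⟩, fun ⟨d, h⟩ => ?_⟩
    have := x.det_ne_zero
    rw [h, Matrix.det_diagonal, Finset.prod_ne_zero_iff] at this
    exact ⟨(Pi.isUnit_iff.2 fun i => (this i (Finset.mem_univ _)).isUnit).unit, Units.ext h.symm⟩
  have row : ∀ i, ∃ j, g.1 i j ≠ 0 := fun i => by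
    by_contra h
    exact g.det_ne_zero (Matrix.det_eq_zero_of_row_eq_zero i (by simpa using h))
  have col : ∀ j, ∃ i, g.1 i j ≠ 0 := fun j => by
    by_contra h
    exact g.det_ne_zero (Matrix.det_eq_zero_of_column_eq_zero j (by simpa using h))
  rw [Subgroup.mem_normalizer_iff]
  simp only [hD]
  constructor
  · intro h i
    obtain ⟨j, hj⟩ := row i
    refine ⟨j, hj, fun k hk => by_contra fun e => ?_⟩
    let x := Matrix.GeneralLinearGroup.mkOfDetNeZero (Matrix.diagonal (Function.update 1 j a))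
      (by simp [Finset.prod_update_of_mem, ha0])
    obtain ⟨d, hd⟩ := (h x).1 ⟨_, rfl⟩
    have e1 : g.1 * Matrix.diagonal (Function.update 1 j a) = Matrix.diagonal d * g.1 := by
      rw [← hd, ← Units.val_mul, inv_mul_cancel_right]; rfl
    have e2 := congrFun (congrFun e1 i) j
    have e3 := congrFun (congrFun e1 i) k
    simp [e, hk] at e2 e3
    rw [e3] at e2
    exact ha1 (mul_left_cancel₀ hj (by simpa using e2))
  · intro h x
    choose σ h1 h2 using h
    have hσ : Function.Bijective σ := Finite.surjective_iff_bijective.1 fun j =>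
      (col j).imp fun i hi => (h2 i j hi).symm
    have key : ∀ d : Fin n → F, g.1 * Matrix.diagonal d = Matrix.diagonal (d ∘ σ) * g.1 := fun d => by
      ext i j
      by_cases e : g.1 i j = 0
      · simp [e]
      · simp [h2 i j e, mul_comm]
    refine ⟨fun ⟨d, hd⟩ => ⟨d ∘ σ, ?_⟩, fun ⟨d, hd⟩ => ⟨d ∘ (Equiv.ofBijective σ hσ).symm, ?_⟩⟩
    · rw [Units.val_mul, Units.val_mul, hd, key, Units.mul_inv_cancel_right]
    · rw [← Units.mul_right_inj g, key, show (d ∘ (Equiv.ofBijective σ hσ).symm) ∘ σ = d from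
        funext fun i => by simp, ← hd, ← Units.val_mul, ← Units.val_mul, inv_mul_cancel_right]

end Cfsg.Agent.S0770
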