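import Cfsg.Statements.S0771
import Cfsg.Agent.H4.WaB

set_option autoImplicit false
open Cfsg

namespace Cfsg.Agent.S0771


/-- Maximal parabolic of GL_n(q): the stabiliser of the coordinate subspace spanned by the first k basis vectors has order q^(k(n-k)) · |GL_k(q)| · |GL_(n-k)(q)| (unipotent radical of order q^(k(n-k)) and Levi complement GL_k × GL_(n-k)). -/
theorem result {F : Type*} [Field F] [Fintype F] {q : ℕ} (hF : Fintype.card F = q) (n k : ℕ) (hk : k ≤ n) : Nat.card ↥(Cfsg.stabilizing (Cfsg.glToMat (Fin n) F) {v : Fin n → F | ∀ i : Fin n, k ≤ (i : ℕ) → v i = 0}) = q ^ (k * (n - k)) * (∏ i : Fin k, (q ^ k - q ^ (i : ℕ))) * ∏ i : Fin (n - k), (q ^ (n - k) - q ^ (i : ℕ)) := by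
  let W := H4.cs F fun i : Fin n => k ≤ i
  have h1 : Module.finrank F W = k := H4.finrank_cs_le hk
  change Nat.card (Cfsg.Geo.subspaceStabilizer W) = _
  rw [Nat.card_congr (H4.subEquiv (B := H4.linOf (Cfsg.Geo.subspaceStabilizer W)) H4.glEquiv
    fun g => H4.glEquiv_mem_linOf.symm).toEquiv, H4.gl_card_stab W _ fun g => by
      simp only [H4.mem_linOf, ← H4.glEquiv_symm_mulVec]; rfl,
    H4.card_glFix W h1 (d := n - k) (by simp; omega), H4.card_linEquiv W h1,
    Nat.card_eq_fintype_card, hF]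
  ring

end Cfsg.Agent.S0771
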