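import Cfsg.Statements.S0772
import Cfsg.Agent.H4.Trv

set_option autoImplicit false
open Cfsg

namespace Cfsg.Agent.S0772


/-- Maximal parabolics are maximal: over a finite field, for 0 < k < n the stabiliser in GL_n of the span of the first k coordinate vectors is a maximal proper subgroup. -/
theorem result {F : Type*} [Field F] [Finite F] (n k : ℕ) (hk0 : 0 < k) (hkn : k < n) : IsCoatom (Cfsg.stabilizing (Cfsg.glToMat (Fin n) F) {v : Fin n → F | ∀ i : Fin n, k ≤ (i : ℕ) → v i = 0}) := by
  let W : Submodule F (Fin n → F) :=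
    { carrier := {v | ∀ i : Fin n, k ≤ (i : ℕ) → v i = 0}
      add_mem' := fun ha hb i hi => by simp [ha i hi, hb i hi]
      zero_mem' := fun _ _ => rfl
      smul_mem' := fun c x hx i hi => by simp [hx i hi] }
  change IsCoatom (Geo.subspaceStabilizer W)
  have h0 : W ≠ ⊥ := fun h => by
    have : (Pi.single ⟨0, by omega⟩ 1 : Fin n → F) ∈ W := fun i hi =>
      Pi.single_eq_of_ne (by rintro rfl; simp at hi; omega) _
    rw [h, Submodule.mem_bot] at this
    simpa using congrFun this ⟨0, by omega⟩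
  have h1 : W ≠ ⊤ := fun h => by
    have : (Pi.single ⟨k, hkn⟩ 1 : Fin n → F) ∈ W := h ▸ Submodule.mem_top
    simpa using this ⟨k, hkn⟩ le_rfl
  refine ⟨fun h => ?_, fun N hN => ?_⟩
  · obtain ⟨g, -, hg⟩ := H4.exists_tv_not_stab h0 h1
    exact hg (h ▸ Subgroup.mem_top g)
  obtain ⟨g, hg, hg'⟩ := SetLike.exists_of_lt hN
  have := H4.sl_le_of_stab (fun g _ h => hN.le h) hg hg'
  rw [eq_top_iff]
  intro x _
  let d : Fin n → F := Function.update 1 ⟨0, by omega⟩ (x : Matrix (Fin n) (Fin n) F).det
  have hd : (Matrix.diagonal d).det = (x : Matrix (Fin n) (Fin n) F).det := by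
    simp [d, Finset.prod_update_of_mem]
  let y := Matrix.GeneralLinearGroup.mkOfDetNeZero (Matrix.diagonal d)
    (by rw [hd]; exact x.det_ne_zero)
  have hy : y ∈ N := hN.le (H4.mem_stab_of_le fun w hw i hi => by
    change ((Matrix.diagonal d).mulVec w) i = 0
    simp [Matrix.mulVec_diagonal, hw i hi])
  have : x * y⁻¹ ∈ N := this (by
    change Matrix.GeneralLinearGroup.det _ = 1
    rw [map_mul, map_inv, mul_inv_eq_one]
    exact Units.ext hd.symm)
  simpa using N.mul_mem this hy

end Cfsg.Agent.S0772
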