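import Cfsg.Statements.S0773
import Cfsg.Agent.H4.WaB

set_option autoImplicit false
open Cfsg

namespace Cfsg.Agent.S0773


/-- The stabilisers in GL_n(F), F finite, of the coordinate subspaces of dimensions k and n − k are isomorphic groups, but when 2k ≠ n (and 0 < k < n) no element of GL_n conjugates one onto the other. -/
theorem result {F : Type*} [Field F] [Finite F] (n k : ℕ) (hk0 : 0 < k) (hkn : k < n) (h2 : 2 * k ≠ n) : Nonempty (↥(Cfsg.stabilizing (Cfsg.glToMat (Fin n) F) {v : Fin n → F | ∀ i : Fin n, k ≤ (i : ℕ) → v i = 0}) ≃* ↥(Cfsg.stabilizing (Cfsg.glToMat (Fin n) F) {v : Fin n → F | ∀ i : Fin n, n - k ≤ (i : ℕ) → v i = 0})) ∧ ∀ g : Matrix.GeneralLinearGroup (Fin n) F, (Cfsg.stabilizing (Cfsg.glToMat (Fin n) F) {v : Fin n → F | ∀ i : Fin n, k ≤ (i : ℕ) → v i = 0}).map (MulAut.conj g).toMonoidHom ≠ Cfsg.stabilizing (Cfsg.glToMat (Fin n) F) {v : Fin n → F | ∀ i : Fin n, n - k ≤ (i : ℕ) → v i = 0} := by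
  have key : ∀ (k : ℕ) (g : GL (Fin n) F), g ∈ Cfsg.stabilizing (Cfsg.glToMat (Fin n) F)
      {v : Fin n → F | ∀ i : Fin n, k ≤ (i : ℕ) → v i = 0} ↔
      ∀ i j : Fin n, k ≤ (i : ℕ) → ¬ k ≤ (j : ℕ) → g.1 i j = 0 := fun k g =>
    H4.mem_stab_cs (p := fun i : Fin n => k ≤ i)
  constructor
  · let τ : GL (Fin n) F ≃* GL (Fin n) F := H4.Au.it.trans
      (Units.mapEquiv (Matrix.reindexAlgEquiv F F Fin.revPerm).toMulEquiv)
    have hτ : ∀ (g : GL (Fin n) F) i j, (τ g).1 i j = (g⁻¹).1 j.rev i.rev := fun _ _ _ => rfl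
    refine ⟨H4.subEquiv τ fun g => ?_⟩
    rw [← inv_mem_iff, key, key]
    simp only [hτ]
    refine ⟨fun h i j h1 h2 => h _ _ (by simp; omega) (by simp; omega), fun h i j h1 h2 => ?_⟩
    simpa using h j.rev i.rev (by simp; omega) (by simp; omega)
  · intro g h
    let W := fun k : ℕ => H4.cs F fun i : Fin n => k ≤ i
    have hW : ∀ k ≤ n, Module.finrank F (W k) = k := fun k h => H4.finrank_cs_le h
    let U := (W k).map (H4.glEquiv g : (Fin n → F) →ₗ[F] (Fin n → F))
    have hU : Module.finrank F U = k := (LinearEquiv.finrank_map_eq _ _).trans (hW k hkn.le)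
    have e : Cfsg.Geo.subspaceStabilizer U = Cfsg.Geo.subspaceStabilizer (W (n - k)) := by
      refine Eq.trans ?_ h
      ext x
      rw [Subgroup.mem_map_equiv]
      have e1 : ∀ v, v ∈ U ↔ (g⁻¹).1.mulVec v ∈ W k := fun v => by
        rw [Submodule.mem_map_equiv, ← H4.glEquiv_apply, map_inv]; rfl
      change (∀ v, v ∈ U ↔ x.1.mulVec v ∈ U) ↔ ∀ v, v ∈ W k ↔ (g⁻¹ * x * g).1.mulVec v ∈ W k
      simp only [e1, Units.val_mul, ← Matrix.mulVec_mulVec]
      refine ⟨fun h v => ?_, fun h v => ?_⟩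
      · simpa using h (g.1.mulVec v)
      · simpa using h ((g⁻¹).1.mulVec v)
    have e2 : U = W (n - k) := le_antisymm
      (H4.le_of_stab_le (fun e => by rw [e] at hU; simp at hU; omega) e.ge)
      (H4.le_of_stab_le (fun e => by have := hW (n - k) (by omega); rw [e] at this; simp at this; omega)
        e.le)
    have := hW (n - k) (by omega)
    rw [← e2, hU] at this
    omega

end Cfsg.Agent.S0773
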