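import Cfsg.Statements.S0774
import Cfsg.Agent.H4.WaB

set_option autoImplicit false
open Cfsg

namespace Cfsg.Agent.S0774


/-- Borel subgroup of the symplectic group: the elements of Sp_2m(q) stabilising each of the totally isotropic coordinate subspaces ⟨e_0, ..., e_k⟩ (k < m) form a subgroup of order q^(m²) (q − 1)^m. -/
theorem result {F : Type*} [Field F] [Fintype F] {q : ℕ} (hF : Fintype.card F = q) (m : ℕ) : Nat.card ↥(⨅ k : Fin m, Cfsg.stabilizing (Cfsg.spToMat m F) {v : Fin m ⊕ Fin m → F | (∀ i : Fin m, (k : ℕ) < (i : ℕ) → v (Sum.inl i) = 0) ∧ ∀ i : Fin m, v (Sum.inr i) = 0}) = q ^ (m ^ 2) * (q - 1) ^ m := by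
  have hf := H4.spForm_ND m F
  let i : (Fin m → F) →ₗ[F] (Fin m ⊕ Fin m → F) :=
    { toFun := fun x => Sum.elim x 0
      map_add' := fun _ _ => by ext (_ | _) <;> simp
      map_smul' := fun _ _ => by ext (_ | _) <;> simp }
  have hi : Function.Injective i := fun a b e => funext fun j => congrFun e (.inl j)
  have hT : (H4.spForm m F).TS (LinearMap.range i) := ⟨fun _ _ => rfl, by
    rintro _ ⟨x, rfl⟩ _ ⟨y, rfl⟩
    simp [H4.spForm_B, H4.sympForm_eq, i]⟩
  let W : Fin m → Submodule F (Fin m ⊕ Fin m → F) := fun k =>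
    H4.cs F (Sum.elim (fun i => (k : ℕ) < i) fun _ => True)
  have hW : ∀ k v, v ∈ W k ↔ (∀ i : Fin m, (k : ℕ) < (i : ℕ) → v (Sum.inl i) = 0) ∧
      ∀ i : Fin m, v (Sum.inr i) = 0 := fun k v =>
    ⟨fun h => ⟨fun i hi => h (.inl i) hi, fun i => h (.inr i) trivial⟩, fun h => by
      rintro (i | i) hi
      exacts [h.1 i hi, h.2 i]⟩
  let T : Fin m → Submodule F (Fin m → F) := fun k => H4.cs F fun i => (k : ℕ) < i
  have hi' : ∀ k x, i x ∈ W k ↔ x ∈ T k := fun k x => (hW _ _).trans (and_iff_left fun _ => rfl)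
  have hi2 : ∀ v : Fin m ⊕ Fin m → F, (∀ j, v (.inr j) = 0) → i (v ∘ .inl) = v := fun v h => by
    ext (_ | _) <;> simp [i, h]
  let L := ⨅ k, Cfsg.Geo.subspaceStabilizer (T k)
  have hL : Nat.card (H4.linOf L) = q ^ (m * (m - 1) / 2) * (q - 1) ^ m := by
    rw [← hF, ← Nat.card_eq_fintype_card, ← H4.card_tri', ← Nat.card_congr (H4.subEquiv
      (A := L) H4.glEquiv fun g => H4.glEquiv_mem_linOf.symm).toEquiv]
    refine Nat.card_congr (Equiv.subtypeEquivRight fun g => ?_)
    simp only [L, T, Subgroup.mem_iInf, H4.mem_stab_cs]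
    exact ⟨fun h a b e => h b a b e (lt_irrefl _), fun h k a b e1 e2 => h a b (by omega)⟩
  rw [Nat.card_congr (H4.subEquiv (H4.spEquiv m F) (B := ⨅ k, (H4.spForm m F).stabSub (W k))
    fun g => by
      simp only [Subgroup.mem_iInf, ← H4.mem_stabilizing_sp]
      exact forall_congr' fun k => forall_congr' fun v => iff_congr (hW k _).symm (hW k _).symm).toEquiv,
    H4.card_stab_of' hf hi hT (H4.linOf L), hL, H4.alt_fix hf hT (k := m) (d := 0)
      (by rw [LinearMap.finrank_range_of_inj hi]; simp) (by simp; omega),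
    Nat.card_eq_fintype_card, hF]
  · have h1 := Nat.triangle_succ m
    have h2 : m * (m - 1) / 2 * 2 = m * (m - 1) := Nat.div_mul_cancel (Nat.even_mul_pred_self m).two_dvd
    have h3 : m ^ 2 = m * (m - 1) + m := by cases m <;> simp; ring
    rw [Nat.add_sub_cancel, mul_comm] at h1
    rw [h1, h3, ← h2]
    simp only [Nat.mul_div_cancel _ two_pos]
    simp; ring
  intro g
  simp only [Subgroup.mem_iInf, L, H4.mem_linOf]
  constructor
  · intro h
    have h1 : ∀ x j, g.1 (i x) (.inr j) = 0 := fun x j => by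
      have : ∀ x ∈ (⊤ : Submodule F _), g.1 (i x) (.inr j) = 0 := by
        rw [← (Pi.basisFun F (Fin m)).span_eq]
        intro x hx
        induction hx using Submodule.span_induction with
        | mem x hx =>
          obtain ⟨l, rfl⟩ := hx
          exact ((hW _ _).1 ((h l _).1 ((hi' l _).2 fun a ha => by
            simp [Pi.single_eq_of_ne (show a ≠ l by omega)]))).2 j
        | zero => simp
        | add x y _ _ a b => simp [a, b]
        | smul c x _ a => simp [a]
      exact this x trivial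
    let A := LinearMap.funLeft F F Sum.inl ∘ₗ g.1.toLinearMap ∘ₗ i
    have hA : ∀ x, g.1 (i x) = i (A x) := fun x => (hi2 _ (h1 x)).symm
    refine ⟨LinearEquiv.ofInjectiveEndo A fun a b e => hi (g.1.injective (by rw [hA, hA, e])),
      fun k v => ?_, hA⟩
    change v ∈ T k ↔ (H4.glEquiv.symm _).1.mulVec v ∈ T k
    rw [H4.glEquiv_symm_mulVec, ← hi', ← hi']
    exact (h k _).trans (by rw [hA]; rfl)
  · rintro ⟨e, he, h⟩ k
    refine (H4.spForm m F).mem_stabSub_of_le fun v hv => ?_
    have := (he k (v ∘ .inl)).1 ((hi' _ _).1 (by rwa [hi2 v ((hW _ _).1 hv).2]))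
    change (H4.glEquiv.symm e).1.mulVec _ ∈ T k at this
    rwa [H4.glEquiv_symm_mulVec, ← hi', ← h, hi2 v ((hW _ _).1 hv).2] at this

end Cfsg.Agent.S0774
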