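import Cfsg.Statements.S0776
import Cfsg.Agent.H4.Misc

set_option autoImplicit false
open Cfsg

namespace Cfsg.Agent.S0776


/-- If W ≤ F^(2m) is a 2k-dimensional subspace on which the symplectic form is non-degenerate, then the stabiliser of W in Sp_2m(F) is isomorphic to Sp_2k(F) × Sp_(2m−2k)(F). -/
theorem result {F : Type*} [Field F] (m k : ℕ) (hk : k ≤ m) (W : Submodule F (Fin m ⊕ Fin m → F)) (hWk : Module.finrank F W = 2 * k) (hW : ∀ u ∈ W, (∀ v ∈ W, Cfsg.sympForm m F u v = 0) → u = 0) : Nonempty (↥(Cfsg.stabilizing (Cfsg.spToMat m F) (W : Set (Fin m ⊕ Fin m → F))) ≃* Matrix.symplecticGroup (Fin k) F × Matrix.symplecticGroup (Fin (m - k)) F) := by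
  have hf := H4.spForm_ND m F
  have hU : (H4.spForm m F).NDOn W := fun u hu h => hW u hu fun v hv => by
    rw [← H4.spForm_B]; exact h v hv
  have hd := hf.finrank_perp W
  simp only [Module.finrank_pi, Fintype.card_sum, Fintype.card_fin] at hd
  obtain ⟨e1, he1⟩ := H4.alt_exists_isIso (2 * k) _ _ _ _ ((H4.spForm m F).restrict_ND.2 hU)
    (H4.spForm_ND k F) hWk (by simp; omega)
  obtain ⟨e2, he2⟩ := H4.alt_exists_isIso (2 * (m - k)) _ _ _ _
    ((H4.spForm m F).restrict_ND.2 (hU.perp hf)) (H4.spForm_ND (m - k) F) (by omega) (by simp; omega)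
  exact ⟨((H4.subEquiv (H4.spEquiv m F) (H4.mem_stabilizing_sp W)).trans hU.stabEquiv).trans
    ((he1.isomEquiv.trans (H4.spEquiv k F).symm).prodCongr
      (he2.isomEquiv.trans (H4.spEquiv (m - k) F).symm))⟩

end Cfsg.Agent.S0776
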