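import Cfsg.Statements.S0778
import Mathlib

set_option autoImplicit false
open Cfsg

namespace Cfsg.Agent.S0778

open Matrix

/-- The elements of Sp_2m(F) stabilising both W = ⟨e_1..e_m⟩ and U = ⟨f_1..f_m⟩ form a subgroup isomorphic to GL_m(F) (block-diagonal matrices diag(X, X^(−ᵀ)) up to the sign convention of J), for m ≥ 1 or m = 0 alike. -/
theorem result {F : Type*} [Field F] (m : ℕ) : Nonempty (↥(Cfsg.stabilizing (Cfsg.spToMat m F) {v : Fin m ⊕ Fin m → F | ∀ i : Fin m, v (Sum.inr i) = 0} ⊓ Cfsg.stabilizing (Cfsg.spToMat m F) {v : Fin m ⊕ Fin m → F | ∀ i : Fin m, v (Sum.inl i) = 0}) ≃* Matrix.GeneralLinearGroup (Fin m) F) := by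
  set_option maxSynthPendingDepth 3 in
  classical
  have mem : ∀ A : GL (Fin m) F, fromBlocks A.1 0 0 (A⁻¹.1)ᵀ ∈ symplecticGroup (Fin m) F := fun A => by
    rw [SymplecticGroup.mem_iff, J, fromBlocks_transpose, fromBlocks_multiply, fromBlocks_multiply]
    simp [← transpose_mul]
  let f : GL (Fin m) F →* (Cfsg.stabilizing (Cfsg.spToMat m F) {v : Fin m ⊕ Fin m → F | ∀ i : Fin m, v (Sum.inr i) = 0} ⊓
      Cfsg.stabilizing (Cfsg.spToMat m F) {v : Fin m ⊕ Fin m → F | ∀ i : Fin m, v (Sum.inl i) = 0} : Subgroup _) :=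
    MonoidHom.mk' (fun A => ⟨⟨_, mem A⟩, fun v => by
      show _ ↔ ∀ i, (fromBlocks A.1 0 0 (A⁻¹.1)ᵀ *ᵥ v) (Sum.inr i) = 0
      rw [fromBlocks_mulVec, zero_mulVec, zero_mulVec, zero_add]
      exact (funext_iff (f := v ∘ Sum.inr) (g := 0)).symm.trans ((map_eq_zero_iff (mulVecLin (A⁻¹.1)ᵀ)
        (mulVec_injective_of_isUnit (by simp))).symm.trans funext_iff), fun v => by
      show _ ↔ ∀ i, (fromBlocks A.1 0 0 (A⁻¹.1)ᵀ *ᵥ v) (Sum.inl i) = 0
      rw [fromBlocks_mulVec, zero_mulVec, zero_mulVec, add_zero]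
      exact (funext_iff (f := v ∘ Sum.inl) (g := 0)).symm.trans ((map_eq_zero_iff (mulVecLin A.1)
        (mulVec_injective_of_isUnit (by simp))).symm.trans funext_iff)⟩) fun A B => Subtype.ext (Subtype.ext (by
      show fromBlocks _ _ _ _ = fromBlocks _ _ _ _ * fromBlocks _ _ _ _
      simp [fromBlocks_multiply, Matrix.mul_inv_rev]))
  refine ⟨(MulEquiv.ofBijective f ⟨fun A B e => Units.ext (fromBlocks_inj.1 (congrArg (fun g => g.1.1) e)).1,
    fun ⟨⟨g, hg⟩, a, b⟩ => ?_⟩).symm⟩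
  have c : g.toBlocks₂₁ = 0 := by
    ext i j
    simpa [toBlocks₂₁, Cfsg.spToMat] using (a (Pi.single (.inl j) 1)).1 (fun i => by simp) i
  have d : g.toBlocks₁₂ = 0 := by
    ext i j
    simpa [toBlocks₁₂, Cfsg.spToMat] using (b (Pi.single (.inr j) 1)).1 (fun i => by simp) i
  have e := SymplecticGroup.mem_iff.1 hg
  rw [← fromBlocks_toBlocks g, c, d, J, fromBlocks_transpose, fromBlocks_multiply, fromBlocks_multiply] at e
  have e' : g.toBlocks₁₁ * g.toBlocks₂₂ᵀ = 1 := by simpa using (fromBlocks_inj.1 e).2.1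
  refine ⟨⟨_, _, e', mul_eq_one_comm.1 e'⟩, Subtype.ext (Subtype.ext ?_)⟩
  show fromBlocks g.toBlocks₁₁ 0 0 g.toBlocks₂₂ᵀᵀ = g
  rw [transpose_transpose, ← c]
  nth_rewrite 1 [c, ← d]
  exact fromBlocks_toBlocks g

end Cfsg.Agent.S0778
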