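import Cfsg.Statements.S0779
import Cfsg.Agent.H4.Disc

set_option autoImplicit false
open Cfsg

namespace Cfsg.Agent.S0779


/-- Unitary transvections: let |F| = q², h the standard Hermitian form Σ x_i y_i^q and v ≠ 0 with h(v, v) = 0. The linear map x ↦ x + c h(x, v) v is an isometry of h if and only if c = 0 or c^(q−1) = −1. -/
theorem result {F : Type*} [Field F] [Fintype F] {q : ℕ} (hF : Fintype.card F = q ^ 2) (n : ℕ) (v : Fin n → F) (hv : v ≠ 0) (hv0 : Cfsg.hermForm n F q v v = 0) (c : F) : (∀ x y : Fin n → F, Cfsg.hermForm n F q ((Cfsg.unitaryTransvection n q v c).mulVec x) ((Cfsg.unitaryTransvection n q v c).mulVec y) = Cfsg.hermForm n F q x y) ↔ (c = 0 ∨ c ^ (q - 1) = -1) := by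
  have hq := H4.two_le_of_card_sq hF
  have key : (c = 0 ∨ c ^ (q - 1) = -1) ↔ c + c ^ q = 0 := by
    have : c + c ^ q = c * (c ^ (q - 1) + 1) := by
      rw [mul_add, ← pow_succ', Nat.sub_add_cancel (by omega)]; ring
    rw [this, mul_eq_zero, add_eq_zero_iff_eq_neg]
  rw [key]
  let f := H4.uForm hF n
  have hvv : f.B v v = 0 := hv0
  have e : ∀ x y, Cfsg.hermForm n F q ((Cfsg.unitaryTransvection n q v c).mulVec x)
      ((Cfsg.unitaryTransvection n q v c).mulVec y) = Cfsg.hermForm n F q x y +
        (c + c ^ q) * f.B v x * f.B y v := by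
    intro x y
    rw [H4.unitaryTransvection_mulVec, H4.unitaryTransvection_mulVec]
    simp only [← H4.uForm_B hF]
    change f.B _ _ = f.B _ _ + _
    simp only [map_add, LinearMap.add_apply, f.B_smul_left, f.B_smul_right, hvv, map_mul,
      H4.herm_symm f v y, H4.hermKind_σ, H4.frobq_apply]
    ring
  simp only [e]
  refine ⟨fun h => ?_, fun h x y => by rw [h]; simp⟩
  obtain ⟨x, hx⟩ := (H4.uForm_ND hF n).exists_ne hv
  have := h x x
  rw [add_eq_left, mul_eq_zero, mul_eq_zero] at this
  rcases this with (h | h) | h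
  · exact h
  · exact (hx h).elim
  · exact (hx (H4.Form.refl h)).elim

end Cfsg.Agent.S0779
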