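import Cfsg.Statements.S0781
import Cfsg.Agent.H4.Disc

set_option autoImplicit false
open Cfsg

namespace Cfsg.Agent.S0781


/-- In SU_n(q) with n ≥ 4, or n = 3 and q > 2, every element whose matrix is a unitary transvection x ↦ x + c h(x, v) v (v isotropic) is a commutator ⁅B, C⁆ of two elements of SU_n(q). -/
theorem result {F : Type*} [Field F] [Fintype F] {q : ℕ} (hF : Fintype.card F = q ^ 2) (n : ℕ) (hn : 4 ≤ n ∨ (n = 3 ∧ 3 ≤ q)) (A : ↥(Cfsg.SU n F q)) (v : Fin n → F) (c : F) (hv0 : Cfsg.hermForm n F q v v = 0) (hA : ((A : Matrix.SpecialLinearGroup (Fin n) F) : Matrix (Fin n) (Fin n) F) = Cfsg.unitaryTransvection n q v c) : A ∈ commutatorSet ↥(Cfsg.SU n F q) := by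
  let f := H4.uForm hF n
  have hf : f.ND := H4.uForm_ND hF n
  have hn' : 3 ≤ Module.finrank F (Fin n → F) := by simp; omega
  have happ : ∀ y, ((H4.suEquiv hF n A).1 : (Fin n → F) ≃ₗ[F] (Fin n → F)) y =
      y + (c * f.B v y) • v := fun y => by
    rw [H4.suEquiv_apply, hA, H4.unitaryTransvection_mulVec]; rfl
  by_cases hv : v = 0
  · have : H4.suEquiv hF n A = 1 := Subtype.ext (H4.Form.isom_ext fun y => by simp [happ, hv])
    rw [(MulEquiv.map_eq_one_iff _).1 this]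
    exact one_mem_commutatorSet _
  obtain ⟨w, h⟩ := hf.exists_hyp hv hv0
  have hg : f.IsEich (H4.suEquiv hF n A).1 v 0 (-c) := by
    refine ⟨hv0, by simp, ?_, fun y => by simp [happ]⟩
    have := H4.Form.isom_Q (H4.suEquiv hF n A).1 w
    rw [happ, f.Q_add, f.Q_smul, h.Qu, h.Qw, h.Buw, f.B_smul_right, h.Bwu] at this
    rw [map_neg, f.Q_zero, neg_eq_zero]
    simpa using this
  obtain ⟨a, ha, b, hb, hab⟩ := H4.u_transv_eq_commutator hf hn' hv hg
  refine ⟨(H4.suEquiv hF n).symm ⟨a, H4.Form.E_le_SI ha⟩,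
    (H4.suEquiv hF n).symm ⟨b, H4.Form.E_le_SI hb⟩, ?_⟩
  apply (H4.suEquiv hF n).injective
  rw [map_commutatorElement, MulEquiv.apply_symm_apply, MulEquiv.apply_symm_apply]
  exact Subtype.ext hab.symm

end Cfsg.Agent.S0781
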