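import Cfsg.Statements.S0782
import Cfsg.Agent.H4.WaA

set_option autoImplicit false
open Cfsg

namespace Cfsg.Agent.S0782


/-- Maximal parabolics of SU_n(q): if W is a k-dimensional subspace of F^n (n ≥ 1, |F| = q²) on which the Hermitian form vanishes, then (q + 1) times the order of its stabiliser in SU_n(q) equals q^(k(2n−3k)) · |GL_k(q²)| · |GU_(n−2k)(q)|, where |GU_m(q)| = q^(m(m−1)/2) Π_(i=1..m) (q^i − (−1)^i). -/
theorem result {F : Type*} [Field F] [Fintype F] {q : ℕ} (hF : Fintype.card F = q ^ 2) (n k : ℕ) (hn : 1 ≤ n) (hk : 2 * k ≤ n) (W : Submodule F (Fin n → F)) (hWk : Module.finrank F W = k) (hW : ∀ u ∈ W, ∀ v ∈ W, Cfsg.hermForm n F q u v = 0) : (q + 1) * Nat.card ↥((Cfsg.stabilizing (Cfsg.slToMat n F) (W : Set (Fin n → F))).subgroupOf (Cfsg.SU n F q)) = q ^ (k * (2 * n - 3 * k)) * (∏ i : Fin k, ((q ^ 2) ^ k - (q ^ 2) ^ (i : ℕ))) * (q ^ ((n - 2 * k) * ((n - 2 * k) - 1) / 2) * ∏ i ∈ Finset.range (n - 2 * k), (if Even i then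 q ^ (i + 1) + 1 else q ^ (i + 1) - 1)) := by
  have hf := H4.uForm_ND hF n
  have hT : (H4.uForm hF n).TS W := ⟨fun u hu => hW u hu u hu, fun u hu v hv => hW v hv u hu⟩
  have h := H4.u_card_inf hf _ (H4.u_stab_det hf (by simp; omega) hT)
  rw [H4.card_stab_TS hf hT hWk, H4.u_fix hf hT hWk (d := n - 2 * k) (by simp; omega),
    Nat.card_eq_fintype_card (α := F), hF, show k + 2 * (n - 2 * k) = 2 * n - 3 * k by omega] at h
  rw [mul_comm (q ^ _), mul_assoc, ← h]
  have e : ∀ {G : Type _} [Group G] (A B : Subgroup G),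
      Nat.card (A.subgroupOf B) = Nat.card (B.subgroupOf A) := fun A B => by
    rw [← Subgroup.inf_subgroupOf_right A, ← Subgroup.inf_subgroupOf_right B,
      Nat.card_congr (Subgroup.subgroupOfEquivOfLe inf_le_right).toEquiv,
      Nat.card_congr (Subgroup.subgroupOfEquivOfLe inf_le_right).toEquiv, inf_comm]
  rw [e (H4.uForm hF n).SI]
  exact congrArg _ (Nat.card_congr (H4.subEquiv (H4.suEquiv hF n) fun g => Iff.rfl).toEquiv)

end Cfsg.Agent.S0782
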