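import Cfsg.Statements.S0783
import Cfsg.Agent.H4.WaB

set_option autoImplicit false
open Cfsg

namespace Cfsg.Agent.S0783


/-- PGU_n(q)/PSU_n(q) is cyclic of order (n, q+1): for n ≥ 2 and |F| = q² there is a surjective homomorphism from GU_n(q) onto the cyclic group of order gcd(n, q + 1) whose kernel is generated by the determinant-one elements together with the centre. -/
theorem result {F : Type*} [Field F] [Fintype F] {q : ℕ} (hF : Fintype.card F = q ^ 2) (n : ℕ) (hn : 2 ≤ n) : ∃ φ : ↥(Cfsg.GU n F q) →* Multiplicative (ZMod (Nat.gcd n (q + 1))), Function.Surjective φ ∧ φ.ker = (Matrix.GeneralLinearGroup.det : Matrix.GeneralLinearGroup (Fin n) F →* Fˣ).ker.subgroupOf (Cfsg.GU n F q) ⊔ Subgroup.center ↥(Cfsg.GU n F q) := by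
  have hf := H4.uForm_ND hF n
  have hq := H4.two_le_of_card_sq hF
  let f := H4.uForm hF n
  let e := H4.guEquiv hF n
  obtain ⟨ζ, hζ⟩ : ∃ ζ : Fˣ, orderOf ζ = q + 1 := by
    obtain ⟨x, hx⟩ := IsCyclic.exists_ofOrder_eq_natCard (α := Fˣ)
    have h1 : orderOf x = (q + 1) * (q - 1) := by
      rw [hx, Nat.card_units, Nat.card_eq_fintype_card, hF, ← Nat.sq_sub_sq]
    exact ⟨x ^ (q - 1), by
      rw [orderOf_pow' _ (by omega), h1, Nat.gcd_eq_right (dvd_mul_left _ _),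
        Nat.mul_div_cancel _ (by omega)]⟩
  have hp : IsPrimitiveRoot ζ (q + 1) := hζ ▸ IsPrimitiveRoot.orderOf ζ
  have h1 : ∀ g : f.Isom, f.idet g ∈ Subgroup.zpowers ζ := fun g => by
    rw [hp.zpowers_eq, mem_rootsOfUnity, pow_succ']
    exact Units.ext (H4.Form.idet_norm hf g)
  let d : Cfsg.GU n F q →* Subgroup.zpowers ζ := (f.idet.comp e.toMonoidHom).codRestrict _
    fun g => h1 _
  let ψ := hp.zmodEquivZPowers.symm
  let c := ZMod.castHom (Nat.gcd_dvd_right n (q + 1)) (ZMod (Nat.gcd n (q + 1)))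
  let φ : Cfsg.GU n F q →* Multiplicative (ZMod (Nat.gcd n (q + 1))) :=
    (AddMonoidHom.toMultiplicativeRight (c.toAddMonoidHom.comp ψ.toAddMonoidHom)).comp d
  have hφ : ∀ g (k : ℤ), f.idet (e g) = ζ ^ k → φ g = Multiplicative.ofAdd (k : ZMod _) := by
    intro g k h
    have : d g = ⟨ζ ^ k, k, rfl⟩ := Subtype.ext h
    simp [φ, this, ψ, c, hp.zmodEquivZPowers_symm_apply_zpow]
  have hs : ∀ a : ℤ, ∃ z ∈ Subgroup.center (Cfsg.GU n F q), f.idet (e z) = ζ ^ (n * a) := fun a => by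
    obtain ⟨g, hg⟩ := H4.Form.exists_scalar (f := f) (c := ((ζ ^ a : Fˣ) : F)) (by
      change _ * H4.frobq hF _ = _
      rw [H4.frobq_apply]
      rw [← pow_succ', ← Units.val_pow_eq_pow_val, ← zpow_natCast, ← zpow_mul, mul_comm, zpow_mul,
        zpow_natCast, hp.pow_eq_one]; simp)
    refine ⟨e.symm g, Subgroup.mem_center_iff.2 fun x => e.injective ?_, Units.ext ?_⟩
    · rw [map_mul, map_mul, e.apply_symm_apply]
      exact Subtype.ext (LinearEquiv.ext fun v => by simp [hg])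
    · rw [e.apply_symm_apply, H4.Form.idet_scalar hg, mul_comm, zpow_mul]; simp
  refine ⟨φ, fun x => ?_, le_antisymm (fun g hg => ?_) (sup_le (fun g hg => ?_) fun g hg => ?_)⟩
  · obtain ⟨k, hk⟩ := ZMod.intCast_surjective x.toAdd
    obtain ⟨g, hg⟩ := H4.u_range_idet hf (by simp; omega) (c := ((ζ ^ k : Fˣ) : F)) (by
      rw [← Units.val_pow_eq_pow_val, ← zpow_natCast, ← zpow_mul, mul_comm, zpow_mul,
        zpow_natCast, hp.pow_eq_one]; simp)
    exact ⟨e.symm g, by rw [hφ _ k (by rw [e.apply_symm_apply]; exact Units.ext hg), hk]; rfl⟩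
  · obtain ⟨k, hk⟩ := h1 (e g)
    rw [MonoidHom.mem_ker, hφ g k hk.symm, ofAdd_eq_one, ZMod.intCast_zmod_eq_zero_iff_dvd] at hg
    obtain ⟨l, rfl⟩ := hg
    obtain ⟨z, hz, hz'⟩ := hs (Nat.gcdA n (q + 1) * l)
    rw [← inv_mul_cancel_right g z]
    refine Subgroup.mul_mem_sup ?_ hz
    change Matrix.GeneralLinearGroup.det (g * z⁻¹).1 = 1
    rw [← H4.idet_guEquiv hF, map_mul, map_mul, map_inv, map_inv, mul_inv_eq_one, hz', ← hk]
    simp only
    rw [Nat.gcd_eq_gcd_ab, add_mul, zpow_add, mul_assoc, mul_assoc, zpow_mul _ (_ : ℤ) (_ * l),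
      zpow_mul ζ ((q + 1 : ℕ) : ℤ), zpow_natCast ζ (q + 1), hp.pow_eq_one]; simp
  · exact (hφ g 0 ((H4.idet_guEquiv hF n g).trans (hg.trans (zpow_zero _).symm))).trans (by simp)
  · obtain ⟨u, w, h⟩ := H4.u_exists_hyp hf (by simpa)
    obtain ⟨a, ha⟩ := (H4.u_wrich.mem_center_iff hf h (G := ⊤) le_top (z := ⟨e g, trivial⟩)).1
      (Subgroup.mem_center_iff.2 fun x => Subtype.ext (e.symm.injective (by
        simpa using Subgroup.mem_center_iff.1 hg (e.symm x.1))))
    have h2 := h.scalar_norm ha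
    obtain ⟨k, hk⟩ : Units.mk0 a (left_ne_zero_of_mul_eq_one h2) ∈ Subgroup.zpowers ζ := by
      rw [hp.zpowers_eq, mem_rootsOfUnity, pow_succ']
      exact Units.ext h2
    rw [MonoidHom.mem_ker, hφ g (k * n) (Units.ext (by
      rw [H4.Form.idet_scalar ha, zpow_mul, show ζ ^ k = _ from hk]; simp)), ofAdd_eq_one,
      ZMod.intCast_zmod_eq_zero_iff_dvd]
    exact Dvd.dvd.mul_left (Int.natCast_dvd_natCast.2 (Nat.gcd_dvd_left _ _)) _

end Cfsg.Agent.S0783
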