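import Cfsg.Statements.S0784
import Cfsg.Agent.H4.Disc

set_option autoImplicit false
open Cfsg

namespace Cfsg.Agent.S0784


/-- Reflections: if Q(v) ≠ 0 then the matrix R = 1 − Q(v)⁻¹ · v f(v, ·)ᵀ preserves Q, maps v to −v, fixes each x with f(v, x) = 0, and has determinant −1 (in characteristic two, −1 = 1 and R is the orthogonal transvection of v). -/
theorem result {F : Type*} [Field F] {n : ℕ} (Q : QuadraticForm F (Fin n → F)) (v : Fin n → F) (hv : Q v ≠ 0) : (∀ x, Q ((Cfsg.reflectionMatrix ⇑Q v).mulVec x) = Q x) ∧ (Cfsg.reflectionMatrix ⇑Q v).mulVec v = -v ∧ (∀ x, QuadraticMap.polar ⇑Q v x = 0 → (Cfsg.reflectionMatrix ⇑Q v).mulVec x = x) ∧ (Cfsg.reflectionMatrix ⇑Q v).det = -1 := by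
  let f := H4.quadForm Q
  have hv' : f.Q v ≠ 0 := hv
  have e : ∀ x, (Cfsg.reflectionMatrix ⇑Q v).mulVec x =
      (f.reflx v hv' : (Fin n → F) ≃ₗ[F] (Fin n → F)) x := fun x => by
    rw [f.reflx_apply]; exact H4.reflectionMatrix_mulVec f v x
  refine ⟨fun x => ?_, ?_, fun x hx => ?_, ?_⟩
  · rw [e]; exact H4.Form.isom_Q (f := f) _ x
  · rw [e, f.reflx_self]
  · rw [e]; exact H4.reflx_fix (f := f) hv' hx
  · obtain ⟨g, hg⟩ := (H4.isometryEquiv f).surjective (f.reflx v hv')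
    have h1 := H4.idet_reflx (f := f) v hv'
    rw [← hg, H4.idet_isometryEquiv] at h1
    rw [← h1]
    exact congrArg Matrix.det ((H4.isometryEquiv_eq_reflx f hv').1 hg).symm

end Cfsg.Agent.S0784
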