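import Cfsg.Statements.S0785
import Cfsg.Agent.H4.Disc

set_option autoImplicit false
open Cfsg

namespace Cfsg.Agent.S0785


/-- det(I) = {±1}: for a quadratic form on F^n whose polar form is non-degenerate, every element of the isometry group has determinant 1 or −1, and as soon as Q takes a non-zero value some isometry has determinant −1. -/
theorem result {F : Type*} [Field F] {n : ℕ} (Q : QuadraticForm F (Fin n → F)) (hQ : (QuadraticMap.polarBilin Q).Nondegenerate) : (∀ g : ↥(Cfsg.isometryGroup F ⇑Q), ((g : Matrix.GeneralLinearGroup (Fin n) F) : Matrix (Fin n) (Fin n) F).det = 1 ∨ ((g : Matrix.GeneralLinearGroup (Fin n) F) : Matrix (Fin n) (Fin n) F).det = -1) ∧ ((∃ v, Q v ≠ 0) → ∃ g : ↥(Cfsg.isometryGroup F ⇑Q), ((g : Matrix.GeneralLinearGroup (Fin n) F) : Matrix (Fin n) (Fin n) F).det = -1) := by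
  let f := H4.quadForm Q
  refine ⟨fun g => ?_, fun ⟨v, hv⟩ => ?_⟩
  · have := H4.Form.idet_norm (f := f) (H4.quadForm_ND hQ) (H4.isometryEquiv f g)
    erw [H4.idet_isometryEquiv] at this
    exact mul_self_eq_one_iff.1 this
  · obtain ⟨g, hg⟩ := (H4.isometryEquiv f).surjective (f.reflx v hv)
    have h1 := H4.idet_reflx (f := f) v hv
    rw [← hg, H4.idet_isometryEquiv] at h1
    exact ⟨g, h1⟩

end Cfsg.Agent.S0785
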