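import Cfsg.Statements.S0787
import Cfsg.Agent.H4.Disc

set_option autoImplicit false
open Cfsg

namespace Cfsg.Agent.S0787
open scoped commutatorElement

open H4 H4.Form in
lemma aux {F : Type*} [Field F] [Finite F] {V : Type*} [AddCommGroup V] [Module F V]
    [FiniteDimensional F V] {f : Form (quadKind F) V} (hf : f.ND) (hn : 2 ≤ Module.finrank F V)
    (hgen : Subgroup.closure f.reflSet = ⊤) : ∃! H : Subgroup f.SI, H.index = 2 := by
  have hidx : ((commutator f.Isom).subgroupOf f.SI).index = 2 := by
    have h1 := Subgroup.relIndex_mul_index f.commutator_le_SI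
    by_cases h2 : (2 : F) = 0
    · have : f.SI = ⊤ := by
        rw [eq_top_iff]
        intro g _
        rw [mem_SI, idet_eq_dick hf hgen]
        rcases Int.units_eq_one_or (dick g) with h | h <;> rw [h]
        · simp
        · simp; linear_combination -h2
      rw [index_commutator_even hf h2 (by omega) hgen, this, Subgroup.index_top, mul_one] at h1
      rw [this]; exact h1
    · have : f.SI = (dickHom hf hgen).ker := by
        ext g; rw [mem_SI_iff_dick hf h2 hgen]; rfl
      have h3 : f.SI.index = 2 := by
        rw [this, Subgroup.index_ker, MonoidHom.range_eq_top.2, Subgroup.card_top,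
          Nat.card_eq_fintype_card, Fintype.card_units_int]
        intro u
        obtain ⟨g, hg, -⟩ := dick_spin_surjective hf h2 hn u 1
        exact ⟨g, hg⟩
      rw [index_commutator_odd hf h2 hn, h3] at h1
      change (commutator f.Isom).relIndex f.SI = 2
      omega
  refine ⟨_, hidx, fun H hH => ?_⟩
  have hle : (commutator f.Isom).subgroupOf f.SI ≤ H := by
    let S : Set f.Isom := {g | ∃ a ∈ f.reflSet, ∃ b ∈ f.reflSet, g = ⁅a, b⁆}
    have : (Subgroup.closure S).Normal := by
      refine ⟨fun x hx a => ?_⟩
      have : Subgroup.closure S ≤ (Subgroup.closure S).comap (MulAut.conj a).toMonoidHom := by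
        rw [Subgroup.closure_le]
        rintro _ ⟨_, ⟨v, hv, rfl⟩, _, ⟨w, hw, rfl⟩, rfl⟩
        refine Subgroup.subset_closure ⟨_, ⟨_, _, f.conj_reflx a v hv⟩, _,
          ⟨_, _, f.conj_reflx a w hw⟩, ?_⟩
        simp only [MulEquiv.toMonoidHom_eq_coe, MonoidHom.coe_coe, MulAut.conj_apply,
          commutatorElement_def]
        group
      exact this hx
    have h1 := commutator_le_of_gens hgen (Subgroup.closure S)
      fun a ha b hb => Subgroup.subset_closure ⟨a, ha, b, hb, rfl⟩
    have h2 : Subgroup.closure S ≤ H.map f.SI.subtype := by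
      rw [Subgroup.closure_le]
      rintro _ ⟨_, ⟨v, hv, rfl⟩, _, ⟨w, hw, rfl⟩, rfl⟩
      have h3 : f.reflx v hv * f.reflx w hw ∈ f.SI := by
        rw [mem_SI, map_mul, Units.val_mul, idet_reflx, idet_reflx]; simp
      refine ⟨_, Subgroup.mul_self_mem_of_index_two hH ⟨_, h3⟩, ?_⟩
      rw [commutatorElement_def, reflx_inv, reflx_inv]
      simp [mul_assoc]
    intro g hg
    exact (Subgroup.mem_map_iff_mem f.SI.subtype_injective).1 (h2 (h1 hg))
  have := Subgroup.relIndex_mul_index hle
  rw [hidx, hH] at this
  exact le_antisymm (Subgroup.relIndex_eq_one.1 (by omega)) hle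


/-- Existence and uniqueness of Ω: if F is finite, n ≥ 2, Q is a quadratic form on F^n with non-degenerate polar form and (|F|, n) ≠ (2, 4), then the group of isometries of determinant one has a unique subgroup of index 2. -/
theorem result {F : Type*} [Field F] [Fintype F] {n : ℕ} (hn : 2 ≤ n) (Q : QuadraticForm F (Fin n → F)) (hQ : (QuadraticMap.polarBilin Q).Nondegenerate) (h : Fintype.card F ≠ 2 ∨ n ≠ 4) : ∃! H : Subgroup ↥(Cfsg.specialIsometryGroup F ⇑Q), H.index = 2 := by
  let f := H4.quadForm Q
  obtain ⟨H, hH, hu⟩ := aux (f := f) (H4.quadForm_ND hQ) (by simpa using hn)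
    (H4.closure_reflSet (H4.quadForm_ND hQ)
      (h.imp (fun h => H4.exists_ne_zero_one (by rwa [Nat.card_eq_fintype_card])) (by simp)))
  let e := H4.specialEquiv f
  refine ⟨H.comap e.toMonoidHom, (Subgroup.index_comap_of_surjective _ e.surjective).trans hH,
    fun K hK => ?_⟩
  rw [← hu (K.map e.toMonoidHom) ((Subgroup.index_map_of_bijective e.bijective _).trans hK)]
  exact (Subgroup.comap_map_eq_self_of_injective e.injective _).symm

end Cfsg.Agent.S0787
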