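import Cfsg.Statements.S0789
import Cfsg.Agent.H4.Disc

set_option autoImplicit false
open Cfsg

namespace Cfsg.Agent.S0789


/-- Ω has index 2 in O for q even: if F is finite of characteristic two, n ≥ 2, Q is a quadratic form on F^n with non-degenerate polar form, and (|F|, n) ≠ (2, 4), then the commutator subgroup of the isometry group of Q has index 2 in it. -/
theorem result {F : Type*} [Field F] [Fintype F] [CharP F 2] {n : ℕ} (hn : 2 ≤ n) (Q : QuadraticForm F (Fin n → F)) (hQ : (QuadraticMap.polarBilin Q).Nondegenerate) (h : Fintype.card F ≠ 2 ∨ n ≠ 4) : (Cfsg.Omega F ⇑Q).index = 2 := by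
  refine (H4.index_commutator_congr (H4.isometryEquiv (H4.quadForm Q))).trans
    (H4.index_commutator_even (H4.quadForm_ND hQ) (by exact_mod_cast CharP.cast_eq_zero F 2)
      (by simp; omega) (H4.closure_reflSet (H4.quadForm_ND hQ) ?_))
  exact h.imp (fun h => H4.exists_ne_zero_one (by rwa [Nat.card_eq_fintype_card])) (by simp)

end Cfsg.Agent.S0789
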