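import Cfsg.Statements.S0790
import Cfsg.Agent.H4.Disc

set_option autoImplicit false
open Cfsg

namespace Cfsg.Agent.S0790


/-- −1 ∈ Ω⁺_2m(q) iff q^m ≡ 1 (mod 4), for q odd and m ≥ 1 (so that in the other case SO⁺_2m(q) = 2 × Ω⁺_2m(q)). -/
theorem result {F : Type*} [Field F] [Fintype F] {q : ℕ} (hF : Fintype.card F = q) (hodd : Odd q) (m : ℕ) (hm : 1 ≤ m) : (∃ g : ↥(Cfsg.isometryGroup F (Cfsg.quadFormPlus m F)), g ∈ Cfsg.Omega F (Cfsg.quadFormPlus m F) ∧ ((g : Matrix.GeneralLinearGroup (Fin m ⊕ Fin m) F) : Matrix (Fin m ⊕ Fin m) (Fin m ⊕ Fin m) F) = -1) ↔ q ^ m % 4 = 1 := by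
  have hq : Nat.card F = q := by rw [Nat.card_eq_fintype_card, hF]
  have h2 : (2 : F) ≠ 0 := H4.odd_card_iff.1 (by rwa [hq])
  let f := H4.plusForm F m
  have hf : f.ND := H4.plusForm_ND F m
  have key : ∀ g : f.Isom, (∀ x, g.1 x = -x) → (g ∈ commutator f.Isom ↔ q ^ m % 4 = 1) := by
    intro g hg
    rw [H4.neg_mem_commutator_iff h2 hf hg, H4.disc_plusForm, H4.chi_neg_one_pow_eq_one_iff h2, hq]
    simp
  constructor
  · rintro ⟨g, hg, h1⟩
    refine (key (H4.isometryEquiv f g) fun x => ?_).1 ((H4.mem_commutator_equiv _).2 hg)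
    erw [H4.isometryEquiv_apply, h1, Matrix.neg_mulVec, Matrix.one_mulVec]
  · intro h
    obtain ⟨g, hg⟩ := H4.exists_neg f
    refine ⟨(H4.isometryEquiv f).symm g, (H4.mem_commutator_equiv _).2 ((key g hg).2 h),
      H4.matrix_ext_mulVec fun x => ?_⟩
    rw [Matrix.neg_mulVec, Matrix.one_mulVec, ← hg]
    exact H4.isometryEquiv_symm_mulVec f g x

end Cfsg.Agent.S0790
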