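import Cfsg.Statements.S0791
import Cfsg.Agent.H4.Disc

set_option autoImplicit false
open Cfsg

namespace Cfsg.Agent.S0791


/-- −1 ∈ Ω⁻_2m(q) iff q^m ≡ −1 (mod 4), for q odd and m ≥ 1; for the minus-type form quadFormMinus (m−1) with anisotropic binary part. -/
theorem result {F : Type*} [Field F] [Fintype F] {q : ℕ} (hF : Fintype.card F = q) (hodd : Odd q) (m : ℕ) (hm : 1 ≤ m) (a b : F) (hab : ∀ z₁ z₂ : F, z₁ ^ 2 + a * z₁ * z₂ + b * z₂ ^ 2 = 0 → z₁ = 0 ∧ z₂ = 0) : (∃ g : ↥(Cfsg.isometryGroup F (Cfsg.quadFormMinus (m - 1) F a b)), g ∈ Cfsg.Omega F (Cfsg.quadFormMinus (m - 1) F a b) ∧ ((g : Matrix.GeneralLinearGroup ((Fin (m - 1) ⊕ Fin (m - 1)) ⊕ Fin 2) F) : Matrix ((Fin (m - 1) ⊕ Fin (m - 1)) ⊕ Fin 2) ((Fin (m - 1) ⊕ Fin (m - 1)) ⊕ Fin 2) F) = -1) ↔ q ^ m % 4 = 3 := by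
  have hq : Nat.card F = q := by rw [Nat.card_eq_fintype_card, hF]
  have h2 : (2 : F) ≠ 0 := H4.odd_card_iff.1 (by rwa [hq])
  let f := H4.minusForm F (m - 1) a b
  have hf : f.ND := H4.minusForm_ND (m - 1) hab
  have key : ∀ g : f.Isom, (∀ x, g.1 x = -x) → (g ∈ commutator f.Isom ↔ q ^ m % 4 = 3) := by
    intro g hg
    have h6 := H4.chi_neg_one_pow_eq_one_iff h2 m
    rw [hq] at h6
    obtain ⟨r, hr⟩ : Odd (q ^ m) := hodd.pow
    rw [H4.neg_mem_commutator_iff h2 hf hg, H4.disc_minusForm h2 _ hab, Nat.sub_add_cancel hm]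
    constructor
    · rintro ⟨-, h⟩
      have : q ^ m % 4 ≠ 1 := fun h' => by rw [h6.2 h'] at h; exact absurd h (by decide)
      omega
    · intro h
      refine ⟨by simp [Nat.even_add], ?_⟩
      rw [(Int.units_eq_one_or (H4.chi (-1 : F) ^ m)).resolve_left (fun h' => by have := h6.1 h'; omega)]; simp
  constructor
  · rintro ⟨g, hg, h1⟩
    refine (key (H4.isometryEquiv f g) fun x => ?_).1 ((H4.mem_commutator_equiv _).2 hg)
    erw [H4.isometryEquiv_apply, h1, Matrix.neg_mulVec, Matrix.one_mulVec]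
  · intro h
    obtain ⟨g, hg⟩ := H4.exists_neg f
    refine ⟨(H4.isometryEquiv f).symm g, (H4.mem_commutator_equiv _).2 ((key g hg).2 h),
      H4.matrix_ext_mulVec fun x => ?_⟩
    rw [Matrix.neg_mulVec, Matrix.one_mulVec, ← hg]
    exact H4.isometryEquiv_symm_mulVec f g x

end Cfsg.Agent.S0791
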