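import Cfsg.Statements.S0792
import Cfsg.Agent.H4.Disc

set_option autoImplicit false
open Cfsg

namespace Cfsg.Agent.S0792

open H4 H4.Form in
lemma aux {F : Type*} [Field F] [Finite F] {V : Type*} [AddCommGroup V] [Module F V]
    [FiniteDimensional F V] {f : Form (quadKind F) V} (hf : f.ND) (h2 : (2 : F) ≠ 0)
    (N : Subgroup f.Isom) (hN : ∀ a ha b hb, f.reflx a ha * f.reflx b hb ∈ N) : f.SI ≤ N := by
  have hgen := closure_reflSet hf (Or.inl (exists_ne_zero_one_of_two h2))
  have key : ∀ g : f.Isom, (dick g = 1 → g ∈ N) ∧ (dick g = -1 → ∀ a ha, f.reflx a ha * g ∈ N) := by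
    intro g
    have hg : g ∈ Subgroup.closure f.reflSet := hgen ▸ Subgroup.mem_top g
    have step : ∀ v hv (g : f.Isom), ((dick g = 1 → g ∈ N) ∧
        (dick g = -1 → ∀ a ha, f.reflx a ha * g ∈ N)) → ((dick (f.reflx v hv * g) = 1 →
          f.reflx v hv * g ∈ N) ∧ (dick (f.reflx v hv * g) = -1 →
            ∀ a ha, f.reflx a ha * (f.reflx v hv * g) ∈ N)) := by
      intro v hv g ih
      rw [dick_reflx_mul hf]
      refine ⟨fun h => ih.2 (neg_eq_iff_eq_neg.1 h) v hv, fun h a ha => ?_⟩
      rw [← mul_assoc]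
      exact N.mul_mem (hN _ _ _ _) (ih.1 (neg_injective h))
    induction hg using Subgroup.closure_induction_left with
    | one => exact ⟨fun _ => N.one_mem, fun h => absurd (dick_one.symm.trans h) (by decide)⟩
    | mul_left x hx y _ ih =>
      obtain ⟨v, hv, rfl⟩ := hx
      exact step v hv y ih
    | inv_mul_cancel x hx y _ ih =>
      obtain ⟨v, hv, rfl⟩ := hx
      rw [reflx_inv]
      exact step v hv y ih
  exact fun g hg => (key g).1 ((mem_SI_iff_dick hf h2 hgen).1 hg)


/-- For q odd and Q with non-degenerate polar form on F^n, the determinant-one isometries form the subgroup generated by all products r_u r_v of two reflections (Q(u), Q(v) ≠ 0). -/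
theorem result {F : Type*} [Field F] [Fintype F] (h2 : (2 : F) ≠ 0) {n : ℕ} (Q : QuadraticForm F (Fin n → F)) (hQ : (QuadraticMap.polarBilin Q).Nondegenerate) : Cfsg.specialIsometryGroup F ⇑Q = Subgroup.closure {g : ↥(Cfsg.isometryGroup F ⇑Q) | ∃ u v : Fin n → F, Q u ≠ 0 ∧ Q v ≠ 0 ∧ ((g : Matrix.GeneralLinearGroup (Fin n) F) : Matrix (Fin n) (Fin n) F) = Cfsg.reflectionMatrix ⇑Q u * Cfsg.reflectionMatrix ⇑Q v} := by
  let f := H4.quadForm Q
  have hf : f.ND := H4.quadForm_ND hQ
  have key : ∀ a ha b hb, (((H4.isometryEquiv f).symm (f.reflx a ha * f.reflx b hb) :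
      Matrix.GeneralLinearGroup (Fin n) F) : Matrix (Fin n) (Fin n) F) =
      Cfsg.reflectionMatrix ⇑Q a * Cfsg.reflectionMatrix ⇑Q b := by
    intro a ha b hb
    rw [map_mul, Subgroup.coe_mul, Units.val_mul,
      (H4.isometryEquiv_eq_reflx f ha).1 (MulEquiv.apply_symm_apply _ _),
      (H4.isometryEquiv_eq_reflx f hb).1 (MulEquiv.apply_symm_apply _ _)]
    rfl
  apply le_antisymm
  · intro g hg
    refine (Subgroup.mem_map_iff_mem (f := (H4.isometryEquiv f).toMonoidHom)
      (H4.isometryEquiv f).injective).1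
      (aux hf h2 _ (fun a ha b hb => ?_) ((H4.mem_specialIsometryGroup f).1 hg))
    exact ⟨(H4.isometryEquiv f).symm (f.reflx a ha * f.reflx b hb),
      Subgroup.subset_closure ⟨a, b, ha, hb, key a ha b hb⟩, MulEquiv.apply_symm_apply _ _⟩
  · rw [Subgroup.closure_le]
    rintro g ⟨a, b, ha, hb, hg⟩
    have : g = (H4.isometryEquiv f).symm (f.reflx a ha * f.reflx b hb) :=
      Subtype.ext (Units.ext (hg.trans (key a ha b hb).symm))
    refine (H4.mem_specialIsometryGroup f).2 ?_
    rw [this, MulEquiv.apply_symm_apply, H4.Form.mem_SI, map_mul, Units.val_mul,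
      H4.idet_reflx (f := f) a ha, H4.idet_reflx (f := f) b hb]; simp

end Cfsg.Agent.S0792
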