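import Cfsg.Statements.S0793
import Cfsg.Agent.H4.Disc

set_option autoImplicit false
open Cfsg

namespace Cfsg.Agent.S0793


/-- Root elements: if Q(u) = Q(v) = 0 and f(u, v) = 0 (f the polar form), then for every c the Siegel matrix T_(u,v)(c) preserves Q, fixes u and v, and T(c) T(d) = T(c + d). -/
theorem result {F : Type*} [Field F] {n : ℕ} (Q : QuadraticForm F (Fin n → F)) (u v : Fin n → F) (hu : Q u = 0) (hv : Q v = 0) (huv : QuadraticMap.polar ⇑Q u v = 0) : (∀ c x, Q ((Cfsg.siegelMatrix ⇑Q u v c).mulVec x) = Q x) ∧ (∀ c, (Cfsg.siegelMatrix ⇑Q u v c).mulVec u = u ∧ (Cfsg.siegelMatrix ⇑Q u v c).mulVec v = v) ∧ ∀ c d, Cfsg.siegelMatrix ⇑Q u v c * Cfsg.siegelMatrix ⇑Q u v d = Cfsg.siegelMatrix ⇑Q u v (c + d) := by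
  let f := H4.quadForm Q
  have key : ∀ c : F, ∃ g : f.Isom, f.IsEich g u (c • v) 0 ∧
      ∀ x, (Cfsg.siegelMatrix ⇑Q u v c).mulVec x = (g : _ ≃ₗ[F] _) x := by
    intro c
    obtain ⟨g, hg⟩ := H4.Form.exists_isEich (f := f) (u := u) (v := c • v) (t := 0) hu
      (by rw [map_smul]; exact smul_eq_zero_of_right _ huv)
      (by rw [H4.quad_Q_smul, show f.Q v = 0 from hv]; simp)
    obtain ⟨g, rfl⟩ := (H4.isometryEquiv f).surjective g
    refine ⟨_, hg, fun x => ?_⟩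
    rw [H4.isometryEquiv_apply, (H4.isEich_isometryEquiv f hu hv huv c).1 hg]; rfl
  have hvv : f.B v v = 0 := H4.Form.B_self_of_Q hv
  refine ⟨fun c x => ?_, fun c => ?_, fun c d => H4.matrix_ext_mulVec fun x => ?_⟩
  · obtain ⟨g, -, hg⟩ := key c
    rw [hg]; exact H4.Form.isom_Q g x
  · obtain ⟨g, h, hg⟩ := key c
    rw [hg, hg]
    exact ⟨h.fix_u, h.fix huv (by simp [f.B_smul_left, hvv])⟩
  · obtain ⟨g, h, hg⟩ := key c
    obtain ⟨g', h', hg'⟩ := key d
    obtain ⟨g'', h'', hg''⟩ := key (c + d)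
    have := h.mul h'
    rw [← add_smul, f.B_smul_left, f.B_smul_right, hvv] at this
    rw [← Matrix.mulVec_mulVec, hg, hg', hg'', h''.ext (by simpa using this)]; rfl

end Cfsg.Agent.S0793
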