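import Cfsg.Statements.S0794
import Cfsg.Agent.H4.Disc

set_option autoImplicit false
open Cfsg

namespace Cfsg.Agent.S0794


/-- For q odd, n ≥ 5 and Q with non-degenerate polar form: an isometry whose matrix is a Siegel transformation T_(u,v)(c) (u, v singular and orthogonal) is a commutator in the isometry group, so lies in Ω. -/
theorem result {F : Type*} [Field F] [Fintype F] (h2 : (2 : F) ≠ 0) {n : ℕ} (hn : 5 ≤ n) (Q : QuadraticForm F (Fin n → F)) (hQ : (QuadraticMap.polarBilin Q).Nondegenerate) (u v : Fin n → F) (hu : Q u = 0) (hv : Q v = 0) (huv : QuadraticMap.polar ⇑Q u v = 0) (c : F) (g : ↥(Cfsg.isometryGroup F ⇑Q)) (hg : ((g : Matrix.GeneralLinearGroup (Fin n) F) : Matrix (Fin n) (Fin n) F) = Cfsg.siegelMatrix ⇑Q u v c) : g ∈ commutatorSet ↥(Cfsg.isometryGroup F ⇑Q) ∧ g ∈ Cfsg.Omega F ⇑Q := by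
  let f := H4.quadForm Q
  have hf : f.ND := H4.quadForm_ND hQ
  have h1 := (H4.isEich_isometryEquiv f hu hv huv c).2 hg
  suffices h : g ∈ commutatorSet ↥(Cfsg.isometryGroup F ⇑Q) from
    ⟨h, Subgroup.subset_normalClosure (s := commutatorSet _) h |> fun h' => by
      rwa [← commutator_eq_normalClosure] at h'⟩
  obtain ⟨a, ha, h2, v', h3, h4, h5⟩ := H4.Form.exists_comm_of_finrank hf (by simpa using hn) hu
    (x := c • v) (by rw [H4.quad_Q_smul, show f.Q v = 0 from hv]; simp) h1.Buv
  obtain ⟨b, hb⟩ := H4.quad_exists_eich hu h3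
  have h6 := hb.commutator_fix h2
  rw [h5, eq_add_of_sub_eq h5, map_add, LinearMap.add_apply, h4, zero_add, sub_self] at h6
  refine ⟨(H4.isometryEquiv f).symm a, (H4.isometryEquiv f).symm b, ?_⟩
  apply (H4.isometryEquiv f).injective
  refine (map_commutatorElement (H4.isometryEquiv f) _ _).trans ?_
  rw [MulEquiv.apply_symm_apply, MulEquiv.apply_symm_apply]
  exact h6.ext h1

end Cfsg.Agent.S0794
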