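import Cfsg.Statements.S0795
import Cfsg.Agent.S0794

set_option autoImplicit false
open Cfsg

namespace Cfsg.Agent.S0795


/-- Generation of Ω by root elements: for q odd, n ≥ 5 and Q with non-degenerate polar form on F^n, the commutator subgroup of the isometry group equals the subgroup generated by the isometries whose matrices are Siegel transformations T_(u,v)(c) with u, v singular and orthogonal. -/
theorem result {F : Type*} [Field F] [Fintype F] (h2 : (2 : F) ≠ 0) {n : ℕ} (hn : 5 ≤ n) (Q : QuadraticForm F (Fin n → F)) (hQ : (QuadraticMap.polarBilin Q).Nondegenerate) : Cfsg.Omega F ⇑Q = Subgroup.closure {g : ↥(Cfsg.isometryGroup F ⇑Q) | ∃ (u v : Fin n → F) (c : F), Q u = 0 ∧ Q v = 0 ∧ QuadraticMap.polar ⇑Q u v = 0 ∧ ((g : Matrix.GeneralLinearGroup (Fin n) F) : Matrix (Fin n) (Fin n) F) = Cfsg.siegelMatrix ⇑Q u v c} := by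
  let f := H4.quadForm Q
  have hf : f.ND := H4.quadForm_ND hQ
  apply le_antisymm
  · intro g hg
    have h1 := (H4.mem_commutator_equiv (H4.isometryEquiv f)).2 hg
    rw [← H4.quad_E_eq hf (by simpa using hn)] at h1
    refine (Subgroup.mem_map_iff_mem (f := (H4.isometryEquiv f).toMonoidHom)
      (H4.isometryEquiv f).injective).1
      (H4.quad_E_le_of_singular hf (by simpa using hn) (fun u v _ hu hv huv => ?_) h1)
    obtain ⟨a, ha⟩ := H4.quad_exists_eich hu huv
    obtain ⟨a, rfl⟩ := (H4.isometryEquiv f).surjective a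
    refine ⟨_, _, ha, a, Subgroup.subset_closure ⟨u, v, 1, hu, hv, huv, ?_⟩, rfl⟩
    rw [hv] at ha
    exact (H4.isEich_isometryEquiv f hu hv huv 1).1 (by simpa using ha)
  · rw [Subgroup.closure_le]
    rintro g ⟨u, v, c, hu, hv, huv, hg⟩
    exact (Cfsg.Agent.S0794.result h2 hn Q hQ u v hu hv huv c g hg).2

end Cfsg.Agent.S0795
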