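import Cfsg.Statements.S0796


set_option autoImplicit false
open Cfsg

namespace Cfsg.Agent.S0796


/-- If G is finite and acts faithfully and primitively on X, H is the stabiliser of a point, A is a normal subgroup of H whose normal closure in G is G, then for every non-trivial normal subgroup K of G the quotient G ⧸ K is isomorphic to A ⧸ B for some normal subgroup B of A. -/
theorem result {G X : Type*} [Group G] [Finite G] [MulAction G X] [FaithfulSMul G X] (hprim : MulAction.IsPreprimitive G X) (x : X) (A : Subgroup G) (hA : A ≤ MulAction.stabilizer G x) (hAn : (A.subgroupOf (MulAction.stabilizer G x)).Normal) (hgen : Subgroup.normalClosure (A : Set G) = ⊤) (K : Subgroup G) [K.Normal] (hK : K ≠ ⊥) : ∃ (B : Subgroup A) (_ : B.Normal), Nonempty (G ⧸ K ≃* A ⧸ B) := by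
  have hKA : K ⊔ A = ⊤ := by
    have : MulAction.IsPretransitive K X := by
      have := hprim.isQuasiPreprimitive
      apply MulAction.IsQuasiPreprimitive.isPretransitive_of_normal
      intro h
      apply hK
      rw [eq_bot_iff]
      intro g hg
      refine FaithfulSMul.eq_of_smul_eq_smul (α := X) fun y => ?_
      have : y ∈ MulAction.fixedPoints K X := h ▸ Set.mem_univ y
      rw [one_smul]
      exact this ⟨g, hg⟩
    have hn : (K ⊔ A).Normal := by
      refine ⟨fun n hn g => ?_⟩
      obtain ⟨k, hk⟩ := MulAction.exists_smul_eq K x (g • x)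
      have h1 : (k : G)⁻¹ * g ∈ MulAction.stabilizer G x := by
        rw [MulAction.mem_stabilizer_iff, mul_smul, inv_smul_eq_iff]; exact hk.symm
      obtain ⟨k', hk', a, ha, rfl⟩ := Subgroup.mem_sup_of_normal_left.1 hn
      have h2 : ((k : G)⁻¹ * g) * a * ((k : G)⁻¹ * g)⁻¹ ∈ A :=
        hAn.conj_mem ⟨a, hA ha⟩ ha ⟨_, h1⟩
      have : g * (k' * a) * g⁻¹ = (g * k' * g⁻¹) * (k * (((k : G)⁻¹ * g) * a * ((k : G)⁻¹ * g)⁻¹) *
        (k : G)⁻¹) := by group
      rw [this]
      exact Subgroup.mul_mem _ (Subgroup.mem_sup_left (Subgroup.Normal.conj_mem ‹_› _ hk' g))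
        (Subgroup.mul_mem _ (Subgroup.mul_mem _ (Subgroup.mem_sup_left k.2)
          (Subgroup.mem_sup_right h2)) (Subgroup.mem_sup_left (K.inv_mem k.2)))
    rw [eq_top_iff, ← hgen]
    exact Subgroup.normalClosure_le_normal fun a ha => Subgroup.mem_sup_right ha
  let φ : A →* G ⧸ K := (QuotientGroup.mk' K).comp A.subtype
  have hφ : Function.Surjective φ := by
    intro y
    obtain ⟨g, rfl⟩ := QuotientGroup.mk'_surjective K y
    have : g ∈ K ⊔ A := hKA ▸ Subgroup.mem_top g
    obtain ⟨k, hk, a, ha, rfl⟩ := Subgroup.mem_sup_of_normal_left.1 this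
    refine ⟨⟨a, ha⟩, ?_⟩
    simp [φ, (QuotientGroup.eq_one_iff k).2 hk]
  exact ⟨φ.ker, inferInstance, ⟨(QuotientGroup.quotientKerEquivOfSurjective φ hφ).symm⟩⟩

end Cfsg.Agent.S0796
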