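import Cfsg.Statements.S0797
import Cfsg.Agent.H4.Disc

set_option autoImplicit false
open Cfsg

namespace Cfsg.Agent.S0797

lemma aux {G : Type*} [Group G] (φ : G →* ℤˣ × ℤˣ) (hφ : Function.Surjective φ)
    (hk : φ.ker ≤ commutator G) : Nat.card {H : Subgroup G // H.index = 2} = 3 := by
  have h1 : Nat.card {H : Subgroup (ℤˣ × ℤˣ) // H.index = 2} = 3 := by
    have : {H : Subgroup (ℤˣ × ℤˣ) | H.index = 2} =
        {Subgroup.zpowers (1, -1), Subgroup.zpowers (-1, 1), Subgroup.zpowers (-1, -1)} := by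
      have hz : ∀ x : ℤˣ × ℤˣ, x ≠ 1 → Nat.card (Subgroup.zpowers x) = 2 := by
        intro x hx
        rw [Nat.card_zpowers]
        exact orderOf_eq_prime (by revert x; decide) hx
      have hc : Nat.card (ℤˣ × ℤˣ) = 4 := by simp
      ext H
      simp only [Set.mem_setOf_eq, Set.mem_insert_iff, Set.mem_singleton_iff]
      constructor
      · intro hH
        have h2 := H.index_mul_card
        rw [hH, hc] at h2
        have h3 : Nat.card H = 2 := by omega
        have : H ≠ ⊥ := by rintro rfl; simp at h3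
        obtain ⟨⟨x, hx⟩, hx1⟩ := (Subgroup.ne_bot_iff_exists_ne_one).1 this
        have hx1' : x ≠ 1 := fun h => hx1 (Subtype.ext h)
        have h4 : Subgroup.zpowers x = H := Subgroup.eq_of_le_of_card_ge
          (by simpa using hx) (by rw [h3, hz x hx1'])
        have : ∀ x : ℤˣ × ℤˣ, x ≠ 1 → x = (1, -1) ∨ x = (-1, 1) ∨ x = (-1, -1) := by decide
        rcases this x hx1' with rfl | rfl | rfl <;> simp [h4]
      · intro h
        have : ∀ x : ℤˣ × ℤˣ, x ≠ 1 → (Subgroup.zpowers x).index = 2 := by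
          intro x hx
          have h2 := (Subgroup.zpowers x).index_mul_card
          rw [hz x hx, hc] at h2
          omega
        rcases h with rfl | rfl | rfl <;> exact this _ (by decide)
    change Nat.card {H : Subgroup (ℤˣ × ℤˣ) | H.index = 2} = 3
    rw [this, Nat.card_coe_set_eq, Set.ncard_eq_three]
    have key : ∀ x y : ℤˣ × ℤˣ, x ≠ 1 → x ≠ y → Subgroup.zpowers x ≠ Subgroup.zpowers y := by
      intro x y h1 h2 h
      have : x ∈ Subgroup.zpowers y := h ▸ Subgroup.mem_zpowers x
      obtain ⟨k, rfl⟩ := this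
      have hy : y ^ (2 : ℤ) = 1 := (by decide : ∀ y : ℤˣ × ℤˣ, y ^ (2 : ℤ) = 1) y
      rcases Int.even_or_odd' k with ⟨j, rfl | rfl⟩
      · simp [zpow_mul, hy] at h1
      · simp [zpow_add, zpow_mul, hy] at h2
    exact ⟨_, _, _, key _ _ (by decide) (by decide), key _ _ (by decide) (by decide),
      key _ _ (by decide) (by decide), rfl⟩
  rw [← h1]
  refine (Nat.card_congr (Equiv.ofBijective (fun H : {H : Subgroup (ℤˣ × ℤˣ) // H.index = 2} =>
    (⟨H.1.comap φ, (Subgroup.index_comap_of_surjective _ hφ).trans H.2⟩ :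
      {H : Subgroup G // H.index = 2})) ⟨fun a b h => ?_, fun H => ?_⟩)).symm
  · exact Subtype.ext (Subgroup.comap_injective hφ (congrArg Subtype.val h))
  · have hn := Subgroup.normal_of_index_eq_two H.2
    have h2 : commutator G ≤ H.1 := by
      rw [commutator_def, Subgroup.commutator_le]
      intro a _ b _
      rw [commutatorElement_def]
      simp only [Subgroup.mul_mem_iff_of_index_two H.2, inv_mem_iff]
      tauto
    have h3 : (H.1.map φ).comap φ = H.1 := Subgroup.comap_map_eq_self (hk.trans h2)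
    refine ⟨⟨H.1.map φ, ?_⟩, Subtype.ext h3⟩
    rw [← Subgroup.index_comap_of_surjective _ hφ, h3, H.2]


/-- O^ε_2m(q) ≅ Ω.2² for q odd: if F is finite of odd characteristic, n ≥ 2 is even and Q has non-degenerate polar form on F^n, the isometry group of Q has exactly three subgroups of index 2. -/
theorem result {F : Type*} [Field F] [Fintype F] (h2 : (2 : F) ≠ 0) {n : ℕ} (hn : 2 ≤ n) (heven : Even n) (Q : QuadraticForm F (Fin n → F)) (hQ : (QuadraticMap.polarBilin Q).Nondegenerate) : Nat.card {H : Subgroup ↥(Cfsg.isometryGroup F ⇑Q) // H.index = 2} = 3 := by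
  let f := H4.quadForm Q
  have hf : f.ND := H4.quadForm_ND hQ
  have hgen := H4.closure_reflSet hf (Or.inl (H4.exists_ne_zero_one_of_two h2))
  refine aux (((H4.dickHom hf hgen).prod (H4.spinHom hf hgen)).comp (H4.isometryEquiv f).toMonoidHom)
    ?_ fun g hg => ?_
  · rintro ⟨a, b⟩
    obtain ⟨g, h1, h2⟩ := H4.dick_spin_surjective hf h2 (by simpa using hn) a b
    obtain ⟨g, rfl⟩ := (H4.isometryEquiv f).surjective g
    exact ⟨g, Prod.ext h1 h2⟩
  · exact (H4.mem_commutator_equiv (H4.isometryEquiv f)).1 ((H4.mem_commutator_iff hf hgen).2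
      ⟨congrArg Prod.fst hg, congrArg Prod.snd hg⟩)

end Cfsg.Agent.S0797
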