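import Cfsg.Statements.S0799
import Cfsg.Agent.H4.Cover

set_option autoImplicit false
open Cfsg

namespace Cfsg.Agent.S0799


/-- Dickson's classification of the subgroups of PSL_2(q), q a power of the prime p, d = gcd(2, q − 1): every subgroup H is (a) cyclic or dihedral with k dividing (q+1)/d or (q−1)/d (cyclic of order k, or dihedral of order 2k), (b) isomorphic to a subgroup of the normaliser of a Sylow p-subgroup, (c) isomorphic to A_4, S_4 or A_5, or (d) isomorphic to PSL_2(K) or PGL_2(K) for a finite field K with |K|^m = q. -/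
theorem result {F : Type*} [Field F] [Fintype F] {q : ℕ} (hF : Fintype.card F = q) (p : ℕ) [Fact p.Prime] [CharP F p] (H : Subgroup (Matrix.ProjectiveSpecialLinearGroup (Fin 2) F)) : (∃ k : ℕ, (k ∣ (q + 1) / Nat.gcd 2 (q - 1) ∨ k ∣ (q - 1) / Nat.gcd 2 (q - 1)) ∧ ((IsCyclic H ∧ Nat.card H = k) ∨ Nonempty (H ≃* DihedralGroup k))) ∨ (∃ (P : Sylow p (Matrix.ProjectiveSpecialLinearGroup (Fin 2) F)) (K : Subgroup (Matrix.ProjectiveSpecialLinearGroup (Fin 2) F)), K ≤ Subgroup.normalizer ((P : Subgroup (Matrix.ProjectiveSpecialLinearGroup (Fin 2) F)) : Set (Matrix.ProjectiveSpecialLinearGroup (Fin 2) F)) ∧ Nonempty (H ≃* K)) ∨ Nonempty (H ≃* alternatingGroup (Fin 4)) ∨ Nonempty (H ≃* Equiv.Perm (Fin 4)) ∨ Nonempty (H ≃* alternatingGroup (Fin 5)) ∨ (∃ (K : Type) (_ : Field K) (_ : Fintype K) (m : ℕ), Fintype.card K ^ m = q ∧ (Nonempty (H ≃* Matrix.ProjectiveSpecialLinearGroup (Fin 2) K) ∨ Nonempty (H ≃* Matrix.ProjGenLinGroup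 (Fin 2) K))) := by
  classical
  rw [← Nat.card_eq_fintype_card] at hF
  subst hF
  have e := H4.upEquiv H
  rcases H4.dickson_pgl (p := p) (H.map H4.jL) with
    ⟨x, h⟩ | ⟨x, y, n, h, hD⟩ | ⟨k, m, h⟩ | ⟨-, h | h⟩ | ⟨-, h⟩
  · obtain ⟨P, hP⟩ := (H4.cov_psl (p := p)).exists_sylow x
    refine Or.inr (Or.inl ⟨P, H, ?_, ⟨MulEquiv.refl _⟩⟩)
    rw [H4.cov_psl.normalizer_eq P.isPGroup' hP]
    exact fun g hg => h _ ⟨g, hg, rfl⟩
  · left
    have h1 : Nat.card (H.map H4.jL ⊓ H4.Tsub x y : Subgroup _) ∣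
        n / Nat.gcd 2 (Nat.card F - 1) := by
      rw [← h.card_TL', inf_comm]
      exact Subgroup.card_dvd_of_le (inf_le_inf_left _ (H4.map_jL_le H))
    refine ⟨_, by rcases h.cases with rfl | rfl; exacts [Or.inr h1, Or.inl h1], ?_⟩
    by_cases hT : H.map H4.jL ≤ H4.Tsub x y
    · haveI := h.isCyclic_T
      haveI : IsCyclic (H.map H4.jL) := Subgroup.isCyclic_of_le hT
      exact Or.inl ⟨isCyclic_of_injective e.toMonoidHom e.injective,
        by rw [inf_eq_left.2 hT, H4.card_map_jL]⟩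
    · exact Or.inr ⟨e.trans (H4.dihedral_of_le_D h.1 hD hT).2.some⟩
  · obtain ⟨K, _, _, h1, ⟨e1⟩, ⟨e2⟩⟩ := H4.small_model_sub k.subtype
    obtain ⟨j, -, hj⟩ := H4.card_pow_of_hom k.subtype
    refine Or.inr (Or.inr (Or.inr (Or.inr (Or.inr ⟨K, inferInstance, inferInstance, j, by rw [h1, hj], ?_⟩))))
    rcases h with h | h
    · exact Or.inr ⟨(e.trans (MulEquiv.subgroupCongr h)).trans ((H2.cjEquiv _ _).symm.trans e1)⟩
    · exact Or.inl ⟨(e.trans (MulEquiv.subgroupCongr h)).trans ((H2.cjEquiv _ _).symm.trans e2)⟩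
  · exact Or.inr (Or.inr (Or.inl ⟨e.trans h.some⟩))
  · exact Or.inr (Or.inr (Or.inr (Or.inl ⟨e.trans h.some⟩)))
  · exact Or.inr (Or.inr (Or.inr (Or.inr (Or.inl ⟨e.trans h.some⟩))))

end Cfsg.Agent.S0799
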