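import Cfsg.Statements.S0800
import Cfsg.Agent.H4.Klein

set_option autoImplicit false
open Cfsg

namespace Cfsg.Agent.S0800


/-- Tori of SL_2(q): if g ∈ SL_2(q) has order coprime to the characteristic p, then the order of g divides q − 1 or q + 1. -/
theorem result {F : Type*} [Field F] [Fintype F] {q : ℕ} (hF : Fintype.card F = q) (p : ℕ) [Fact p.Prime] [CharP F p] (g : Matrix.SpecialLinearGroup (Fin 2) F) (hg : Nat.Coprime (orderOf g) p) : orderOf g ∣ q - 1 ∨ orderOf g ∣ q + 1 := by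
  classical
  rw [← Nat.card_eq_fintype_card] at hF
  subst hF
  have hp : p.Prime := Fact.out
  have key : ∀ n : ℕ, Matrix.SpecialLinearGroup.toPGL g ^ n = 1 →
      orderOf g ∣ Nat.gcd 2 (Nat.card F - 1) * n := by
    intro n hn
    rw [← map_pow, ← MonoidHom.mem_ker, Matrix.SpecialLinearGroup.toPGL_ker] at hn
    have := pow_card_eq_one' (x := (⟨_, hn⟩ : Subgroup.center _))
    rw [H4.card_center_sl, Fintype.card_fin] at this
    rw [orderOf_dvd_iff_pow_eq_one, mul_comm, pow_mul]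
    exact congrArg Subtype.val this
  have h1 : Matrix.SpecialLinearGroup.toPGL g ^ p = 1 → orderOf g ∣ Nat.card F - 1 := fun h =>
    (hg.dvd_of_dvd_mul_right (key p h)).trans (Nat.gcd_dvd_right _ _)
  by_cases h2 : Matrix.SpecialLinearGroup.toPGL g = 1
  · exact Or.inl (h1 (by rw [h2, one_pow]))
  rcases H4.elt_cases h2 with ⟨x, hx⟩ | ⟨x, y, n, hn, h⟩
  · exact Or.inl (h1 (H4.isU_pow_char hx))
  · have h3 := key _ (orderOf_dvd_iff_pow_eq_one.1 (Subgroup.orderOf_dvd_natCard
      (H4.Tsub x y ⊓ H4.Lsub F) ⟨h, H4.Lsub_eq.ge ⟨g, rfl⟩⟩))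
    rw [hn.card_TL] at h3
    rcases hn.cases with rfl | rfl
    · exact Or.inl h3
    · exact Or.inr h3

end Cfsg.Agent.S0800
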