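import Cfsg.Statements.S0801
import Cfsg.Agent.H4.Klein

set_option autoImplicit false
open Cfsg

namespace Cfsg.Agent.S0801


/-- Let F be a finite field of odd characteristic and λ ≠ 0 an element generating F as a field. Then the lower and upper unitriangular matrices with off-diagonal entries 1 and λ generate SL_2(F), unless |F| = 9 and λ² = −1, in which case they generate a subgroup of order 120. -/
theorem result {F : Type*} [Field F] [Fintype F] (h2 : (2 : F) ≠ 0) (lam : F) (hlam : lam ≠ 0) (hgen : Subfield.closure ({lam} : Set F) = ⊤) : (Subgroup.closure {g : Matrix.SpecialLinearGroup (Fin 2) F | (g : Matrix (Fin 2) (Fin 2) F) = !![1, 0; 1, 1] ∨ (g : Matrix (Fin 2) (Fin 2) F) = !![1, lam; 0, 1]} = ⊤ ∧ ¬ (Fintype.card F = 9 ∧ lam ^ 2 = -1)) ∨ (Fintype.card F = 9 ∧ lam ^ 2 = -1 ∧ Nat.card ↥(Subgroup.closure {g : Matrix.SpecialLinearGroup (Fin 2) F | (g : Matrix (Fin 2) (Fin 2) F) = !![1, 0; 1, 1] ∨ (g : Matrix (Fin 2) (Fin 2) F) = !![1,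 lam; 0, 1]}) = 120) := by
  classical
  obtain ⟨p, hp⟩ := CharP.exists F
  have hpp : p.Prime := CharP.char_is_prime F p
  haveI : Fact p.Prime := ⟨hpp⟩
  have hq := H4.two_ne_zero_iff_odd.1 h2
  have hp2 := (H4.char_ne_two_iff_odd p).2 hq
  rw [← Nat.card_eq_fintype_card]
  set π : Matrix.SpecialLinearGroup (Fin 2) F →* _ := Matrix.SpecialLinearGroup.toPGL with hπ
  have hS : {g : Matrix.SpecialLinearGroup (Fin 2) F | (g : Matrix (Fin 2) (Fin 2) F) = !![1, 0; 1, 1]
      ∨ (g : Matrix (Fin 2) (Fin 2) F) = !![1, lam; 0, 1]} = {H4.slLow 1, H4.slUp lam} := by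
    ext g
    exact or_congr ⟨fun h => Subtype.ext h, fun h => by rw [h]; rfl⟩
      ⟨fun h => Subtype.ext h, fun h => by rw [h]; rfl⟩
  rw [hS]
  set x : Matrix.SpecialLinearGroup (Fin 2) F := H4.slLow 1 with hx
  set y : Matrix.SpecialLinearGroup (Fin 2) F := H4.slUp lam with hy
  set H := Subgroup.closure ({x, y} : Set _) with hH
  have hxH : x ∈ H := Subgroup.subset_closure (Or.inl rfl)
  have hyH : y ∈ H := Subgroup.subset_closure (Or.inr rfl)
  have hxU : H4.IsU (π x) ((0 : F) : OnePoint F) := by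
    rw [hx, hπ, H4.toPGL_slLow]; exact H4.low_isU 1
  have hyU : H4.IsU (π y) (OnePoint.infty : OnePoint F) := by
    rw [hy, hπ, H4.toPGL_slUp]; exact H4.isU_aff.2 rfl
  have hx1 : π x ≠ 1 := by
    rw [hx, hπ, H4.toPGL_slLow, H4.mob_lower, Ne, conj_eq_one_iff]
    exact fun e => one_ne_zero (H4.aff_inj (e.trans H4.aff_one.symm)).2
  have hy1 : π y ≠ 1 := by
    rw [hy, hπ, H4.toPGL_slUp]
    exact fun e => hlam (H4.aff_inj (e.trans H4.aff_one.symm)).2
  have t1 : H4.tau (π (x * y)) = (2 + lam) ^ 2 := by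
    rw [hπ, H4.tau_toPGL]; simp [hx, hy, Matrix.trace_fin_two]; ring
  have t2 : H4.tau (π (x * y⁻¹)) = (2 - lam) ^ 2 := by
    rw [hπ, H4.tau_toPGL]; simp [hx, hy, Matrix.trace_fin_two, Matrix.adjugate_fin_two]; ring
  have hgen' : ∀ k : Subfield F, lam ∈ k → k = ⊤ := fun k hk =>
    top_le_iff.1 (hgen ▸ Subfield.closure_le.2 (by simpa using hk))
  have hsmall : p = 3 → lam ^ 2 = -1 → Nat.card (H.map π) ≤ 60 := by
    rintro rfl hl
    have h3 : (3 : F) = 0 := by exact_mod_cast CharP.cast_eq_zero F 3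
    have e0 : x * y * x * y * x = H4.sl2 0 (2 + 2 * lam) (2 + lam) 0 (by grind) := by
      ext i j; fin_cases i <;> fin_cases j <;>
        simp [hx, hy, Matrix.mul_apply, Fin.sum_univ_two] <;> grind
    set a := x * y * x * y * x
    have e1 : π a * π a = 1 := by
      rw [← map_mul, hπ, H4.toPGL_eq_one_iff, e0]
      right
      ext i j; fin_cases i <;> fin_cases j <;>
        simp [Matrix.mul_apply, Fin.sum_univ_two] <;> grind
    have e2 : π a * π x * π a = π y := by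
      rw [← map_mul, ← map_mul, hπ, H4.toPGL_eq_iff, e0]
      right
      ext i j; fin_cases i <;> fin_cases j <;>
        simp [hx, hy, Matrix.mul_apply, Fin.sum_univ_two] <;> grind
    have e3 : (π a * π x) ^ 5 = 1 := by
      apply H4.pow_five_of_tau
      rw [← map_mul, hπ, H4.tau_toPGL, e0]
      simp [hx, Matrix.trace_fin_two]; grind
    obtain ⟨h4, h5⟩ := H4.tri5_card e1 (H4.isU_pow_char (p := 3) hxU) e3
    refine le_trans (H2.card_le_of_le' ?_) h5
    rw [hH, MonoidHom.map_closure, Subgroup.closure_le]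
    have ha : π a ∈ Subgroup.closure {π a, π x} := Subgroup.subset_closure (Or.inl rfl)
    have hb : π x ∈ Subgroup.closure {π a, π x} := Subgroup.subset_closure (Or.inr rfl)
    rintro _ ⟨g, rfl | rfl, rfl⟩
    · exact hb
    · exact e2 ▸ mul_mem (mul_mem ha hb) ha
  have hL := H4.card_Lsub_mul (K := F)
  rw [H4.gcd_two_of_odd hq] at hL
  by_cases hLH : H4.Lsub F ≤ H.map π
  · refine Or.inl ⟨?_, fun ⟨e1, e2⟩ => ?_⟩
    · have key : ∀ u : Matrix.SpecialLinearGroup (Fin 2) F, u ^ p = 1 → u ∈ H := fun u hu =>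
        H4.mem_of_toPGL_mem (hpp.odd_of_ne_two hp2) hu (hLH (H4.Lsub_eq.ge ⟨u, rfl⟩))
      exact H4.sl2_eq_top _ (fun b => key _ (by rw [H4.slUp_pow]; simp [H4.slUp_zero]))
        (fun b => key _ (by rw [H4.slLow_pow]; simp [H4.slLow_zero]))
    · have := hsmall (H4.eq_char_of_dvd_card (F := F) Nat.prime_three (by omega)).symm e2
      have := H2.card_le_of_le' hLH
      rw [e1] at hL
      omega
  right
  have hpH : p ∣ Nat.card (H.map π) := by
    have := Subgroup.orderOf_dvd_natCard (H.map π) ⟨x, hxH, rfl⟩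
    rwa [orderOf_eq_prime (H4.isU_pow_char hxU) hx1] at this
  rcases H4.dickson_proper (p := p) hLH with
    ⟨z, h⟩ | ⟨u, v, n, h, hD⟩ | ⟨k, m, hk, h⟩ | ⟨h, -⟩ | ⟨h, ⟨e⟩⟩
  · exact absurd ((hyU.eq_of_fix hy1 (h _ ⟨y, hyH, rfl⟩)).symm.trans
      (hxU.eq_of_fix hx1 (h _ ⟨x, hxH, rfl⟩))) (OnePoint.infty_ne_coe _)
  · exact (H4.not_isU_of_mem_T h.1 (H4.mem_T_of_odd h.1 (hD ⟨x, hxH, rfl⟩)
      (hpp.odd_of_ne_two hp2) (H4.isU_pow_char hxU)) hx1 _ hxU).elim
  · have hM' : H.map π ≤ H2.cj m (H4.pglSub k.subtype) := by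
      rcases h with h | h
      · exact h.le
      · exact h.le.trans (H2.cj_mono _ (H4.pslSub_le_pglSub _))
    have e1 := H4.tau_mem_of_mem_cj (hM' ⟨_, mul_mem hxH hyH, rfl⟩)
    have e2 := H4.tau_mem_of_mem_cj (hM' ⟨_, mul_mem hxH (inv_mem hyH), rfl⟩)
    rw [t1] at e1
    rw [t2] at e2
    refine absurd (hgen' k ?_) hk
    have : lam = ((2 + lam) ^ 2 - (2 - lam) ^ 2) / 2 ^ 3 := by field_simp; ring
    rw [this]
    exact div_mem (sub_mem e1 e2) (pow_mem (by exact_mod_cast natCast_mem k 2) 3)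
  · exact absurd hpH h
  obtain rfl : p = 3 := h.resolve_right (not_not.2 hpH)
  have h3 : (3 : F) = 0 := by exact_mod_cast CharP.cast_eq_zero F 3
  have hc := H4.card_of_a5 ⟨e⟩
  have hbig : lam ^ 3 ≠ lam := fun e' => by
    have := hgen' (ZMod.castHom (dvd_refl 3) F).fieldRange (by
      rw [H4.mem_subfield_iff, H4.card_fieldRange, Nat.card_zmod, e'])
    have h4 := H4.card_fieldRange (ZMod.castHom (dvd_refl 3) F)
    rw [this, H4.card_top_subfield, Nat.card_zmod] at h4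
    have := Subgroup.card_subgroup_dvd_card (H.map π)
    rw [hc, H4.card_pgl2, h4] at this
    omega
  have key : ∀ g ∈ H.map π, ∀ s : F, H4.tau g = s ^ 2 → s ^ 3 = s ∨ s ^ 4 = -1 := by
    intro g hg s hs
    by_cases h1 : g = 1
    · rw [h1, H4.tau_one] at hs; left; grind
    rcases H4.a5_pow (e ⟨g, hg⟩) with h | h | h <;>
      rw [← map_pow, MulEquiv.map_eq_one_iff, Subtype.ext_iff, Subgroup.coe_pow] at h
    · rw [sq, Subgroup.coe_one, H4.sq_eq_one_iff_tau h1, hs] at h; left; grind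
    · rw [Subgroup.coe_one, H4.cube_eq_one_iff h1, hs] at h; left; grind
    · rw [Subgroup.coe_one, H4.pow_five_iff h1, hs] at h; right; grind
  have e1 := (key _ ⟨_, mul_mem hxH hyH, rfl⟩ _ t1).resolve_left fun e => hbig (by grind)
  have e2 := (key _ ⟨_, mul_mem hxH (inv_mem hyH), rfl⟩ _ t2).resolve_left fun e => hbig (by grind)
  have e3 : lam ^ 2 = -1 := mul_left_cancel₀ hlam (by grind)
  refine ⟨?_, e3, ?_⟩
  · obtain ⟨n, -, hn⟩ := H4.card_eq_char_pow (F := F) 3
    have h5 := (H4.five_dvd_iff Nat.card_pos).1 (H4.five_dvd_of_a5 ⟨e⟩)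
    rcases Nat.even_or_odd n with ⟨j, rfl⟩ | h6
    · obtain ⟨k, hk⟩ := H4.exists_subfield_card (F := F) (e := 2) (m := j) hpp two_ne_zero
        (by rw [hn, ← pow_mul, two_mul])
      rw [hgen' k (by rw [H4.mem_subfield_iff, hk]; grind), H4.card_top_subfield] at hk
      exact hk
    · have := H4.pow_odd_mod_five (p := 3) (by norm_num) h6
      omega
  · have h4 := H4.card_map_mul_ker π H
    haveI : Fact (Nat.Prime 2) := ⟨Nat.prime_two⟩
    obtain ⟨⟨_, g, hg, rfl⟩, ht⟩ := exists_prime_orderOf_dvd_card' (G := H.map π) 2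
      (by rw [hc]; norm_num)
    replace ht : orderOf (π g) = 2 := (Subgroup.orderOf_coe _).trans ht
    have h5 := H4.sq_eq_neg_one h2 (g := g) (by
      intro e; rw [← hπ] at e; rw [e, orderOf_one] at ht; omega)
      (by rw [← sq]; exact orderOf_dvd_iff_pow_eq_one.1 ht.dvd)
    rw [inf_eq_left.2 (fun z hz => by
      rcases H4.toPGL_eq_one_iff.1 hz with rfl | rfl
      · exact one_mem _
      · exact h5 ▸ mul_mem hg hg), H4.card_ker_toPGL h2, hc] at h4
    exact h4.symm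

end Cfsg.Agent.S0801
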