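import Cfsg.Statements.S0802
import Cfsg.Agent.H4.Cover

set_option autoImplicit false
open Cfsg

namespace Cfsg.Agent.S0802


/-- PSL_2(p^n) has a subgroup isomorphic to A_4 if and only if it is not the case that p = 2 and n is odd. -/
theorem result {F : Type*} [Field F] [Fintype F] (p n : ℕ) [Fact p.Prime] [CharP F p] (hF : Fintype.card F = p ^ n) : (∃ H : Subgroup (Matrix.ProjectiveSpecialLinearGroup (Fin 2) F), Nonempty (H ≃* alternatingGroup (Fin 4))) ↔ ¬ (p = 2 ∧ Odd n) := by
  classical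
  rw [← Nat.card_eq_fintype_card] at hF
  rw [H4.exists_psl_iff]
  constructor
  · rintro ⟨φ, hφ, -⟩ ⟨rfl, hn⟩
    have hc : Nat.card φ.range = 12 := by rw [H4.card_range_of_injective hφ, H4.card_alt4]
    have h3 : Nat.card F % 3 = 2 := by
      obtain ⟨j, rfl⟩ := hn
      rw [hF, pow_succ, pow_mul, Nat.mul_mod, Nat.pow_mod]; simp
    rcases H4.dickson_pgl (p := 2) φ.range with
      ⟨x, h⟩ | ⟨x, y, n, h, hD⟩ | ⟨k, m, h⟩ | ⟨h, -⟩ | ⟨-, h⟩
    · have := Subgroup.card_dvd_of_le (show φ.range ≤ MulAction.stabilizer _ x from h)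
      rw [hc, H4.card_borel] at this
      have := Nat.prime_three.dvd_mul.1 (Dvd.dvd.trans (by norm_num) this)
      omega
    · exact H4.exc_a4.not_le_D hφ h.1 hD
    · have he : Even (Nat.card k) := even_iff_two_dvd.2 (H4.char_dvd_card 2)
      have h1 : Nat.card k * (Nat.card k - 1) * (Nat.card k + 1) = 12 := by
        rcases h with h | h
        · rw [← hc, h, ← H2.cj_def, H2.card_cj, H4.card_pglSub]
        · rw [← hc, h, ← H2.cj_def, H2.card_cj, ← H4.card_pslSub_mul k.subtype,
            H4.gcd_two_of_even he Nat.card_pos.ne', one_mul]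
      have h2 := H4.subfield_two_le k
      by_cases e : Nat.card k = 2
      · rw [e] at h1; omega
      · have : 3 * 2 * 4 ≤ Nat.card k * (Nat.card k - 1) * (Nat.card k + 1) :=
          Nat.mul_le_mul (Nat.mul_le_mul (by omega) (by omega)) (by omega)
        omega
    · rw [hc] at h; omega
    · rw [H4.card_of_a5 h] at hc; omega
  · intro h
    by_cases hp : p = 2
    · subst hp
      obtain ⟨j, rfl⟩ := Nat.not_odd_iff_even.1 fun e => h ⟨rfl, e⟩
      haveI : Fact (Nat.Prime 3) := ⟨Nat.prime_three⟩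
      obtain ⟨x, hx⟩ := exists_prime_orderOf_dvd_card' (G := Fˣ) 3 (by
        rw [Nat.card_units, hF, ← two_mul, pow_mul]
        simpa using Nat.sub_dvd_pow_sub_pow 4 1 j)
      have h1 : (x : F) ^ 3 = 1 := by rw [← Units.val_pow_eq_pow_val, ← hx, pow_orderOf_eq_one]; rfl
      have h2 : (x : F) - 1 ≠ 0 := fun e => by
        rw [show x = 1 from Units.ext (sub_eq_zero.1 e), orderOf_one] at hx; omega
      have h3 : (2 : F) = 0 := by exact_mod_cast CharP.cast_eq_zero F 2
      exact H4.exists_a4 ⟨x, 0, mul_left_cancel₀ h2 (by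
        linear_combination h1 - ((x : F) ^ 2 - x) * h3)⟩
    · obtain ⟨φ, hφ⟩ := H4.exists_a4_odd
        (H4.two_ne_zero_iff_odd.2 ((H4.char_ne_two_iff_odd (F := F) p).1 hp))
      exact ⟨φ, hφ, H4.a4_le_L φ⟩

end Cfsg.Agent.S0802
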