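import Cfsg.Statements.S0803
import Cfsg.Agent.H4.Max3

set_option autoImplicit false
open Cfsg

namespace Cfsg.Agent.S0803


/-- PSL_2(q) has a subgroup isomorphic to S_4 iff q² ≡ 1 (mod 16). -/
theorem result {F : Type*} [Field F] [Fintype F] {q : ℕ} (hF : Fintype.card F = q) : (∃ H : Subgroup (Matrix.ProjectiveSpecialLinearGroup (Fin 2) F), Nonempty (H ≃* Equiv.Perm (Fin 4))) ↔ q ^ 2 % 16 = 1 := by
  rw [← Nat.card_eq_fintype_card] at hF
  subst hF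
  rw [H4.exists_psl_iff]
  have key : ∀ q : ℕ, q ^ 2 % 16 = 1 ↔ q % 8 = 1 ∨ q % 8 = 7 := by
    intro q
    have h1 : q % 16 < 16 := Nat.mod_lt _ (by norm_num)
    rw [Nat.pow_mod, ← Nat.mod_mod_of_dvd q (by norm_num : 8 ∣ 16)]
    generalize q % 16 = r at *
    interval_cases r <;> simp
  rw [key]
  constructor
  · rintro ⟨φ, h1, h2⟩
    exact (H4.isSquare_two_iff (H4.two_ne_zero_iff_odd.1 (H4.s4_tau h1).2)).1
      ((H4.s4_le_L_iff h1).1 h2)
  · intro h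
    have hq : Odd (Nat.card F) := Nat.odd_iff.2 (by omega)
    obtain ⟨φ, hφ⟩ := H4.exists_s4 (H4.two_ne_zero_iff_odd.2 hq)
    exact ⟨φ, hφ, (H4.s4_le_L_iff hφ).2 ((H4.isSquare_two_iff hq).2 h)⟩

end Cfsg.Agent.S0803
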