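import Cfsg.Statements.S0804
import Cfsg.Agent.H4.Max3

set_option autoImplicit false
open Cfsg

namespace Cfsg.Agent.S0804


/-- PSL_2(q) has a subgroup isomorphic to A_5 iff 5 ∣ q(q² − 1). -/
theorem result {F : Type*} [Field F] [Fintype F] {q : ℕ} (hF : Fintype.card F = q) : (∃ H : Subgroup (Matrix.ProjectiveSpecialLinearGroup (Fin 2) F), Nonempty (H ≃* alternatingGroup (Fin 5))) ↔ 5 ∣ q * (q ^ 2 - 1) := by
  rw [← Nat.card_eq_fintype_card] at hF
  subst hF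
  rw [H4.exists_psl_iff]
  have e : Nat.card F * (Nat.card F ^ 2 - 1) = Nat.card F * (Nat.card F - 1) * (Nat.card F + 1) := by
    rw [mul_assoc, mul_comm (Nat.card F - 1), ← Nat.sq_sub_sq, one_pow]
  rw [e]
  constructor
  · rintro ⟨φ, h1, -⟩
    exact H4.five_dvd_of_a5 ⟨(MonoidHom.ofInjective h1).symm⟩
  · intro h
    obtain ⟨φ, hφ⟩ := H4.exists_a5 (H4.golden_of_dvd h).choose_spec
    exact ⟨φ, hφ, H4.a5_le_L φ⟩

end Cfsg.Agent.S0804
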