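import Cfsg.Statements.S0805
import Cfsg.Agent.H4.Max3

set_option autoImplicit false
open Cfsg

namespace Cfsg.Agent.S0805


/-- Subfield subgroups: let F be a finite field of odd order q and K a finite field with |K|^m = q, m ≥ 1. Then PSL_2(F) has a subgroup isomorphic to PSL_2(K), and has a subgroup isomorphic to PGL_2(K) if and only if m is even. -/
theorem result {F K : Type*} [Field F] [Fintype F] [Field K] [Fintype K] {q : ℕ} (hF : Fintype.card F = q) (hodd : Odd q) (m : ℕ) (hm : 1 ≤ m) (hK : Fintype.card K ^ m = q) : (∃ H : Subgroup (Matrix.ProjectiveSpecialLinearGroup (Fin 2) F), Nonempty (H ≃* Matrix.ProjectiveSpecialLinearGroup (Fin 2) K)) ∧ ((∃ H : Subgroup (Matrix.ProjectiveSpecialLinearGroup (Fin 2) F), Nonempty (H ≃* Matrix.ProjGenLinGroup (Fin 2) K)) ↔ Even m) := by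
  rw [← Nat.card_eq_fintype_card] at hF hK
  subst hF
  obtain ⟨f⟩ := H4.exists_ringHom_of_card_pow hK.symm
  rw [H4.exists_psl_iff, H4.exists_psl_iff]
  refine ⟨⟨H4.pslHom f, H4.pslHom_injective f, H4.pslSub_le_Lsub f⟩, ?_, fun h =>
    ⟨_, H4.pgl_map_injective f, H4.pglSub_le_L f hK.symm h⟩⟩
  rintro ⟨φ, h1, h2⟩
  by_contra h3
  refine H4.not_pgl_dvd hK.symm Finite.one_lt_card hodd (Nat.not_even_iff_odd.1 h3) ?_
  rw [← H4.card_pgl2, ← H4.card_range_of_injective h1]
  exact Subgroup.card_dvd_of_le h2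

end Cfsg.Agent.S0805
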