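import Cfsg.Statements.S0806
import Cfsg.Agent.H4.Cover

set_option autoImplicit false
open Cfsg

namespace Cfsg.Agent.S0806


/-- Minimal index (Galois): if q ∉ {2, 3, 5, 7, 9, 11} then every proper subgroup of PSL_2(q) has index ≥ q + 1, and some subgroup has index exactly q + 1. -/
theorem result {F : Type*} [Field F] [Fintype F] {q : ℕ} (hF : Fintype.card F = q) (hq : q ∉ ({2, 3, 5, 7, 9, 11} : Finset ℕ)) : (∀ H : Subgroup (Matrix.ProjectiveSpecialLinearGroup (Fin 2) F), H ≠ ⊤ → q + 1 ≤ H.index) ∧ ∃ H : Subgroup (Matrix.ProjectiveSpecialLinearGroup (Fin 2) F), H.index = q + 1 := by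
  classical
  rw [← Nat.card_eq_fintype_card] at hF
  subst hF
  simp only [Finset.mem_insert, Finset.mem_singleton, not_or] at hq
  have h2 : 2 ≤ Nat.card F := Finite.one_lt_card
  have hL := H4.card_psl2_mul (K := F)
  have hd := H4.gcd_two_cases _ h2
  have hpos : 0 < Nat.card F * (Nat.card F - 1) := Nat.mul_pos (by omega) (by omega)
  constructor
  · intro H hH
    obtain ⟨p, hp⟩ := CharP.exists F
    haveI : Fact p.Prime := ⟨CharP.char_is_prime F p⟩
    suffices h : Nat.gcd 2 (Nat.card F - 1) * Nat.card (H.map H4.jL) ≤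
        Nat.card F * (Nat.card F - 1) by
      rw [H4.card_map_jL] at h
      rw [← H.card_mul_index, ← mul_assoc] at hL
      exact Nat.le_of_mul_le_mul_left (hL ▸ Nat.mul_le_mul_right _ h) hpos
    have hle := H4.map_jL_le H
    have h60 : ¬ 2 ∣ Nat.card F → Nat.gcd 2 (Nat.card F - 1) * 60 ≤
        Nat.card F * (Nat.card F - 1) := fun e => by
      have : 13 * 12 ≤ Nat.card F * (Nat.card F - 1) := Nat.mul_le_mul (by omega) (by omega)
      omega
    have hp2 : 2 ∣ Nat.card F → p = 2 := fun e => (H4.eq_char_of_dvd_card Nat.prime_two e).symm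
    rcases H4.dickson_proper (p := p) (H := H.map H4.jL) (fun e => hH (by
      rw [← H4.jL_range, MonoidHom.range_eq_map] at e
      exact top_le_iff.1 ((Subgroup.map_le_map_iff_of_injective H4.jL_injective).1 e))) with
      ⟨x, h⟩ | ⟨x, y, n, h, hD⟩ | ⟨k, m, hk, h⟩ | ⟨h1, h | h⟩ | ⟨h1, h⟩
    · rw [← H4.card_borel_L x]
      exact Nat.mul_le_mul_left _ (H2.card_le_of_le' (le_inf h hle))
    · have h1 := H2.card_le_of_le' (le_inf hD hle)
      rw [h.card_DL.1] at h1
      have h3 := h.cases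
      have : 4 * (Nat.card F - 1) ≤ Nat.card F * (Nat.card F - 1) :=
        Nat.mul_le_mul_right _ (by omega)
      rcases hd with ⟨e, -⟩ | ⟨e, -⟩ <;> rw [e] at h1 ⊢ <;> omega
    · have hM' : H.map H4.jL ≤ H2.cj m (H4.pglSub k.subtype) := by
        rcases h with h | h
        · exact h.le
        · exact h.le.trans (H2.cj_mono _ (H4.pslSub_le_pglSub _))
      have h1 := H2.card_le_of_le' hM'
      rw [H2.card_cj, H4.card_pglSub] at h1
      have h3 := H4.subfield_sq_le hk
      have h4 := H4.subfield_two_le k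
      have h5 : Nat.card k ^ 2 * (Nat.card k ^ 2 - 1) ≤ Nat.card F * (Nat.card F - 1) :=
        Nat.mul_le_mul h3 (by omega)
      rw [← one_pow 2, Nat.sq_sub_sq, one_pow] at h5
      have h6 : 2 * (Nat.card k * (Nat.card k - 1) * (Nat.card k + 1)) ≤
          Nat.card k * (Nat.card k * (Nat.card k - 1) * (Nat.card k + 1)) :=
        Nat.mul_le_mul_right _ h4
      have h7 : Nat.card k * (Nat.card k * (Nat.card k - 1) * (Nat.card k + 1)) =
        Nat.card k ^ 2 * ((Nat.card k + 1) * (Nat.card k - 1)) := by ring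
      rcases hd with ⟨e, -⟩ | ⟨e, -⟩ <;> rw [e] <;> omega
    · rw [H4.card_of_a4 h] at h1 ⊢
      have := h60 fun e => h1 (by rw [hp2 e]; norm_num)
      omega
    · rw [H4.card_of_s4 h] at h1 ⊢
      have := h60 fun e => h1 (by rw [hp2 e]; norm_num)
      omega
    · rw [H4.card_of_a5 h] at h1 ⊢
      exact h60 fun e => by rw [hp2 e] at h1; omega
  · refine ⟨(MulAction.stabilizer _ (OnePoint.infty : OnePoint F) ⊓ H4.Lsub F).comap H4.jL, ?_⟩
    rw [← Subgroup.card_mul_index ((MulAction.stabilizer _ (OnePoint.infty : OnePoint F) ⊓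
      H4.Lsub F).comap H4.jL), ← mul_assoc,
      Nat.card_congr (H4.comapEquiv (M := _ ⊓ H4.Lsub F) H4.jL_injective inf_le_right).toEquiv,
      H4.card_borel_L] at hL
    exact Nat.eq_of_mul_eq_mul_left hpos hL

end Cfsg.Agent.S0806
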