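import Cfsg.Statements.S0807
import Cfsg.Agent.H4.Klein

set_option autoImplicit false
open Cfsg

namespace Cfsg.Agent.S0807


/-- For q odd, twelve times the number of Klein four-subgroups of PSL_2(q) equals the order of PSL_2(q). -/
theorem result {F : Type*} [Field F] [Fintype F] {q : ℕ} (hF : Fintype.card F = q) (hodd : Odd q) : 12 * Nat.card {V : Subgroup (Matrix.ProjectiveSpecialLinearGroup (Fin 2) F) // IsKleinFour V} = Nat.card (Matrix.ProjectiveSpecialLinearGroup (Fin 2) F) := by
  rw [← Nat.card_eq_fintype_card] at hF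
  subst hF
  rw [← H4.card_Lsub, ← H4.card_klein hodd]
  congr 1
  exact Nat.card_congr
    { toFun := fun V => ⟨V.1.map H4.jL, H4.isKleinFour_of_equiv (H4.upEquiv V.1) V.2,
        H4.map_jL_le _⟩
      invFun := fun V => ⟨V.1.comap H4.jL,
        H4.isKleinFour_of_equiv (H4.comapEquiv H4.jL_injective V.2.2).symm V.2.1⟩
      left_inv := fun V => Subtype.ext (Subgroup.comap_map_eq_self_of_injective H4.jL_injective _)
      right_inv := fun V => Subtype.ext (Subgroup.map_comap_eq_self V.2.2) }

end Cfsg.Agent.S0807
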