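import Cfsg.Statements.S0808
import Cfsg.Agent.H4.Klein

set_option autoImplicit false
open Cfsg

namespace Cfsg.Agent.S0808


/-- Conjugacy classes of four-groups in PSL_2(q), q odd: if q ≡ 3 or 5 (mod 8) all Klein four-subgroups are conjugate; if q ≡ 1 or 7 (mod 8) there are two Klein four-subgroups which are not conjugate, and every Klein four-subgroup is conjugate to one of them. -/
theorem result {F : Type*} [Field F] [Fintype F] {q : ℕ} (hF : Fintype.card F = q) (hodd : Odd q) : ((q % 8 = 3 ∨ q % 8 = 5) → ∀ V W : Subgroup (Matrix.ProjectiveSpecialLinearGroup (Fin 2) F), IsKleinFour V → IsKleinFour W → ∃ g : Matrix.ProjectiveSpecialLinearGroup (Fin 2) F, W = V.map (MulAut.conj g).toMonoidHom) ∧ ((q % 8 = 1 ∨ q % 8 = 7) → ∃ V₁ V₂ : Subgroup (Matrix.ProjectiveSpecialLinearGroup (Fin 2) F), IsKleinFour V₁ ∧ IsKleinFour V₂ ∧ (¬ ∃ g : Matrix.ProjectiveSpecialLinearGroup (Fin 2) F, V₂ = V₁.map (MulAut.conj g).toMonoidHom) ∧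 ∀ W : Subgroup (Matrix.ProjectiveSpecialLinearGroup (Fin 2) F), IsKleinFour W → (∃ g : Matrix.ProjectiveSpecialLinearGroup (Fin 2) F, W = V₁.map (MulAut.conj g).toMonoidHom) ∨ (∃ g : Matrix.ProjectiveSpecialLinearGroup (Fin 2) F, W = V₂.map (MulAut.conj g).toMonoidHom)) := by
  rw [← Nat.card_eq_fintype_card] at hF
  subst hF
  obtain ⟨φ, hφ⟩ := H4.exists_s4 (H4.two_ne_zero_iff_odd.2 hodd)
  have hi : (H4.Lsub F).index = 2 := by rw [H4.index_Lsub, H4.gcd_two_of_odd hodd]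
  have h0 := H4.vS4_map_klein hφ
  have h0L := H4.vS4_map_le_L φ
  have hN := H4.normalizer_klein hφ
  have hS := (H4.s4_le_L_iff hφ).trans (H4.isSquare_two_iff hodd)
  have key : ∀ (V W : Subgroup (Matrix.ProjectiveSpecialLinearGroup (Fin 2) F)) m,
      m ∈ H4.Lsub F → W.map H4.jL = H2.cj m (V.map H4.jL) →
      ∃ g, W = V.map (MulAut.conj g).toMonoidHom := by
    rintro V W _ ⟨g, rfl⟩ h
    exact ⟨g, Subgroup.map_injective H4.jL_injective (by rw [h, ← H2.cj_def, H4.map_cj])⟩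
  have kc : ∀ V : Subgroup (Matrix.ProjectiveSpecialLinearGroup (Fin 2) F), IsKleinFour V →
      ∃ m, V.map H4.jL = H2.cj m (H4.vS4.map φ) := fun V hV =>
    H4.klein_conj hodd h0 (H4.isKleinFour_of_equiv (H4.upEquiv V) hV) h0L (H4.map_jL_le V)
  constructor
  · intro hq V W hV hW
    have kc' : ∀ V : Subgroup (Matrix.ProjectiveSpecialLinearGroup (Fin 2) F), IsKleinFour V →
        ∃ m ∈ H4.Lsub F, V.map H4.jL = H2.cj m (H4.vS4.map φ) := fun V hV => by
      obtain ⟨m, hm⟩ := kc V hV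
      obtain ⟨s, hs, hs'⟩ := H4.exists_adjust hi (A := φ.range) (by rw [hS]; omega) m
      exact ⟨_, hs', by rw [← H2.cj_cj, H2.cj_eq_of_mem_normalizer (hN.ge hs), hm]⟩
    obtain ⟨m, hm, e⟩ := kc' V hV
    obtain ⟨m', hm', e'⟩ := kc' W hW
    exact key V W (m' * m⁻¹) (mul_mem hm' (inv_mem hm))
      (by rw [e, e', H2.cj_cj, inv_mul_cancel_right])
  · intro hq
    obtain ⟨c, -, hc⟩ := SetLike.not_le_iff_exists.1 (show ¬ ⊤ ≤ H4.Lsub F from fun e => by
      rw [top_le_iff.1 e, Subgroup.index_top] at hi; omega)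
    have h1L : H2.cj c (H4.vS4.map φ) ≤ H4.Lsub F := H4.cj_le_normal_iff.2 h0L
    have e0 := Subgroup.map_comap_eq_self (f := H4.jL) h0L
    have e1 := Subgroup.map_comap_eq_self (f := H4.jL) h1L
    refine ⟨(H4.vS4.map φ).comap H4.jL, (H2.cj c (H4.vS4.map φ)).comap H4.jL,
      H4.isKleinFour_of_equiv (H4.comapEquiv H4.jL_injective h0L).symm h0,
      H4.isKleinFour_of_equiv ((H2.cjEquiv c _).trans (H4.comapEquiv H4.jL_injective h1L).symm) h0,
      ?_, fun W hW => ?_⟩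
    · rintro ⟨g, hg⟩
      have := congrArg (Subgroup.map H4.jL) hg
      rw [e1, ← H2.cj_def, H4.map_cj, e0] at this
      have h2 : (H4.jL g)⁻¹ * c ∈ φ.range := by
        rw [← hN, H2.mem_normalizer_iff_cj, ← H2.cj_cj, this, H2.cj_inv_cj]
      exact hc ((Subgroup.mul_mem_cancel_left (H4.Lsub F) (inv_mem ⟨g, rfl⟩)).1 (hS.2 hq h2))
    · obtain ⟨m, hm⟩ := kc W hW
      by_cases h2 : m ∈ H4.Lsub F
      · exact Or.inl (key _ _ m h2 (by rw [e0, hm]))
      · exact Or.inr (key _ _ (m * c⁻¹) (H4.mul_mem_of_index_two hi h2 (by simpa using hc))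
          (by rw [e1, hm, H2.cj_cj, inv_mul_cancel_right]))

end Cfsg.Agent.S0808
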