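import Cfsg.Statements.S0809
import Cfsg.Agent.H4.Klein

set_option autoImplicit false
open Cfsg

namespace Cfsg.Agent.S0809


/-- In SL_2(q), q odd: any two subgroups of order 4 are conjugate, and the normaliser of a subgroup of order 4 has order 2(q − 1) if q ≡ 1 (mod 4) and 2(q + 1) if q ≡ 3 (mod 4); consequently all involutions of PSL_2(q) are conjugate. -/
theorem result {F : Type*} [Field F] [Fintype F] {q : ℕ} (hF : Fintype.card F = q) (hodd : Odd q) (A : Subgroup (Matrix.SpecialLinearGroup (Fin 2) F)) (hA : Nat.card A = 4) : (∀ B : Subgroup (Matrix.SpecialLinearGroup (Fin 2) F), Nat.card B = 4 → ∃ g : Matrix.SpecialLinearGroup (Fin 2) F, B = A.map (MulAut.conj g).toMonoidHom) ∧ (q % 4 = 1 → Nat.card ↥(Subgroup.normalizer (A : Set (Matrix.SpecialLinearGroup (Fin 2) F))) = 2 * (q - 1)) ∧ (q % 4 = 3 → Nat.card ↥(Subgroup.normalizer (A : Set (Matrix.SpecialLinearGroup (Fin 2) F))) = 2 * (q + 1)) ∧ (∀ x y : Matrix.ProjectiveSpecialLinearGroup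 (Fin 2) F, orderOf x = 2 → orderOf y = 2 → IsConj x y) := by
  rw [← Nat.card_eq_fintype_card] at hF
  subst hF
  have h2 := H4.two_ne_zero_iff_odd.2 hodd
  haveI : Fact (Nat.Prime 2) := ⟨Nat.prime_two⟩
  set π : Matrix.SpecialLinearGroup (Fin 2) F →* _ := Matrix.SpecialLinearGroup.toPGL with hπ
  have hL : ∀ g, π g ∈ H4.Lsub F := fun g => H4.Lsub_eq.ge ⟨g, rfl⟩
  have key : ∀ A : Subgroup (Matrix.SpecialLinearGroup (Fin 2) F), Nat.card A = 4 →
      ∃ g, π g ≠ 1 ∧ π g * π g = 1 ∧ ∀ x, x ∈ A ↔ π x = 1 ∨ π x = π g := by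
    intro A hA
    obtain ⟨z, hz⟩ := exists_prime_orderOf_dvd_card' (G := A) 2 (by rw [hA]; norm_num)
    have h3 : (z : Matrix.SpecialLinearGroup (Fin 2) F) = -1 :=
      (H4.sl2_invol h2 (by rw [← sq, ← Subgroup.coe_pow, orderOf_dvd_iff_pow_eq_one.1 hz.dvd]; rfl)).resolve_left
        fun e => by rw [show z = 1 from Subtype.ext e, orderOf_one] at hz; omega
    have h4 : π.ker ≤ A := fun x hx => by
      rcases H4.toPGL_eq_one_iff.1 hx with rfl | rfl
      · exact one_mem _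
      · exact h3 ▸ z.2
    have h5 := H4.card_map_mul_ker π A
    rw [inf_eq_left.2 h4, H4.card_ker_toPGL h2, hA] at h5
    obtain ⟨⟨_, g, hg, rfl⟩, h6, h7⟩ := (Nat.card_eq_two_iff' (1 : A.map π)).1 (by omega)
    have h8 : π g ≠ 1 := fun e => h6 (Subtype.ext e)
    have h9 : ∀ x ∈ A, π x = 1 ∨ π x = π g := fun x hx => by
      by_cases e : π x = 1
      · exact Or.inl e
      · exact Or.inr (congrArg Subtype.val (h7 ⟨_, x, hx, rfl⟩ fun e' => e (congrArg Subtype.val e')))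
    refine ⟨g, h8, ?_, fun x => ⟨h9 x, ?_⟩⟩
    · rw [← map_mul]
      exact (h9 _ (mul_mem hg hg)).resolve_right fun e => h8 (by simpa using e)
    · rw [← Subgroup.comap_map_eq_self h4]
      rintro (e | e)
      · exact ⟨1, one_mem _, by rw [e, map_one]⟩
      · exact ⟨g, hg, e.symm⟩
  obtain ⟨g, g1, g2, hg⟩ := key A hA
  have kc : ∀ k x, x ∈ H2.cj k A ↔ π x = 1 ∨ π x = π k * π g * (π k)⁻¹ := by
    intro k x
    rw [H2.mem_cj, hg, map_mul, map_mul, map_inv]
    refine or_congr ?_ ?_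
    · rw [mul_assoc, inv_mul_eq_one, eq_comm, mul_eq_right]
    · rw [mul_assoc, inv_mul_eq_iff_eq_mul, eq_mul_inv_iff_mul_eq]
  obtain ⟨x, y, n, h, hT⟩ := H4.invol_torus h2 g1 g2
  have hN : Nat.card (Subgroup.normalizer (A : Set (Matrix.SpecialLinearGroup (Fin 2) F))) =
      2 * (n / 2) * 2 := by
    have : Subgroup.normalizer (A : Set (Matrix.SpecialLinearGroup (Fin 2) F)) =
        (H4.Dsub x y ⊓ H4.Lsub F).comap π := by
      ext k
      rw [H2.mem_normalizer_iff_cj, Subgroup.mem_comap, Subgroup.mem_inf, and_iff_left (hL k),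
        ← H4.centralizer_invol h.1 g1 g2 hT, Subgroup.mem_centralizer_singleton_iff,
        ← mul_inv_eq_iff_eq_mul]
      constructor
      · intro e
        exact (((kc k g).1 (e.symm ▸ (hg g).2 (Or.inr rfl))).resolve_left g1).symm
      · intro e
        ext z; rw [kc, hg, e]
    rw [this, H4.card_comap_of_le _ (inf_le_right.trans H4.Lsub_eq.le), h.card_DL.1,
      H4.gcd_two_of_odd hodd, H4.card_ker_toPGL h2]
  have hn : 2 ∣ n / 2 := by
    have := Subgroup.orderOf_dvd_natCard (H4.Tsub x y ⊓ H4.Lsub F) ⟨hT, hL g⟩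
    rwa [h.card_TL', H4.gcd_two_of_odd hodd, orderOf_eq_prime (p := 2) (by rwa [sq]) g1] at this
  have hn' := h.cases
  refine ⟨fun B hB => ?_, fun e => by omega, fun e => by omega, fun a b ha hb => ?_⟩
  · obtain ⟨g', g1', g2', hg'⟩ := key B hB
    obtain ⟨m, hm, e⟩ := H4.isConj_invol_L' hodd g1 g1' g2 g2' (hL g) (hL g')
    obtain ⟨k, rfl⟩ := H4.Lsub_eq.le hm
    exact ⟨k, by ext z; rw [← H2.cj_def, kc, hg', e]⟩
  · have k1 : ∀ a : Matrix.ProjectiveSpecialLinearGroup (Fin 2) F, orderOf a = 2 →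
        H4.jL a ≠ 1 ∧ H4.jL a * H4.jL a = 1 := fun a ha =>
      ⟨(map_ne_one_iff _ H4.jL_injective).2 (by rintro rfl; simp at ha),
        by rw [← map_mul, ← sq, orderOf_dvd_iff_pow_eq_one.1 ha.dvd, map_one]⟩
    obtain ⟨_, ⟨m, rfl⟩, e⟩ := H4.isConj_invol_L' hodd (k1 a ha).1 (k1 b hb).1 (k1 a ha).2
      (k1 b hb).2 ⟨a, rfl⟩ ⟨b, rfl⟩
    exact isConj_iff.2 ⟨m, H4.jL_injective (by simpa using e)⟩

end Cfsg.Agent.S0809
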