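import Cfsg.Statements.S0810
import Cfsg.Agent.H4.Cover

set_option autoImplicit false
open Cfsg

namespace Cfsg.Agent.S0810


/-- PSL_2(q) is minimal simple iff q is 2^r (r prime), 3^r (r an odd prime), a prime greater than 5 congruent to 2 or 3 mod 5, or 5. -/
theorem result {F : Type*} [Field F] [Fintype F] {q : ℕ} (hF : Fintype.card F = q) : Cfsg.IsMinimalSimple (Matrix.ProjectiveSpecialLinearGroup (Fin 2) F) ↔ ((∃ r : ℕ, r.Prime ∧ q = 2 ^ r) ∨ (∃ r : ℕ, r.Prime ∧ r ≠ 2 ∧ q = 3 ^ r) ∨ (q.Prime ∧ 5 < q ∧ (q % 5 = 2 ∨ q % 5 = 3)) ∨ q = 5) := by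
  classical
  rw [← Nat.card_eq_fintype_card] at hF
  subst hF
  obtain ⟨p, hp⟩ := CharP.exists F
  have hpp : p.Prime := CharP.char_is_prime F p
  haveI : Fact p.Prime := ⟨hpp⟩
  obtain ⟨n, hn1, hn⟩ := H4.card_eq_char_pow (F := F) p
  have h2 : 2 ≤ Nat.card F := Finite.one_lt_card
  constructor
  · rintro ⟨h1, h3, h4⟩
    have key : ∀ M : Subgroup (Matrix.ProjGenLinGroup (Fin 2) F), M ≤ H4.Lsub F →
        ¬ H4.Lsub F ≤ M → Group.IsSolvable M := fun M e1 e2 => by
      haveI := h4 (M.comap H4.jL) fun e => e2 (by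
        rw [← Subgroup.map_comap_eq_self (f := H4.jL) e1, e, ← MonoidHom.range_eq_map]; rfl)
      exact Group.isSolvable_of_isSolvable_injective
        (f := (H4.comapEquiv H4.jL_injective e1).symm.toMonoidHom) (MulEquiv.injective _)
    have h5 : 4 ≤ Nat.card F := by
      by_contra hc
      haveI := H4.solvable_pgl_small (K := F) (by omega)
      exact H4.psl2_not_comm (K := F) (IsSimpleGroup.comm_iff_isSolvable.2
        (Group.isSolvable_of_isSolvable_injective H4.jL_injective))
    have h6 : ∀ m, m ∣ n → m ≠ n → p ^ m ≤ 3 := by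
      rintro m ⟨j, hj⟩ hm
      have hm0 : m ≠ 0 := by rintro rfl; omega
      obtain ⟨k, hk⟩ := H4.exists_subfield_card (F := F) (m := j) hpp hm0 (by rw [hn, hj, pow_mul])
      by_contra hc
      have hkt : k ≠ ⊤ := by
        rintro rfl
        rw [H4.card_top_subfield, hn] at hk
        exact hm (Nat.pow_right_injective hpp.two_le hk).symm
      haveI := key _ (H4.pslSub_le_Lsub k.subtype) fun e => H4.L_not_le_pgl hkt 1
        (by rw [H2.cj_one]; exact e.trans (H4.pslSub_le_pglSub _))
      exact H4.psl2_not_solvable (K := k) (by omega) (Group.isSolvable_of_isSolvable_injective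
        (f := (H4.pslSubEquiv k.subtype).toMonoidHom) (MulEquiv.injective _))
    have h7 : Nat.card F % 5 = 0 ∨ Nat.card F % 5 = 1 ∨ Nat.card F % 5 = 4 →
        Nat.card (H4.Lsub F) ∣ 60 := fun e => by
      obtain ⟨φ, hφ⟩ := H4.exists_a5_of_dvd e
      by_contra hc
      haveI := key _ (H4.a5_le_L φ) (H4.L_not_le_of_card (by
        rwa [H4.card_range_of_injective hφ, H4.card_alt5]))
      exact H4.not_solvable_a5 (Group.isSolvable_of_isSolvable_injective
        (f := (MonoidHom.ofInjective hφ).toMonoidHom) (MulEquiv.injective _))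
    have h8 : n ≠ 1 → n.Prime ∧ p ≤ 3 := fun e => by
      refine ⟨?_, by simpa using h6 1 (one_dvd n) e.symm⟩
      by_contra hc
      obtain ⟨m, h9, h10, h11⟩ := Nat.exists_dvd_of_not_prime2 (by omega) hc
      have := h6 m h9 h11.ne
      have : 2 ^ 2 ≤ p ^ m := (Nat.pow_le_pow_left hpp.two_le 2).trans
        (Nat.pow_le_pow_right hpp.pos h10)
      omega
    have hL := H4.card_Lsub_mul (K := F)
    by_cases e : n = 1
    · rw [e, pow_one] at hn
      by_cases e5 : Nat.card F = 5
      · exact Or.inr (Or.inr (Or.inr e5))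
      have h9 : Nat.card F ≠ 4 := fun e => by rw [← hn, e] at hpp; norm_num at hpp
      have h10 : Nat.card F ≠ 6 := fun e => by rw [← hn, e] at hpp; norm_num at hpp
      refine Or.inr (Or.inr (Or.inl ⟨hn ▸ hpp, by omega, ?_⟩))
      by_contra hc
      have h11 := Nat.le_of_dvd (by norm_num) (h7 (by omega))
      have : 7 * 6 * 8 ≤ Nat.card F * (Nat.card F - 1) * (Nat.card F + 1) :=
        Nat.mul_le_mul (Nat.mul_le_mul (by omega) (by omega)) (by omega)
      rcases H4.gcd_two_cases _ h2 with ⟨e, -⟩ | ⟨e, -⟩ <;> rw [e] at hL <;> omega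
    · obtain ⟨h9, h10⟩ := h8 e
      have := hpp.two_le
      interval_cases p
      · exact Or.inl ⟨n, h9, hn⟩
      · refine Or.inr (Or.inl ⟨n, h9, ?_, hn⟩)
        rintro rfl
        have := Nat.le_of_dvd (by norm_num) (h7 (by omega))
        rw [hn, show Nat.gcd 2 (3 ^ 2 - 1) = 2 by decide] at hL
        omega
  · intro h
    have h4 : 4 ≤ Nat.card F := by
      rcases h with ⟨r, hr, h⟩ | ⟨r, hr, -, h⟩ | h | h
      · exact h ▸ Nat.pow_le_pow_right (n := 2) two_pos hr.two_le
      · have := Nat.pow_le_pow_right (n := 3) (by norm_num) hr.two_le; omega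
      · omega
      · omega
    refine ⟨Matrix.ProjectiveSpecialLinearGroup.rank_two_simple h4,
      fun e => H4.psl2_not_comm e.is_comm.comm, fun H hH => ?_⟩
    suffices Group.IsSolvable (H.map H4.jL) from Group.isSolvable_of_isSolvable_injective
      (f := (H4.upEquiv H).toMonoidHom) (MulEquiv.injective _)
    rcases H4.dickson_proper (p := p) (H := H.map H4.jL) (fun e => hH (by
      rw [← H4.jL_range, MonoidHom.range_eq_map] at e
      exact top_le_iff.1 ((Subgroup.map_le_map_iff_of_injective H4.jL_injective).1 e))) with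
      ⟨x, h'⟩ | ⟨x, y, n, h', hD⟩ | ⟨k, m, hk, h'⟩ | ⟨h1, ⟨⟨e⟩⟩ | ⟨⟨e⟩⟩⟩ | ⟨h1, h'⟩
    · exact H4.solvable_of_fix h'
    · exact H4.solvable_of_le_D h'.1 hD
    · have hM' : H.map H4.jL ≤ H2.cj m (H4.pglSub k.subtype) := by
        rcases h' with h | h
        · exact h.le
        · exact h.le.trans (H2.cj_mono _ (H4.pslSub_le_pglSub _))
      have key : ∀ s r : ℕ, s.Prime → r.Prime → Nat.card F = s ^ r → Nat.card k = s := by
        intro s r hs hr e
        obtain ⟨m, hm, hm'⟩ := H4.subfield_pow_of_ne_top hk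
        haveI := H4.charP_of_dvd_card (F := F) hs (e ▸ dvd_pow_self s hr.ne_zero)
        obtain ⟨j, -, hj⟩ := H4.card_eq_char_pow (F := k) s
        rw [e, hj, ← pow_mul] at hm'
        have h5 := Nat.pow_right_injective hs.two_le hm'
        rcases hr.eq_one_or_self_of_dvd j ⟨m, h5⟩ with e' | e'
        · rw [hj, e', pow_one]
        · rw [e'] at h5
          have := hr.pos
          nlinarith
      have h5 : Nat.card k ≤ 3 := by
        rcases h with ⟨r, hr, h⟩ | ⟨r, hr, -, h⟩ | h | h
        · rw [key 2 r Nat.prime_two hr h]; omega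
        · rw [key 3 r Nat.prime_three hr h]
        · exact absurd (H4.subfield_eq_top_of_prime h.1 k) hk
        · exact absurd (H4.subfield_eq_top_of_prime (h ▸ Nat.prime_five) k) hk
      haveI := H4.solvable_pgl_small h5
      exact Group.isSolvable_of_isSolvable_injective
        (f := ((H4.pglSubEquiv k.subtype).trans (H2.cjEquiv m _)).symm.toMonoidHom.comp
          (Subgroup.inclusion hM'))
        (((H4.pglSubEquiv k.subtype).trans (H2.cjEquiv m _)).symm.injective.comp
          (Subgroup.inclusion_injective hM'))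
    · haveI := H4.solvable_s4
      exact Group.isSolvable_of_isSolvable_injective (f := e.toMonoidHom) e.injective
    · haveI := H4.solvable_s4
      exact Group.isSolvable_of_isSolvable_injective (f := e.toMonoidHom) e.injective
    · exfalso
      have h5 := (H4.five_dvd_iff Nat.card_pos).1 (H4.five_dvd_of_a5 h')
      rw [H4.card_of_a5 h'] at h1
      rcases h with ⟨r, hr, h⟩ | ⟨r, hr, hr2, h⟩ | h | h
      · have := H4.eq_char_of_dvd_card (F := F) (p := p) Nat.prime_two
          (h ▸ dvd_pow_self 2 hr.ne_zero)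
        subst this
        omega
      · have := H4.pow_odd_mod_five (p := 3) (by norm_num) (hr.odd_of_ne_two hr2)
        omega
      · omega
      · have := H4.eq_char_of_dvd_card (F := F) (p := p) Nat.prime_five (by omega)
        subst this
        omega

end Cfsg.Agent.S0810
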