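import Cfsg.Statements.S0811
import Cfsg.Agent.H4.Max3

set_option autoImplicit false
open Cfsg

namespace Cfsg.Agent.S0811


/-- For q ∉ {2, 7, 9}, PSL_2(q) has a maximal subgroup isomorphic to the dihedral group of order 2(q + 1)/d, d = gcd(2, q − 1). -/
theorem result {F : Type*} [Field F] [Fintype F] {q : ℕ} (hF : Fintype.card F = q) (hq : q ∉ ({2, 7, 9} : Finset ℕ)) : ∃ H : Subgroup (Matrix.ProjectiveSpecialLinearGroup (Fin 2) F), IsCoatom H ∧ Nonempty (H ≃* DihedralGroup ((q + 1) / Nat.gcd 2 (q - 1))) := by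
  classical
  rw [← Nat.card_eq_fintype_card] at hF
  subst hF
  obtain ⟨x, y, h⟩ := H4.exists_stable_nonsplit (F := F)
  refine H4.exists_coatom_of_covBy ?_ h.card_DL.2
  simp only [Finset.mem_insert, Finset.mem_singleton, not_or] at hq
  have h2 : 2 ≤ Nat.card F := Finite.one_lt_card
  by_cases h3 : Nat.card F = 3
  · have h4 := h.card_DL.1
    have h5 := H4.card_Lsub_mul (K := F)
    rw [h3] at h4 h5
    rw [show Nat.gcd 2 (3 - 1) = 2 by decide] at h4 h5
    refine H4.covBy_of_forall inf_le_right (fun e => by rw [e] at h4; omega) fun M h6 h7 h8 => ?_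
    have h9 := Subgroup.card_dvd_of_le h6
    have h10 := Subgroup.card_dvd_of_le h7
    have h11 := H2.card_lt_of_lt (lt_of_le_of_ne h7 h8)
    exact (H2.eq_of_le_of_card_le h6 (by
      rw [show Nat.card (H4.Lsub F) = 12 by omega] at h10 h11
      generalize Nat.card M = n at *
      rw [h4] at h9 ⊢
      interval_cases n <;> omega)).symm
  refine h.covBy ?_
  have h6 : Nat.card F ≠ 6 := fun e => by
    haveI := H4.charP_of_dvd_card (F := F) Nat.prime_two (by omega)
    haveI : Fact (Nat.Prime 2) := ⟨Nat.prime_two⟩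
    have := H4.eq_char_of_dvd_card (F := F) (p := 2) Nat.prime_three (by omega)
    omega
  rcases H4.gcd_two_cases _ h2 with ⟨e, e'⟩ | ⟨e, e'⟩ <;> rw [e] <;> omega

end Cfsg.Agent.S0811
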