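import Cfsg.Statements.S0812
import Cfsg.Agent.H4.Max3

set_option autoImplicit false
open Cfsg

namespace Cfsg.Agent.S0812


/-- For q ∉ {2, 3, 5, 7, 9, 11}, PSL_2(q) has a maximal subgroup isomorphic to the dihedral group of order 2(q − 1)/d, d = gcd(2, q − 1). -/
theorem result {F : Type*} [Field F] [Fintype F] {q : ℕ} (hF : Fintype.card F = q) (hq : q ∉ ({2, 3, 5, 7, 9, 11} : Finset ℕ)) : ∃ H : Subgroup (Matrix.ProjectiveSpecialLinearGroup (Fin 2) F), IsCoatom H ∧ Nonempty (H ≃* DihedralGroup ((q - 1) / Nat.gcd 2 (q - 1))) := by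
  classical
  rw [← Nat.card_eq_fintype_card] at hF
  subst hF
  obtain ⟨x, y, h⟩ := H4.exists_stable_split (F := F)
  refine H4.exists_coatom_of_covBy ?_ h.card_DL.2
  simp only [Finset.mem_insert, Finset.mem_singleton, not_or] at hq
  have h2 : 2 ≤ Nat.card F := Finite.one_lt_card
  refine h.covBy ?_
  have h6 : Nat.card F ≠ 6 := fun e => by
    haveI := H4.charP_of_dvd_card (F := F) Nat.prime_two (by omega)
    haveI : Fact (Nat.Prime 2) := ⟨Nat.prime_two⟩
    have := H4.eq_char_of_dvd_card (F := F) (p := 2) Nat.prime_three (by omega)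
    omega
  rcases H4.gcd_two_cases _ h2 with ⟨e, e'⟩ | ⟨e, e'⟩ <;> rw [e] <;> omega

end Cfsg.Agent.S0812
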