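import Cfsg.Statements.S0814
import Cfsg.Agent.H5.GL2
import Cfsg.Agent.H5.GC8
import Cfsg.Agent.H5.GF0

set_option autoImplicit false
open Cfsg

namespace Cfsg.Agent.S0814

open H5.Gen

/-- |Aut(PSp_2m(q))| = gcd(2, q−1) · f · |PSp_2m(q)| for q = p^f, m ≥ 2, (m, q) ≠ (2, 2), with an extra factor 2 exactly when m = 2 and p = 2. -/
theorem result {F : Type*} [Field F] [Fintype F] (p f : ℕ) [Fact p.Prime] (hf : 1 ≤ f) (hF : Fintype.card F = p ^ f) (m : ℕ) (hm : 2 ≤ m) (h22 : m = 2 → 3 ≤ p ^ f) : Nat.card (MulAut (Cfsg.PSp m F)) = (if m = 2 ∧ p = 2 then 2 else 1) * Nat.gcd 2 (p ^ f - 1) * f * Nat.card (Cfsg.PSp m F) := by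
  have : NeZero m := ⟨by omega⟩
  obtain ⟨-, -, -, -, h⟩ := squeeze_C (m := m) (F := F)
  have h1 := two_eq_zero_iff hf hF
  rw [(adjPSp hm).card_aut, h, card_ringAut' hf hF, Nat.card_eq_fintype_card (α := F), hF]
  congr 3
  split_ifs with h2
  · obtain ⟨rfl, h2⟩ := h2
    exact card_range_C2 (adjPSp hm) (h1.2 h2)
  · exact card_eq_one_of fun _ h3 => (range_C (adjPSp hm) h3).resolve_right
      fun h4 => h2 ⟨h4.1, h1.1 h4.2.2⟩

end Cfsg.Agent.S0814
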