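import Cfsg.Statements.S0816
import Cfsg.Agent.H5.GL6

set_option autoImplicit false
open Cfsg

namespace Cfsg.Agent.S0816

open H5.Gen

/-- |Aut(PΩ_(2m+1)(q))| = 2 f · |PΩ_(2m+1)(q)| for q = p^f odd and m ≥ 3 (for the form quadFormOdd). -/
theorem result {F : Type*} [Field F] [Fintype F] (p f : ℕ) [Fact p.Prime] (hf : 1 ≤ f) (hF : Fintype.card F = p ^ f) (hodd : Odd p) (m : ℕ) (hm : 3 ≤ m) : Nat.card (MulAut (Cfsg.POmega F (Cfsg.quadFormOdd m F))) = 2 * f * Nat.card (Cfsg.POmega F (Cfsg.quadFormOdd m F)) := by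
  have : NeZero m := ⟨by omega⟩
  have h2 : (2 : F) ≠ 0 := fun h => by
    obtain rfl := (two_eq_zero_iff hf hF).1 h
    exact absurd hodd (by decide)
  have : Fact (∃ a : F, a ≠ 0 ∧ a ≠ 1) := ⟨-1, by simp, fun h => h2 (by linear_combination -h)⟩
  obtain ⟨-, -, -, -, h⟩ := squeeze_B (m := m) (F := F)
  rw [(adjPOo (by omega)).card_aut, h, card_ringAut' hf hF, range_B (adjPOo _) (by omega),
    Subgroup.card_bot, one_mul, gcd_two_card, if_neg h2]

end Cfsg.Agent.S0816
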