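import Cfsg.Statements.S0817
import Cfsg.Agent.H5.GL4

set_option autoImplicit false
open Cfsg

namespace Cfsg.Agent.S0817

open H5.Gen

/-- |Aut(PΩ⁺_2m(q))| for q = p^f, m ≥ 4: |PΩ⁺_2m(q)| times f, times 3 when m = 4, times 2 if p = 2, and times 8 or 4 if p is odd according as m(q−1)/2 is even or odd. -/
theorem result {F : Type*} [Field F] [Fintype F] (p f : ℕ) [Fact p.Prime] (hf : 1 ≤ f) (hF : Fintype.card F = p ^ f) (m : ℕ) (hm : 4 ≤ m) : Nat.card (MulAut (Cfsg.POmega F (Cfsg.quadFormPlus m F))) = (if m = 4 then 3 else 1) * (if p = 2 then 2 else (if Even (m * (p ^ f - 1) / 2) then 8 else 4)) * f * Nat.card (Cfsg.POmega F (Cfsg.quadFormPlus m F)) := by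
  obtain ⟨n, rfl⟩ : ∃ k, m = k + 2 := ⟨m - 2, by omega⟩
  have : NeZero n := ⟨by omega⟩
  have h1 : Nat.card (sysPOp n F).sρ.range = (if n + 2 = 4 then 3 else 1) * 2 := by
    split_ifs with h
    · obtain rfl : n = 2 := by omega
      exact card_range_D4
    · exact card_range_D (by omega)
  rw [adjPOp.card_aut, h1, card_ringAut' hf hF, mul_assoc _ 2]
  congr 3
  have h2 := two_eq_zero_iff hf hF
  have h3 := two_eq_zero_iff' (F := F)
  have h4 := Fintype.one_lt_card (α := F)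
  rw [← hF]
  rcases Nat.even_or_odd n with h | h
  · rw [card_ker_D_even h, gcd_two_card]
    by_cases h5 : p = 2
    · rw [if_pos (h2.2 h5), if_pos h5]; rfl
    · obtain ⟨k, rfl⟩ := h
      obtain ⟨j, hj⟩ : ∃ j, Fintype.card F - 1 = 2 * j :=
        ⟨(Fintype.card F - 1) / 2, by have := mt (h2.1 ∘ h3.2) h5; omega⟩
      rw [if_neg (mt h2.1 h5), if_neg h5, if_pos]
      · rfl
      rw [hj, show (k + k + 2) * (2 * j) = 2 * ((k + 1) * j + (k + 1) * j) by ring,
        Nat.mul_div_cancel_left _ two_pos]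
      exact ⟨_, rfl⟩
  · rw [(squeeze_D_odd h).2.2.2, gcd_four_card]
    by_cases h5 : p = 2
    · rw [if_pos (h3.1 (h2.2 h5)), if_pos h5]; rfl
    · have h6 := mt (h2.1 ∘ h3.2) h5
      obtain ⟨j, hj⟩ : ∃ j, Fintype.card F - 1 = 2 * j := ⟨(Fintype.card F - 1) / 2, by omega⟩
      rw [if_neg h6, if_neg h5, hj, mul_left_comm, Nat.mul_div_cancel_left _ two_pos]
      have : Even ((n + 2) * j) ↔ Fintype.card F % 4 = 1 := by
        rw [Nat.even_mul, or_iff_right (by simpa [parity_simps] using h), Nat.even_iff]; omega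
      by_cases h7 : Fintype.card F % 4 = 1 <;> simp [this, h7]

end Cfsg.Agent.S0817
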