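import Cfsg.Statements.S0819
import Cfsg.Agent.H0.Ord
import Cfsg.Agent.H0.IL34
import Cfsg.Agent.H0.YL34.Main


set_option autoImplicit false
open Cfsg

namespace Cfsg.Agent.S0819

theorem sp {F : Type*} [Field F] [Fintype F] (hF : Fintype.card F = 4) : H0.ω (Matrix.ProjectiveSpecialLinearGroup (Fin 3) F) = {d | d ∈ [1, 2, 3, 4, 5, 7]} := by
  have := H0.ML34.fin (H0.Pres.pg _ _)
  obtain ⟨e⟩ := H0.IL34.iso
  exact (H0.spec_congr (e.trans (H0.cenEquiv (H0.slEquiv (H0.fe H0.G4 hF H0.c4))))).symm.trans (H0.YL34.spec (H0.ML34.m (H0.Pres.pg _ _)) (H0.ML34.mR (H0.Pres.pg _ _)) (H0.ML34.base (H0.Pres.pg _ _)) (H0.ML34.card (H0.Pres.pg _ _)))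

/-- No element of PSL_3(4) has order 15. -/
theorem result {F : Type*} [Field F] [Fintype F] (hF : Fintype.card F = 4) (g : Matrix.ProjectiveSpecialLinearGroup (Fin 3) F) : orderOf g ≠ 15 := by
  exact fun h => absurd ((sp hF).le ⟨g, h⟩) (by decide)

end Cfsg.Agent.S0819
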