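import Cfsg.Statements.S0820
import Cfsg.Agent.H0.IL34
import Cfsg.Agent.H0.CL34.Main


set_option autoImplicit false
open Cfsg

namespace Cfsg.Agent.S0820

/-- Any two elements of order 2 of PSL_3(4) are conjugate. -/
theorem result {F : Type*} [Field F] [Fintype F] (hF : Fintype.card F = 4) (x y : Matrix.ProjectiveSpecialLinearGroup (Fin 3) F) (hx : orderOf x = 2) (hy : orderOf y = 2) : IsConj x y := by
  have := H0.ML34.fin (H0.Pres.pg _ _)
  obtain ⟨e⟩ := H0.IL34.iso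
  exact H0.conj_equiv (e.trans (H0.cenEquiv (H0.slEquiv (H0.fe H0.G4 hF H0.c4)))) (H0.CL34.aone (H0.ML34.m (H0.Pres.pg _ _)) (H0.ML34.mR (H0.Pres.pg _ _)) (H0.ML34.base (H0.Pres.pg _ _)) (H0.ML34.card (H0.Pres.pg _ _))) x y hx hy

end Cfsg.Agent.S0820
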