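import Cfsg.Statements.S0823
import Cfsg.Agent.H4.Disc
import Cfsg.Agent.H4.Small
import Cfsg.Agent.H4.Orth

set_option autoImplicit false
open Cfsg

namespace Cfsg.Agent.S0823

open Matrix H4

/-- SO_3(3) ≅ S_4: the determinant-one isometries of the form x_0² + x_1y_1 over the field with 3 elements form a group isomorphic to the symmetric group on 4 letters. -/
theorem result {F : Type*} [Field F] [Fintype F] (hF : Fintype.card F = 3) : Nonempty (↥(Cfsg.specialIsometryGroup F (Cfsg.quadFormOdd 1 F)) ≃* Equiv.Perm (Fin 4)) := by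
  set_option maxSynthPendingDepth 3 in
  classical
  have h3 : (3 : F) = 0 := by simpa [hF] using FiniteField.cast_card_eq_zero F
  have h2 : (2 : F) ≠ 0 := fun z => one_ne_zero (by linear_combination h3 - z : (1 : F) = 0)
  let f := oddForm F 1
  have nd : f.ND := oddForm_ND F 1 h2
  haveI : Finite ((Unit ⊕ Fin 1 ⊕ Fin 1 → F) ≃ₗ[F] (Unit ⊕ Fin 1 ⊕ Fin 1 → F)) := .of_injective _ DFunLike.coe_injective
  obtain ⟨u, hu⟩ := quad_exists_eich (f := f) (u := Pi.single (.inr (.inl 0)) 1) (v := Pi.single (.inl ()) 1)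
    (by simp [f, oddForm_Q, quadFormOdd]) (by simp [f, oddForm_B])
  obtain ⟨w, hw⟩ := quad_exists_eich (f := f) (u := Pi.single (.inr (.inr 0)) 1) (v := Pi.single (.inl ()) 1)
    (by simp [f, oddForm_Q, quadFormOdd]) (by simp [f, oddForm_B])
  have mu : u ∈ f.SI := Units.ext hu.det
  have mw : w ∈ f.SI := Units.ext hw.det
  have au := hu.app
  have aw := hw.app
  simp [f, oddForm_B, oddForm_Q, quadFormOdd] at au aw
  have c24 : Nat.card f.SI = 24 := by
    have a := odd_card_Isom 1 _ f nd (by simp)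
    have b : f.SI = (dickHom nd (hgen_odd nd h2)).ker := by ext g; exact mem_SI_iff_dick nd h2 (hgen_odd nd h2)
    have c := (dickHom nd (hgen_odd nd h2)).ker.card_mul_index
    rw [Subgroup.index_ker, MonoidHom.range_eq_top.2 fun u => (dick_spin_surjective nd h2 (by simp) u 1).imp fun _ => And.left,
      a, Nat.card_eq_fintype_card (α := F), hF, ← b] at c
    generalize Nat.card f.SI = k at c ⊢
    simp at c; omega
  refine ⟨(specialEquiv f).trans (equiv_perm4_of_center c24 (fun h => ?_) fun z o c => ?_).some⟩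
  · haveI : Fact (Nat.Prime 3) := ⟨Nat.prime_three⟩
    haveI := (Nat.card_eq_one_iff_unique.1 h).1
    have k : ∀ x : f.SI, x ^ 3 = 1 → ∃ P : Sylow 3 f.SI, x ∈ P := fun x e =>
      (IsPGroup.of_card (G := Subgroup.zpowers x) (n := if x = 1 then 0 else 1) (by
        split_ifs with z
        · simp [z]
        · rw [Nat.card_zpowers, orderOf_eq_prime e z, pow_one])).exists_le_sylow.imp fun _ h => h (Subgroup.mem_zpowers x)
    obtain ⟨P, a⟩ := k ⟨u, mu⟩ (Subtype.ext (Subtype.ext (LinearEquiv.ext fun y => by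
      show u.1 (u.1 (u.1 y)) = y
      ext (i | i | i) <;> rw [Subsingleton.elim i default] <;> simp [au] <;> grind)))
    obtain ⟨Q, b⟩ := k ⟨w, mw⟩ (Subtype.ext (Subtype.ext (LinearEquiv.ext fun y => by
      show w.1 (w.1 (w.1 y)) = y
      ext (i | i | i) <;> rw [Subsingleton.elim i default] <;> simp [aw] <;> grind)))
    rw [Subsingleton.elim Q P] at b
    haveI : IsCyclic P := isCyclic_of_prime_card (p := 3) (by rw [P.card_eq_multiplicity, c24]; decide +kernel)
    have := congrArg (fun g => g.1.1.1 (Pi.single (.inr (.inr 0)) 1) (.inl ())) (IsCyclic.commutative.1.1 (⟨_, a⟩ : P) ⟨_, b⟩)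
    change u.1 (w.1 _) _ = w.1 (u.1 _) _ at this
    simp [au, aw] at this
  · have e : ∀ x, z.1.1 x = x (.inl ()) • z.1.1 (Pi.single (.inl ()) 1) + x (.inr (.inl 0)) • z.1.1 (Pi.single (.inr (.inl 0)) 1)
        + x (.inr (.inr 0)) • z.1.1 (Pi.single (.inr (.inr 0)) 1) := fun x => by
      simp only [← map_smul, ← map_add]; congr 1
      ext (i | i | i) <;> rw [Subsingleton.elim i default] <;> simp
    have c1 : ∀ y, u.1 (z.1.1 y) = z.1.1 (u.1 y) := fun y => congrArg (fun g => g.1.1 y) (c ⟨u, mu⟩)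
    have c2 : ∀ y, w.1 (z.1.1 y) = z.1.1 (w.1 y) := fun y => congrArg (fun g => g.1.1 y) (c ⟨w, mw⟩)
    have d : LinearMap.det z.1.1.toLinearMap = 1 := (f.coe_idet _).symm.trans (congrArg Units.val z.2)
    have s : z.1.1.toLinearMap = z.1.1 (Pi.single (.inl ()) 1) (.inl ()) • LinearMap.id := by
      have a1 := congrFun (c1 (Pi.single (.inr (.inl 0)) 1))
      have a2 := congrFun (c1 (Pi.single (.inl ()) 1))
      have a3 := congrFun (c2 (Pi.single (.inr (.inr 0)) 1))
      have a4 := congrFun (c2 (Pi.single (.inl ()) 1))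
      simp [au, aw] at a1 a2 a3 a4
      refine LinearMap.ext fun x => (e x).trans ?_
      ext (i | i | i) <;> rw [Subsingleton.elim i default] <;> simp <;> grind
    rw [s, LinearMap.det_smul] at d
    have t := FiniteField.pow_card (z.1.1 (Pi.single (.inl ()) 1) (.inl ()))
    simp [hF] at d t
    rw [t.symm.trans d, one_smul] at s
    rw [show z = 1 from Subtype.ext (Subtype.ext (LinearEquiv.toLinearMap_injective s)), orderOf_one] at o
    omega

end Cfsg.Agent.S0823
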