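import Cfsg.Statements.S0825
import Cfsg.Agent.H0.Sym
import Cfsg.Agent.S0287


set_option autoImplicit false
open Cfsg

namespace Cfsg.Agent.S0825

set_option maxRecDepth 100000
set_option Elab.async false
section
open H0 BN Matrix

noncomputable def C := ((mc2 (ZMod 2) 6 0x41041041 0x810204081 (by decide +kernel) (by decide +kernel)).reix (finSumFinEquiv (m := 3) (n := 3)))
theorem hC : Rd (rc2 (ZMod 2)) (finSumFinEquiv (m := 3) (n := 3)) C := (rd_2 _)
def c : List ℕ := [0x110220081, 0xd86204501, 0x150b61081, 0x810044088, 0x1f7be3081, 0x802204401, 0x1b6222081]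
theorem hQ (v) : (quadFormPlus 3 (ZMod 2)) v = v ⬝ᵥ (C.val 0x20408 *ᵥ v) := q_plus hC (by decide +kernel) v
noncomputable def ι := ιG (isometryGroup (ZMod 2) (quadFormPlus 3 (ZMod 2)))
theorem hι : Function.Injective ι := ιG_inj
theorem ex : ∀ x < 7, Ex ι C (c.getD x C.one) := ex_all (fun a => ex_iso hC hQ a a) (by decide +kernel)
theorem cod : C.Cod ι (tOf ι C c _ ex) c := cod_tOf ex rfl
end

/-- O⁺_6(2) ≅ S_8: the isometry group of the hyperbolic form x_1y_1 + x_2y_2 + x_3y_3 over the field with 2 elements is isomorphic to the symmetric group on 8 letters. -/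
theorem result {F : Type*} [Field F] [Fintype F] (hF : Fintype.card F = 2) : Nonempty (↥(Cfsg.isometryGroup F (Cfsg.quadFormPlus 3 F)) ≃* Equiv.Perm (Fin 8)) := by
  exact (H0.sym_iso hι cod (by decide +kernel) ((S0287.result (ZMod.card 2) 3 (by decide)).trans (by decide))).map (H0.isoEquiv (H0.fe (ZMod 2) hF (ZMod.card 2)) fun v => by simp [quadFormPlus, -ZMod.pow_card]).symm.trans

end Cfsg.Agent.S0825
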