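import Cfsg.Statements.S0828
import Cfsg.Agent.H4.WaB

set_option autoImplicit false
open Cfsg

namespace Cfsg.Agent.S0828


/-- The symplectic generalised quadrangle over a field with q elements: the number of 2-dimensional subspaces of F^4 on which the symplectic form vanishes is (q + 1)(q² + 1), and every non-zero vector lies in exactly q + 1 of them. -/
theorem result {F : Type*} [Field F] [Fintype F] {q : ℕ} (hF : Fintype.card F = q) : Nat.card {W : Submodule F (Fin 2 ⊕ Fin 2 → F) // Module.finrank F W = 2 ∧ ∀ u ∈ W, ∀ v ∈ W, Cfsg.sympForm 2 F u v = 0} = (q + 1) * (q ^ 2 + 1) ∧ ∀ v : Fin 2 ⊕ Fin 2 → F, v ≠ 0 → Nat.card {W : Submodule F (Fin 2 ⊕ Fin 2 → F) // Module.finrank F W = 2 ∧ v ∈ W ∧ ∀ u ∈ W, ∀ w ∈ W, Cfsg.sympForm 2 F u w = 0} = q + 1 := by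
  have hf := H4.spForm_ND 2 F
  have hq : Nat.card F = q := by rw [Nat.card_eq_fintype_card, hF]
  have h2 : 2 ≤ q := hq ▸ Finite.one_lt_card
  have hT : ∀ W, (H4.spForm 2 F).TS W ↔ ∀ u ∈ W, ∀ v ∈ W, Cfsg.sympForm 2 F u v = 0 := fun W => by
    simp only [H4.Form.TS, H4.spForm_B]; exact and_iff_right fun _ _ => rfl
  constructor
  · obtain ⟨W, hW, hk⟩ := H4.alt_hasTS 2 _ _ hf (by simp)
    have h := H4.card_TS hf hW
    rw [H4.card_stab_TS hf hW hk, H4.alt_fix hf hW hk (d := 0) (by simp),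
      H4.alt_card_Isom 2 _ _ hf (by simp), hq, hk] at h
    simp only [hT] at h
    obtain ⟨r, rfl⟩ := Nat.exists_eq_add_of_le' h2
    simp only [Finset.prod_range_succ, Finset.range_zero, Finset.prod_empty, Fin.prod_univ_two,
      Fin.val_zero, Fin.val_one] at h
    rw [show (r + 2) ^ (2 * (0 + 1)) - 1 = (r + 1) * (r + 3) from Nat.sub_eq_of_eq_add (by ring),
      show (r + 2) ^ (2 * (1 + 1)) - 1 = (r + 1) * (r + 3) * ((r + 2) ^ 2 + 1) from
        Nat.sub_eq_of_eq_add (by ring),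
      show (r + 2) ^ 2 - (r + 2) ^ 0 = (r + 1) * (r + 3) from Nat.sub_eq_of_eq_add (by ring),
      show (r + 2) ^ 2 - (r + 2) ^ 1 = (r + 1) * (r + 2) from Nat.sub_eq_of_eq_add (by ring)] at h
    refine Nat.eq_of_mul_eq_mul_right (show 0 < (r + 1) ^ 2 * (r + 3) * (r + 2) ^ 4 by positivity) ?_
    linear_combination h.symm
  · intro v hv
    have h3 := hf.finrank_perp (F ∙ v)
    rw [finrank_span_singleton hv] at h3
    rw [← hq, ← H4.card_between (P := (H4.spForm 2 F).perp (F ∙ v)) hv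
      ((H4.spForm 2 F).mem_perp_singleton.2 (H4.alt_B_self _ _)) (by simp at h3; omega)]
    refine Nat.card_congr (Equiv.subtypeEquivRight fun W => and_congr_right fun hW =>
      and_congr_right fun hv' => ⟨fun h w hw => (H4.spForm 2 F).mem_perp_singleton.2
        ((H4.spForm_B _ _ _ _).trans (h v hv' w hw)), fun h => ?_⟩)
    obtain ⟨w, hw, hw'⟩ := SetLike.exists_of_lt (show (F ∙ v) < W from lt_of_le_of_ne
      ((Submodule.span_singleton_le_iff_mem _ _).2 hv') fun e => by
        rw [← e, finrank_span_singleton hv] at hW; omega)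
    have e := H4.eq_sup_span_of_finrank ((Submodule.span_singleton_le_iff_mem _ _).2 hv') hw hw'
      (by rw [finrank_span_singleton hv, hW])
    have h0 := (H4.spForm 2 F).mem_perp_singleton.1 (h hw)
    have h1 := H4.Form.refl h0
    simp only [← H4.spForm_B]
    intro a ha b hb
    rw [e] at ha hb
    obtain ⟨_, h4, _, h5, rfl⟩ := Submodule.mem_sup.1 ha
    obtain ⟨_, h6, _, h7, rfl⟩ := Submodule.mem_sup.1 hb
    obtain ⟨_, rfl⟩ := Submodule.mem_span_singleton.1 h4
    obtain ⟨_, rfl⟩ := Submodule.mem_span_singleton.1 h5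
    obtain ⟨_, rfl⟩ := Submodule.mem_span_singleton.1 h6
    obtain ⟨_, rfl⟩ := Submodule.mem_span_singleton.1 h7
    simp [h0, h1, H4.alt_B_self, H4.Form.B_smul_left]

end Cfsg.Agent.S0828
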