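import Cfsg.Statements.S0829
import Cfsg.Agent.H4.WaB

set_option autoImplicit false
open Cfsg

namespace Cfsg.Agent.S0829


/-- The unitary quadrangle of PSU_4(q): with |F| = q², the number of 2-dimensional subspaces of F^4 on which the Hermitian form Σ x_i y_i^q vanishes is (q + 1)(q³ + 1). -/
theorem result {F : Type*} [Field F] [Fintype F] {q : ℕ} (hF : Fintype.card F = q ^ 2) : Nat.card {W : Submodule F (Fin 4 → F) // Module.finrank F W = 2 ∧ ∀ u ∈ W, ∀ v ∈ W, Cfsg.hermForm 4 F q u v = 0} = (q + 1) * (q ^ 3 + 1) := by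
  have hf := H4.uForm_ND hF 4
  have h2 : 2 ≤ q := H4.two_le_of_card_sq hF
  have hT : ∀ W, (H4.uForm hF 4).TS W ↔ ∀ u ∈ W, ∀ v ∈ W, Cfsg.hermForm 4 F q u v = 0 := fun W =>
    ⟨fun h u hu v hv => h.2 v hv u hu, fun h => ⟨fun u hu => h u hu u hu,
      fun u hu v hv => h v hv u hu⟩⟩
  obtain ⟨W, hW, hk⟩ := H4.u_hasTS 2 _ _ hf (by simp)
  have h := H4.card_TS hf hW
  rw [H4.card_stab_TS hf hW hk, H4.u_fix hf hW hk (d := 0) (by simp),
    H4.u_card_Isom 4 _ _ hf (by simp), Nat.card_eq_fintype_card (α := F), hF, hk] at h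
  simp only [hT] at h
  obtain ⟨r, rfl⟩ := Nat.exists_eq_add_of_le' h2
  norm_num [Finset.prod_range_succ, Fin.prod_univ_two] at h
  rw [show (r + 2) ^ 2 - 1 = (r + 1) * (r + 3) from Nat.sub_eq_of_eq_add (by ring),
    show (r + 2) ^ 4 - 1 = (r + 1) * (r + 3) * ((r + 2) ^ 2 + 1) from
      Nat.sub_eq_of_eq_add (by ring),
    show ((r + 2) ^ 2) ^ 2 - 1 = (r + 1) * (r + 3) * ((r + 2) ^ 2 + 1) from
      Nat.sub_eq_of_eq_add (by ring),
    show ((r + 2) ^ 2) ^ 2 - (r + 2) ^ 2 = (r + 1) * (r + 3) * (r + 2) ^ 2 from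
      Nat.sub_eq_of_eq_add (by ring)] at h
  refine Nat.eq_of_mul_eq_mul_right
    (show 0 < (r + 1) ^ 2 * (r + 3) ^ 2 * (r + 2) ^ 6 * ((r + 2) ^ 2 + 1) by positivity) ?_
  linear_combination h.symm

end Cfsg.Agent.S0829
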