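import Cfsg.Statements.S0831
import Cfsg.Agent.H4.Orth

set_option autoImplicit false
open Cfsg

namespace Cfsg.Agent.S0831


/-- The two families of maximal totally singular subspaces of the hyperbolic quadric: for the form Σ x_i y_i on F^(2m), m ≥ 1, and m-dimensional subspaces U, W, X on which it vanishes, the parities of m − dim(U ∩ W), m − dim(W ∩ X) and m − dim(U ∩ X) sum to an even number (so 'even codimension of the intersection' is an equivalence relation), and there exist two such subspaces meeting in codimension 1 (so there are exactly two classes). -/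
theorem result {F : Type*} [Field F] (m : ℕ) (hm : 1 ≤ m) : (∀ U W X : Submodule F (Fin m ⊕ Fin m → F), (Module.finrank F U = m ∧ ∀ w ∈ U, Cfsg.quadFormPlus m F w = 0) → (Module.finrank F W = m ∧ ∀ w ∈ W, Cfsg.quadFormPlus m F w = 0) → (Module.finrank F X = m ∧ ∀ w ∈ X, Cfsg.quadFormPlus m F w = 0) → Even ((m - Module.finrank F ↥(U ⊓ W)) + (m - Module.finrank F ↥(W ⊓ X)) + (m - Module.finrank F ↥(U ⊓ X)))) ∧ ∃ U W : Submodule F (Fin m ⊕ Fin m → F), (Module.finrank F U = m ∧ ∀ w ∈ U, Cfsg.quadFormPlus m F w = 0) ∧ (Module.finrank F W = m ∧ ∀ w ∈ W, Cfsg.quadFormPlus m F w = 0) ∧ Module.finrank F ↥(U ⊓ W) + 1 = m := by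
  let f := H4.plusForm F m
  have hf : f.ND := H4.plusForm_ND F m
  have hn : Module.finrank F (Fin m ⊕ Fin m → F) = 2 * m := by simp [two_mul]
  refine ⟨fun U W X ⟨dU, hU⟩ ⟨dW, hW⟩ ⟨dX, hX⟩ => ?_, ?_⟩
  · have h1 : Module.finrank F ↥(U ⊓ W) ≤ Module.finrank F U := Submodule.finrank_mono inf_le_left
    have h2 : Module.finrank F ↥(U ⊓ X) ≤ Module.finrank F U := Submodule.finrank_mono inf_le_left
    have h3 : Module.finrank F ↥(W ⊓ X) ≤ Module.finrank F W := Submodule.finrank_mono inf_le_left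
    have := H4.parity_three hf hn ((H4.quad_TS_iff f).2 hU) ((H4.quad_TS_iff f).2 hX) dU dX
      (m - Module.finrank F ↥(W ⊓ X)) W ((H4.quad_TS_iff f).2 hW) dW (by omega)
    rw [Nat.even_iff] at *
    omega
  · obtain ⟨U, hU, dU⟩ := H4.plusForm_hasTS (F := F) m
    obtain ⟨v, -, hv⟩ := H4.quad_exists_Q_ne (U := ⊤) (f.NDOn_top.2 hf) (fun h => by
      have := finrank_top F (Fin m ⊕ Fin m → F)
      rw [h, finrank_bot] at this; omega)
    exact ⟨U, _, ⟨dU, hU.1⟩, ⟨by rw [LinearEquiv.finrank_map_eq, dU], (hU.map (f.reflx v hv).2).1⟩,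
      H4.reflx_adj hf hn hU dU hv⟩

end Cfsg.Agent.S0831
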