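import Cfsg.Statements.S0832
import Cfsg.Agent.H4.Orth

set_option autoImplicit false
open Cfsg

namespace Cfsg.Agent.S0832


/-- For the form Σ x_i y_i on F^(2m) over a finite field, m ≥ 1: an (m−1)-dimensional subspace on which the form vanishes is contained in exactly two m-dimensional subspaces on which it vanishes. -/
theorem result {F : Type*} [Field F] [Finite F] (m : ℕ) (hm : 1 ≤ m) (U : Submodule F (Fin m ⊕ Fin m → F)) (hU : Module.finrank F U + 1 = m ∧ ∀ u ∈ U, Cfsg.quadFormPlus m F u = 0) : Nat.card {W : Submodule F (Fin m ⊕ Fin m → F) // Module.finrank F W = m ∧ (∀ w ∈ W, Cfsg.quadFormPlus m F w = 0) ∧ U ≤ W} = 2 := by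
  let f := H4.plusForm F m
  have hf : f.ND := H4.plusForm_ND F m
  have hn : Module.finrank F (Fin m ⊕ Fin m → F) = 2 * m := by simp [two_mul]
  obtain ⟨dU, hU⟩ := hU
  have hU := (H4.quad_TS_iff f).2 hU
  obtain ⟨W, hW, dW, hUW⟩ : ∃ W, f.TS W ∧ Module.finrank F W = m ∧ U ≤ W := by
    obtain ⟨W, hW, dW⟩ := H4.plusForm_hasTS (F := F) m
    obtain ⟨g, hg, h⟩ := hU.exists_map_le hf hW (by omega)
    refine ⟨_, hW.map (inv_mem hg), by rw [LinearEquiv.finrank_map_eq, dW], fun x hx => ?_⟩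
    exact ⟨g x, h ⟨x, hx, rfl⟩, g.symm_apply_apply x⟩
  obtain ⟨v, hvU, hv⟩ : ∃ v ∈ f.perp U, f.Q v ≠ 0 := by
    by_contra h
    push Not at h
    have h1 := ((H4.quad_TS_iff f).2 h).two_mul_finrank_le hf
    have := hf.finrank_perp U
    omega
  set W' := W.map (f.reflx v hv).1.toLinearMap
  have hW' : f.TS W' := hW.map (f.reflx v hv).2
  have dW' : Module.finrank F W' = m := by rw [LinearEquiv.finrank_map_eq, dW]
  have hadj : Module.finrank F (W ⊓ W' : Submodule F _) + 1 = m := H4.reflx_adj hf hn hW dW hv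
  have hUW' : U ≤ W' := fun x hx => ⟨x, hUW hx, H4.reflx_fix hv (H4.Form.refl (hvU x hx))⟩
  have hE : U = W ⊓ W' := Submodule.eq_of_le_of_finrank_le (le_inf hUW hUW') (by omega)
  rw [Nat.card_eq_two_iff' ⟨W, dW, hW.1, hUW⟩]
  refine ⟨⟨W', dW', hW'.1, hUW'⟩, fun e => ?_, ?_⟩
  · rw [show W' = W from congrArg Subtype.val e, inf_idem] at hadj; omega
  · rintro ⟨X, dX, hX, hUX⟩ hne
    obtain ⟨x, hx, hxU⟩ : ∃ x ∈ X, x ∉ U := by
      by_contra h
      push Not at h
      have := Submodule.finrank_mono (show X ≤ U from h)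
      omega
    have hx' : x ∈ W ⊔ W' := by
      rw [← hW.perp_eq hf (by omega), ← hW'.perp_eq hf (by omega), ← hf.perp_inf, ← hE]
      exact fun u hu => ((H4.quad_TS_iff f).2 hX).2 u (hUX hu) x hx
    have eX := H4.eq_sup_span_of_finrank hUX hx hxU (by omega)
    rcases H4.singular_mem_or hf hn hW hW' dW' hadj hx' (hX x hx) with h | h
    · exact absurd (Subtype.ext (eX.trans (H4.eq_sup_span_of_finrank hUW h hxU (by omega)).symm)) hne
    · exact Subtype.ext (eX.trans (H4.eq_sup_span_of_finrank hUW' h hxU (by omega)).symm)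

end Cfsg.Agent.S0832
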