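import Cfsg.Statements.S0835
import Cfsg.Agent.H4.Misc

set_option autoImplicit false
open Cfsg

namespace Cfsg.Agent.S0835


/-- Over a finite field with 2 ≠ 0: if B₁ on U (dim 2k, k ≥ 1) is non-degenerate symmetric of minus type (no totally isotropic k-subspace) and B₂ on W (dim 2l + 1) is non-degenerate symmetric, then B₁ ⊗ B₂ (dimension 2k(2l+1)) admits no totally isotropic subspace of dimension k(2l+1) (minus type). -/
theorem result {F U W : Type*} [Field F] [Fintype F] [AddCommGroup U] [Module F U] [FiniteDimensional F U] [AddCommGroup W] [Module F W] [FiniteDimensional F W] (h2 : (2 : F) ≠ 0) (B₁ : LinearMap.BilinForm F U) (B₂ : LinearMap.BilinForm F W) (h₁ : B₁.Nondegenerate) (h₂ : B₂.Nondegenerate) (hS₁ : B₁.IsSymm) (hS₂ : B₂.IsSymm) (k l : ℕ) (hk : 1 ≤ k) (hU : Module.finrank F U = 2 * k) (hW : Module.finrank F W = 2 * l + 1) (hm₁ : ¬ (∃ X : Submodule F (U), Module.finrank F X = k ∧ ∀ x ∈ X, ∀ y ∈ X, (B₁)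 x y = 0)) : ¬ (∃ X : Submodule F (TensorProduct F U W), Module.finrank F X = k * (2 * l + 1) ∧ ∀ x ∈ X, ∀ y ∈ X, (B₁.tmul B₂) x y = 0) := by
  have hS : LinearMap.BilinForm.IsSymm (B₁.tmul B₂) := LinearMap.BilinForm.isSymm_iff.2
    ((LinearMap.BilinForm.isSymm_iff.1 hS₁).tmul (LinearMap.BilinForm.isSymm_iff.1 hS₂))
  rw [← H4.symForm_hasTS h2 _ hS₁] at hm₁
  rw [← H4.symForm_hasTS h2 _ hS, H4.hasTS_iff_disc h2
    (H4.symForm_ND h2 hS (H4.tmul_nondegenerate h₁ h₂))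
    (by rw [Module.finrank_tensorProduct, hU, hW]; ring), H4.disc_tmul h2 h₁ h₂ hS₁ hS₂, hU, hW,
    H4.disc_of_not_hasTS h2 (H4.symForm_ND h2 hS₁ h₁) hU hm₁]
  rw [pow_mul (H4.chi _)]
  rcases Int.units_eq_one_or (H4.chi (-1 : F) ^ k) with h | h <;> rw [h] <;>
    simp [pow_succ, pow_mul, Int.units_sq]

end Cfsg.Agent.S0835
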