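import Cfsg.Statements.S0836
import Cfsg.Agent.H4.SLBasic

set_option autoImplicit false
open Cfsg

namespace Cfsg.Agent.S0836

/-- For i ≠ j and any scalar c, the elementary transvection 1 + c E_ij is a commutator ⁅g, h⁆ of two elements of SL_n(F) provided n ≥ 3, or n = 2 and F contains x ≠ 0 with x² ≠ 1. -/
theorem result {F : Type*} [Field F] (n : ℕ) (hn : 3 ≤ n ∨ (n = 2 ∧ ∃ x : F, x ≠ 0 ∧ x ^ 2 ≠ 1)) (i j : Fin n) (hij : i ≠ j) (c : F) (t : Matrix.SpecialLinearGroup (Fin n) F) (ht : (t : Matrix (Fin n) (Fin n) F) = Matrix.transvection i j c) : t ∈ commutatorSet (Matrix.SpecialLinearGroup (Fin n) F) := by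
  set_option maxSynthPendingDepth 3 in
  obtain rfl : t = Matrix.SpecialLinearGroup.transvection hij c := Subtype.ext ht
  rcases hn with h | ⟨rfl, x, x0, x1⟩
  · obtain ⟨k, h1, h2⟩ := Fin.exists_ne_and_ne_of_two_lt i j h
    exact ⟨_, _, (H4.sl_transvection_mul_comm3 hij h1.symm h2 c 1).trans (by rw [mul_one])⟩
  · have z : x ^ 2 - 1 ≠ 0 := sub_ne_zero.2 x1
    have d : (Matrix.diagonal fun k => if k = i then x else x⁻¹).det = 1 := by fin_cases i <;> simp [x0]
    obtain ⟨D, hD⟩ : ∃ D : Matrix.SpecialLinearGroup (Fin 2) F, D.1 = Matrix.diagonal fun k => if k = i then x else x⁻¹ :=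
      ⟨⟨_, d⟩, rfl⟩
    refine ⟨D, Matrix.SpecialLinearGroup.transvection hij (c / (x ^ 2 - 1)), ?_⟩
    · rw [commutatorElement_def, mul_inv_eq_iff_eq_mul, mul_inv_eq_iff_eq_mul]
      ext a b
      simp only [Matrix.SpecialLinearGroup.coe_mul, hD]
      clear d hD ht
      fin_cases i <;> fin_cases j <;> first | exact (hij rfl).elim | skip
      all_goals fin_cases a <;> fin_cases b <;>
        simp [Matrix.SpecialLinearGroup.transvection, Matrix.transvection, Matrix.mul_apply, Fin.sum_univ_two] <;>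
        field_simp <;> ring

end Cfsg.Agent.S0836
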