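import Cfsg.Statements.S0837
import Cfsg.Agent.H4.Misc

set_option autoImplicit false
open Cfsg

namespace Cfsg.Agent.S0837


/-- If W ≤ F^n (|F| = q²) is a k-dimensional subspace on which the Hermitian form Σ x_i y_i^q is non-degenerate, then the stabiliser of W in GU_n(q) is isomorphic to GU_k(q) × GU_(n−k)(q). -/
theorem result {F : Type*} [Field F] [Fintype F] {q : ℕ} (hF : Fintype.card F = q ^ 2) (n k : ℕ) (hk : k ≤ n) (W : Submodule F (Fin n → F)) (hWk : Module.finrank F W = k) (hW : ∀ u ∈ W, (∀ v ∈ W, Cfsg.hermForm n F q u v = 0) → u = 0) : Nonempty (↥((Cfsg.stabilizing (Cfsg.glToMat (Fin n) F) (W : Set (Fin n → F))).subgroupOf (Cfsg.GU n F q)) ≃* ↥(Cfsg.GU k F q) × ↥(Cfsg.GU (n - k) F q)) := by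
  have hf := H4.uForm_ND hF n
  have hU : (H4.uForm hF n).NDOn W := fun u hu h => hW u hu fun v hv => H4.Form.refl (h v hv)
  have hd := hf.finrank_perp W
  simp only [Module.finrank_pi, Fintype.card_fin] at hd
  obtain ⟨e1, he1⟩ := H4.u_exists_isIso k _ _ _ _ ((H4.uForm hF n).restrict_ND.2 hU)
    (H4.uForm_ND hF k) hWk (by simp)
  obtain ⟨e2, he2⟩ := H4.u_exists_isIso (n - k) _ _ _ _
    ((H4.uForm hF n).restrict_ND.2 (hU.perp hf)) (H4.uForm_ND hF (n - k)) (by omega) (by simp)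
  exact ⟨((H4.subEquiv (H4.guEquiv hF n) (H4.mem_stabilizing_gu hF W)).trans hU.stabEquiv).trans
    ((he1.isomEquiv.trans (H4.guEquiv hF k).symm).prodCongr
      (he2.isomEquiv.trans (H4.guEquiv hF (n - k)).symm))⟩

end Cfsg.Agent.S0837
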