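import Cfsg.Statements.S0839
import Cfsg.Agent.H3.Lin1

set_option autoImplicit false
open Cfsg

namespace Cfsg.Agent.S0839

open Matrix

/-- Every transvection t ∈ SL_(n+2)(F) (rank(t − 1) = 1, (t − 1)² = 0) is conjugate in SL_(n+2)(F) to 1 + v·e_0ᵀ for some column vector v with v_0 = 0 (the group A of matrices that are the identity except in the first column below the diagonal); the dimension is written n + 2 ≥ 2. -/
theorem result {F : Type*} [Field F] (n : ℕ) (t : Matrix.SpecialLinearGroup (Fin (n + 2)) F) (ht : Cfsg.IsTransvection (t : Matrix (Fin (n + 2)) (Fin (n + 2)) F)) : ∃ (g : Matrix.SpecialLinearGroup (Fin (n + 2)) F) (v : Fin (n + 2) → F), v 0 = 0 ∧ ((g⁻¹ * t * g : Matrix.SpecialLinearGroup (Fin (n + 2)) F) : Matrix (Fin (n + 2)) (Fin (n + 2)) F) = 1 + Matrix.vecMulVec v (Pi.single 0 1) := by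
  set_option maxSynthPendingDepth 3 in
  obtain ⟨u, w, e⟩ := H3.eq_vecMulVec ht.1.le
  have w0 : w ≠ 0 := fun z => by
    have := ht.1
    rw [e, z, vecMulVec_zero, rank_zero] at this; omega
  obtain ⟨h, k⟩ := H3.exists_sl_map (U := F ∙ w) (W := F ∙ Pi.single (0 : Fin (n + 2)) (1 : F))
    (by rw [finrank_span_singleton w0, finrank_span_singleton (by simp)])
  obtain ⟨c, hc⟩ := Submodule.mem_span_singleton.1 (k.le (Submodule.mem_map_of_mem (Submodule.mem_span_singleton_self w)))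
  have hc : c • Pi.single 0 1 = h.1 *ᵥ w := hc
  obtain ⟨G, hG⟩ : ∃ G : Matrix.SpecialLinearGroup (Fin (n + 2)) F, G.1 = h.1ᵀ := ⟨h.transpose, rfl⟩
  have i1 : G⁻¹.1 * G.1 = 1 := congrArg Subtype.val (inv_mul_cancel G)
  have i2 : G.1 * G⁻¹.1 = 1 := congrArg Subtype.val (mul_inv_cancel G)
  have a : G⁻¹.1 * (t.1 - 1) * G.1 = vecMulVec (c • (G⁻¹.1 *ᵥ u)) (Pi.single 0 1) := by
    rw [e, mul_vecMulVec, vecMulVec_mul, hG, vecMul_transpose, ← hc, vecMulVec_smul, smul_vecMulVec]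
  refine ⟨G, _, ?_, (by rw [← a, mul_sub, sub_mul, mul_one, i1, add_sub_cancel] : G⁻¹.1 * t.1 * G.1 = _)⟩
  have b : G⁻¹.1 * (t.1 - 1) * G.1 * (G⁻¹.1 * (t.1 - 1) * G.1) = 0 := by
    rw [mul_assoc, mul_assoc, ← mul_assoc G.1, ← mul_assoc G.1, i2, one_mul, ← mul_assoc (t.1 - 1), ht.2, zero_mul, mul_zero]
  rw [a, vecMulVec_mul_vecMulVec] at b
  simpa [vecMulVec_apply] using congrFun (congrFun b 0) 0

end Cfsg.Agent.S0839
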