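import Cfsg.Statements.S0840
import Cfsg.Agent.H3.Perm

set_option autoImplicit false
open scoped ComplexConjugate
open Cfsg

namespace Cfsg.Agent.S0840
open H3
export H3 (inner_add_left inner_add_right inner_sub_left inner_sub_right inner_neg_left inner_neg_right
  inner_zero_left inner_zero_right inner_smul_left inner_smul_right inner_conj_symm inner_self_eq_zero
  inner_self_im)

/-- Class multiplication coefficients from the character table: for elements a, b, c of a finite group G, the number of ordered pairs (x, y) with x conjugate to a, y conjugate to b and x * y = c equals the product of the sizes of the conjugacy classes of a and b, divided by the order of G, times the sum over the irreducible characters χ of χ a * χ b * conj (χ c) / χ 1. -/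
theorem result {G : Type*} [Group G] [Finite G] (a b c : G) : (Nat.card {p : G × G // IsConj a p.1 ∧ IsConj b p.2 ∧ p.1 * p.2 = c} : ℂ) = (Nat.card {x : G // IsConj a x} : ℂ) * (Nat.card {x : G // IsConj b x} : ℂ) / (Nat.card G : ℂ) * ∑ᶠ χ : Cfsg.IrrCharacter G, (χ : G → ℂ) a * (χ : G → ℂ) b * conj ((χ : G → ℂ) c) / (χ : G → ℂ) 1 := by
  classical
  haveI := Fintype.ofFinite G
  have h1 := cnt_eq_sum_irr (fun p : {p : G × G // IsConj a p.1 ∧ IsConj b p.2} => p.1.1 * p.1.2)
    (fun x => ⟨((MulAut.conj x).toEquiv.prodCongr (MulAut.conj x).toEquiv).subtypeEquiv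
      (fun p => by
        have : ∀ u v : G, IsConj u v ↔ IsConj u (x * v * x⁻¹) := fun u v =>
          ⟨fun h => h.trans (isConj_iff.2 ⟨x, rfl⟩),
            fun h => h.trans (isConj_iff.2 ⟨x, rfl⟩).symm⟩
        exact and_congr (this _ _) (this _ _)), fun s => by simp [mul_assoc]⟩) c
  have h2 : ∀ χ : Cfsg.IrrCharacter G,
      ∑ p : {p : G × G // IsConj a p.1 ∧ IsConj b p.2}, (χ : G → ℂ) (p.1.1 * p.1.2) =
      Nat.card {x : G // IsConj a x} * Nat.card {x : G // IsConj b x} * (χ : G → ℂ) a *
        (χ : G → ℂ) b / (χ : G → ℂ) 1 := by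
    intro χ
    rw [eq_div_iff χ.2.deg_ne_zero, card_isConj_eq_index, card_isConj_eq_index,
      ← Finset.sum_subtype (Finset.univ.filter (fun p : G × G => IsConj a p.1 ∧ IsConj b p.2))
        (by simp) (fun p => (χ : G → ℂ) (p.1 * p.2)), Finset.sum_filter, Fintype.sum_prod_type,
      Finset.sum_comm]
    have h3 : ∀ y : G, ∑ x : G, (if IsConj a x ∧ IsConj b y then (χ : G → ℂ) (x * y) else 0) =
        classInd b y * ∑ x, classInd a x * (χ : G → ℂ) (x * y) := by
      intro y
      rw [Finset.mul_sum]
      refine Finset.sum_congr rfl (fun x _ => ?_)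
      by_cases h1 : IsConj a x <;> by_cases h2 : IsConj b y <;> simp only [classInd, h1, h2] <;> simp
    simp only [h3]
    rw [Finset.sum_mul]
    have h4 : ∀ y : G, (classInd b y * ∑ x, classInd a x * (χ : G → ℂ) (x * y)) * (χ : G → ℂ) 1 =
        (Subgroup.centralizer ({a} : Set G)).index * (χ : G → ℂ) a * (classInd b y * (χ : G → ℂ) y) := by
      intro y
      rw [mul_assoc, mul_comm _ (χ.1 1), χ.2.sum_class_mul]; ring
    simp only [h4]
    rw [← Finset.mul_sum, sum_classInd_mul b χ.2.isClassFunction]
    ring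
  simp only [h2] at h1
  rw [finsum_eq_sum_of_fintype, Finset.mul_sum]
  refine Eq.trans ?_ (h1.trans (Finset.sum_congr rfl (fun χ _ => by ring)))
  simp only [cnt]
  congr 1
  exact Nat.card_congr ((Equiv.subtypeEquivRight (fun p => and_assoc.symm)).trans
    (Equiv.subtypeSubtypeEquivSubtypeInter (fun p : G × G => IsConj a p.1 ∧ IsConj b p.2)
      (fun p => p.1 * p.2 = c)).symm)

end Cfsg.Agent.S0840
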