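import Cfsg.Statements.S0841
import Cfsg.Agent.H3.Inner

set_option autoImplicit false
open Cfsg

namespace Cfsg.Agent.S0841
open H3
export H3 (inner_add_left inner_add_right inner_sub_left inner_sub_right inner_neg_left inner_neg_right
  inner_zero_left inner_zero_right inner_smul_left inner_smul_right inner_conj_symm inner_self_eq_zero
  inner_self_im)

/-- If the commutator subgroup of G lies in the centre, then for all x, y in G and every natural number n one has (x * y) ^ n = x ^ n * y ^ n * c ^ (n * (n - 1) / 2) with c = y⁻¹ * x⁻¹ * y * x. -/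
theorem result {G : Type*} [Group G] (hG : commutator G ≤ Subgroup.center G) (x y : G) (n : ℕ) : (x * y) ^ n = x ^ n * y ^ n * (y⁻¹ * x⁻¹ * y * x) ^ (n * (n - 1) / 2) := by
  set c := y⁻¹ * x⁻¹ * y * x with hc
  have h1 : c ∈ Subgroup.center G := by
    apply hG
    have := Subgroup.commutator_mem_commutator (Subgroup.mem_top y⁻¹) (Subgroup.mem_top x⁻¹)
    simpa [commutatorElement_def, commutator] using this
  have h2 : ∀ (g : G) (k : ℕ), g * c ^ k = c ^ k * g := fun g k =>
    Subgroup.mem_center_iff.1 (Subgroup.pow_mem _ h1 k) g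
  have h3 : ∀ k : ℕ, y ^ k * x = x * y ^ k * c ^ k := by
    intro k
    induction k with
    | zero => simp
    | succ k ih =>
      have : y * x = x * y * c := by rw [hc]; group
      rw [pow_succ', mul_assoc, ih, ← mul_assoc, ← mul_assoc, this, pow_succ' c]
      have h4 := h2 (y ^ k) 1
      rw [pow_one] at h4
      rw [mul_assoc (x * y), ← h4]
      group
  induction n with
  | zero => simp
  | succ n ih =>
    have h4 : (n + 1) * (n + 1 - 1) / 2 = n + n * (n - 1) / 2 := by
      rw [Nat.add_sub_cancel, ← Nat.add_mul_div_left _ _ (by norm_num : 0 < 2) |>.trans (add_comm _ _)]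
      congr 1
      cases n with
      | zero => rfl
      | succ n => simp only [Nat.add_sub_cancel]; ring
    rw [pow_succ, ih, h4, pow_add c, mul_assoc, ← h2, ← mul_assoc, ← mul_assoc, mul_assoc (x ^ n),
      h3, mul_assoc (x ^ n), mul_assoc (x * y ^ n), ← h2]
    group

end Cfsg.Agent.S0841
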