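import Cfsg.Statements.S0842
import Cfsg.Agent.H3.QBS

set_option autoImplicit false
open Cfsg

namespace Cfsg.Agent.S0842
open H3
export H3 (inner_add_left inner_add_right inner_sub_left inner_sub_right inner_neg_left inner_neg_right
  inner_zero_left inner_zero_right inner_smul_left inner_smul_right inner_conj_symm inner_self_eq_zero
  inner_self_im)

open H7 H1B Subgroup

/-- Suppose a Sylow 2-subgroup S of the finite group G is generalized quaternion of order at least 16, and let D be the commutator subgroup of S, C its centralizer and N its normalizer in G. Then there is a subgroup K of odd order, contained in C and normalized by N, with K ⊔ S = N and K ⊔ (S ⊓ C) = C, and C has index 2 in N. -/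
theorem result {G : Type*} [Group G] [Finite G] (S : Sylow 2 G) (n : ℕ) (e : (S : Subgroup G) ≃* QuaternionGroup (2 ^ (n + 2))) (D : Subgroup G) (hD : D = ⁅(S : Subgroup G), (S : Subgroup G)⁆) : ∃ K : Subgroup G, Odd (Nat.card K) ∧ K ≤ Subgroup.centralizer (D : Set G) ∧ Subgroup.normalizer (D : Set G) ≤ Subgroup.normalizer (K : Set G) ∧ K ⊔ (S : Subgroup G) = Subgroup.normalizer (D : Set G) ∧ K ⊔ ((S : Subgroup G) ⊓ Subgroup.centralizer (D : Set G)) = Subgroup.centralizer (D : Set G) ∧ ((Subgroup.centralizer (D : Set G)).subgroupOf (Subgroup.normalizer (D : Set G))).index = 2 := by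
  set_option maxSynthPendingDepth 3 in
  obtain ⟨a, h, -⟩ := mx_of_quat (n := n + 1) e
  have s := syl_top S
  rw [hD, h.der]
  have c := npc_iff.1 (H9.npc_of_isCyclic (syl_to_H1 (mx_syl_cen h s)))
  have k := c.sup (mx_syl_cen h s)
  have m : cen (zpowers (a ^ 2)) ⊔ S = nrm (zpowers (a ^ 2)) := by
    refine le_antisymm (sup_le (cen_le_nrm _) h.le_nrmB) (((s.mono h.le_nrmB le_top).pRes_sup).ge.trans
      (sup_le_sup_right (pRes_le_cen_iff.2 fun x x1 x2 => of_not_not fun x3 => ?_) _))
    rcases h.aut_cases ((zp_pow_le a 2).trans h.le) x1 (Nat.coprime_two_right.1 x2) x3 with t | ⟨⟨t⟩⟩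
    · exact @IsKleinFour.not_isCyclic _ _ t inferInstance
    · have := congrArg t (zp_comm (t.symm (.a 1)).2 (t.symm (.xa 0)).2 |>.eq |> Subtype.ext (p := (· ∈ zpowers (a ^ 2)))
        (a1 := t.symm (.a 1) * t.symm (.xa 0)) (a2 := t.symm (.xa 0) * t.symm (.a 1)))
      simp only [map_mul, MulEquiv.apply_symm_apply] at this
      exact absurd this (by decide)
  refine ⟨Op' 2 (cen (zpowers (a ^ 2))), Nat.coprime_two_right.1 (coprime_Op' 2 _), Opi_le _ _,
    nrm_Opi _ (nrm_cen le_rfl), ?_, by rw [mx_inf_cen h, k], ?_⟩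
  · rw [← m]
    conv_rhs => rw [← k, sup_assoc, sup_eq_right.2 h.le]
  · change relIndex _ _ = 2
    rw [← m, sup_comm, relIndex_sup_nrm (nrm_cen h.le_nrmB), ← inf_relIndex_left, mx_inf_cen h, h.relIndex]

end Cfsg.Agent.S0842
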