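import Cfsg.Statements.S0843
import Cfsg.Agent.H3.QBS

set_option autoImplicit false
open Cfsg

namespace Cfsg.Agent.S0843
open H3
export H3 (inner_add_left inner_add_right inner_sub_left inner_sub_right inner_neg_left inner_neg_right
  inner_zero_left inner_zero_right inner_smul_left inner_smul_right inner_conj_symm inner_self_eq_zero
  inner_self_im)

open H7 H1B Subgroup

/-- Suppose a Sylow 2-subgroup S of the finite group G is generalized quaternion of order at least 16; let D be the commutator subgroup of S and X the set of elements of the centralizer of D whose order is divisible by the order of D. Then D is contained in the cyclic subgroup generated by any element of X; an element of G conjugating some element of X into the centralizer of D normalizes D; and the normalizer of D maps X to itself under conjugation. -/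
theorem result {G : Type*} [Group G] [Finite G] (S : Sylow 2 G) (n : ℕ) (e : (S : Subgroup G) ≃* QuaternionGroup (2 ^ (n + 2))) (D : Subgroup G) (hD : D = ⁅(S : Subgroup G), (S : Subgroup G)⁆) : (∀ y : G, y ∈ Subgroup.centralizer (D : Set G) → Nat.card D ∣ orderOf y → D ≤ Subgroup.zpowers y) ∧ (∀ g y : G, y ∈ Subgroup.centralizer (D : Set G) → Nat.card D ∣ orderOf y → g * y * g⁻¹ ∈ Subgroup.centralizer (D : Set G) → g ∈ Subgroup.normalizer (D : Set G)) ∧ (∀ g y : G, g ∈ Subgroup.normalizer (D : Set G) → y ∈ Subgroup.centralizer (D : Set G) → Nat.card D ∣ orderOf y → g * y * g⁻¹ ∈ Subgroup.centralizer (D : Set G) ∧ Nat.card D ∣ orderOf (g * y * g⁻¹)) := by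
  set_option maxSynthPendingDepth 3 in
  obtain ⟨a, h, -⟩ := mx_of_quat (n := n + 1) e
  have s := syl_top S
  rw [hD, h.der]
  refine ⟨fun y => mx_le_zpowers h s, fun g y a b c => cj_eq_self_iff.1 (eq_of_cyc inferInstance
    (cj_zpowers g y ▸ cj_mono g (mx_le_zpowers h s a b)) (mx_le_zpowers h s c (by rwa [H9.orderOf_conj']))
    (card_cj _ _)), fun g y a b c => ⟨nconj_mem (nrm_cen le_rfl a) b, by rwa [H9.orderOf_conj']⟩⟩

end Cfsg.Agent.S0843
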