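import Cfsg.Statements.S0844
import Cfsg.Agent.H3.QBS

set_option autoImplicit false
open Cfsg

namespace Cfsg.Agent.S0844
open H3
export H3 (inner_add_left inner_add_right inner_sub_left inner_sub_right inner_neg_left inner_neg_right
  inner_zero_left inner_zero_right inner_smul_left inner_smul_right inner_conj_symm inner_self_eq_zero
  inner_self_im)

open H7 H1B Subgroup

/-- Suppose a Sylow 2-subgroup S of the finite group G is generalized quaternion of order at least 16. Then G has two non-principal irreducible characters χ₁ and χ₂ with χ₁ 1 = χ₂ 1 + 1 such that χ₁ g - χ₂ g = 1 for every element g whose order is not divisible by 4. -/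
theorem result {G : Type*} [Group G] [Fintype G] (S : Sylow 2 G) (n : ℕ) (e : (S : Subgroup G) ≃* QuaternionGroup (2 ^ (n + 2))) : ∃ χ₁ χ₂ : G → ℂ, Cfsg.IsIrrCharacter G χ₁ ∧ Cfsg.IsIrrCharacter G χ₂ ∧ χ₁ ≠ (fun _ => 1) ∧ χ₂ ≠ (fun _ => 1) ∧ χ₁ 1 = χ₂ 1 + 1 ∧ ∀ g : G, ¬ 4 ∣ orderOf g → χ₁ g - χ₂ g = 1 := by
  set_option maxSynthPendingDepth 3 in
  obtain ⟨a, h, k⟩ := mx_of_quat (n := n + 1) e
  obtain ⟨_, _, ⟨ε, χ, a, rfl⟩, ⟨δ, ψ, b, rfl⟩, c, d, v⟩ := (quat_of_mx h k).exists_pair (H1.isSylowIn_top S)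
  have o : ∀ {ε : ℂ} {χ : IrrCharacter G}, (ε = 1 ∨ ε = -1) → classInner (ε • χ.1) (fun _ => 1) = 0 →
      χ.1 ≠ fun _ => 1 := fun a b c => by
    rw [c, inner_smul_left, inner_one_one] at b
    rcases a with rfl | rfl <;> simp at b
  have c' := o a c
  have d' := o b d
  have w := v 1 (by simp)
  have p := χ.2.dg_pos
  have q := ψ.2.dg_pos
  rcases a with rfl | rfl <;> rcases b with rfl | rfl <;>
    simp only [one_smul, neg_smul, Pi.neg_apply] at v w
  · rw [χ.2.deg, ψ.2.deg] at w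
    norm_cast at w; omega
  · exact ⟨_, _, ψ.2, χ.2, d', c', by linear_combination -w, fun g x => by linear_combination -v g x⟩
  · exact ⟨_, _, χ.2, ψ.2, c', d', by linear_combination -w, fun g x => by linear_combination -v g x⟩
  · rw [χ.2.deg, ψ.2.deg] at w
    norm_cast at w; omega

end Cfsg.Agent.S0844
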