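import Cfsg.Statements.S0845
import Cfsg.Agent.H3.QBS

set_option autoImplicit false
open Cfsg

namespace Cfsg.Agent.S0845
open H3
export H3 (inner_add_left inner_add_right inner_sub_left inner_sub_right inner_neg_left inner_neg_right
  inner_zero_left inner_zero_right inner_smul_left inner_smul_right inner_conj_symm inner_self_eq_zero
  inner_self_im)

open H7 H1B Subgroup

/-- Suppose a Sylow 2-subgroup S of the finite group G is generalized quaternion of order at least 16. Then G has a normal subgroup M of even order such that G / M is non-abelian, that is, M does not contain the commutator subgroup of G. -/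
theorem result {G : Type*} [Group G] [Finite G] (S : Sylow 2 G) (n : ℕ) (e : (S : Subgroup G) ≃* QuaternionGroup (2 ^ (n + 2))) : ∃ M : Subgroup G, M.Normal ∧ Even (Nat.card M) ∧ ¬ commutator G ≤ M := by
  set_option maxSynthPendingDepth 3 in
  obtain ⟨a, h, -⟩ := mx_of_quat (n := n + 1) e
  have z := (sq _).trans h.z_sq
  refine ⟨_, bs_normal (H9.ui_of_equiv_quaternion S e) z, even_iff_two_dvd.2 (h.z_ord.symm.dvd.trans (orderOf_dvd_card'
    (le_sup_right (a := pPrimeCore 2 G) (mem_zpowers _)))), fun c => ?_⟩
  have := orderOf_dvd_of_pow_eq_one (bs_sq z (c (commutator_mono le_top le_top (h.der.ge (mem_zpowers _))))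
    ⟨_, h.sq_ord⟩)
  rw [h.sq_ord] at this
  have := (Nat.pow_dvd_pow_iff_le_right one_lt_two).1 (this.trans (pow_one 2).symm.dvd)
  omega

end Cfsg.Agent.S0845
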