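import Cfsg.Statements.S0846
import Cfsg.Agent.H3.QBS

set_option autoImplicit false
open Cfsg

namespace Cfsg.Agent.S0846
open H3
export H3 (inner_add_left inner_add_right inner_sub_left inner_sub_right inner_neg_left inner_neg_right
  inner_zero_left inner_zero_right inner_smul_left inner_smul_right inner_conj_symm inner_self_eq_zero
  inner_self_im)

open H7 H1B Subgroup

/-- Suppose a Sylow 2-subgroup S of the finite group G is generalized quaternion of order at least 16. Then every Sylow 2-subgroup of the subgroup generated by the involutions of G is cyclic. -/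
theorem result {G : Type*} [Group G] [Finite G] (S : Sylow 2 G) (n : ℕ) (e : (S : Subgroup G) ≃* QuaternionGroup (2 ^ (n + 2))) (Q : Sylow 2 ↥(Subgroup.closure {g : G | orderOf g = 2})) : IsCyclic Q := by
  set_option maxSynthPendingDepth 3 in
  obtain ⟨a, h, -⟩ := mx_of_quat (n := n + 1) e
  have z := (sq _).trans h.z_sq
  have u := H9.ui_of_equiv_quaternion S e
  haveI := bs_normal u z
  have l : closure {g : G | orderOf g = 2} ≤ pPrimeCore 2 G ⊔ zpowers (a ^ 2 ^ (n + 1 + 1)) := (closure_le _).2 fun g b => by
    obtain ⟨k, -, rfl⟩ := u.exists_conj (t := g) trivial trivial h.z_ne (by rintro rfl; simp at b) z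
      (b ▸ pow_orderOf_eq_one g)
    exact this.conj_mem _ (le_sup_right (a := pPrimeCore 2 G) (mem_zpowers _)) k
  haveI := comm_of_sq (P := Q.1) fun x b => Subtype.ext ((sq _).symm.trans
    (bs_sq z (l x.2) (H9.isPElt_coe.2 (H9.isPElt_of_mem Q.2 b))))
  exact ((u.subgroup _).mono le_top).isCyclic Q.2

end Cfsg.Agent.S0846
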