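import Cfsg.Statements.S0847
import Cfsg.Agent.H3.QBS

set_option autoImplicit false
open Cfsg

namespace Cfsg.Agent.S0847
open H3
export H3 (inner_add_left inner_add_right inner_sub_left inner_sub_right inner_neg_left inner_neg_right
  inner_zero_left inner_zero_right inner_smul_left inner_smul_right inner_conj_symm inner_self_eq_zero
  inner_self_im)

open H7 H1B Subgroup

/-- The Brauer–Suzuki Theorem in the case of order at least 16: if a Sylow 2-subgroup S of the finite group G is generalized quaternion of order at least 16 and G has no nontrivial normal subgroup of odd order, then the centre of G has order 2. -/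
theorem result {G : Type*} [Group G] [Finite G] (S : Sylow 2 G) (n : ℕ) (e : (S : Subgroup G) ≃* QuaternionGroup (2 ^ (n + 2))) (hO : ∀ N : Subgroup G, N.Normal → Odd (Nat.card N) → N = ⊥) : Nat.card (Subgroup.center G) = 2 := by
  set_option maxSynthPendingDepth 3 in
  obtain ⟨a, h, -⟩ := mx_of_quat (n := n + 1) e
  have z := (sq _).trans h.z_sq
  have o := H9.pPrimeCore_two_eq_bot hO
  rw [← h.z_ord, ← Nat.card_zpowers]
  refine congrArg (fun K : Subgroup G => Nat.card K) (le_antisymm (fun x b => ?_) (zpowers_le.2 (mem_center_iff.2 fun g => ?_)))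
  · have c := H9.pq_mem (p := 2) b
    have d : H9.pq 2 x = 1 := zpowers_eq_bot.1 (hO _ (normal_of_le_center (zpowers_le.2 c)) (by
      rw [Nat.card_zpowers, ← Nat.not_even_iff_odd, even_iff_two_dvd]; exact H9.isPRegular_pq x))
    obtain ⟨g, -, k⟩ := (syl_top S).exists_cj_le (H9.pq_eq_one_iff.1 d).isPGroup_zpowers le_top
    rw [cj_zpowers, mem_center_iff.1 b, mul_inv_cancel_right] at k
    exact h.ctr.le ⟨k (mem_zpowers x), cen_anti le_top (cen_top.ge b)⟩
  · have := H9.brauer_suzuki (H9.ui_of_equiv_quaternion S e) z g
    rw [o, mem_bot, mul_inv_eq_one, mul_inv_eq_iff_eq_mul] at this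
    exact this.symm

end Cfsg.Agent.S0847
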