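import Cfsg.Statements.S0849
import Cfsg.Agent.H3.Cong

set_option autoImplicit false
open Cfsg

namespace Cfsg.Agent.S0849
open H3
export H3 (inner_add_left inner_add_right inner_sub_left inner_sub_right inner_neg_left inner_neg_right
  inner_zero_left inner_zero_right inner_smul_left inner_smul_right inner_conj_symm inner_self_eq_zero
  inner_self_im)

/-- Let H be a subgroup of a finite group G and S a subset of H that is mapped to itself under conjugation by H, is disjoint from its conjugate by any element outside H, and is closed under inverses. Let φ be a class function of H vanishing on H away from S, and let u, v be involutions of G. Then the sum of the induced function of φ over all products a * b with a conjugate to u and b conjugate to v equals the index of H times the sum of φ (a * b) over such pairs with a and b in H. -/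
theorem result {G : Type*} [Group G] [Fintype G] (H : Subgroup G) (S : Set G) (hSH : S ⊆ H) (hHS : ∀ h ∈ H, ∀ s ∈ S, h * s * h⁻¹ ∈ S) (hTI : ∀ g : G, g ∉ H → ∀ s ∈ S, g * s * g⁻¹ ∉ S) (hinv : ∀ s ∈ S, s⁻¹ ∈ S) (φ : H → ℂ) (hφ : Cfsg.IsClassFunction H φ) (hφS : ∀ x : H, (x : G) ∉ S → φ x = 0) (u v : G) (hu : orderOf u = 2) (hv : orderOf v = 2) : ∑ᶠ p ∈ {p : G × G | IsConj u p.1 ∧ IsConj v p.2}, Cfsg.indFun H φ (p.1 * p.2) = (H.index : ℂ) * ∑ᶠ p ∈ {p : H × H | IsConj u (p.1 : G) ∧ IsConj v (p.2 : G)}, φ (p.1 * p.2) := by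
  classical
  haveI := Fintype.ofFinite H
  have h0 : ∀ (u x v : G), IsConj u (x * v * x⁻¹) ↔ IsConj u v := fun u x v =>
    ⟨fun h => h.trans (isConj_iff.2 ⟨x, rfl⟩).symm, fun h => h.trans (isConj_iff.2 ⟨x, rfl⟩)⟩
  rw [← Set.coe_toFinset {p : G × G | IsConj u p.1 ∧ IsConj v p.2}, finsum_mem_coe_finset,
    ← Set.coe_toFinset {p : H × H | IsConj u (p.1 : G) ∧ IsConj v (p.2 : G)}, finsum_mem_coe_finset]
  simp only [indFun_apply', ← Finset.mul_sum]
  rw [Finset.sum_comm, Finset.sum_congr rfl (g := fun _ => ∑ p ∈ {p : G × G | IsConj u p.1 ∧ IsConj v p.2}.toFinset,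
    Cfsg.extendByZero H φ (p.1 * p.2))]
  · rw [Finset.sum_const, Finset.card_univ, ← Nat.card_eq_fintype_card, ← H.card_mul_index, nsmul_eq_mul]
    push_cast
    rw [← mul_assoc, ← mul_assoc, inv_mul_cancel₀ (card_ne_zero _), one_mul]
    congr 1
    symm
    refine Finset.sum_bij_ne_zero (fun p _ _ => ((p.1 : G), (p.2 : G))) ?_ ?_ ?_ ?_
    · intro p hp _; simpa using hp
    · intro p _ _ q _ _ h
      simp only [Prod.mk.injEq, Subtype.coe_inj] at h
      exact Prod.ext h.1 h.2
    · rintro ⟨a, b⟩ hp h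
      simp only [Set.mem_toFinset, Set.mem_setOf_eq] at hp
      rw [ext0_apply] at h
      split_ifs at h with h1
      · have h2 : a * b ∈ S := by by_contra h2; exact h (hφS ⟨_, h1⟩ h2)
        have ho : ∀ w x : G, orderOf w = 2 → IsConj w x → x * x = 1 := by
          intro w x hw hx
          obtain ⟨c, rfl⟩ := isConj_iff.1 hx
          rw [← sq, conj_pow, ← hw, pow_orderOf_eq_one]; simp
        have ha : a ∈ H := by
          by_contra h3
          apply hTI a h3 _ h2
          have : a * (a * b) * a⁻¹ = (a * b)⁻¹ := by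
            rw [← mul_assoc, ho u a hu hp.1, one_mul, mul_inv_rev,
              inv_eq_of_mul_eq_one_right (ho v b hv hp.2)]
          rw [this]
          exact hinv _ h2
        have hb : b ∈ H := by simpa using H.mul_mem (H.inv_mem ha) h1
        exact ⟨(⟨a, ha⟩, ⟨b, hb⟩), by simpa using hp, h, rfl⟩
      · exact absurd rfl h
    · intro p _ _
      exact (ext0_coe φ (p.1 * p.2)).symm
  · intro x _
    refine Finset.sum_bij (fun p _ => (x * p.1 * x⁻¹, x * p.2 * x⁻¹)) ?_ ?_ ?_ ?_
    · intro p hp; simpa only [Set.mem_toFinset, Set.mem_setOf_eq, h0] using hp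
    · intro p _ q _ h
      simp only [Prod.mk.injEq, mul_left_inj, mul_right_inj] at h
      exact Prod.ext h.1 h.2
    · intro p hp
      refine ⟨(x⁻¹ * p.1 * x⁻¹⁻¹, x⁻¹ * p.2 * x⁻¹⁻¹), ?_, ?_⟩
      · simpa only [Set.mem_toFinset, Set.mem_setOf_eq, h0] using hp
      · simp [mul_assoc]
    · intro p _
      congr 1; group

end Cfsg.Agent.S0849
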