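import Cfsg.Statements.S0850
import Cfsg.Agent.H3.Cong

set_option autoImplicit false
open Cfsg

namespace Cfsg.Agent.S0850
open H3
export H3 (inner_add_left inner_add_right inner_sub_left inner_sub_right inner_neg_left inner_neg_right
  inner_zero_left inner_zero_right inner_smul_left inner_smul_right inner_conj_symm inner_self_eq_zero
  inner_self_im)

/-- Let K be a subgroup of the finite group G that meets each conjugate by an element outside its normalizer N trivially, is properly contained in N, and contains the centralizer of each of its non-identity elements (a T.I. subgroup with Frobenius normalizer). Then no element of N outside K is conjugate in G to an element of K, and for every class function ϑ of N that vanishes on N away from K and at the identity, the function induced from ϑ to G agrees with ϑ on all of N. -/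
theorem result {G : Type*} [Group G] [Fintype G] (K : Subgroup G) (hTI : ∀ g : G, g ∉ Subgroup.normalizer (K : Set G) → ∀ k ∈ K, g * k * g⁻¹ ∈ K → k = 1) (hlt : K < Subgroup.normalizer (K : Set G)) (hC : ∀ k ∈ K, k ≠ 1 → Subgroup.centralizer ({k} : Set G) ≤ K) : (∀ x ∈ Subgroup.normalizer (K : Set G), x ∉ K → ∀ g : G, g * x * g⁻¹ ∉ K) ∧ ∀ (ϑ : Subgroup.normalizer (K : Set G) → ℂ), Cfsg.IsClassFunction (Subgroup.normalizer (K : Set G)) ϑ → (∀ x : Subgroup.normalizer (K : Set G), (x : G) ∉ K → ϑ x = 0) → ϑ 1 = 0 → ∀ x : Subgroup.normalizer (K : Set G), Cfsg.indFun (Subgroup.normalizer (K : Set G)) ϑ x = ϑ x := by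
  have h1 : ∀ x ∈ Subgroup.normalizer (K : Set G), x ∉ K → ∀ g : G, g * x * g⁻¹ ∉ K := by
    intro x hx hxK g hg
    have h2 := coprime_orderOf_of_centralizer_le (K := K) le_rfl
      (fun k hk hk1 => inf_le_right.trans (hC k hk hk1)) hx hxK
    have h3 := K.orderOf_dvd_natCard hg
    rw [show orderOf (g * x * g⁻¹) = orderOf x from (MulAut.conj g).orderOf_eq x] at h3
    have := Nat.eq_one_of_dvd_coprimes h2 dvd_rfl h3
    rw [orderOf_eq_one_iff] at this
    exact hxK (this ▸ K.one_mem)
  refine ⟨h1, fun ϑ hϑ hs h0 x => ?_⟩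
  by_cases hx : (x : G) ∈ K
  · apply indFun_eq_of_TI _ hϑ
    intro y hy hne
    by_contra hy'
    have h2 := hTI y hy' x hx (by by_contra h; exact hne (hs ⟨_, hy⟩ h))
    apply hne
    rw [← h0]
    congr 1
    simp [h2]
  · rw [hs x hx]
    exact indFun_eq_zero_of_support _ _ (fun y hy => hs ⟨_, hy⟩ (h1 x x.2 hx y))

end Cfsg.Agent.S0850
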