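import Cfsg.Statements.S0851
import Cfsg.Agent.H3.Exc

set_option autoImplicit false
open Cfsg

namespace Cfsg.Agent.S0851
open H3
export H3 (inner_add_left inner_add_right inner_sub_left inner_sub_right inner_neg_left inner_neg_right
  inner_zero_left inner_zero_right inner_smul_left inner_smul_right inner_conj_symm inner_self_eq_zero
  inner_self_im)

open H7

/-- Let K be a subgroup of the finite group G that meets each conjugate by an element outside its normalizer N trivially, is properly contained in N, and contains the centralizer of each of its non-identity elements (a T.I. subgroup with Frobenius normalizer). Suppose K is abelian, let e be the index of K in N, and call an irreducible character of N relevant when it takes at some element of K a value different from its degree. Then either there is exactly one relevant character and K is an elementary abelian p-group of order e + 1 for some prime p, or there are a sign ε and an injective map f from the relevant characters to the irreducible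 characters of G such that inducing χ - ξ to G gives ε (f χ - f ξ) for all relevant χ and ξ. -/
theorem result {G : Type*} [Group G] [Fintype G] (K : Subgroup G) (hTI : ∀ g : G, g ∉ Subgroup.normalizer (K : Set G) → ∀ k ∈ K, g * k * g⁻¹ ∈ K → k = 1) (hlt : K < Subgroup.normalizer (K : Set G)) (hC : ∀ k ∈ K, k ≠ 1 → Subgroup.centralizer ({k} : Set G) ≤ K) (hab : ∀ a ∈ K, ∀ b ∈ K, a * b = b * a) : (Nat.card {χ : Cfsg.IrrCharacter (Subgroup.normalizer (K : Set G)) // ∃ k : Subgroup.normalizer (K : Set G), (k : G) ∈ K ∧ (χ : ↥(Subgroup.normalizer (K : Set G)) → ℂ) k ≠ (χ : ↥(Subgroup.normalizer (K : Set G)) → ℂ) 1} = 1 ∧ ∃ p : ℕ, p.Prime ∧ Cfsg.IsElementaryAbelian p K ∧ Nat.card K = (K.subgroupOf (Subgroup.normalizer (K : Set G))).index + 1) ∨ ∃ (ε : ℂ) (f : {χ : Cfsg.IrrCharacter (Subgroup.normalizer (K : Set G)) // ∃ k : Subgroup.normalizer (K : Set G), (k : G) ∈ K ∧ (χ : ↥(Subgroup.normalizer (K : Set G)) → ℂ) k ≠ (χ : ↥(Subgroup.normalizer (K : Set G)) → ℂ) 1} → Cfsg.IrrCharacter G), (ε = 1 ∨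 ε = -1) ∧ Function.Injective f ∧ ∀ χ ξ, Cfsg.indFun (Subgroup.normalizer (K : Set G)) ((χ.1 : ↥(Subgroup.normalizer (K : Set G)) → ℂ) - (ξ.1 : ↥(Subgroup.normalizer (K : Set G)) → ℂ)) = ε • ((f χ : G → ℂ) - (f ξ : G → ℂ)) := by
  set_option maxSynthPendingDepth 3 in
  classical
  right
  set L := Subgroup.normalizer (K : Set G) with hL
  haveI := Fintype.ofFinite L
  haveI : (K.subgroupOf L).Normal := Subgroup.normal_in_normalizer
  have hf : FrobMod (K.subgroupOf L) ⊥ := frob_of hC
  have h := tik_of hTI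
  have hS : seqInd (K.subgroupOf L) (K.subgroupOf L) ⊥ =
    {χ : L → ℂ | IsIrrCharacter L χ ∧ ∃ k : L, (k : G) ∈ K ∧ χ k ≠ χ 1} := hf.seqInd_eq le_rfl
  have hm : ∀ i : {χ : Cfsg.IrrCharacter L // ∃ k : L, (k : G) ∈ K ∧ (χ : L → ℂ) k ≠ (χ : L → ℂ) 1},
      (i.1 : L → ℂ) ∈ seqInd (K.subgroupOf L) (K.subgroupOf L) ⊥ := fun i => by
    rw [hS]; exact ⟨i.1.2, i.2⟩
  have hY : ⁅K.subgroupOf L, K.subgroupOf L⁆ ≤ ⊥ :=
    Subgroup.commutator_le.2 fun a ha b hb => by
      rw [Subgroup.mem_bot, commutatorElement_eq_one_iff_mul_comm]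
      exact Subtype.ext (hab _ ha _ hb)
  have hdeg := fun i => deg_eq_of_commutator hY (hm i).1 (inKer_bot _)
  obtain ⟨ε, hε, μ, hμ, hinj, hμe⟩ := exists_exceptional L.subtype_injective h.ti
    (fun i : {χ : Cfsg.IrrCharacter L // ∃ k : L, (k : G) ∈ K ∧ (χ : L → ℂ) k ≠ (χ : L → ℂ) 1} =>
      (i.1 : L → ℂ)) (fun i => i.1.2) (fun i j e => Subtype.ext (Subtype.ext e))
    (fun i j => by rw [hdeg, hdeg]) (fun i j x hx => by
      by_cases h1 : x = 1
      · rw [h1, hdeg, hdeg]
      · rw [off_of_indSet (hm i).1 fun hk => hx ⟨hk, h1⟩,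
          off_of_indSet (hm j).1 fun hk => hx ⟨hk, h1⟩])
  refine ⟨ε, fun i => ⟨μ i, hμ i⟩, hε, fun i j e => hinj (congrArg Subtype.val e), fun i j => ?_⟩
  rw [← ind_subtype]
  exact hμe i j

end Cfsg.Agent.S0851
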