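import Cfsg.Statements.S0852
import Cfsg.Agent.H3.Exc

set_option autoImplicit false
open Cfsg

namespace Cfsg.Agent.S0852
open H3
export H3 (inner_add_left inner_add_right inner_sub_left inner_sub_right inner_neg_left inner_neg_right
  inner_zero_left inner_zero_right inner_smul_left inner_smul_right inner_conj_symm inner_self_eq_zero
  inner_self_im)

open H7

/-- Let K be a subgroup of the finite group G that meets each conjugate by an element outside its normalizer N trivially, is properly contained in N, and contains the centralizer of each of its non-identity elements (a T.I. subgroup with Frobenius normalizer). Let S be the set of irreducible characters of N taking at some element of K a value different from their degree, suppose S has at least two members, and let star be a linear isometry on the integer span of S into the generalized characters of G that agrees with induction on the members vanishing at the identity (so S is coherent, with star as the extending isometry). Then an irreducible character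 ψ of G is of the form star χ or -star χ for some χ in S if and only if ψ is not constant on the non-identity elements of K. -/
theorem result {G : Type*} [Group G] [Fintype G] (K : Subgroup G) (hTI : ∀ g : G, g ∉ Subgroup.normalizer (K : Set G) → ∀ k ∈ K, g * k * g⁻¹ ∈ K → k = 1) (hlt : K < Subgroup.normalizer (K : Set G)) (hC : ∀ k ∈ K, k ≠ 1 → Subgroup.centralizer ({k} : Set G) ≤ K) [Fintype ↥(Subgroup.normalizer (K : Set G))] (S : Set (↥(Subgroup.normalizer (K : Set G)) → ℂ)) (hS : S = {χ : ↥(Subgroup.normalizer (K : Set G)) → ℂ | Cfsg.IsIrrCharacter ↥(Subgroup.normalizer (K : Set G)) χ ∧ ∃ k : ↥(Subgroup.normalizer (K : Set G)), (k : G) ∈ K ∧ χ k ≠ χ 1}) (htwo : ∃ χ ∈ S, ∃ ξ ∈ S, χ ≠ ξ) (star : (↥(Subgroup.normalizer (K : Set G)) → ℂ) → (G → ℂ)) (hstar : Cfsg.IsLinearIsometryOn (Cfsg.zspan S) star) (hext : ∀ α ∈ Cfsg.zspanOn S ({1}ᶜ : Set ↥(Subgroup.normalizer (K : Set G))), star α = Cfsg.indFun (Subgroup.normalizer (K : Set G)) α) (ψ : G → ℂ) (hψ : Cfsg.IsIrrCharacter G ψ) : (∃ χ ∈ S, ψ = star χ ∨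 ψ = -star χ) ↔ ∃ a ∈ K, ∃ b ∈ K, a ≠ 1 ∧ b ≠ 1 ∧ ψ a ≠ ψ b := by
  set_option maxSynthPendingDepth 3 in
  let L := Subgroup.normalizer (K : Set G)
  haveI : (K.subgroupOf L).Normal := Subgroup.normal_in_normalizer
  have hf : FrobMod (K.subgroupOf L) ⊥ := frob_of hC
  have hS' : seqInd (K.subgroupOf L) (K.subgroupOf L) ⊥ = S := (hf.seqInd_eq le_rfl).trans hS.symm
  rw [← hS'] at htwo hstar hext ⊢
  obtain ⟨χ₁, h₁, ξ₁, h₂, hne⟩ := htwo
  have hK : K.subgroupOf L ≠ ⊥ := fun e => h₁.2.1 (by rw [e]; exact inKer_bot _)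
  haveI := hf.nilp (sub_ne_top hlt)
  constructor
  · rintro ⟨χ, hχ, hψχ⟩
    by_contra hc
    push Not at hc
    obtain ⟨⟨a, ha⟩, ha1⟩ := Subgroup.ne_bot_iff_exists_ne_one.1 hK
    have ha2 : (a : G) ≠ 1 := fun e => ha1 (Subtype.ext (Subtype.ext e))
    obtain ⟨ξ, hξ, hne'⟩ : ∃ ξ ∈ seqInd (K.subgroupOf L) (K.subgroupOf L) ⊥, χ ≠ ξ := by
      rcases eq_or_ne χ χ₁ with e | e
      · exact ⟨ξ₁, h₂, e ▸ hne⟩
      · exact ⟨χ₁, h₁, e⟩
    refine exc_nonconst hf hstar hext hχ hξ hne' (c := star χ a) fun z hz h1 => ?_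
    have := hc z hz a ha (fun e => h1 (Subtype.ext e)) ha2
    rcases hψχ with rfl | rfl
    · exact this
    · exact neg_injective this
  · rintro ⟨a, ha, b, hb, ha1, hb1, hab⟩
    by_contra hc
    push Not at hc
    obtain ⟨m, hm⟩ := H8.nonexc_const inferInstance hK hstar hext hψ.isCharacter fun φ hφ =>
      SIrr.ip_eq_zero hψ.sirr (hstar.sirr (mem_zspan hφ) (hf.irr bot_le hφ).sirr) (hc φ hφ).1
        (hc φ hφ).2
    have e1 := hm ⟨a, hlt.le ha⟩ ha fun e => ha1 (congrArg Subtype.val e)
    have e2 := hm ⟨b, hlt.le hb⟩ hb fun e => hb1 (congrArg Subtype.val e)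
    exact hab (by linear_combination e2 - e1)

end Cfsg.Agent.S0852
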