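import Cfsg.Statements.S0855
import Cfsg.Agent.H3.Deg

set_option autoImplicit false
open Cfsg

namespace Cfsg.Agent.S0855
open H3
export H3 (inner_add_left inner_add_right inner_sub_left inner_sub_right inner_neg_left inner_neg_right
  inner_zero_left inner_zero_right inner_smul_left inner_smul_right inner_conj_symm inner_self_eq_zero
  inner_self_im)

/-- For a finite group G and a prime p: every irreducible character of G has degree a power of p if and only if G has an abelian normal subgroup whose order is prime to p and whose index is a power of p. -/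
theorem result {G : Type*} [Group G] [Finite G] (p : ℕ) (hp : p.Prime) : (∀ χ : Cfsg.IrrCharacter G, ∃ k : ℕ, (χ : G → ℂ) 1 = (p : ℂ) ^ k) ↔ ∃ A : Subgroup G, A.Normal ∧ (∀ a ∈ A, ∀ b ∈ A, a * b = b * a) ∧ Nat.Coprime (Nat.card A) p ∧ ∃ k : ℕ, A.index = p ^ k := by
  set_option maxSynthPendingDepth 3 in
  haveI := Fact.mk hp
  refine ⟨fun h => ?_, fun ⟨A, _, a, _, k, b⟩ χ => ?_⟩
  · have h' : ∀ χ, Irr G χ → ∃ k, dg χ = p ^ k := fun χ a => (h ⟨χ, a⟩).imp fun k e => dg_eq (by simpa using e)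
    have c := (hp.coprime_iff_not_dvd.2 (thompson_npc hp fun χ a b => by
      obtain ⟨_ | k, e⟩ := h' χ a
      exacts [absurd e b, e ▸ dvd_pow_self p k.succ_ne_zero])).symm
    refine ⟨_, inferInstance, fun a x b y => congrArg Subtype.val (comm_of_forall_deg (G := pResidual p G)
      (fun θ e => ?_) ⟨a, x⟩ ⟨b, y⟩), c, H2.index_pResidual⟩
    obtain ⟨χ, f, g⟩ := exists_over_dvd e
    obtain ⟨k, i⟩ := h' χ f
    exact e.isCharacter.dg_eq_one.1 (((c.pow_right k).coprime_dvd_left e.dg_dvd).eq_one_of_dvd (i ▸ g))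
  · obtain ⟨j, -, e⟩ := (Nat.dvd_prime_pow hp).1 (b ▸ χ.2.dg_dvd_index A a)
    exact ⟨j, by rw [χ.2.deg, e, Nat.cast_pow]⟩

end Cfsg.Agent.S0855
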