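import Cfsg.Statements.S0856
import Cfsg.Agent.H3.Ext

set_option autoImplicit false
open Cfsg

namespace Cfsg.Agent.S0856
open H3
export H3 (inner_add_left inner_add_right inner_sub_left inner_sub_right inner_neg_left inner_neg_right
  inner_zero_left inner_zero_right inner_smul_left inner_smul_right inner_conj_symm inner_self_eq_zero
  inner_self_im)

/-- Let N be a normal subgroup of the finite group G and φ, ϑ irreducible characters of N that are invariant under conjugation by G, such that the pointwise product φ * ϑ is irreducible and ϑ is the restriction of an irreducible character χ of G. Then multiplication by χ is a bijection from the set of irreducible characters of G having nonzero inner product with the function induced from φ onto the set of those having nonzero inner product with the function induced from φ * ϑ. -/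
theorem result {G : Type*} [Group G] [Fintype G] (N : Subgroup G) [hN : N.Normal] (φ ϑ : N → ℂ) (hφ : Cfsg.IsIrrCharacter N φ) (hϑ : Cfsg.IsIrrCharacter N ϑ) (hφinv : ∀ (g : G) (n : N), φ ⟨g * n * g⁻¹, hN.conj_mem (n : G) n.2 g⟩ = φ n) (hϑinv : ∀ (g : G) (n : N), ϑ ⟨g * n * g⁻¹, hN.conj_mem (n : G) n.2 g⟩ = ϑ n) (hprod : Cfsg.IsIrrCharacter N (φ * ϑ)) (χ : G → ℂ) (hχ : Cfsg.IsIrrCharacter G χ) (hext : ∀ n : N, χ n = ϑ n) : Set.BijOn (fun β : G → ℂ => β * χ) {β : G → ℂ | Cfsg.IsIrrCharacter G β ∧ Cfsg.classInner (Cfsg.indFun N φ) β ≠ 0} {ψ : G → ℂ | Cfsg.IsIrrCharacter G ψ ∧ Cfsg.classInner (Cfsg.indFun N (φ * ϑ)) ψ ≠ 0} := by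
  set_option maxSynthPendingDepth 3 in
  have e : ϑ = χ↾N := (funext hext).symm
  subst e
  have hi := inertia_eq_top.2 hφinv
  haveI := Fintype.ofFinite N
  refine ⟨fun β ⟨a, b⟩ => ?_, fun β ⟨a, b⟩ γ ⟨c, d⟩ e => ?_, fun ψ ⟨a, b⟩ => ?_⟩
  · have k := gallagher_irr hφ hi hχ.isCharacter hprod a b
    refine ⟨k, ?_⟩
    rw [inner_indFun_left _ _ a.isClassFunction, Ne, inner_eq_zero_comm] at b
    obtain ⟨e, e0, -, f⟩ := clifford_invariant' a hφ b hi
    rw [inner_indFun_left _ _ k.isClassFunction, show (β * χ)↾N = (e : ℂ) • (φ * χ↾N) by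
      rw [← smul_mul_assoc, ← f]; rfl, inner_smul_right, hprod.inner_self]
    simpa using e0.ne'
  · refine a.eq_of_inner_ne_zero c ?_
    rw [← gallagher_inner hφ hi hχ.isCharacter hprod a c b d, show γ * χ = β * χ from e.symm,
      (gallagher_irr hφ hi hχ.isCharacter hprod a b).inner_self]
    exact one_ne_zero
  · obtain ⟨β, c, d, e⟩ := gallagher_surj hφ hi hχ.isCharacter hprod a b
    exact ⟨β, ⟨c, d⟩, e⟩

end Cfsg.Agent.S0856
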