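import Cfsg.Statements.S0857
import Cfsg.Agent.H3.Down

set_option autoImplicit false
open Cfsg

namespace Cfsg.Agent.S0857
open H3
export H3 (inner_add_left inner_add_right inner_sub_left inner_sub_right inner_neg_left inner_neg_right
  inner_zero_left inner_zero_right inner_smul_left inner_smul_right inner_conj_symm inner_self_eq_zero
  inner_self_im)

/-- Let L < K be normal subgroups of the finite group G with no normal subgroup of G strictly between them and with K / L abelian (the commutator subgroup of K lies in L). Let ϑ be an irreducible character of K invariant under conjugation by G. Then the restriction of ϑ to L is irreducible; or it equals e times an irreducible character of L with e ^ 2 equal to the index of L in K; or it is the sum of a family of pairwise distinct irreducible characters of L indexed by a set whose size is the index of L in K. -/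
theorem result {G : Type*} [Group G] [Fintype G] (K L : Subgroup G) [hK : K.Normal] [L.Normal] (hLK : L < K) (hchief : ∀ M : Subgroup G, M.Normal → L ≤ M → M ≤ K → M = L ∨ M = K) (hab : ⁅K, K⁆ ≤ L) (ϑ : K → ℂ) (hϑ : Cfsg.IsIrrCharacter K ϑ) (hinv : ∀ (g : G) (n : K), ϑ ⟨g * n * g⁻¹, hK.conj_mem (n : G) n.2 g⟩ = ϑ n) : Cfsg.IsIrrCharacter L (fun x : L => ϑ ⟨(x : G), hLK.le x.2⟩) ∨ (∃ (φ : L → ℂ) (e : ℕ), Cfsg.IsIrrCharacter L φ ∧ (fun x : L => ϑ ⟨(x : G), hLK.le x.2⟩) = (e : ℂ) • φ ∧ e ^ 2 = L.relIndex K) ∨ (∃ F : Finset (L → ℂ), (∀ φ ∈ F, Cfsg.IsIrrCharacter L φ) ∧ F.card = L.relIndex K ∧ (fun x : L => ϑ ⟨(x : G), hLK.le x.2⟩) = ∑ φ ∈ F, φ) := by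
  set_option maxSynthPendingDepth 3 in
  obtain ⟨α, rfl⟩ := exists_amb ϑ
  have nK := H7.le_nrm_of_normal ⊤ K
  have nL := H7.le_nrm_of_normal ⊤ L
  have i : ⊤ ≤ iA K α := fun g _ => mem_iA'.2 ⟨nK trivial, fun x hx => hinv g ⟨x, hx⟩⟩
  have c := fun M a b c => hchief M (H7.normal_iff_top_le_nrm.2 c) a b
  obtain ⟨φ, a, b⟩ := exists_underA hLK.le hϑ
  rcases down_inertia hLK.le nK nL c hab hϑ i a b with e | e
  · have a' := (irr_sub hLK.le).2 a
    have b' := (inner_sub hLK.le).trans_ne b
    have t : inertia (φ↾K)↾(L.subgroupOf K) = L.subgroupOf K := by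
      rw [inertia_sub hLK.le (le_top.trans nL), ← Subgroup.inf_subgroupOf_left, e]
    obtain ⟨m, m1, m2, -⟩ := dg_eq_mul a' hϑ b'
    rw [t, Subgroup.relIndex_self, Nat.dvd_one] at m1
    have k := clifford hϑ a' b'
    rw [m2, m1, Nat.cast_one, one_smul] at k
    let f := (Subgroup.subgroupOfEquivOfLe hLK.le).symm
    refine .inr (.inr ⟨(conjSet (φ↾K)↾(L.subgroupOf K)).map ⟨fun η x => η (f x), fun η ζ h => funext fun x => by
      simpa using congrFun h (f.symm x)⟩, fun η h => ?_, by rw [Finset.card_map, card_conjSet, t]; rfl, funext fun x => ?_⟩)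
    · obtain ⟨ζ, u, rfl⟩ := Finset.mem_map.1 h
      obtain ⟨g, rfl⟩ := mem_conjSet.1 u
      exact (a'.conjF g).comp_equiv f
    · rw [Finset.sum_map, Finset.sum_apply]; exact (congrFun k (f x)).trans (Finset.sum_apply _ _ _)
  obtain ⟨m, -, -, k⟩ := res_eq_smulA hLK.le e hϑ a b
  exact (down_irr_or hLK.le nK nL c hab hϑ i).imp_right fun v => .inl ⟨_, m, a, k, sq_of_vanish hLK.le hϑ a k v⟩

end Cfsg.Agent.S0857
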