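import Cfsg.Statements.S0858
import Cfsg.Agent.H3.Down

set_option autoImplicit false
open Cfsg

namespace Cfsg.Agent.S0858
open H3
export H3 (inner_add_left inner_add_right inner_sub_left inner_sub_right inner_neg_left inner_neg_right
  inner_zero_left inner_zero_right inner_smul_left inner_smul_right inner_conj_symm inner_self_eq_zero
  inner_self_im)

/-- Let N be a normal subgroup of the finite group G with G / N solvable, and suppose that for every subgroup H containing N and all subgroups L < K between N and H that are normal in H with no subgroup normal in H strictly between them, the index of L in K is not a perfect square. Then every irreducible character χ of G is induced from an irreducible character ψ of some subgroup H containing N such that the restriction of ψ to N is irreducible. -/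
theorem result {G : Type*} [Group G] [Fintype G] (N : Subgroup G) [N.Normal] (hsolv : Group.IsSolvable (G ⧸ N)) (hchief : ∀ (H K L : Subgroup G), N ≤ L → L < K → K ≤ H → (∀ h ∈ H, ∀ k ∈ K, h * k * h⁻¹ ∈ K) → (∀ h ∈ H, ∀ l ∈ L, h * l * h⁻¹ ∈ L) → (∀ M : Subgroup G, L ≤ M → M ≤ K → (∀ h ∈ H, ∀ m ∈ M, h * m * h⁻¹ ∈ M) → M = L ∨ M = K) → ¬ IsSquare (L.relIndex K)) (χ : G → ℂ) (hχ : Cfsg.IsIrrCharacter G χ) : ∃ (H : Subgroup G) (hNH : N ≤ H) (ψ : H → ℂ), Cfsg.IsIrrCharacter H ψ ∧ Cfsg.indFun H ψ = χ ∧ Cfsg.IsIrrCharacter N (fun n : N => ψ ⟨(n : G), hNH n.2⟩) := by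
  set_option maxSynthPendingDepth 3 in
  obtain ⟨H, _, ψ, l, a, b, c⟩ := exists_relPrimitive N hχ
  refine ⟨H, l, ψ, a, b, ?_⟩
  obtain ⟨α, rfl⟩ := exists_amb ψ
  obtain ⟨K, ⟨k1, k2, k3, k4⟩, m⟩ := exists_minimal_of_wellFoundedLT
    (fun K : Subgroup G => N ≤ K ∧ K ≤ H ∧ H ≤ Subgroup.normalizer K ∧ Irr K α↾K) ⟨H, l, le_rfl, H7.le_nrm_self H, a⟩
  rcases k1.lt_or_eq with k | rfl
  swap
  · exact k4
  obtain ⟨L, l1, l2, l3, l4⟩ := H7.exists_max_inv_ge k (H7.le_nrm_of_normal H N)
  have ab := (chief_ab (((sm_iff.2 hsolv).mono l1).solv (k2.trans l3)) l2 (k2.trans l3) k3 l3 l4).1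
  have l5 := l2.le.trans k2
  haveI := H7.normal_subgroupOf l3
  rcases down_irr_or l2.le k3 l3 l4 ab k4 (le_iA a.isClassFunction k2 k3) with v | v
  · exact absurd (m ⟨l1, l5, l3, v⟩ l2.le) l2.not_ge
  rcases homog_or_ind a (L.subgroupOf H) with ⟨θ, e, t, u⟩ | ⟨T, t1, t2, σ, t3, t4⟩
  · obtain ⟨β, rfl⟩ := exists_amb2 θ
    have := sq_of_vanish l2.le k4 ((irr_sub l5).1 t) (funext fun x => congrFun u ⟨⟨x, l5 x.2⟩, x.2⟩) v
    exact absurd ⟨e, by rw [← this, sq]⟩ (hchief H K L l1 l2 k2 (fun _ h _ => H7.conj_mem k3 h)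
      (fun _ h _ => H7.conj_mem l3 h) fun M a b c => l4 M a b (nrm_of_forall c))
  · exact absurd (by convert t4) (c T t1 ((Subgroup.comap_mono l1).trans t2) σ t3.isCharacter)

end Cfsg.Agent.S0858
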