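import Cfsg.Statements.S0859
import Cfsg.Agent.H3.Down2

set_option autoImplicit false
open Cfsg

namespace Cfsg.Agent.S0859
open H3
export H3 (inner_add_left inner_add_right inner_sub_left inner_sub_right inner_neg_left inner_neg_right
  inner_zero_left inner_zero_right inner_smul_left inner_smul_right inner_conj_symm inner_self_eq_zero
  inner_self_im)

/-- Let G be a finite solvable group and N a normal subgroup such that for every prime p every Sylow p-subgroup of N is abelian. Suppose every irreducible character of G is induced from an irreducible character of some subgroup containing N whose restriction to N is irreducible. Then every irreducible character of G is induced from a character of degree 1 of some subgroup. -/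
theorem result {G : Type*} [Group G] [Fintype G] [Group.IsSolvable G] (N : Subgroup G) [N.Normal] (hab : ∀ (p : ℕ) [Fact p.Prime] (P : Sylow p N), ∀ a ∈ P, ∀ b ∈ P, a * b = b * a) (hrel : ∀ χ : G → ℂ, Cfsg.IsIrrCharacter G χ → ∃ (H : Subgroup G) (hNH : N ≤ H) (ψ : H → ℂ), Cfsg.IsIrrCharacter H ψ ∧ Cfsg.indFun H ψ = χ ∧ Cfsg.IsIrrCharacter N (fun n : N => ψ ⟨(n : G), hNH n.2⟩)) (χ : G → ℂ) (hχ : Cfsg.IsIrrCharacter G χ) : ∃ (U : Subgroup G) (lam : U → ℂ), Cfsg.IsCharacter U lam ∧ lam 1 = 1 ∧ Cfsg.indFun U lam = χ := by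
  set_option maxSynthPendingDepth 3 in
  obtain ⟨H, l, ψ, a, rfl, b⟩ := hrel χ hχ
  obtain ⟨U, _, θ, c, rfl, d⟩ := exists_primitive a
  obtain ⟨α, rfl⟩ := exists_amb θ
  cases Subsingleton.elim ‹Fintype U› (subFin U)
  have e := irr_inf_of_ind (N := N.subgroupOf H) c.isCharacter (b.comp_equiv (Subgroup.subgroupOfEquivOfLe l))
  rw [← irr_sub inf_le_left, Subgroup.inf_subgroupOf_left] at e
  have f := (d.isQuasiPrimitive c).deg_one_of_res c e fun p hp P u v x hx y hy => by
    haveI := Fact.mk hp
    let g : P →* N := ((H.subtype.comp U.subtype).comp P.subtype).codRestrict N fun z => u z.2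
    obtain ⟨Q, w⟩ := (v.of_surjective _ g.rangeRestrict_surjective).exists_le_sylow
    have := congrArg Subtype.val (hab p Q _ (w ⟨⟨y, hy⟩, rfl⟩) _ (w ⟨⟨x, hx⟩, rfl⟩))
    exact Subtype.ext (Subtype.ext this)
  obtain ⟨φ, g1, g2, g3⟩ := exists_indFun_map H U _ c.isCharacter
  exact ⟨_, φ, g1, (g3 1).trans f, g2.symm⟩

end Cfsg.Agent.S0859
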