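import Cfsg.Statements.S0860
import Cfsg.Agent.H3.Perm

set_option autoImplicit false
open Cfsg

namespace Cfsg.Agent.S0860
open H3
export H3 (inner_add_left inner_add_right inner_sub_left inner_sub_right inner_neg_left inner_neg_right
  inner_zero_left inner_zero_right inner_smul_left inner_smul_right inner_conj_symm inner_self_eq_zero
  inner_self_im)

/-- Let a group A act on the set of irreducible characters and on the set of conjugacy classes of a finite group G in such a way that (a • χ) evaluated on the class a • C equals χ evaluated on C, for all a, χ and C. Then every element of A fixes exactly as many irreducible characters as it fixes conjugacy classes. -/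
theorem result {G : Type*} [Group G] [Finite G] {A : Type*} [Group A] [MulAction A (Cfsg.IrrCharacter G)] [MulAction A (ConjClasses G)] (hcompat : ∀ (a : A) (χ : Cfsg.IrrCharacter G) (g g' : G), ConjClasses.mk g' = a • ConjClasses.mk g → ((a • χ : Cfsg.IrrCharacter G) : G → ℂ) g' = (χ : G → ℂ) g) (a : A) : Nat.card {χ : Cfsg.IrrCharacter G // a • χ = χ} = Nat.card {C : ConjClasses G // a • C = C} := by
  have h1 : ∀ (χ : Cfsg.IrrCharacter G) (g : G),
      (χ : G → ℂ) (a⁻¹ • ConjClasses.mk g).out = ((a • χ : Cfsg.IrrCharacter G) : G → ℂ) g := by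
    intro χ g
    refine (hcompat a χ _ g ?_).symm
    have : ConjClasses.mk (a⁻¹ • ConjClasses.mk g).out = a⁻¹ • ConjClasses.mk g := Quotient.out_eq _
    rw [this, smul_inv_smul]
  rw [← card_fixed_irr (fun g => (a⁻¹ • ConjClasses.mk g).out) (fun χ hχ => ?_) _ (fun g => ?_)]
  · refine Nat.card_congr (Equiv.subtypeEquivRight (fun χ => ?_))
    simp only [h1]
    exact Subtype.ext_iff
  · have := h1 ⟨χ, hχ⟩
    simp only at this
    simp only [this]
    exact (a • (⟨χ, hχ⟩ : Cfsg.IrrCharacter G)).2
  · have : ConjClasses.mk (a⁻¹ • ConjClasses.mk g).out = a⁻¹ • ConjClasses.mk g := Quotient.out_eq _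
    rw [← ConjClasses.mk_eq_mk_iff_isConj, this, eq_inv_smul_iff]

end Cfsg.Agent.S0860
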