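import Cfsg.Statements.S0861
import Cfsg.Agent.H3.Cong

set_option autoImplicit false
open Cfsg

namespace Cfsg.Agent.S0861
open H3
export H3 (inner_add_left inner_add_right inner_sub_left inner_sub_right inner_neg_left inner_neg_right
  inner_zero_left inner_zero_right inner_smul_left inner_smul_right inner_conj_symm inner_self_eq_zero
  inner_self_im)

/-- Let P be a normal abelian Sylow p-subgroup of the finite group G and suppose some element g of P has centralizer exactly P. Then the number of irreducible characters of G is at most the order of P, and if equality holds then G / P is abelian (the commutator subgroup lies in P). -/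
theorem result {G : Type*} [Group G] [Finite G] (p : ℕ) [Fact p.Prime] (P : Sylow p G) [(P : Subgroup G).Normal] (hab : ∀ a ∈ P, ∀ b ∈ P, a * b = b * a) (g : G) (hg : g ∈ P) (hC : Subgroup.centralizer ({g} : Set G) = P) : Nat.card (Cfsg.IrrCharacter G) ≤ Nat.card P ∧ (Nat.card (Cfsg.IrrCharacter G) = Nat.card P → commutator G ≤ P) := by
  classical
  haveI := Fintype.ofFinite G
  have hp : p.Prime := Fact.out
  have h0 : ∀ χ : Cfsg.IrrCharacter G, (χ : G → ℂ) g ≠ 0 := by
    intro χ h
    obtain ⟨d, -, hd⟩ := χ.2.exists_deg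
    obtain ⟨k, hk⟩ := P.isPGroup' ⟨g, hg⟩
    have h1 := χ.2.isCharacter.dvd_deg_of_eq_zero hp (k := k) (congrArg Subtype.val hk) h hd
    have h2 := χ.2.deg_dvd_index_of_abelian_normal hd P (fun a ha b hb => by
      rw [hab a ha b hb]; simpa using one_mem _)
    exact P.not_dvd_index (h1.trans h2)
  have h1 := one_le_prod_normSq Finset.univ (fun χ : Cfsg.IrrCharacter G => (χ : G → ℂ) g)
    (fun χ _ => χ.2.isCharacter.isIntegral g) (fun χ _ => h0 χ)
    (fun σ => Fintype.prod_equiv (galIrr σ) _ _ (fun _ => rfl))
  have h2 := sum_normSq_irr g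
  rw [hC] at h2
  have h3 : ∀ χ ∈ (Finset.univ : Finset (Cfsg.IrrCharacter G)), 0 < ‖(χ : G → ℂ) g‖ ^ 2 :=
    fun χ _ => by have := h0 χ; positivity
  constructor
  · have := card_le_sum_of_one_le_prod _ _ h3 h1
    rw [h2, Finset.card_univ, ← Nat.card_eq_fintype_card] at this
    exact_mod_cast this
  · intro h x hx
    have h4 := eq_one_of_one_le_prod _ _ h3 h1 (by
      rw [h2, Finset.card_univ, ← Nat.card_eq_fintype_card, h])
    by_contra hxP
    obtain ⟨χ, hχ, h5, h6⟩ := exists_irr_ker_not_mem (P : Subgroup G) hxP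
    have h7 := h4 ⟨χ, hχ⟩ (Finset.mem_univ _)
    obtain ⟨d, -, hd⟩ := hχ.exists_deg
    simp only [h5 g hg, hd, Complex.norm_natCast] at h7
    have h8 : d = 1 := by
      have : d ^ 2 = 1 := by exact_mod_cast h7
      simpa using this
    exact h6 (hχ.isCharacter.commutator_of_deg_one (by rw [hd, h8, Nat.cast_one]) hx)

end Cfsg.Agent.S0861
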