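import Cfsg.Statements.S0862
import Cfsg.Agent.H3.Ext

set_option autoImplicit false
open Cfsg

namespace Cfsg.Agent.S0862
open H3
export H3 (inner_add_left inner_add_right inner_sub_left inner_sub_right inner_neg_left inner_neg_right
  inner_zero_left inner_zero_right inner_smul_left inner_smul_right inner_conj_symm inner_self_eq_zero
  inner_self_im)

/-- Let N be a normal subgroup of the finite group G and ϑ an irreducible character of N of degree d coprime to the index of N, which is the restriction of some irreducible character of G. Let μ be a character of G of degree 1 whose restriction to N is the determinantal character of ϑ. Then there is exactly one irreducible character χ of G restricting to ϑ whose determinantal character is μ. -/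
theorem result {G : Type*} [Group G] [Finite G] (N : Subgroup G) [N.Normal] (ϑ : N → ℂ) (hϑ : Cfsg.IsIrrCharacter N ϑ) (d : ℕ) (hd : ϑ 1 = d) (hcop : Nat.Coprime N.index d) (hext : ∃ η : G → ℂ, Cfsg.IsIrrCharacter G η ∧ (∀ n : N, η n = ϑ n)) (μ : G → ℂ) (hμ : Cfsg.IsCharacter G μ ∧ μ 1 = 1) (hμN : ∀ n : N, μ n = Cfsg.detChar ϑ n) : ∃! χ : G → ℂ, Cfsg.IsIrrCharacter G χ ∧ (∀ n : N, χ n = ϑ n) ∧ Cfsg.detChar χ = μ := by
  set_option maxSynthPendingDepth 3 in
  obtain ⟨η, a, b⟩ := hext
  obtain rfl : η↾N = ϑ := funext b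
  obtain ⟨μ, rfl⟩ := hμ.1.exists_lf hμ.2
  obtain ⟨χ, ⟨c, e, f⟩, g⟩ := existsUnique_ext_det a.isCharacter hϑ (by rwa [dg_eq (χ := η) hd]) (μ := μ)
    fun n => Units.ext (by simpa [detChar_eq] using hμN n)
  exact ⟨χ, ⟨c.isIrr_of_res N (e ▸ hϑ), congrFun e, by rw [detChar_eq, f]⟩, fun ψ ⟨h, k, l⟩ =>
    g ψ ⟨h.isCharacter, funext k, lf_injective (by rwa [← detChar_eq])⟩⟩

end Cfsg.Agent.S0862
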