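import Cfsg.Statements.S0864
import Cfsg.Agent.H3.Ext

set_option autoImplicit false
open Cfsg

namespace Cfsg.Agent.S0864
open H3
export H3 (inner_add_left inner_add_right inner_sub_left inner_sub_right inner_neg_left inner_neg_right
  inner_zero_left inner_zero_right inner_smul_left inner_smul_right inner_conj_symm inner_self_eq_zero
  inner_self_im)

/-- Let N be a normal subgroup of the finite group G and λ a character of N of degree 1 invariant under conjugation by G. Suppose that for every prime p dividing the order of λ (in the group of functions under pointwise multiplication) there is a subgroup H containing N, of index prime to p and with the index of N in H a power of p, together with a character of H of degree 1 restricting to λ. Then λ is the restriction of a character of G of degree 1. -/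
theorem result {G : Type*} [Group G] [Finite G] (N : Subgroup G) [hN : N.Normal] (lam : N → ℂ) (hlam : Cfsg.IsCharacter N lam ∧ lam 1 = 1) (hinv : ∀ (g : G) (n : N), lam ⟨g * n * g⁻¹, hN.conj_mem (n : G) n.2 g⟩ = lam n) (hsyl : ∀ p : ℕ, p.Prime → p ∣ orderOf lam → ∃ (H : Subgroup G) (hNH : N ≤ H) (ν : H → ℂ), Nat.Coprime H.index p ∧ (∃ k : ℕ, N.relIndex H = p ^ k) ∧ Cfsg.IsCharacter H ν ∧ ν 1 = 1 ∧ ∀ n : N, ν ⟨(n : G), hNH n.2⟩ = lam n) : ∃ μ : G → ℂ, Cfsg.IsCharacter G μ ∧ μ 1 = 1 ∧ ∀ n : N, μ n = lam n := by
  set_option maxSynthPendingDepth 3 in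
  obtain ⟨l, rfl⟩ := hlam.1.exists_lf hlam.2
  obtain ⟨μ, a⟩ := mem_extLin.1 (mem_extLin_of_sylow (inertia_eq_top.2 hinv) fun p hp h => by
    obtain ⟨H, b, ν, c, -, d, e, f⟩ := hsyl p hp (orderOf_lf l ▸ h)
    obtain ⟨ν, rfl⟩ := d.exists_lf e
    exact ⟨H, b, ν, hp.coprime_iff_not_dvd.1 c.symm, fun n => Units.ext (f n)⟩)
  exact ⟨_, lf_ch μ, by simp, fun n => congrArg Units.val (a n)⟩

end Cfsg.Agent.S0864
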