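import Cfsg.Statements.S0865
import Cfsg.Agent.H3.Ext

set_option autoImplicit false
open Cfsg

namespace Cfsg.Agent.S0865
open H3
export H3 (inner_add_left inner_add_right inner_sub_left inner_sub_right inner_neg_left inner_neg_right
  inner_zero_left inner_zero_right inner_smul_left inner_smul_right inner_conj_symm inner_self_eq_zero
  inner_self_im)

/-- Let N be a normal subgroup of the finite group G and λ a character of N of degree 1, invariant under conjugation by G, whose order (under pointwise multiplication) is coprime to the index of N. Then there is a character μ of G of degree 1 restricting to λ with the same order as λ, and μ is the only degree-1 character of G restricting to λ whose order is coprime to the index of N. -/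
theorem result {G : Type*} [Group G] [Finite G] (N : Subgroup G) [hN : N.Normal] (lam : N → ℂ) (hlam : Cfsg.IsCharacter N lam ∧ lam 1 = 1) (hinv : ∀ (g : G) (n : N), lam ⟨g * n * g⁻¹, hN.conj_mem (n : G) n.2 g⟩ = lam n) (hcop : Nat.Coprime N.index (orderOf lam)) : ∃ μ : G → ℂ, (Cfsg.IsCharacter G μ ∧ μ 1 = 1 ∧ (∀ n : N, μ n = lam n) ∧ orderOf μ = orderOf lam) ∧ ∀ μ' : G → ℂ, Cfsg.IsCharacter G μ' ∧ μ' 1 = 1 → (∀ n : N, μ' n = lam n) → Nat.Coprime N.index (orderOf μ') → μ' = μ := by
  set_option maxSynthPendingDepth 3 in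
  obtain ⟨l, rfl⟩ := hlam.1.exists_lf hlam.2
  rw [orderOf_lf] at hcop
  obtain ⟨μ, a, b⟩ := exists_ext_orderOf (inertia_eq_top.2 hinv) hcop
  refine ⟨_, ⟨lf_ch μ, by simp, fun n => congrArg Units.val (a n), by rw [orderOf_lf, orderOf_lf, b]⟩,
    fun ν c d e => ?_⟩
  obtain ⟨ν, rfl⟩ := c.1.exists_lf c.2
  rw [orderOf_lf] at e
  rw [eq_of_ext_of_coprime (fun n => (Units.ext (d n)).trans (a n).symm) e (b ▸ hcop)]

end Cfsg.Agent.S0865
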