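import Cfsg.Statements.S0866
import Cfsg.Agent.H3.Ext

set_option autoImplicit false
open Cfsg

namespace Cfsg.Agent.S0866
open H3
export H3 (inner_add_left inner_add_right inner_sub_left inner_sub_right inner_neg_left inner_neg_right
  inner_zero_left inner_zero_right inner_smul_left inner_smul_right inner_conj_symm inner_self_eq_zero
  inner_self_im)

/-- Let N be a normal subgroup of the finite group G and ϑ an irreducible character of N, invariant under conjugation by G, of degree d coprime to the index of N. Then ϑ is the restriction of an irreducible character of G if and only if the determinantal character of ϑ is the restriction of a character of G of degree 1. -/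
theorem result {G : Type*} [Group G] [Finite G] (N : Subgroup G) [hN : N.Normal] (ϑ : N → ℂ) (hϑ : Cfsg.IsIrrCharacter N ϑ) (hinv : ∀ (g : G) (n : N), ϑ ⟨g * n * g⁻¹, hN.conj_mem (n : G) n.2 g⟩ = ϑ n) (d : ℕ) (hd : ϑ 1 = d) (hcop : Nat.Coprime N.index d) : (∃ χ : G → ℂ, Cfsg.IsIrrCharacter G χ ∧ (∀ n : N, χ n = ϑ n)) ↔ ∃ μ : G → ℂ, Cfsg.IsCharacter G μ ∧ μ 1 = 1 ∧ ∀ n : N, μ n = Cfsg.detChar ϑ n := by
  set_option maxSynthPendingDepth 3 in
  refine ⟨fun ⟨χ, a, b⟩ => ⟨_, lf_ch (dt χ), by simp, fun n => ?_⟩, fun ⟨μ, a, b, c⟩ => ?_⟩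
  · rw [detChar_eq, ← funext b, lf_apply, lf_apply, a.isCharacter.dt_res]
  · obtain ⟨μ, rfl⟩ := a.exists_lf b
    obtain ⟨χ, e, f⟩ := ext_of_det hϑ (inertia_eq_top.2 hinv) (by rwa [dg_eq hd])
      (mem_extLin.2 ⟨μ, fun n => Units.ext (by simpa [detChar_eq] using c n)⟩)
    exact ⟨χ, e, congrFun f⟩

end Cfsg.Agent.S0866
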