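import Cfsg.Statements.S0868
import Cfsg.Agent.H3.Ext

set_option autoImplicit false
open scoped ComplexConjugate
open Cfsg

namespace Cfsg.Agent.S0868
open H3
export H3 (inner_add_left inner_add_right inner_sub_left inner_sub_right inner_neg_left inner_neg_right
  inner_zero_left inner_zero_right inner_smul_left inner_smul_right inner_conj_symm inner_self_eq_zero
  inner_self_im)

/-- Let N be a normal subgroup of the finite group G, χ an irreducible character of G whose restriction ϑ to N is irreducible, and ψ an irreducible character of G. Define η on G by η g = (1 / order of N) * Σ over n in N of ψ (n * g) * conj (χ (n * g)). Then: if the restriction of ψ to N has nonzero inner product with ϑ, η is an irreducible character of G; if that inner product is zero, η vanishes identically; and if ψ = χ then η is identically 1. -/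
theorem result {G : Type*} [Group G] [Fintype G] (N : Subgroup G) [N.Normal] [Fintype N] (χ : G → ℂ) (hχ : Cfsg.IsIrrCharacter G χ) (hχN : Cfsg.IsIrrCharacter N (fun n : N => χ n)) (ψ : G → ℂ) (hψ : Cfsg.IsIrrCharacter G ψ) (η : G → ℂ) (hη : η = fun g => (Nat.card N : ℂ)⁻¹ * ∑ n : N, ψ ((n : G) * g) * conj (χ ((n : G) * g))) : (Cfsg.classInner (fun n : N => ψ n) (fun n : N => χ n) ≠ 0 → Cfsg.IsIrrCharacter G η) ∧ (Cfsg.classInner (fun n : N => ψ n) (fun n : N => χ n) = 0 → η = 0) ∧ (ψ = χ → η = fun _ => 1) := by
  set_option maxSynthPendingDepth 3 in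
  have k := avg_normSq hχ.isCharacter hχN
  replace hη : η = avg N fun g => ψ g * conj (χ g) := hη
  subst hη
  refine ⟨fun h => ?_, fun h => ?_, fun h => h ▸ k⟩
  · obtain ⟨β, a, b, rfl⟩ := gallagher hχ.isCharacter hχN hψ h
    rw [show (fun g => (β * χ) g * conj (χ g)) = β * fun g => χ g * conj (χ g) from funext fun g => mul_assoc _ _ _,
      avg_mul_of _ fun n g => a.isCharacter.mul_of_eq_deg (b n n.2) g, k]
    exact (mul_one β).symm ▸ a
  · exact (hψ.isCharacter.mul hχ.isCharacter.conj).avg.eq_zero_of_deg (by simpa [avg, classInner] using h)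

end Cfsg.Agent.S0868
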