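import Cfsg.Statements.S0870
import Cfsg.Agent.H3.Solomon

set_option autoImplicit false
open Cfsg

namespace Cfsg.Agent.S0870
open H3
export H3 (inner_add_left inner_add_right inner_sub_left inner_sub_right inner_neg_left inner_neg_right
  inner_zero_left inner_zero_right inner_smul_left inner_smul_right inner_conj_symm inner_self_eq_zero
  inner_self_im)

/-- For subgroups H and K of a finite group G, the pointwise product of the functions induced from the constant function 1 on H and on K is a sum, over subgroups U of H with natural-number coefficients, of the functions induced from the constant function 1 on U. -/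
theorem result {G : Type*} [Group G] [Fintype G] (H K : Subgroup G) : ∃ a : Subgroup G → ℕ, (∀ U, a U ≠ 0 → U ≤ H) ∧ Cfsg.indFun H (fun _ => 1) * Cfsg.indFun K (fun _ => 1) = ∑ U : Subgroup G, (a U : ℂ) • Cfsg.indFun U (fun _ => 1) := by
  obtain ⟨ι, _, U, hU, e⟩ := indFun_one_mul_indFun_one H K
  obtain ⟨a, ha, e2⟩ := exists_coeff_of_sum U (fun V => indFun V (fun _ => (1 : ℂ)))
  refine ⟨a, fun V hV => ?_, ?_⟩
  · obtain ⟨i, rfl⟩ := ha V hV
    exact hU i
  · rw [e, e2]
    simp only [Nat.cast_smul_eq_nsmul]

end Cfsg.Agent.S0870
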