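import Cfsg.Statements.S0874
import Cfsg.Agent.H3.Brauer

set_option autoImplicit false
open Cfsg

namespace Cfsg.Agent.S0874
open H3
export H3 (inner_add_left inner_add_right inner_sub_left inner_sub_right inner_neg_left inner_neg_right
  inner_zero_left inner_zero_right inner_smul_left inner_smul_right inner_conj_symm inner_self_eq_zero
  inner_self_im)

/-- For a finite group G and a prime p there are an integer m not divisible by p and a list of triples (E, φ, c), with E a p-elementary subgroup, φ a character of E and c an integer, such that the constant function m on G equals the sum of the c • (function induced from φ). -/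
theorem result {G : Type*} [Group G] [Fintype G] (p : ℕ) (hp : p.Prime) : ∃ (m : ℤ) (l : List ((E : Subgroup G) × ((E → ℂ) × ℤ))), ¬ (p : ℤ) ∣ m ∧ (∀ t ∈ l, Cfsg.IsElementary p t.1 ∧ Cfsg.IsCharacter t.1 t.2.1) ∧ (fun _ : G => (m : ℂ)) = (l.map fun t => (t.2.2 : ℂ) • Cfsg.indFun t.1 t.2.1).sum := by
  obtain ⟨m, hm, h⟩ := brauer_local (G := G) hp
  have : elemSpan p G ≤ listSpan (ι := Subgroup G) (κ := fun E => E → ℂ)
      (fun t => IsElementary p t.1 ∧ IsCharacter t.1 t.2.1) (fun _ _ _ _ h => h)
      (fun E φ => indFun E φ) := by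
    refine (AddSubgroup.closure_le _).2 ?_
    rintro _ ⟨E, φ, h1, h2, rfl⟩
    exact mem_listSpan_single _ _ (fun E φ => indFun E φ) E φ ⟨h1, h2⟩
  obtain ⟨l, h1, h2⟩ := this h
  exact ⟨m, l, hm, h1, h2⟩

end Cfsg.Agent.S0874
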