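import Cfsg.Statements.S0875
import Cfsg.Agent.H3.Cong

set_option autoImplicit false
open Cfsg

namespace Cfsg.Agent.S0875
open H3
export H3 (inner_add_left inner_add_right inner_sub_left inner_sub_right inner_neg_left inner_neg_right
  inner_zero_left inner_zero_right inner_smul_left inner_smul_right inner_conj_symm inner_self_eq_zero
  inner_self_im)

/-- Let G be a finite group of order m * n with m and n coprime, and g an element whose order is coprime to m. Every x in G factors uniquely as x = u * v with u, v commuting, the order of u coprime to n and the order of v coprime to m; let ϑ be the function on G equal to n at those x whose factor v is conjugate to g and equal to 0 elsewhere. Then ϑ is a linear combination of the irreducible characters of G with algebraic-integer coefficients. -/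
theorem result {G : Type*} [Group G] [Fintype G] (m n : ℕ) (hmn : Nat.card G = m * n) (hcop : Nat.Coprime m n) (g : G) (hg : Nat.Coprime (orderOf g) m) (ϑ : G → ℂ) (hϑ1 : ∀ x : G, (∃ v : G, IsConj v g ∧ (∃ u : G, x = u * v ∧ Commute u v ∧ Nat.Coprime (orderOf u) n ∧ Nat.Coprime (orderOf v) m)) → ϑ x = n) (hϑ0 : ∀ x : G, (¬ ∃ v : G, IsConj v g ∧ (∃ u : G, x = u * v ∧ Commute u v ∧ Nat.Coprime (orderOf u) n ∧ Nat.Coprime (orderOf v) m)) → ϑ x = 0) : ∃ c : Cfsg.IrrCharacter G → ℂ, (∀ χ, c χ ∈ Cfsg.AlgInt) ∧ ϑ = ∑ᶠ χ : Cfsg.IrrCharacter G, c χ • (χ : G → ℂ) := by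
  classical
  obtain ⟨e, h1, h2⟩ := exists_modEq_one_dvd hcop.symm
  obtain ⟨e', h3, h4⟩ := exists_modEq_one_dvd hcop
  have h5 := comp_pow_mem_intSpan (G := G) hcop hmn.dvd h1 h2
    ((isClassFunction_classInd g).smul n) (fun x => ⟨_, isIntegral_classInd g x, rfl⟩)
  have ho : ∀ x : G, orderOf x ∣ m * n := fun x => hmn ▸ orderOf_dvd_natCard x
  have h6 : ϑ = fun x => ((n : ℂ) • classInd g) (x ^ e) := by
    ext x
    simp only [Pi.smul_apply, smul_eq_mul, classInd]
    split_ifs with h
    · rw [mul_one]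
      refine hϑ1 x ⟨x ^ e, h.symm, x ^ e', (pow_mul_pow_eq hcop (ho x) h3 h4 h1 h2).symm,
        Commute.pow_pow_self x _ _, ?_, ?_⟩
      · exact hcop.coprime_dvd_left (orderOf_pow_dvd_left (ho x) h4)
      · exact hcop.symm.coprime_dvd_left (orderOf_pow_dvd_left (mul_comm m n ▸ ho x) h2)
    · rw [mul_zero]
      apply hϑ0
      rintro ⟨v, hv, u, rfl, hc, hu, hv'⟩
      apply h
      rw [mul_pow_eq_right hc.eq (hu.dvd_of_dvd_mul_right (ho u)) (hv'.dvd_of_dvd_mul_left (ho v)) h1 h2]
      exact hv.symm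
  rw [← h6] at h5
  refine ⟨fun χ => Cfsg.classInner ϑ χ, fun χ => h5.2 _ χ.2.isCharacter, ?_⟩
  rw [finsum_eq_sum_of_fintype]
  exact h5.1.eq_sum

end Cfsg.Agent.S0875
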