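import Cfsg.Statements.S0876
import Cfsg.Agent.H3.Cong

set_option autoImplicit false
open Cfsg

namespace Cfsg.Agent.S0876
open H3
export H3 (inner_add_left inner_add_right inner_sub_left inner_sub_right inner_neg_left inner_neg_right
  inner_zero_left inner_zero_right inner_smul_left inner_smul_right inner_conj_symm inner_self_eq_zero
  inner_self_im)

/-- Let G be a finite group, p a prime and M a maximal ideal of the ring of algebraic integers containing p. Let x, y be elements with p-parts a and b (so a⁻¹ * x and b⁻¹ * y are their p-regular parts). Then a⁻¹ * x and b⁻¹ * y are conjugate in G if and only if, for every irreducible character χ, the difference χ x - χ y lies in the local ideal at M. -/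
theorem result {G : Type*} [Group G] [Finite G] (p : ℕ) (M : Ideal Cfsg.AlgInt) (hM : Cfsg.IsPModular p M) (x y a b : G) (ha : Cfsg.IsPPart p x a) (hb : Cfsg.IsPPart p y b) : IsConj (a⁻¹ * x) (b⁻¹ * y) ↔ ∀ χ : Cfsg.IrrCharacter G, Cfsg.MemLocalIdeal M ((χ : G → ℂ) x - (χ : G → ℂ) y) := by
  classical
  haveI := Fintype.ofFinite G
  haveI : H9.PMod p M := ⟨hM⟩
  have hp := hM.1
  obtain ⟨u, rfl, hu1, ⟨k, hk⟩, hu⟩ := ha
  obtain ⟨v, rfl, hv1, ⟨l, hl⟩, hv⟩ := hb
  simp only [inv_mul_cancel_left]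
  have h1 : ∀ χ, Cfsg.IsGeneralizedCharacter G χ → χ (a * u) - χ u ∈ H9.LI M := fun χ hχ =>
    hχ.sub_mem_LI hu1.eq (hk ▸ pow_orderOf_eq_one a)
  have h2 : ∀ χ, Cfsg.IsGeneralizedCharacter G χ → χ (b * v) - χ v ∈ H9.LI M := fun χ hχ =>
    hχ.sub_mem_LI hv1.eq (hl ▸ pow_orderOf_eq_one b)
  constructor
  · intro h χ
    have := sub_mem (h1 _ χ.2.isGen) (h2 _ χ.2.isGen)
    rw [χ.2.isClassFunction.of_isConj h, sub_sub_sub_cancel_right] at this
    exact this
  · intro h
    by_contra hc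
    obtain ⟨r, n, hn, hG⟩ := Nat.exists_eq_pow_mul_and_not_dvd (Nat.card_pos (α := G)).ne' p hp.ne_one
    have hcop : (p ^ r).Coprime n := Nat.Coprime.pow_left r ((Nat.Prime.coprime_iff_not_dvd hp).2 hn)
    obtain ⟨e, h3, h4⟩ := exists_modEq_one_dvd hcop.symm
    have h5 := comp_pow_mem_intSpan (G := G) hcop hG.dvd h3 h4
      ((isClassFunction_classInd u).smul n) (fun x => ⟨_, isIntegral_classInd u x, rfl⟩)
    have ho : ∀ x : G, ¬ p ∣ orderOf x → x ^ e = x := fun x hx =>
      pow_eq_of_modEq ((Nat.Coprime.pow_right r ((Nat.Prime.coprime_iff_not_dvd hp).2 hx).symm).dvd_of_dvd_mul_left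
        (hG ▸ orderOf_dvd_natCard x)) h3
    have h6 : ((n : ℂ) • classInd u) (u ^ e) - ((n : ℂ) • classInd u) (v ^ e) ∈ H9.LI M := by
      rw [h5.1.apply_eq_sum u, h5.1.apply_eq_sum v, ← Finset.sum_sub_distrib]
      refine sum_mem (fun χ _ => ?_)
      rw [← mul_sub]
      refine H9.LI_mul_left (H9.mem_LR_of_isIntegral (h5.2 _ χ.2.isCharacter)) ?_
      have := add_mem (sub_mem (H9.mem_LI.2 (h χ)) (h1 _ χ.2.isGen)) (h2 _ χ.2.isGen)
      convert this using 1
      ring
    rw [ho u hu, ho v hv] at h6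
    simp only [Pi.smul_apply, classInd, if_neg hc, IsConj.refl, if_true, smul_eq_mul, mul_one, mul_zero,
      sub_zero] at h6
    exact hn ((H9.natCast_mem_LI_iff n).1 h6)

end Cfsg.Agent.S0876
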