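import Cfsg.Statements.S0877
import Cfsg.Agent.H3.Cong

set_option autoImplicit false
open Cfsg

namespace Cfsg.Agent.S0877
open H3
export H3 (inner_add_left inner_add_right inner_sub_left inner_sub_right inner_neg_left inner_neg_right
  inner_zero_left inner_zero_right inner_smul_left inner_smul_right inner_conj_symm inner_self_eq_zero
  inner_self_im)

/-- Let H be a subgroup of the finite group G whose order is coprime to its index. Suppose that elements of H conjugate in G are conjugate in H, and that every subgroup E of G that is elementary for some prime (in the sense used for Brauer's characterisation of characters) and whose order divides the order of H is conjugate to a subgroup of H. Then there is a normal subgroup K with K ⊔ H = ⊤ and K ⊓ H trivial. -/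
theorem result {G : Type*} [Group G] [Finite G] (H : Subgroup G) (hHall : Nat.Coprime (Nat.card H) H.index) (hfus : ∀ x ∈ H, ∀ y ∈ H, IsConj x y → ∃ h ∈ H, h * x * h⁻¹ = y) (helem : ∀ (E : Subgroup G) (p : ℕ), p.Prime → Cfsg.IsElementary p E → Nat.card E ∣ Nat.card H → ∃ g : G, E.map (MulAut.conj g).toMonoidHom ≤ H) : ∃ K : Subgroup G, K.Normal ∧ K ⊔ H = ⊤ ∧ K ⊓ H = ⊥ := by
  classical
  obtain ⟨e, h1, h2⟩ := exists_modEq_one_dvd hHall
  obtain ⟨e', h3, h4⟩ := exists_modEq_one_dvd hHall.symm
  have ho : ∀ x : G, orderOf x ∣ Nat.card H * H.index := fun x => H.card_mul_index ▸ orderOf_dvd_natCard x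
  have h5 : ∀ g : G, ∃ h : H, IsConj (g ^ e) h := by
    intro g
    obtain ⟨q, hq, hq'⟩ := Nat.exists_infinite_primes (Nat.card G + 1)
    obtain ⟨x, hx⟩ := helem (Subgroup.zpowers (g ^ e)) q hq' ⟨⟨g ^ e, Subgroup.mem_zpowers _⟩,
      Subgroup.mem_center_iff.2 (fun y => IsCyclic.commGroup.mul_comm _ _), by
        rw [← Subgroup.orderOf_coe]
        exact ((Nat.Prime.coprime_iff_not_dvd hq').2 (fun h => by
          have := Nat.le_of_dvd Nat.card_pos (h.trans (orderOf_dvd_natCard _))
          omega)).symm, 0, by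
        rw [pow_zero, Subgroup.index_eq_one, eq_top_iff]
        rintro ⟨_, n, rfl⟩ -
        exact ⟨n, rfl⟩⟩ (by rw [Nat.card_zpowers]; exact orderOf_pow_dvd_left (ho g) h2)
    exact ⟨⟨_, hx ⟨_, Subgroup.mem_zpowers _, rfl⟩⟩, isConj_iff.2 ⟨x, rfl⟩⟩
  choose f hf using h5
  have h6 : ∀ (g : G) (h : H), IsConj (g ^ e) h → IsConj h (f g) := by
    intro g h hh
    obtain ⟨y, hy, hy'⟩ := hfus h h.2 (f g) (f g).2 (hh.symm.trans (hf g))
    exact isConj_iff.2 ⟨⟨y, hy⟩, Subtype.ext hy'⟩
  obtain ⟨K, h7, -, h8, h9⟩ := exists_normal_complement_of_lift H f (fun φ hφ => by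
    apply isGen_of_elementary
    · intro g x
      refine (hφ.isClassFunction.of_isConj (h6 _ _ ?_)).symm
      rw [conj_pow]
      exact (isConj_iff.2 ⟨x, rfl⟩).symm.trans (hf g)
    · intro E p hp hE
      haveI := hE.isNilpotent hp
      obtain ⟨A, B, π, π', hA, -, -, hπ, -⟩ := exists_proj_of_nilpotent (E := E) hHall
        (H.card_mul_index ▸ Subgroup.card_subgroup_dvd_card E) h1 h2 h3 h4
      obtain ⟨x, hx⟩ := helem (A.map E.subtype) p hp
        ((hE.subgroup hp A).of_equiv (A.equivMapOfInjective _ E.subtype_injective))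
        (by rwa [card_map_subtype])
      let j : A →* H := ((MulAut.conj x).toMonoidHom.comp (E.subtype.comp A.subtype)).codRestrict H
        (fun a => hx ⟨_, ⟨a, a.2, rfl⟩, rfl⟩)
      have := hφ.isGen.comp (j.comp π)
      convert this using 2 with y
      refine (hφ.isClassFunction.of_isConj (h6 _ _ (isConj_iff.2 ⟨x, ?_⟩))).symm
      change _ = x * ((π y : E) : G) * x⁻¹
      rw [hπ, Subgroup.coe_pow])
    (fun h => h6 _ _ (by rw [pow_eq_of_modEq (H.orderOf_dvd_natCard h.2) h1]))
  exact ⟨K, h7, h8, h9⟩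

end Cfsg.Agent.S0877
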