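import Cfsg.Statements.S0879
import Mathlib
import Cfsg.Agent.H8.Zas2

set_option autoImplicit false
open Cfsg

namespace Cfsg.Agent.S0879

open H8

/-- Let G be a Zassenhaus group on the finite set Ω and E the stabilizer of two distinct points a, b. Then an element outside the normalizer of E conjugates no non-identity element of E into E, and E has index 2 in its normalizer. -/
theorem result {G Ω : Type*} [Group G] [Finite G] [MulAction G Ω] [Fintype Ω] (hZ : Cfsg.IsZassenhausGroup G Ω) {a b : Ω} (hab : a ≠ b) : (∀ g : G, g ∉ Subgroup.normalizer ((MulAction.stabilizer G a ⊓ MulAction.stabilizer G b : Subgroup G) : Set G) → ∀ x ∈ (MulAction.stabilizer G a ⊓ MulAction.stabilizer G b : Subgroup G), g * x * g⁻¹ ∈ (MulAction.stabilizer G a ⊓ MulAction.stabilizer G b : Subgroup G) → x = 1) ∧ ((MulAction.stabilizer G a ⊓ MulAction.stabilizer G b : Subgroup G).subgroupOf (Subgroup.normalizer ((MulAction.stabilizer G a ⊓ MulAction.stabilizer G b : Subgroup G) : Set G))).index = 2 := by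
  have h := Zs.of_zas hZ
  have hne := exists_S2_ne_one hZ hab
  refine ⟨fun g hg x hx hx' => by_contra fun h1 =>
    hg ((h.mem_normalizer_S2 hab hne).2 (h.pres_of_conj_mem hab hx h1 hx')), ?_⟩
  obtain ⟨s, hs⟩ := h.exists_sw hab
  rw [Subgroup.index_eq_two_iff]
  refine ⟨⟨s, hs.mem_normalizer⟩, fun g => ?_⟩
  simp only [Subgroup.mem_subgroupOf, Subgroup.coe_mul]
  rcases (h.mem_normalizer_S2 hab hne).1 g.2 with hg | hg
  · exact Or.inr ⟨hg, fun e => hab ((hs.S2_mul hg).1.symm.trans e.1).symm⟩
  · exact Or.inl ⟨hg.mul hs, fun e => hab (hg.1.symm.trans e.1).symm⟩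

end Cfsg.Agent.S0879
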