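import Cfsg.Statements.S0883
import Mathlib
import Cfsg.Agent.H8.Zas3

set_option autoImplicit false
open Cfsg

namespace Cfsg.Agent.S0883

open H8 Subgroup

/-- Let G be a finite simple Zassenhaus group on Ω with h + 1 points whose two-point stabilizer E has odd order e with 2e < h - 1, and let H be the subgroup of the stabilizer of a consisting of the identity and the elements fixing no point other than a (given here as a subgroup of the stabilizer of order one less than the number of points whose non-identity elements fix only a; it is the Frobenius kernel of the stabilizer). If a non-identity element u of H is a product of two involutions of G, then u is an involution. -/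
theorem result {G Ω : Type*} [Group G] [Finite G] [MulAction G Ω] [Fintype Ω] (hZ : Cfsg.IsZassenhausGroup G Ω) {a b : Ω} (hab : a ≠ b) [IsSimpleGroup G] (h e : ℕ) (hh : Fintype.card Ω = h + 1) (he : Nat.card ↥(MulAction.stabilizer G a ⊓ MulAction.stabilizer G b : Subgroup G) = e) (hodd : Odd e) (hlt : 2 * e < h - 1) (H : Subgroup G) (hHa : H ≤ MulAction.stabilizer G a) (hHcard : Nat.card H + 1 = Fintype.card Ω) (hHfix : ∀ u ∈ H, u ≠ 1 → ∀ c : Ω, u • c = c → c = a) (u : G) (hu : u ∈ H) (hu1 : u ≠ 1) (x y : G) (hx : orderOf x = 2) (hy : orderOf y = 2) (hxy : x * y = u) : orderOf u = 2 := by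
  have hz := Zs.of_zas hZ
  subst he hxy
  have hinv := fun s hs => hz.inv_of_simple hab hodd (s := s) hs
  obtain rfl := hz.eq_ker_of_card hHa (by rw [hHcard, Nat.card_eq_fintype_card]) hHfix
  rw [orderOf_eq_two_iff'] at *
  obtain ⟨h1, h2⟩ := hz.mem_ker_of_prod hab hodd hx.1 hx.2 hy.1 hu hu1
  refine ⟨?_, hu1⟩
  have := (hz.invol_ker hab (exists_S2_ne_one hZ hab) hodd hinv h1 hx.1 hx.2).1 y h2
  rw [mul_assoc, ← mul_assoc y, this, mul_assoc, hy.1, mul_one, hx.1]

end Cfsg.Agent.S0883
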