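import Cfsg.Statements.S0884
import Mathlib
import Cfsg.Agent.H8.Zas3

set_option autoImplicit false
open Cfsg

namespace Cfsg.Agent.S0884

open H8 Subgroup

/-- Let G be a finite simple Zassenhaus group on Ω with h + 1 points whose two-point stabilizer E has odd order e with 2e < h - 1, and let H be the subgroup of the stabilizer of a consisting of the identity and the elements fixing no point other than a (given here as a subgroup of the stabilizer of order one less than the number of points whose non-identity elements fix only a; it is the Frobenius kernel of the stabilizer). Then at least e conjugacy classes of G contain no element of H. -/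
theorem result {G Ω : Type*} [Group G] [Finite G] [MulAction G Ω] [Fintype Ω] (hZ : Cfsg.IsZassenhausGroup G Ω) {a b : Ω} (hab : a ≠ b) [IsSimpleGroup G] (h e : ℕ) (hh : Fintype.card Ω = h + 1) (he : Nat.card ↥(MulAction.stabilizer G a ⊓ MulAction.stabilizer G b : Subgroup G) = e) (hodd : Odd e) (hlt : 2 * e < h - 1) (H : Subgroup G) (hHa : H ≤ MulAction.stabilizer G a) (hHcard : Nat.card H + 1 = Fintype.card Ω) (hHfix : ∀ u ∈ H, u ≠ 1 → ∀ c : Ω, u • c = c → c = a) : e ≤ Nat.card {C : ConjClasses G // ∀ g : G, ConjClasses.mk g = C → g ∉ H} := by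
  classical
  have hz := Zs.of_zas hZ
  subst he
  have hinv := fun s hs => hz.inv_of_simple hab hodd (s := s) hs
  obtain rfl := hz.eq_ker_of_card hHa (by rw [hHcard, Nat.card_eq_fintype_card]) hHfix
  have hne := exists_S2_ne_one hZ hab
  set S : Set G := {g | ∀ c, g ∉ hz.ker c} with hS
  have e1 : Nat.card {C : ConjClasses G // ∀ g : G, ConjClasses.mk g = C → g ∉ hz.ker a} =
      (ConjClasses.mk '' S).ncard := by
    rw [← Nat.card_coe_set_eq]
    refine Nat.card_congr (Equiv.subtypeEquivRight fun C => ⟨fun hC => ?_, ?_⟩)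
    · obtain ⟨g, rfl⟩ := ConjClasses.mk_surjective C
      refine ⟨g, fun c hc => ?_, rfl⟩
      obtain ⟨k, rfl⟩ := hz.trans c a
      exact hC _ (ConjClasses.mk_eq_mk_iff_isConj.2 (isConj_iff.2 ⟨k, rfl⟩).symm) (Zs.conj_mem_ker hc k)
    · rintro ⟨g, hg, rfl⟩ x hx hx'
      obtain ⟨k, rfl⟩ := isConj_iff.1 (ConjClasses.mk_eq_mk_iff_isConj.1 hx)
      exact hg _ (Zs.conj_mem_ker hx' k)
  have e2 := ncard_commute_pairs (S := S) fun x hx y hy c hc => by
    obtain ⟨k, rfl⟩ := isConj_iff.1 hy.symm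
    exact hx _ (Zs.conj_mem_ker hc k)
  rw [e1]
  set I : Set G := {t | t * t = 1 ∧ t ≠ 1} with hI
  have e3 : I.ncard = _ := hz.card_invol hab hodd hinv
  have e4 : {p : G × G | p.1 ∈ I ∧ p.2 ∈ I}.ncard = I.ncard * I.ncard :=
    ncard_pairs_fst (fun x y => x ∈ I ∧ y ∈ I) I (fun _ _ h => h.1) fun x hx => by simp [hx]
  have hf : ∀ g : G, ∃ x : G, (∃ y : G, y * g * y⁻¹ = g⁻¹) → x * g * x⁻¹ = g⁻¹ := fun g => by
    by_cases hg : ∃ y : G, y * g * y⁻¹ = g⁻¹
    · obtain ⟨y, hy⟩ := hg; exact ⟨y, fun _ => hy⟩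
    · exact ⟨1, fun h' => absurd h' hg⟩
  choose f hf using hf
  have e5 : {p : G × G | p.1 ∈ I ∧ p.2 ∈ I ∧ p.1 * p.2 ∈ S}.ncard ≤
      {p : G × G | p.1 ∈ S ∧ Commute p.1 p.2}.ncard := by
    refine Set.ncard_le_ncard_of_injOn (fun p => (p.1 * p.2, (f (p.1 * p.2))⁻¹ * p.1)) ?_ ?_
    · rintro ⟨x, y⟩ ⟨hx, hy, hxy⟩
      refine ⟨hxy, ?_⟩
      have h1 : x * (x * y) * x⁻¹ = (x * y)⁻¹ := by
        rw [← mul_assoc, hx.1, one_mul, mul_inv_rev, inv_eq_of_mul_eq_one_right hy.1]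
      have h2 := hf _ ⟨x, h1⟩
      show x * y * ((f (x * y))⁻¹ * x) = (f (x * y))⁻¹ * x * (x * y)
      generalize x * y = g at *
      calc g * ((f g)⁻¹ * x) = (f g)⁻¹ * (f g * g * (f g)⁻¹) * x := by group
        _ = _ := by rw [h2, ← h1]; group
    · rintro ⟨x, y⟩ - ⟨x', y'⟩ - e
      obtain ⟨h1, h2⟩ := Prod.mk.inj e
      simp only at h1 h2
      rw [h1, mul_left_cancel_iff] at h2
      rw [h2, mul_left_cancel_iff] at h1
      rw [h1, h2]
  have e6 : {p : G × G | p.1 ∈ I ∧ p.2 ∈ I ∧ p.1 * p.2 ∉ S}.ncard ≤ I.ncard *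
      (if Even (Nat.card (hz.ker a)) then Nat.card (S2 G a b) else 1) := by
    refine ncard_le_mul_of_fibers (Set.toFinite _) Prod.fst (Set.toFinite _) (fun p hp => hp.1)
      fun x hx => ?_
    have key : ∀ p ∈ {p ∈ {p : G × G | p.1 ∈ I ∧ p.2 ∈ I ∧ p.1 * p.2 ∉ S} | p.1 = x},
        p = (x, x) ∨ ∃ c, x ∈ hz.ker c ∧ p.2 ∈ hz.ker c := by
      rintro ⟨x', y⟩ ⟨⟨-, hy, hxy⟩, e⟩
      obtain rfl : x = x' := e.symm
      simp only [hS, Set.mem_ofPred_eq, not_forall, not_not] at hxy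
      obtain ⟨c, hc⟩ := hxy
      by_cases h1 : x * y = 1
      · left; rw [← inv_eq_of_mul_eq_one_right h1, inv_eq_of_mul_eq_one_right hx.1]
      · exact Or.inr ⟨c, hz.mem_ker_of_prod hab hodd hx.1 hx.2 hy.1 hc h1⟩
    by_cases h0 : ∃ c, x ∈ hz.ker c
    · obtain ⟨c, hc⟩ := h0
      obtain ⟨d, hd⟩ := hz.exists_ne c
      have h1 := hz.card_S2_eq hab hd.symm
      rw [if_pos (by rw [hz.card_ker', ← hz.card_ker' c]; exact even_of_invol hc hx.1 hx.2), h1]
      have h2 := (hz.invol_ker hd.symm (exists_S2_ne_one hZ hd.symm) (h1 ▸ hodd)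
        (hz.inv_transport hab hinv hd.symm) hc hx.1 hx.2).2
      refine le_trans (Set.ncard_le_ncard (t := (fun k => (x, k * x * k⁻¹)) '' (S2 G c d : Set G))
        fun p hp => ?_) ((Set.ncard_image_le (Set.toFinite _)).trans (le_of_eq rfl))
      rcases key p hp with rfl | ⟨c', h3, h4⟩
      · exact ⟨1, one_mem _, by simp⟩
      · obtain rfl : c' = c := by
          by_contra h5; exact hx.2 (Zs.ker_eq_one hc h5 (Zs.ker_fix h3))
        obtain ⟨k, hk, e⟩ := h2 _ h4 hp.1.2.1.1 hp.1.2.1.2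
        exact ⟨k, hk, Prod.ext hp.2.symm e⟩
    · refine le_trans (Set.ncard_le_ncard (t := {(x, x)}) fun p hp =>
        (key p hp).resolve_right fun ⟨c, hc, _⟩ => h0 ⟨c, hc⟩) ?_
      rw [Set.ncard_singleton]
      split_ifs
      · exact Nat.card_pos
      · rfl
  have e7 : {p : G × G | p.1 ∈ I ∧ p.2 ∈ I}.ncard ≤ _ := le_trans (Set.ncard_le_ncard
    (t := {p : G × G | p.1 ∈ I ∧ p.2 ∈ I ∧ p.1 * p.2 ∈ S} ∪
      {p : G × G | p.1 ∈ I ∧ p.2 ∈ I ∧ p.1 * p.2 ∉ S}) fun p hp => by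
        by_cases h1 : p.1 * p.2 ∈ S
        exacts [Or.inl ⟨hp.1, hp.2, h1⟩, Or.inr ⟨hp.1, hp.2, h1⟩]) (Set.ncard_union_le _ _)
  rw [e2, hz.card_G hab] at e5
  have h1 := hz.card_ker a
  rw [Nat.card_eq_fintype_card (α := Ω), hh] at h1
  have h2 : 0 < Nat.card (S2 G a b) := Nat.card_pos
  change 2 * Nat.card (S2 G a b) < _ at hlt
  change Nat.card (S2 G a b) ≤ _
  have e8 := e4.symm.le.trans (e7.trans (add_le_add e5 e6))
  rw [e3] at e8
  have h3 : 2 * Nat.card (S2 G a b) < Nat.card (hz.ker a) := by omega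
  generalize Nat.card (S2 G a b) = d at *
  generalize Nat.card (hz.ker a) = n at *
  generalize (ConjClasses.mk '' S).ncard = r at *
  by_contra hr
  have hr' : r + 1 ≤ d := by omega
  have hn : 0 < n := by omega
  have h4 := Nat.mul_le_mul_right ((n + 1) * n * d) hr'
  split_ifs at e8
  · have : 0 < (n + 1) * n * d := by positivity
    nlinarith
  · have : d * n * (d + 1) ≤ d * n * n := Nat.mul_le_mul_left _ (by omega)
    have : 0 < d * n := by positivity
    nlinarith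

end Cfsg.Agent.S0884
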