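import Cfsg.Statements.S0893
import Cfsg.Agent.H3.Down2

set_option autoImplicit false
open Cfsg

namespace Cfsg.Agent.S0893
open H3
export H3 (inner_add_left inner_add_right inner_sub_left inner_sub_right inner_neg_left inner_neg_right
  inner_zero_left inner_zero_right inner_smul_left inner_smul_right inner_conj_symm inner_self_eq_zero
  inner_self_im)

/-- Let P be an extraspecial p-group of order p ^ (2 * n + 1), A an abelian subgroup of order p ^ (n + 1), and λ a character of A of degree 1 that is not identically 1 on the elements of A lying in the centre of P. Then the function induced from λ to P is an irreducible character of P and vanishes at every element outside the centre. -/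
theorem result {P : Type*} [Group P] [Fintype P] (p n : ℕ) [Fact p.Prime] (hP : Cfsg.IsExtraspecial p P) (hcard : Nat.card P = p ^ (2 * n + 1)) (A : Subgroup P) (hab : ∀ a ∈ A, ∀ b ∈ A, a * b = b * a) (hA : Nat.card A = p ^ (n + 1)) (lam : A → ℂ) (hlam : Cfsg.IsCharacter A lam ∧ lam 1 = 1) (hZ : ∃ a : A, (a : P) ∈ Subgroup.center P ∧ lam a ≠ 1) : Cfsg.IsIrrCharacter P (Cfsg.indFun A lam) ∧ ∀ x : P, x ∉ Subgroup.center P → Cfsg.indFun A lam x = 0 := by
  set_option maxSynthPendingDepth 3 in
  haveI : Fact (Nat.card (Subgroup.center P)).Prime := ⟨hP.2 ▸ Fact.out⟩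
  obtain ⟨a, a1, a2⟩ := hZ
  obtain ⟨μ, rfl⟩ := hlam.1.exists_lf hlam.2
  obtain ⟨χ, b, c⟩ := exists_irr_over A (lf_irr μ)
  have d : χ 1 ≠ 1 := fun e => a2 (by
    rw [← (b.isCharacter.res A).isIrr_of_deg_one e |>.eq_of_inner_ne_zero (lf_irr μ) c]
    exact (b.isCharacter.commutator_of_deg_one e (hP.1.2.2 ▸ a1)).trans e)
  have i : A.index = p ^ n := Nat.eq_of_mul_eq_mul_right (pow_pos (Fact.out : p.Prime).pos (n + 1)) (by
    conv_lhs => rw [← hA]
    rw [Subgroup.index_mul_card, hcard]; ring)
  rw [hlam.1.ind.eq_of_inner_ne_zero b (by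
    rw [inner_indFun_left _ _ b.isClassFunction, hlam.1.inner_comm (b.isCharacter.res A)]; exact c)
    (by rw [indFun_one, hlam.2, i, b.deg, es_deg hP hcard b d, mul_one])]
  exact ⟨b, (es_faithful hP b d).2.1⟩

end Cfsg.Agent.S0893
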