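import Cfsg.Statements.S0894
import Cfsg.Agent.H3.Down2

set_option autoImplicit false
open Cfsg

namespace Cfsg.Agent.S0894
open H3
export H3 (inner_add_left inner_add_right inner_sub_left inner_sub_right inner_neg_left inner_neg_right
  inner_zero_left inner_zero_right inner_smul_left inner_smul_right inner_conj_symm inner_self_eq_zero
  inner_self_im)

/-- Let P be an extraspecial p-group of order p ^ (2 * n + 1). Then every irreducible character of P has degree 1 or p ^ n, and exactly p - 1 of them have degree p ^ n. -/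
theorem result {P : Type*} [Group P] [Finite P] (p n : ℕ) [Fact p.Prime] (hP : Cfsg.IsExtraspecial p P) (hcard : Nat.card P = p ^ (2 * n + 1)) : (∀ χ : Cfsg.IrrCharacter P, (χ : P → ℂ) 1 = 1 ∨ (χ : P → ℂ) 1 = (p : ℂ) ^ n) ∧ Nat.card {χ : Cfsg.IrrCharacter P // (χ : P → ℂ) 1 = (p : ℂ) ^ n} = p - 1 := by
  set_option maxSynthPendingDepth 3 in
  classical
  have hp : p.Prime := Fact.out
  have a : ∀ χ : Cfsg.IrrCharacter P, χ.1 1 ≠ 1 ↔ χ.1 1 = (p : ℂ) ^ n := fun χ =>
    ⟨fun h => by rw [χ.2.deg, es_deg hP hcard χ.2 h, Nat.cast_pow], fun h e =>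
      (Nat.one_lt_pow (es_pos hP hcard) hp.one_lt).ne' (by exact_mod_cast h.symm.trans e)⟩
  refine ⟨fun χ => or_iff_not_imp_left.2 (a χ).1, ?_⟩
  have s := sum_dg_sq (G := P)
  rw [← Finset.sum_filter_add_sum_filter_not _ fun χ : Cfsg.IrrCharacter P => χ.1 1 = 1,
    Finset.sum_congr rfl fun χ h => show _ = 1 by rw [χ.2.isCharacter.dg_eq_one.2 (Finset.mem_filter.1 h).2, one_pow],
    Finset.sum_const, Finset.sum_congr rfl fun χ h => show _ = (p ^ n) ^ 2 by rw [es_deg hP hcard χ.2 (Finset.mem_filter.1 h).2],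
    Finset.sum_const, ← Fintype.card_subtype, ← Fintype.card_subtype, ← Nat.card_eq_fintype_card,
    ← Nat.card_eq_fintype_card, card_irr_deg_one, hP.1.2.2, es_index hP hcard, hcard,
    Nat.card_congr (Equiv.subtypeEquivRight a)] at s
  refine Nat.eq_sub_of_add_eq (Nat.eq_of_mul_eq_mul_right (pow_pos (pow_pos hp.pos n) 2) ?_)
  simp only [smul_eq_mul] at s
  rw [show p * (p ^ n) ^ 2 = p ^ (2 * n + 1) by ring, ← s]; ring

end Cfsg.Agent.S0894
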