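import Cfsg.Statements.S0895
import Cfsg.Agent.H3.Cong

set_option autoImplicit false
open Cfsg

namespace Cfsg.Agent.S0895
open H3
export H3 (inner_add_left inner_add_right inner_sub_left inner_sub_right inner_neg_left inner_neg_right
  inner_zero_left inner_zero_right inner_smul_left inner_smul_right inner_conj_symm inner_self_eq_zero
  inner_self_im)

/-- Let χ be a real-valued irreducible character of a finite group G whose degree is an odd natural number. Then the average over s in G of χ (s * s) equals 1. -/
theorem result {G : Type*} [Group G] [Fintype G] (χ : G → ℂ) (hχ : Cfsg.IsIrrCharacter G χ) (hreal : ∀ g : G, (χ g).im = 0) (d : ℕ) (hd : χ 1 = d) (hodd : Odd d) : (Nat.card G : ℂ)⁻¹ * ∑ s : G, χ (s * s) = 1 := by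
  classical
  have h1 : Cfsg.classInner χ (fun g => (starRingEnd ℂ) (χ g)) = 1 := by
    rw [conj_eq_iff_im.2 hreal, hχ.inner_self]
  obtain ⟨n, ρ, hρ, rfl⟩ := hχ
  have hn : n = d := by
    rw [Representation.char_one, Module.finrank_fin_fun] at hd
    exact_mod_cast hd
  subst hn
  let M : G → Matrix (Fin n) (Fin n) ℂ := fun g => LinearMap.toMatrix' (ρ g)
  have hM : ∀ g h, M (g * h) = M g * M h := fun g h => by
    simp only [M, map_mul, LinearMap.toMatrix'_mul]
  have hM1 : M 1 = 1 := by simp [M]
  have key : ∀ X : Matrix (Fin n) (Fin n) ℂ, X.transpose = -X →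
      ∑ g, M g * X * (M g).transpose = 0 := by
    intro X hX
    set B := ∑ g, M g * X * (M g).transpose with hB
    have h2 : B.transpose = -B := by
      rw [hB, Matrix.transpose_sum, ← Finset.sum_neg_distrib]
      refine Finset.sum_congr rfl (fun g _ => ?_)
      simp [Matrix.transpose_mul, hX, Matrix.mul_assoc]
    have h3 : ∀ h, M h * B * (M h).transpose = B := by
      intro h
      rw [hB, Finset.mul_sum, Finset.sum_mul]
      refine Fintype.sum_equiv (Equiv.mulLeft h) _ _ (fun g => ?_)
      simp [hM, Matrix.transpose_mul, Matrix.mul_assoc]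
    have h4 : ∀ h, M h * B = B * (M h⁻¹).transpose := by
      intro h
      nth_rewrite 2 [← h3 h]
      rw [Matrix.mul_assoc, ← Matrix.transpose_mul, ← hM, inv_mul_cancel, hM1,
        Matrix.transpose_one, Matrix.mul_one]
    rcases ((isIrreducible_iff ρ).1 hρ).2 (LinearMap.range (Matrix.toLin' B)) (by
      rintro g _ ⟨v, rfl⟩
      refine ⟨(M g⁻¹).transpose.mulVec v, ?_⟩
      rw [Matrix.toLin'_apply, Matrix.toLin'_apply, Matrix.mulVec_mulVec, ← h4,
        ← Matrix.mulVec_mulVec, LinearMap.toMatrix'_mulVec]) with h | h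
    · rw [LinearMap.range_eq_bot] at h
      exact Matrix.toLin'.injective (by rw [h, map_zero])
    · exfalso
      have h5 : B.det = 0 := by
        have := Matrix.det_transpose B
        rw [h2, Matrix.det_neg, Fintype.card_fin, hodd.neg_one_pow] at this
        linear_combination (-1 / 2 : ℂ) * this
      rw [LinearMap.range_eq_top, Matrix.toLin'_apply', Matrix.coe_mulVecLin,
        Matrix.mulVec_surjective_iff_isUnit, Matrix.isUnit_iff_isUnit_det, h5] at h
      exact not_isUnit_zero h
  have h6 : ∀ i j, ∑ g, (M g i i * M g j j - M g i j * M g j i) = 0 := by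
    intro i j
    have := congrFun (congrFun (key (Matrix.single i j 1 - Matrix.single j i 1) (by simp)) i) j
    rw [Matrix.sum_apply] at this
    rw [← Matrix.zero_apply i j, ← this]
    refine Finset.sum_congr rfl (fun g _ => ?_)
    simp [Matrix.mul_sub, Matrix.sub_mul, Matrix.mul_apply, Matrix.single_apply, ite_and, sub_mul,
      Finset.sum_sub_distrib]
  have h7 : ∑ g, ρ.character (g * g) = ∑ g, ρ.character g * ρ.character g := by
    rw [← sub_eq_zero, ← Finset.sum_sub_distrib, ← neg_eq_zero, ← Finset.sum_neg_distrib]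
    have : ∑ i, ∑ j, ∑ g, (M g i i * M g j j - M g i j * M g j i) = 0 := by simp [h6]
    rw [← this]
    simp only [Finset.sum_comm (s := (Finset.univ : Finset (Fin n))) (t := (Finset.univ : Finset G))]
    refine Finset.sum_congr rfl (fun g _ => ?_)
    rw [character_eq_trace, character_eq_trace]
    change -((M (g * g)).trace - (M g).trace * (M g).trace) = _
    rw [hM]
    simp only [Matrix.trace, Matrix.diag, Matrix.mul_apply, Finset.sum_mul_sum, Finset.sum_sub_distrib]
    ring
  rw [h7, ← h1, Cfsg.classInner]
  simp

end Cfsg.Agent.S0895
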