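import Cfsg.Statements.S0897
import Cfsg.Agent.H3.Down2

set_option autoImplicit false
open Cfsg

namespace Cfsg.Agent.S0897
open H3
export H3 (inner_add_left inner_add_right inner_sub_left inner_sub_right inner_neg_left inner_neg_right
  inner_zero_left inner_zero_right inner_smul_left inner_smul_right inner_conj_symm inner_self_eq_zero
  inner_self_im)

/-- Let N be a normal subgroup of the finite group G with the index of N a power of the prime p, and P a Sylow p-subgroup of G such that P ⊓ N lies in the centre of P and every character of degree 1 of P ⊓ N is the restriction of a character of degree 1 of P. Then every irreducible character of N invariant under conjugation by G is the restriction of an irreducible character of G. -/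
theorem result {G : Type*} [Group G] [Fintype G] (p : ℕ) [Fact p.Prime] (N : Subgroup G) [hN : N.Normal] (hind : ∃ k : ℕ, N.index = p ^ k) (P : Sylow p G) (hcent : ∀ x ∈ (P : Subgroup G) ⊓ N, ∀ y ∈ (P : Subgroup G), x * y = y * x) (hlin : ∀ lam : ↥((P : Subgroup G) ⊓ N) → ℂ, Cfsg.IsCharacter ↥((P : Subgroup G) ⊓ N) lam → lam 1 = 1 → ∃ μ : ↥(P : Subgroup G) → ℂ, Cfsg.IsCharacter ↥(P : Subgroup G) μ ∧ μ 1 = 1 ∧ ∀ x : ↥((P : Subgroup G) ⊓ N), μ ⟨(x : G), x.2.1⟩ = lam x) (ϑ : N → ℂ) (hϑ : Cfsg.IsIrrCharacter N ϑ) (hinv : ∀ (g : G) (n : N), ϑ ⟨g * n * g⁻¹, hN.conj_mem (n : G) n.2 g⟩ = ϑ n) : ∃ χ : G → ℂ, Cfsg.IsIrrCharacter G χ ∧ ∀ n : N, χ n = ϑ n := by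
  set_option maxSynthPendingDepth 3 in
  obtain ⟨k, hk⟩ := hind
  have o : N ⊓ ⁅(P : Subgroup G), (P : Subgroup G)⁆ = ⊥ := eq_bot_iff.2 fun y h => of_not_not fun c => by
    have y1 := H7.comm_le_of_le le_rfl le_rfl h.2
    obtain ⟨l, e⟩ := exists_lin_ne_one (g := (⟨y, y1, h.1⟩ : ↥((P : Subgroup G) ⊓ N))) fun u => c (congrArg Subtype.val
      ((commutator_le_of_comm (fun a b => Subtype.ext (hcent _ a.2 _ b.2.1)) ⊥) u))
    obtain ⟨μ, a, b, d⟩ := hlin _ (lf_ch l) (by simp [lf_apply])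
    refine e (Units.ext ((d _).symm.trans ((a.commutator_of_deg_one b ?_).trans b)))
    obtain ⟨z, u, v⟩ := (P : Subgroup G).map_subtype_commutator.ge h.2
    exact (show z = ⟨y, y1⟩ from Subtype.ext v) ▸ u
  obtain ⟨χ, a, b⟩ := ext_of_pquot Fact.out hk (fun Q h => by
    obtain ⟨g, -, l⟩ := (H1B.syl_top P).exists_cj_le h le_top
    rw [← H7.cj_eq_bot (g := g), H7.cj_inf, H7.cj_normal, H7.cj_commutator]
    exact eq_bot_iff.2 ((inf_le_inf_left _ (Subgroup.commutator_mono l l)).trans o.le)) hϑ (inertia_eq_top.2 hinv)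
  exact ⟨χ, a, congrFun b⟩

end Cfsg.Agent.S0897
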