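import Cfsg.Statements.S0900
import Cfsg.Agent.H3.Cong

set_option autoImplicit false
open Cfsg

namespace Cfsg.Agent.S0900
open H3
export H3 (inner_add_left inner_add_right inner_sub_left inner_sub_right inner_neg_left inner_neg_right
  inner_zero_left inner_zero_right inner_smul_left inner_smul_right inner_conj_symm inner_self_eq_zero
  inner_self_im)

/-- Let N be a normal subgroup of the finite group G, χ an irreducible character of G and ϑ an irreducible character of N having nonzero inner product with the restriction of χ. Consider: (a) the restriction of χ to N is e • ϑ for a natural number e with e ^ 2 equal to the index of N; (b) χ vanishes outside N and ϑ is invariant under conjugation by G; (c) ϑ is invariant and every irreducible character of G having nonzero inner product with the function induced from ϑ equals χ. Then (a) ↔ (b) and (a) ↔ (c). -/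
theorem result {G : Type*} [Group G] [Fintype G] (N : Subgroup G) [hN : N.Normal] [Fintype N] (χ : G → ℂ) (hχ : Cfsg.IsIrrCharacter G χ) (ϑ : N → ℂ) (hϑ : Cfsg.IsIrrCharacter N ϑ) (hcon : Cfsg.classInner (fun n : N => χ n) ϑ ≠ 0) : ((∃ e : ℕ, (fun n : N => χ n) = (e : ℂ) • ϑ ∧ e ^ 2 = N.index) ↔ ((∀ g : G, g ∉ N → χ g = 0) ∧ ∀ (g : G) (n : N), ϑ ⟨g * n * g⁻¹, hN.conj_mem (n : G) n.2 g⟩ = ϑ n)) ∧ ((∃ e : ℕ, (fun n : N => χ n) = (e : ℂ) • ϑ ∧ e ^ 2 = N.index) ↔ (∀ (g : G) (n : N), ϑ ⟨g * n * g⁻¹, hN.conj_mem (n : G) n.2 g⟩ = ϑ n ∧ ∀ ψ : G → ℂ, Cfsg.IsIrrCharacter G ψ → Cfsg.classInner (Cfsg.indFun N ϑ) ψ ≠ 0 → ψ = χ)) := by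
  have hi : (N.index : ℂ) ≠ 0 := by exact_mod_cast Subgroup.index_ne_zero_of_finite
  have h1 : ∀ e : ℕ, (fun n : N => χ n) = (e : ℂ) • ϑ → e ^ 2 = N.index → inertia ϑ = ⊤ := by
    intro e he he2
    refine inertia_eq_top_of_res hχ.isClassFunction ?_ he
    rintro h
    rw [← he2] at hi
    push_cast at hi
    exact hi (by rw [h]; ring)
  constructor
  · constructor
    · rintro ⟨e, he, he2⟩
      refine ⟨(inner_res_self_eq_iff N χ).1 ?_, inertia_eq_top.1 (h1 e he he2)⟩
      rw [he, inner_smul_smul_irr hϑ, he2, hχ.inner_self, mul_one]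
    · rintro ⟨h2, h3⟩
      obtain ⟨e, -, -, he⟩ := clifford_invariant' hχ hϑ hcon (inertia_eq_top.2 h3)
      have := (inner_res_self_eq_iff N χ).2 h2
      rw [he, inner_smul_smul_irr hϑ, hχ.inner_self, mul_one] at this
      exact ⟨e, he, by exact_mod_cast this⟩
  · constructor
    · rintro ⟨e, he, he2⟩ g n
      refine ⟨inertia_eq_top.1 (h1 e he he2) g n, fun ψ hψ hi => ?_⟩
      have h2 : Cfsg.classInner (Cfsg.indFun N ϑ) χ = e := by
        rw [inner_indFun_left _ _ hχ.isClassFunction, he, inner_smul_right, hϑ.inner_self]; simp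
      have h3 : Cfsg.indFun N ϑ - (e : ℂ) • χ = 0 := by
        rw [← inner_self_eq_zero, inner_sub_left, inner_sub_right, inner_sub_right,
          inner_smul_smul_irr hχ, inner_indFun_self hϑ, h1 e he he2, Subgroup.relIndex_top_right,
          inner_smul_left, inner_smul_right, hχ.isCharacter.inner_comm hϑ.isCharacter.ind, h2, ← he2]
        simp [sq]
      rw [sub_eq_zero.1 h3, inner_smul_left] at hi
      exact (hχ.eq_of_inner_ne_zero hψ (right_ne_zero_of_mul hi)).symm
    · intro h
      have h3 := inertia_eq_top.2 (fun g n => (h g n).1)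
      obtain ⟨e, -, he1, he⟩ := clifford_invariant' hχ hϑ hcon h3
      refine ⟨e, he, ?_⟩
      have h2 : Cfsg.indFun N ϑ = (e : ℂ) • χ := by
        apply (isClassFunction_indFun _ _).ext_inner (hχ.isClassFunction.smul _)
        intro ψ hψ
        by_cases h4 : ψ = χ
        · rw [h4, inner_smul_left, hχ.inner_self, inner_indFun_left _ _ hχ.isClassFunction, he,
            inner_smul_right, hϑ.inner_self]; simp
        · rw [inner_smul_left, hχ.inner_of_ne hψ (Ne.symm h4), mul_zero]
          by_contra h5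
          exact h4 ((h 1 1).2 ψ hψ h5)
      have := inner_indFun_self hϑ
      rw [h2, inner_smul_smul_irr hχ, h3, Subgroup.relIndex_top_right] at this
      exact_mod_cast this

end Cfsg.Agent.S0900
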