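import Cfsg.Statements.S0901
import Cfsg.Agent.H9.Rob

set_option autoImplicit false
open Cfsg

namespace Cfsg.Agent.S0901
open H9 H3 MonoidAlgebra
open scoped Pointwise
set_option linter.style.haveILetI false
set_option linter.unusedVariables false


/-- Let M be a maximal ideal of the ring of algebraic integers containing the prime p, and let U be the set of complex roots of unity of order prime to p. Then reduction modulo M is injective on U, and every algebraic integer not in M is congruent modulo M to an element of U (so U maps bijectively onto the nonzero residues). -/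
theorem result (p : ℕ) [Fact p.Prime] (M : Ideal Cfsg.AlgInt) (hM : Cfsg.IsPModular p M) : (∀ ε₁ ε₂ : Cfsg.AlgInt, (∃ m : ℕ, ¬ p ∣ m ∧ (ε₁ : ℂ) ^ m = 1) → (∃ m : ℕ, ¬ p ∣ m ∧ (ε₂ : ℂ) ^ m = 1) → ε₁ - ε₂ ∈ M → ε₁ = ε₂) ∧ (∀ a : Cfsg.AlgInt, a ∉ M → ∃ ε : Cfsg.AlgInt, (∃ m : ℕ, ¬ p ∣ m ∧ (ε : ℂ) ^ m = 1) ∧ a - ε ∈ M) := by
  haveI : PMod p M := ⟨hM⟩
  constructor
  · rintro ε₁ ε₂ ⟨m, hm, h1⟩ ⟨n, hn, h2⟩ h
    have hn0 : n ≠ 0 := fun h0 => hn (h0 ▸ dvd_zero p)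
    have h0 : (ε₂ : ℂ) ≠ 0 := ne_zero_of_not_mem_LI (rootOfUnity_not_mem_LI (M := M) hn0 h2)
    have h3 : (ε₁ : ℂ) / ε₂ = 1 := by
      refine eq_one_of_sub_one_mem_LI (M := M) (m := m * n)
        (fun h => ((Fact.out : p.Prime).dvd_mul.1 h).elim hm hn) ?_ ?_
      · rw [div_pow, pow_mul, h1, mul_comm, pow_mul, h2]; simp
      · rw [div_sub_one h0]
        exact div_mem_LI (by simpa using (algInt_mem_LI_iff (ε₁ - ε₂)).2 h) (algInt_mem_LR ε₂)
          (rootOfUnity_not_mem_LI hn0 h2)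
    exact Subtype.ext ((div_eq_one_iff_eq h0).1 h3)
  · intro a ha
    obtain ⟨ε, m, hm, h1, h2⟩ := exists_root_red (M := M) (x := red M a)
      (red_ne_zero_iff.2 ⟨algInt_mem_LR a, fun h => ha ((algInt_mem_LI_iff a).1 h)⟩)
    have hm0 : m ≠ 0 := fun h0 => hm (h0 ▸ dvd_zero p)
    have hi : IsIntegral ℤ ε := IsIntegral.of_pow (Nat.pos_of_ne_zero hm0) (h1 ▸ isIntegral_one)
    refine ⟨⟨ε, hi⟩, ⟨m, hm, h1⟩, (algInt_mem_LI_iff _).1 ?_⟩
    exact (red_eq_red_iff (algInt_mem_LR a) (mem_LR_of_isIntegral hi)).1 h2.symm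

end Cfsg.Agent.S0901
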