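import Cfsg.Statements.S0903
import Cfsg.Agent.H9.Rob

set_option autoImplicit false
open Cfsg

namespace Cfsg.Agent.S0903
open H9 H3 MonoidAlgebra
open scoped Pointwise
set_option linter.style.haveILetI false
set_option linter.unusedVariables false


/-- Let P be a p-subgroup of the finite group G, let c centralize P and let g, h ∈ G. The number of pairs (x, y) with x conjugate to g, y conjugate to h and x * y = c is congruent modulo p to the number of such pairs in which x and y both centralize P. (This is why the Brauer map on class sums is multiplicative.) -/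
theorem result {G : Type*} [Group G] [Finite G] (p : ℕ) [Fact p.Prime] (P : Subgroup G) (hP : IsPGroup p P) (c : G) (hc : c ∈ Subgroup.centralizer (P : Set G)) (g h : G) : Nat.card {xy : G × G // IsConj g xy.1 ∧ IsConj h xy.2 ∧ xy.1 * xy.2 = c} ≡ Nat.card {xy : G × G // IsConj g xy.1 ∧ IsConj h xy.2 ∧ xy.1 * xy.2 = c ∧ xy.1 ∈ Subgroup.centralizer (P : Set G) ∧ xy.2 ∈ Subgroup.centralizer (P : Set G)} [MOD p] := by
  classical
  haveI := Fintype.ofFinite G
  have hc' : ∀ u ∈ P, u * c * u⁻¹ = c := fun u hu => by rw [hc u hu]; group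
  have key := sum_conj_eq_charP (k := ZMod p) hP
    (fun x => if IsConj g x ∧ IsConj h (x⁻¹ * c) then 1 else 0) (fun u hu x => by
      have e : (u * x * u⁻¹)⁻¹ * c = u * (x⁻¹ * c) * u⁻¹ := by
        conv_lhs => rw [← hc' u hu]
        group
      have e' : ∀ a b : G, IsConj a (u * b * u⁻¹) ↔ IsConj a b := fun a b =>
        ⟨fun h => h.trans (isConj_iff.2 ⟨u⁻¹, by group⟩), fun h => h.trans (isConj_iff.2 ⟨u, rfl⟩)⟩
      simp only [e, e'])
  rw [Finset.sum_boole, Finset.sum_boole, Finset.filter_filter] at key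
  refine (ZMod.natCast_eq_natCast_iff _ _ _).1 ?_
  rw [Nat.card_eq_fintype_card, Nat.card_eq_fintype_card, Fintype.card_subtype,
    Fintype.card_subtype]
  convert key using 2
  · refine Finset.card_nbij' (·.1) (fun x => (x, x⁻¹ * c)) ?_ ?_ ?_ ?_
    · rintro ⟨x, y⟩ hx
      simp only [Finset.coe_filter, Finset.mem_univ, true_and, Set.mem_ofPred_eq] at hx ⊢
      obtain ⟨a, b, rfl⟩ := hx
      exact ⟨a, by rwa [inv_mul_cancel_left]⟩
    · intro x hx
      simp only [Finset.coe_filter, Finset.mem_univ, true_and, Set.mem_ofPred_eq] at hx ⊢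
      exact ⟨hx.1, hx.2, by group⟩
    · rintro ⟨x, y⟩ hx
      simp only [Finset.coe_filter, Finset.mem_univ, true_and, Set.mem_ofPred_eq] at hx ⊢
      obtain ⟨a, b, rfl⟩ := hx
      rw [inv_mul_cancel_left]
    · intro x _; rfl
  · refine Finset.card_nbij' (·.1) (fun x => (x, x⁻¹ * c)) ?_ ?_ ?_ ?_
    · rintro ⟨x, y⟩ hx
      simp only [Finset.coe_filter, Finset.mem_univ, true_and, Set.mem_ofPred_eq] at hx ⊢
      obtain ⟨a, b, rfl, d, -⟩ := hx
      exact ⟨d, a, by rwa [inv_mul_cancel_left]⟩
    · intro x hx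
      simp only [Finset.coe_filter, Finset.mem_univ, true_and, Set.mem_ofPred_eq] at hx ⊢
      exact ⟨hx.2.1, hx.2.2, by group, hx.1, mul_mem (inv_mem hx.1) hc⟩
    · rintro ⟨x, y⟩ hx
      simp only [Finset.coe_filter, Finset.mem_univ, true_and, Set.mem_ofPred_eq] at hx ⊢
      obtain ⟨a, b, rfl, -⟩ := hx
      rw [inv_mul_cancel_left]
    · intro x _; rfl

end Cfsg.Agent.S0903
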