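import Cfsg.Statements.S0905
import Cfsg.Agent.H9.Rob

set_option autoImplicit false
open Cfsg

namespace Cfsg.Agent.S0905
open H9 H3 MonoidAlgebra
open scoped Pointwise
set_option linter.style.haveILetI false
set_option linter.unusedVariables false


/-- Let F be a field of characteristic p and let g be an element of the finite group G no conjugate of which centralizes O_p(G). Then the class sum of g is a nilpotent element of the group algebra F[G]. -/
theorem result {G : Type*} [Group G] [Finite G] (p : ℕ) [Fact p.Prime] (F : Type*) [Field F] [CharP F p] (g : G) (hg : ∀ x : G, IsConj g x → x ∉ Subgroup.centralizer (Cfsg.pCore p G : Set G)) : IsNilpotent (∑ᶠ x ∈ ConjClasses.carrier (ConjClasses.mk g), MonoidAlgebra.single x (1 : F) : MonoidAlgebra F G) := by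
  classical
  haveI := Fintype.ofFinite G
  obtain ⟨M, hM⟩ := exists_pmod (Fact.out : p.Prime)
  haveI : PMod p M := ⟨hM⟩
  have h1 : IsNilpotent (classSum (RF M) g) := by
    refine isNilpotent_of_forall_lam (classSum_mem_Zc g) fun B => ?_
    refine B.lam_eq_zero_of_br (H1.isPGroup_pCore)
      (B.br_ne_zero_of_normal (H1.isPGroup_pCore)) (classSum_mem_Zc g) ?_
    by_contra h
    obtain ⟨x, h1, h2⟩ := br_classSum_ne_zero_iff.1 h
    exact hg x h1 h2
  have h2 : IsNilpotent (classSum (ZMod p) g) := by
    obtain ⟨n, hn⟩ := h1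
    refine ⟨n, ga_ext fun x => (ZMod.castHom (dvd_refl p) (RF M)).injective ?_⟩
    rw [← map_classSum (ZMod.castHom (dvd_refl p) (RF M)), ← map_pow] at hn
    have := congrArg (fun a => a.coeff x) hn
    simpa only [coeff_mapRingHom, coeff_zero, Finsupp.zero_apply, map_zero] using this
  have h3 := h2.map (mapRingHom G (ZMod.castHom (dvd_refl p) F))
  rw [map_classSum] at h3
  convert h3 using 1
  rw [H9.finsum_mem_eq_sum_filter, ← setSum_eq_sum, classSum]
  congr 1
  ext x
  simp only [Finset.coe_filter, Finset.mem_univ, true_and, Set.mem_ofPred_eq,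
    ConjClasses.mem_carrier_iff_mk_eq, ConjClasses.mk_eq_mk_iff_isConj]
  exact isConj_comm

end Cfsg.Agent.S0905
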