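import Cfsg.Statements.S0910
import Cfsg.Agent.H9.Rob

set_option autoImplicit false
open Cfsg

namespace Cfsg.Agent.S0910
open H9 H3 MonoidAlgebra
open scoped Pointwise
set_option linter.style.haveILetI false
set_option linter.unusedVariables false


/-- Let G be a non-abelian finite simple group and p a prime. If an irreducible character χ lies in the principal block (relative to a maximal ideal of the algebraic integers containing p) and χ 1 is a power of p, then χ is the principal character. -/
theorem result {G : Type*} [Group G] [Finite G] (p : ℕ) [Fact p.Prime] (M : Ideal Cfsg.AlgInt) (hM : Cfsg.IsPModular p M) [IsSimpleGroup G] (hna : ∃ a b : G, a * b ≠ b * a) (χ : Cfsg.IrrCharacter G) (hχ : χ ∈ Cfsg.principalBlock M G) (k : ℕ) (hdeg : (χ : G → ℂ) 1 = (p : ℂ) ^ k) : (χ : G → ℂ) = fun _ => 1 := by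
  haveI : PMod p M := ⟨hM⟩
  have hp := Fact.out (p := p.Prime)
  by_contra hne
  have hk := χ.2.charKer_eq_bot_of_simple hne
  have hZ : Subgroup.center G = ⊥ := by
    rcases (inferInstance : (Subgroup.center G).Normal).eq_bot_or_eq_top with h | h
    · exact h
    · obtain ⟨a, b, hab⟩ := hna
      exact absurd (Subgroup.mem_center_iff.1 (h ▸ Subgroup.mem_top b) a) hab
  obtain ⟨P, hP⟩ := H1.exists_isSylowIn p (⊤ : Subgroup G)
  by_cases h0 : P = ⊥
  · have h1 : ¬ p ∣ Nat.card G := by simpa [h0] using hP.not_dvd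
    have := blk_eq_singleton_of_not_dvd (M := M) h1 (trivChar G)
    have h2 : χ ∈ (blk M (trivChar G)).1 := hχ
    rw [this] at h2
    exact hne (congrArg Subtype.val h2)
  obtain ⟨z, hz, hzc, ho⟩ := exists_mem_center_of_ne_bot hP.isPGroup h0
  have hi : ¬ p ∣ (cen1 z).index := fun h => hP.not_dvd (by
    rw [Subgroup.relIndex_top_right]
    exact h.trans (Subgroup.index_dvd_of_le fun w hw =>
      Subgroup.mem_centralizer_singleton_iff.2 (hzc w hw)))
  have h1 : (B0 M G).lam (classSum (RF M) z) ≠ 0 := by
    rw [Bl.lam_classSum trivChar_mem_B0, centralChar]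
    simp only [trivChar, mul_one, div_one, red_natCast]
    exact natCast_RF_ne_zero hi
  rcases χ.2.eq_zero_or_norm_eq (d := p ^ k) (by rw [hdeg]; push_cast; rfl) z
    (Nat.Coprime.pow_left _ ((Nat.Prime.coprime_iff_not_dvd hp).2 hi)) with h2 | h2
  · exact Bl.apply_ne_zero_of_lam h1 hχ h2
  · have : z ∈ charCenter χ.1 := χ.2.isCharacter.mem_charCenter.2 (by rw [h2, hdeg]; simp)
    rw [χ.2.charCenter_eq_center hk, hZ, Subgroup.mem_bot] at this
    rw [this, orderOf_one] at ho
    exact hp.ne_one ho.symm

end Cfsg.Agent.S0910
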