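import Cfsg.Statements.S0914
import Cfsg.Agent.H9.Height

set_option autoImplicit false
open Cfsg

namespace Cfsg.Agent.S0914
open H9 H3 MonoidAlgebra
open scoped Pointwise
set_option linter.style.haveILetI false
set_option linter.unusedVariables false


/-- Let χ be an irreducible character of the finite group G, p a prime and M a maximal ideal of the algebraic integers containing p. Then p does not divide the integer (Nat.card G) / χ(1) if and only if the block of χ relative to M consists of χ alone. -/
theorem result {G : Type*} [Group G] [Finite G] (p : ℕ) [Fact p.Prime] (M : Ideal Cfsg.AlgInt) (hM : Cfsg.IsPModular p M) (χ : Cfsg.IrrCharacter G) : ¬ p ∣ Nat.card G / Cfsg.charDegree (χ : G → ℂ) ↔ Cfsg.blockOf M (χ : G → ℂ) = {χ} := by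
  haveI : PMod p M := ⟨hM⟩
  rw [not_dvd_div_iff_factorization]
  exact ⟨blk_eq_singleton_of_defect_zero, fun h =>
    Bl.factorization_eq_of_defect_zero (Bl.defect_eq_zero_of_singleton (B := blk M χ) h) (mem_blk χ)⟩

end Cfsg.Agent.S0914
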