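import Cfsg.Statements.S0916
import Cfsg.Agent.H9.Rob

set_option autoImplicit false
open Cfsg

namespace Cfsg.Agent.S0916
open H9 H3 MonoidAlgebra
open scoped Pointwise
set_option linter.style.haveILetI false
set_option linter.unusedVariables false


/-- Let P be a p-subgroup of the finite group G, C its centralizer and N its normalizer. Say that a conjugacy class (of G, or of N) has defect group P when P is a Sylow p-subgroup of the centralizer (in G, respectively in N) of some element of the class. Then: (i) if the class of g in G has defect group P, the elements of that class lying in C form a single N-class, again with defect group P; (ii) every N-class with defect group P arises this way from exactly one G-class with defect group P. -/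
theorem result {G : Type*} [Group G] [Finite G] (p : ℕ) [Fact p.Prime] (P : Subgroup G) (hP : IsPGroup p P) : (∀ g : G, (∃ S : Sylow p (Subgroup.centralizer ({g} : Set G)), (S : Subgroup (Subgroup.centralizer ({g} : Set G))).map (Subgroup.centralizer ({g} : Set G)).subtype = P) → (∃ c : G, IsConj g c ∧ c ∈ Subgroup.centralizer (P : Set G)) ∧ (∀ c₁ c₂ : G, IsConj g c₁ → IsConj g c₂ → c₁ ∈ Subgroup.centralizer (P : Set G) → c₂ ∈ Subgroup.centralizer (P : Set G) → ∃ n ∈ Subgroup.normalizer (P : Set G), n * c₁ * n⁻¹ = c₂)) ∧ (∀ c : G, c ∈ Subgroup.centralizer (P : Set G) → (∃ S : Sylow p (Subgroup.centralizer ({c} : Set G) ⊓ Subgroup.normalizer (P : Set G) : Subgroup G), (S : Subgroup ↥(Subgroup.centralizer ({c} : Set G) ⊓ Subgroup.normalizer (P : Set G))).map (Subgroup.centralizer ({c} : Set G) ⊓ Subgroup.normalizer (P : Set G)).subtype = P) → ∃ S : Sylow p (Subgroup.centralizer ({c} : Set G)), (S : Subgroup (Subgroup.centralizer ({c} : Set G))).map (Subgroup.centralizer ({c} : Set G)).subtype = P) := by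
  constructor
  · rintro g ⟨S, hS⟩
    have h : H1.IsSylowIn p P (cen1 g) := hS ▸ H1.isSylowIn_map_subtype S
    refine ⟨⟨g, IsConj.refl g, mem_centralizer_iff_le.2 h.le⟩, fun c₁ c₂ h1 h2 h3 h4 => ?_⟩
    have key : ∀ c, IsConj g c → c ∈ cen P → ∃ n ∈ nrm P, n * g * n⁻¹ = c := fun c h1 h3 => by
      obtain ⟨t, rfl⟩ := isConj_iff.1 h1
      obtain ⟨n, hn, e⟩ := exists_conj_nrm (T := ⊤) (by rwa [top_inf_eq]) (Subgroup.mem_top t)
        (mem_centralizer_iff_le.1 h3)
      exact ⟨n, hn.2, e⟩
    obtain ⟨n, hn, rfl⟩ := key c₁ h1 h3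
    obtain ⟨m, hm, rfl⟩ := key c₂ h2 h4
    exact ⟨m * n⁻¹, mul_mem hm (inv_mem hn), by group⟩
  · rintro c hc ⟨S, hS⟩
    have h := H1.isSylowIn_map_subtype S
    rw [hS] at h
    exact (isSylowIn_of_inf_nrm (mem_centralizer_iff_le.1 hc) h).exists_sylow

end Cfsg.Agent.S0916
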