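import Cfsg.Statements.S0918
import Cfsg.Agent.H9.Trans

set_option autoImplicit false
open Cfsg

namespace Cfsg.Agent.S0918
open H9 H3 MonoidAlgebra
open scoped Pointwise
set_option linter.style.haveILetI false
set_option linter.unusedVariables false


/-- Let P be a p-subgroup of the finite group G and H a subgroup with P·C_G(P) ≤ H ≤ N_G(P); let b be a block of H and B a block of G relative to a maximal ideal M of the algebraic integers containing p. Then b induces B if and only if, for every g ∈ G, every ξ ∈ b and every χ ∈ B, the central character of χ at g is congruent modulo the local ideal at M to the sum of ξ h / ξ 1 over the elements h of H conjugate in G to g and centralizing P. -/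
theorem result {G : Type*} [Group G] [Finite G] (p : ℕ) [Fact p.Prime] (M : Ideal Cfsg.AlgInt) (hM : Cfsg.IsPModular p M) (P H : Subgroup G) (hP : IsPGroup p P) (hPH : P ≤ H) (hCH : Subgroup.centralizer (P : Set G) ≤ H) (hHN : H ≤ Subgroup.normalizer (P : Set G)) (b : Set (Cfsg.IrrCharacter H)) (hb : Cfsg.IsPBlock M b) (B : Set (Cfsg.IrrCharacter G)) (hB : Cfsg.IsPBlock M B) : Cfsg.IsInducedBlock M H b B ↔ ∀ ξ ∈ b, ∀ χ ∈ B, ∀ g : G, Cfsg.MemLocalIdeal M (Cfsg.brauerCentralChar P H (ξ : H → ℂ) g - Cfsg.centralChar (χ : G → ℂ) g) := by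
  haveI : PMod p M := ⟨hM⟩
  lift b to Bl M H using hb
  lift B to Bl M G using hB
  haveI : (P.subgroupOf H).Normal := (Subgroup.normal_subgroupOf_iff_le_normalizer hPH).2 hHN
  have key : ∀ ξ ∈ b.1, ∀ g : G, inducedCentralChar H ξ.1 g - brauerCentralChar P H ξ.1 g ∈ LI M := by
    intro ξ hξ g
    have e : brauerCentralChar P H ξ.1 g =
        om ξ.1 (pull ℂ H.subtype (toC M G (br (LR M) P (classSum (LR M) g)))) := by
      rw [map_trunc, map_classSum, classSum, trunc_setSum, pull_setSum, om_setSum_finsum,
        brauerCentralChar]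
      congr 1
      ext h
      simp [and_comm]
    have hz : pull (LR M) H.subtype (br (LR M) P (classSum (LR M) g)) ∈ Zc (LR M) H :=
      pull_subtype_mem_Zc (br_mem_Fix' hHN (mem_Fix_of_mem_Zc (classSum_mem_Zc g) H))
    have h1 := Bl.lam_pull_toF H.subtype hξ hz
    have h2 := Bl.lam_pull_toF H.subtype hξ (pull_mem_Zc H.subtype (classSum_mem_Zc (k := LR M) g))
    have h3 := b.lam_pull_br H.subtype_injective (Q := P.subgroupOf H) hP.comap_subtype
      (pull_mem_Zc H.subtype (classSum_mem_Zc (k := RF M) g))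
    rw [Subgroup.map_subgroupOf_eq_of_le hPH] at h3
    rw [map_trunc, map_classSum, h3] at h1
    rw [map_classSum, h1, map_classSum] at h2
    rw [e, inducedCentralChar_eq, ← red_eq_red_iff]
    · exact h2.symm
    · rw [← map_classSum (LR M).subtype]
      exact om_pull_toC_mem _ ξ.2 (classSum_mem_Zc g)
    · rw [← map_pull]; exact om_toC_mem ξ.2 hz
  constructor
  · rintro ⟨-, -, h⟩ ξ hξ χ hχ g
    have := sub_mem (mem_LI.2 (h ξ hξ χ hχ g)) (key ξ hξ g)
    rw [← mem_LI]
    convert this using 1
    ring
  · intro h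
    refine ⟨b.2, B.2, fun ξ hξ χ hχ g => ?_⟩
    have := add_mem (mem_LI.2 (h ξ hξ χ hχ g)) (key ξ hξ g)
    rw [← mem_LI]
    convert this using 1
    ring

end Cfsg.Agent.S0918
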