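import Cfsg.Statements.S0920
import Cfsg.Agent.H9.Trans

set_option autoImplicit false
open Cfsg

namespace Cfsg.Agent.S0920
open H9 H3 MonoidAlgebra
open scoped Pointwise
set_option linter.style.haveILetI false
set_option linter.unusedVariables false


/-- Brauer's First Main Theorem. Let D be a p-subgroup of the finite group G with normalizer N, and fix a maximal ideal M of the algebraic integers containing p. Then (i) every block b of N having D as a defect group induces some block B of G having D as a defect group; (ii) every block of G with defect group D is induced by exactly one block of N with defect group D. -/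
theorem result {G : Type*} [Group G] [Finite G] (p : ℕ) [Fact p.Prime] (M : Ideal Cfsg.AlgInt) (hM : Cfsg.IsPModular p M) (D : Subgroup G) (hD : IsPGroup p D) : (∀ b : Set (Cfsg.IrrCharacter (Subgroup.normalizer (D : Set G))), Cfsg.IsPBlock M b → Cfsg.IsDefectGroup p M b (D.subgroupOf (Subgroup.normalizer (D : Set G))) → ∃ B : Set (Cfsg.IrrCharacter G), Cfsg.IsPBlock M B ∧ Cfsg.IsDefectGroup p M B D ∧ Cfsg.IsInducedBlock M (Subgroup.normalizer (D : Set G)) b B) ∧ (∀ B : Set (Cfsg.IrrCharacter G), Cfsg.IsPBlock M B → Cfsg.IsDefectGroup p M B D → ∃! b : Set (Cfsg.IrrCharacter (Subgroup.normalizer (D : Set G))), Cfsg.IsPBlock M b ∧ Cfsg.IsDefectGroup p M b (D.subgroupOf (Subgroup.normalizer (D : Set G))) ∧ Cfsg.IsInducedBlock M (Subgroup.normalizer (D : Set G)) b B) := by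
  haveI : PMod p M := ⟨hM⟩
  have hi : ∀ (b : Bl M (nrm D)) (B : Bl M G), IsInducedBlock M (nrm D) b.1 B.1 ↔
      br (RF M) D B.e * b.E = b.E := fun b B =>
    isInducedBlock_iff_br hD Subgroup.le_normalizer (cen_le_nrm D) le_rfl
  have e : ⊤ ⊓ nrm D = nrm D := top_inf_eq _
  refine ⟨fun b hb h => ?_, fun B hB h => ?_⟩
  · lift b to Bl M (nrm D) using hb
    rw [isDefectGroup_subgroupOf_iff Subgroup.le_normalizer] at h
    obtain ⟨c, h1, h2, h3⟩ := fmt_exists (T := ⊤) (D := D) (a := b.E) (by rw [e]; exact b.isBlk)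
      (by rw [e]; exact h)
    obtain ⟨B, rfl⟩ := isBlk_top_iff.1 h1
    exact ⟨B.1, B.2, adef_top_iff.1 h2, (hi b B).2 (by rw [h3, b.isBlk.idem])⟩
  · lift B to Bl M G using hB
    rw [isDefectGroup_iff_adef_top] at h
    obtain ⟨h1, h2⟩ := fmt_br (isBlk_top B) h
    rw [e] at h1 h2
    obtain ⟨b, hb⟩ := h1
    refine ⟨b.1, ⟨b.2, (isDefectGroup_subgroupOf_iff Subgroup.le_normalizer).2 (by rw [← hb] at h2; exact h2),
      (hi b B).2 (by rw [← hb]; exact b.isBlk.idem)⟩, fun c ⟨hc, _, h3⟩ => ?_⟩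
    lift c to Bl M (nrm D) using hc
    rw [hi, ← hb] at h3
    rw [Bl.E_inj (b.isBlk.eq_of_mul_ne_zero c.isBlk (h3.symm ▸ c.isBlk.ne_zero))]

end Cfsg.Agent.S0920
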