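import Cfsg.Statements.S0923
import Cfsg.Agent.H9.Height

set_option autoImplicit false
open Cfsg

namespace Cfsg.Agent.S0923
open H9 H3 MonoidAlgebra
open scoped Pointwise
set_option linter.style.haveILetI false
set_option linter.unusedVariables false


/-- Brauer's Second Main Theorem, in terms of ordinary characters. Let x be a p-element of the finite group G with centralizer C, let χ lie in the block B of G and let b be a block of C that does not induce B (relative to a maximal ideal M of the algebraic integers containing p). Form the class function ϑ(c) = χ(x c) on C and its b-part (the sum over ψ ∈ b of the inner product of ϑ with ψ, times ψ). Then the b-part of ϑ vanishes at every p-regular element of C. (Equivalently, the generalized decomposition numbers of χ with respect to b are zero.) -/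
theorem result {G : Type*} [Group G] [Finite G] (p : ℕ) [Fact p.Prime] (M : Ideal Cfsg.AlgInt) (hM : Cfsg.IsPModular p M) (x : G) (hx : ∃ k : ℕ, orderOf x = p ^ k) (B : Set (Cfsg.IrrCharacter G)) (hB : Cfsg.IsPBlock M B) (χ : Cfsg.IrrCharacter G) (hχ : χ ∈ B) (b : Set (Cfsg.IrrCharacter (Subgroup.centralizer ({x} : Set G)))) (hb : Cfsg.IsPBlock M b) (hnot : ¬ Cfsg.IsInducedBlock M (Subgroup.centralizer ({x} : Set G)) b B) (y : Subgroup.centralizer ({x} : Set G)) (hy : ¬ p ∣ orderOf y) : Cfsg.blockPart b (fun c : Subgroup.centralizer ({x} : Set G) => (χ : G → ℂ) (x * (c : G))) y = 0 := by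
  haveI : PMod p M := ⟨hM⟩
  lift B to Bl M G using hB
  lift b to Bl M (Subgroup.centralizer ({x} : Set G)) using hb
  obtain ⟨B', hB'⟩ := exists_ind_centralizer_elt hx b
  have hne : χ ∉ B'.1 := fun h => hnot (isInducedBlock_iff.2 (Bl.eq_of_mem h hχ ▸ hB'))
  let x' : Subgroup.centralizer ({x} : Set G) := ⟨x, Subgroup.mem_centralizer_singleton_iff.2 rfl⟩
  have hc : Commute x y := (Subgroup.mem_centralizer_singleton_iff.1 y.2).symm
  have key := hB'.blockPart_comp_of_not_mem (Subgroup.subtype_injective _) (x' * y)
    (by rw [Subgroup.range_subtype, show (Subgroup.centralizer ({x} : Set G)).subtype (x' * y) = x * y from rfl,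
      pp_mul hx (isPRegular_coe.2 hy) hc]) hne
  have hz := Subgroup.mem_center_iff.1 (self_mem_center_centralizer x)
  have hcf : IsClassFunction _ (fun c : Subgroup.centralizer ({x} : Set G) => χ.1 (x * c)) := by
    intro g u
    have := χ.2.isClassFunction.res (Subgroup.centralizer ({x} : Set G)) (x' * g) u
    rw [← mul_assoc, hz u, mul_assoc x', mul_assoc x'] at this
    exact this
  haveI := Fintype.ofFinite (Subgroup.centralizer ({x} : Set G))
  rw [blockPart_eq_chi (χ.2.isClassFunction.comp _), chi_mul_single] at key
  rw [blockPart_eq_chi hcf, chi_mul_single, ← key]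
  refine Finset.sum_congr rfl fun g _ => ?_
  rw [← mul_assoc g, hz g, mul_assoc x']
  rfl

end Cfsg.Agent.S0923
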