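import Cfsg.Statements.S0926
import Cfsg.Agent.H9.Height

set_option autoImplicit false
open Cfsg

namespace Cfsg.Agent.S0926
open H9 H3 MonoidAlgebra
open scoped Pointwise
set_option linter.style.haveILetI false
set_option linter.unusedVariables false


/-- Let B be a block of the finite group G with defect group D (relative to a maximal ideal M of the algebraic integers containing p), let χ ∈ B have height zero, and let x be a p-element. Then some conjugate of x lies in D if and only if χ does not vanish on the whole p-section of x (the elements whose p-part is conjugate to x). -/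
theorem result {G : Type*} [Group G] [Finite G] (p : ℕ) [Fact p.Prime] (M : Ideal Cfsg.AlgInt) (hM : Cfsg.IsPModular p M) (B : Set (Cfsg.IrrCharacter G)) (hB : Cfsg.IsPBlock M B) (D : Subgroup G) (hD : Cfsg.IsDefectGroup p M B D) (χ : Cfsg.IrrCharacter G) (hχ : χ ∈ B) (h0 : Cfsg.blockHeight p B (χ : G → ℂ) = 0) (x : G) (hx : ∃ k : ℕ, orderOf x = p ^ k) : (∃ g : G, g * x * g⁻¹ ∈ D) ↔ ∃ u : G, (∃ z : G, Cfsg.IsPPart p u z ∧ IsConj x z) ∧ (χ : G → ℂ) u ≠ 0 := by
  haveI : PMod p M := ⟨hM⟩
  lift B to Bl M G using hB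
  constructor
  · rintro ⟨g, hg⟩
    obtain ⟨y, hy, hS⟩ := Bl.isDef_iff_defectClass.1 hD
    have hc : Commute (g * x * g⁻¹) y := Subgroup.mem_centralizer_singleton_iff.1 (hS.le hg)
    have hx' : IsPElt p (g * x * g⁻¹) := (isPElt_conj g x).2 hx
    refine ⟨g * x * g⁻¹ * y, ⟨_, isPPart_mul hx' (B.isPRegular_of_defectClass hy) hc,
      isConj_iff.2 ⟨g, rfl⟩⟩, fun h => B.apply_not_mem_of_defectClass hy hχ h0 ?_⟩
    have := RCh_mul_sub (irr_mem_RCh (M := M) χ) hx' hc
    rw [h, zero_sub] at this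
    exact neg_mem_iff.1 this
  · rintro ⟨u, ⟨z, hz, hc⟩, h⟩
    obtain ⟨t, ht⟩ := Bl.IsDef.exists_conj_pp_mem hD hχ h
    obtain ⟨s, rfl⟩ := isConj_iff.1 hc
    rw [pp_eq_of_isPPart hz] at ht
    exact ⟨t * s, by simpa [mul_assoc] using ht⟩

end Cfsg.Agent.S0926
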