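import Cfsg.Statements.S0927
import Cfsg.Agent.H9.Rob

set_option autoImplicit false
open Cfsg

namespace Cfsg.Agent.S0927
open H9 H3 MonoidAlgebra
open scoped Pointwise
set_option linter.style.haveILetI false
set_option linter.unusedVariables false


/-- Let B be a block of the finite group G relative to a maximal ideal M of the algebraic integers containing p, let y represent a defect class of B and let P be a Sylow p-subgroup of the centralizer of y. (a) If x ∈ P and χ ∈ B has height zero, then χ (x * y) is not in the local ideal at M. (b) If x lies in the centre of P, then for every χ ∈ B the central character of χ at x * y is not in the local ideal at M. -/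
theorem result {G : Type*} [Group G] [Finite G] (p : ℕ) [Fact p.Prime] (M : Ideal Cfsg.AlgInt) (hM : Cfsg.IsPModular p M) (B : Set (Cfsg.IrrCharacter G)) (hB : Cfsg.IsPBlock M B) (y : G) (hy : Cfsg.IsDefectClass M B y) (P : Sylow p (Subgroup.centralizer ({y} : Set G))) (x : Subgroup.centralizer ({y} : Set G)) (hx : x ∈ (P : Subgroup (Subgroup.centralizer ({y} : Set G)))) : (∀ χ ∈ B, Cfsg.blockHeight p B (χ : G → ℂ) = 0 → ¬ Cfsg.MemLocalIdeal M ((χ : G → ℂ) ((x : G) * y))) ∧ ((∀ w ∈ (P : Subgroup (Subgroup.centralizer ({y} : Set G))), x * w = w * x) → ∀ χ ∈ B, ¬ Cfsg.MemLocalIdeal M (Cfsg.centralChar (χ : G → ℂ) ((x : G) * y))) := by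
  haveI : PMod p M := ⟨hM⟩
  lift B to Bl M G using hB
  have hS := H1.isSylowIn_map_subtype P
  have hx' : (x : G) ∈ (P : Subgroup (cen1 y)).map (cen1 y).subtype := ⟨x, hx, rfl⟩
  refine ⟨fun χ hχ h0 => Bl.apply_mul_not_mem hy (isPElt_of_mem hS.isPGroup hx')
    (Subgroup.mem_centralizer_singleton_iff.1 x.2) hχ h0, fun h χ hχ h1 => ?_⟩
  refine Bl.lam_classSum_mul_ne_zero hy hS hx' ?_ ((Bl.lam_classSum_eq_zero_iff hχ _).2 h1)
  rintro _ ⟨w, hw, rfl⟩
  exact congrArg Subtype.val (h w hw).symm

end Cfsg.Agent.S0927
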