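import Cfsg.Statements.S0928
import Cfsg.Agent.H9.Rob

set_option autoImplicit false
open Cfsg

namespace Cfsg.Agent.S0928
open H9 H3 MonoidAlgebra
open scoped Pointwise
set_option linter.style.haveILetI false
set_option linter.unusedVariables false


/-- Let χ be an irreducible character of the finite group G and p a prime. If χ g = 0 for every element g of order p, then the exponent of p in the degree χ(1) equals the exponent of p in the order of G (χ has p-defect zero). -/
theorem result {G : Type*} [Group G] [Finite G] (p : ℕ) [Fact p.Prime] (χ : Cfsg.IrrCharacter G) (hvan : ∀ g : G, orderOf g = p → (χ : G → ℂ) g = 0) : (Cfsg.charDegree (χ : G → ℂ)).factorization p = (Nat.card G).factorization p := by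
  classical
  haveI := Fintype.ofFinite G
  obtain ⟨M, hM⟩ := exists_pmod (Fact.out : p.Prime)
  haveI : PMod p M := ⟨hM⟩
  by_contra h
  have h1 := om_sol_mem_LI (M := M) h
  rw [om_apply, chi_setSum, Finset.sum_eq_single 1, div_self χ.2.deg_ne_zero] at h1
  · exact one_not_mem_LI h1
  · intro g hg h1
    exact hvan g (orderOf_eq_prime (Finset.mem_filter.1 hg).2 h1)
  · intro h; exact (h (Finset.mem_filter.2 ⟨Finset.mem_univ _, one_pow p⟩)).elim

end Cfsg.Agent.S0928
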