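import Cfsg.Statements.S0937
import Cfsg.Agent.H9.Height

set_option autoImplicit false
open Cfsg

namespace Cfsg.Agent.S0937
open H9 H3 MonoidAlgebra
open scoped Pointwise
set_option linter.style.haveILetI false
set_option linter.unusedVariables false


/-- Let H be a subgroup of the finite group G and fix a maximal ideal M of the algebraic integers containing the prime p. If the block b of H induces the block B of G and χ ∈ B has height zero, then there is ξ ∈ b of height zero whose multiplicity in the restriction of χ to H is a natural number not divisible by p. -/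
theorem result {G : Type*} [Group G] [Fintype G] (p : ℕ) [Fact p.Prime] (M : Ideal Cfsg.AlgInt) (hM : Cfsg.IsPModular p M) (H : Subgroup G) [Fintype H] (b : Set (Cfsg.IrrCharacter H)) (B : Set (Cfsg.IrrCharacter G)) (hind : Cfsg.IsInducedBlock M H b B) (χ : Cfsg.IrrCharacter G) (hχ : χ ∈ B) (h0 : Cfsg.blockHeight p B (χ : G → ℂ) = 0) : ∃ ξ ∈ b, Cfsg.blockHeight p b (ξ : H → ℂ) = 0 ∧ ∃ n : ℕ, Cfsg.classInner (fun h : H => (χ : G → ℂ) h) (ξ : H → ℂ) = (n : ℂ) ∧ ¬ p ∣ n := by
  haveI : PMod p M := ⟨hM⟩
  lift B to Bl M G using hind.2.1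
  lift b to Bl M H using hind.1
  obtain ⟨ξ, h1, h2, h3⟩ := (isInducedBlock_iff.1 hind).exists_height_zero H.subtype_injective hχ h0
  obtain ⟨n, hn⟩ := (χ.2.isCharacter.res H).inner_nat ξ.2.isCharacter
  refine ⟨ξ, h1, h2, n, hn, fun h => h3 ?_⟩
  rw [← natCast_mem_LI_iff (M := M), ← hn] at h
  exact h

end Cfsg.Agent.S0937
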