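import Cfsg.Statements.S0940
import Cfsg.Agent.H9.Rob

set_option autoImplicit false
open Cfsg

namespace Cfsg.Agent.S0940
open H9 H3 MonoidAlgebra
open scoped Pointwise
set_option linter.style.haveILetI false
set_option linter.unusedVariables false


/-- Let G be a finite group and M a maximal ideal of the algebraic integers containing the prime p. For every p-regular g, the idempotent coefficient of the principal block at g (the inverse of the group order times the sum over χ in the principal block of χ 1 * conj (χ g)) is congruent modulo the local ideal at M to N / R, where N is the number of pairs (x, y) with x of p-power order, y of order prime to p and x * y = g, and R is the number of elements of G of order prime to p. -/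
theorem result {G : Type*} [Group G] [Finite G] (p : ℕ) [Fact p.Prime] (M : Ideal Cfsg.AlgInt) (hM : Cfsg.IsPModular p M) (g : G) (hg : ¬ p ∣ orderOf g) : Cfsg.MemLocalIdeal M (Cfsg.blockCoeff (Cfsg.principalBlock M G) g - (Nat.card {xy : G × G // (∃ k : ℕ, orderOf xy.1 = p ^ k) ∧ ¬ p ∣ orderOf xy.2 ∧ xy.1 * xy.2 = g} : ℂ) / (Nat.card {y : G // ¬ p ∣ orderOf y} : ℂ)) := by
  classical
  haveI := Fintype.ofFinite G
  haveI : PMod p M := ⟨hM⟩
  have hr : IsPRegular p g⁻¹ := isPRegular_inv.2 hg
  set n : ℂ := (Nat.card {y : G // ¬ p ∣ orderOf y} : ℂ) with hn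
  have hom : om (trivChar G).1 (zr p fun _ => 1) = n := by
    rw [om_apply, chi_zr, hn, Nat.card_eq_fintype_card, Fintype.card_subtype]
    simp only [trivChar, mul_one, div_one, Finset.sum_const, nsmul_eq_mul]
    congr
  have hlam : ∀ χ ∈ (B0 M G).1, red M (om χ.1 (zr p fun _ => 1)) = red M n := fun χ hχ => by
    rw [← hom]
    exact (Bl.lam_zrF_irr hχ (trivChar G)).symm.trans (Bl.lam_zrF_irr trivChar_mem_B0 _)
  have hn0 : red M n ≠ 0 := by
    rw [← hom]
    intro h0
    exact (Bl.lam_zrF_one_ne_zero_iff (B := B0 M G)).2 rfl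
      ((Bl.lam_zrF_irr (trivChar_mem_B0 (M := M)) (trivChar G)).trans h0)
  have hc : (Nat.card {xy : G × G // (∃ k : ℕ, orderOf xy.1 = p ^ k) ∧ ¬ p ∣ orderOf xy.2 ∧
      xy.1 * xy.2 = g} : ℂ) = chi (pInd p G) (zr p (fun _ => 1) * single g⁻¹ 1) := by
    rw [chi_mul_single, Nat.card_eq_fintype_card, Fintype.card_subtype]
    simp only [coeff_zr, pRegularPart_apply, pInd_apply, isPRegular_inv, ite_mul, one_mul, zero_mul,
      ← ite_and, Finset.sum_boole, Nat.cast_inj]
    refine Finset.card_nbij' (·.2) (fun y => (g * y⁻¹, y)) ?_ ?_ ?_ ?_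
    · rintro ⟨x, y⟩ hx
      simp only [Finset.coe_filter, Finset.mem_univ, true_and, Set.mem_ofPred_eq] at hx ⊢
      obtain ⟨a, b, rfl⟩ := hx
      exact ⟨b, by rw [← isPElt_inv]; simpa [IsPElt] using a⟩
    · intro y hy
      simp only [Finset.coe_filter, Finset.mem_univ, true_and, Set.mem_ofPred_eq] at hy ⊢
      exact ⟨by simpa [IsPElt] using isPElt_inv.2 hy.2, hy.1, by group⟩
    · rintro ⟨x, y⟩ hx
      simp only [Finset.coe_filter, Finset.mem_univ, true_and, Set.mem_ofPred_eq] at hx ⊢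
      obtain ⟨a, b, rfl⟩ := hx
      rw [mul_inv_cancel_right]
    · intro x _; rfl
  have m1 : ∀ χ : IrrCharacter G, classInner (pInd p G) χ.1 ∈ LR M := fun χ =>
    RCh_inner_mem pInd_mem_RCh χ.2.isCharacter
  have hb : blockCoeff (B0 M G).1 g = blockPart (B0 M G).1 (pInd p G) g⁻¹ := by
    rw [blockPart_congr_reg (B0 M G) (η := (Nat.card G : ℂ)⁻¹ • regChar G) (fun y hy => ?_) hr,
      blockCoeff_eq, blockPart_apply, Finset.mul_sum]
    · refine Finset.sum_congr rfl fun χ _ => ?_
      rw [H3.inner_smul_left, inner_regChar, conj_deg χ.2.isCharacter, χ.2.isCharacter.map_inv,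
        mul_assoc]
    · rw [pInd_of_reg hy, Pi.smul_apply, smul_eq_mul]
      split_ifs with h
      · rw [h, regChar_one, inv_mul_cancel₀ (card_ne_zero G)]
      · rw [regChar_of_ne h, mul_zero]
  have hch : chi (pInd p G) (zr p (fun _ => 1) * single g⁻¹ 1) = ∑ χ with χ ∈ (B0 M G).1,
      classInner (pInd p G) χ.1 * χ.1 g⁻¹ * om χ.1 (zr p fun _ => 1) := by
    conv_lhs => rw [(isClassFunction_pInd (p := p) (G := G)).eq_sum, chi_sum_left]
    rw [Finset.sum_filter]
    refine Finset.sum_congr rfl fun χ _ => ?_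
    rw [chi_smul_left, chi_central_mul χ.2 (zr_mem_Zc (isClassFunction_const 1)), chi_single]
    split_ifs with h
    · ring
    · rw [om_apply, show chi χ.1 (zr p fun _ => 1) = 0 from
        chi_zr_eq_zero (M := M) (ψ := trivChar G) fun e => h (mem_iff_blk_eq.2 e)]
      simp
  have m2 : ∀ χ : IrrCharacter G, om χ.1 (zr p fun _ => 1) ∈ LR M := fun χ =>
    om_zr_irr_mem (trivChar G) χ
  have m3 : chi (pInd p G) (zr p (fun _ => 1) * single g⁻¹ 1) ∈ LR M := hc ▸ natCast_mem _ _
  rw [hc]
  refine (red_eq_red_iff ((B0 M G).blockCoeff_mem g) (div_mem_LR m3 (natCast_mem _ _)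
    (red_ne_zero_iff.1 hn0).2)).1 ?_
  rw [red_div m3 hn0, eq_div_iff hn0, hb, hch, blockPart_apply,
    red_sum _ _ fun χ _ => mul_mem (m1 χ) (irr_mem_LR χ _),
    red_sum _ _ fun χ _ => mul_mem (mul_mem (m1 χ) (irr_mem_LR χ _)) (m2 χ), Finset.sum_mul]
  refine Finset.sum_congr rfl fun χ hχ => ?_
  rw [red_mul (mul_mem (m1 χ) (irr_mem_LR χ _)) (m2 χ), hlam χ (Finset.mem_filter.1 hχ).2]

end Cfsg.Agent.S0940
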