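import Cfsg.Statements.S0944
import Cfsg.Agent.H9.Princ

set_option autoImplicit false
open Cfsg

namespace Cfsg.Agent.S0944
open H9 H3 MonoidAlgebra
open scoped Pointwise
set_option linter.style.haveILetI false
set_option linter.unusedVariables false


/-- Let χ be an irreducible character of the finite group G and u an involution. Then χ u is a rational integer n with n ≡ χ 1 (mod 2). -/
theorem result {G : Type*} [Group G] [Finite G] (χ : Cfsg.IrrCharacter G) (u : G) (hu : orderOf u = 2) : ∃ n : ℤ, (χ : G → ℂ) u = (n : ℂ) ∧ (2 : ℤ) ∣ (Cfsg.charDegree (χ : G → ℂ) : ℤ) - n := by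
  have h2 : u ^ 2 = 1 := hu ▸ pow_orderOf_eq_one u
  obtain ⟨n, hn⟩ := exists_int_of_sq_eq_one χ.2.isGen h2
  refine ⟨n, hn, dvd_sub_comm.1 (χ.2.isGen.dvd_sub_deg Nat.prime_two (k := 1) h2 hn ?_)⟩
  simpa using deg_eq_charDegree χ.2.isCharacter

end Cfsg.Agent.S0944
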