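import Cfsg.Statements.S0945
import Cfsg.Agent.H9.Klein

set_option autoImplicit false
open Cfsg

namespace Cfsg.Agent.S0945
open H9 H3 MonoidAlgebra
open scoped Pointwise
set_option linter.style.haveILetI false
set_option linter.unusedVariables false


/-- Let P be a Sylow 2-subgroup of the finite group G isomorphic to Z/2^m × Z/2^m with m ≥ 1. Then (i) the index of C_G(P) in N_G(P) is 1 or 3, and (ii) if it is not 1, then for every z ≠ 1 in P, C_G(z) ∩ N_G(P) = C_G(P). -/
theorem result {G : Type*} [Group G] [Finite G] (P : Sylow 2 G) (m : ℕ) (hm : 1 ≤ m) (e : (P : Subgroup G) ≃* Multiplicative (ZMod (2 ^ m) × ZMod (2 ^ m))) : ((Subgroup.centralizer (P : Set G)).relIndex (Subgroup.normalizer (P : Set G)) = 1 ∨ (Subgroup.centralizer (P : Set G)).relIndex (Subgroup.normalizer (P : Set G)) = 3) ∧ ((Subgroup.centralizer (P : Set G)).relIndex (Subgroup.normalizer (P : Set G)) ≠ 1 → ∀ z ∈ (P : Subgroup G), z ≠ 1 → Subgroup.centralizer ({z} : Set G) ⊓ Subgroup.normalizer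 (P : Set G) = Subgroup.centralizer (P : Set G)) := by
  obtain ⟨M, hM⟩ := exists_pmod Nat.prime_two
  haveI : PMod 2 M := ⟨hM⟩
  have h := maxP_B0 (M := M) (H1.isSylowIn_top P)
  obtain ⟨hab, h4, hc⟩ := homocyclic e
  obtain ⟨hf, he⟩ := h.fr_of_rank_two hab h4
  have he := he (by intro h; rw [h, Subgroup.card_bot] at hc; exact absurd hc (Nat.one_lt_pow (by omega) (by omega)).ne)
  rw [ee, h.inf_B0] at he
  refine ⟨he, fun _ z hz h1 => le_antisymm (fun x hx => hf.free x (h.inf_B0.ge hx.2) z hz h1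
    (mem_cen1_iff.1 hx.1)) (le_inf (cen_le_cen1 hz) (cen_le_nrm _))⟩

end Cfsg.Agent.S0945
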