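import Cfsg.Statements.S0946
import Cfsg.Agent.H9.Klein

set_option autoImplicit false
open Cfsg

namespace Cfsg.Agent.S0946
open H9 H3 MonoidAlgebra
open scoped Pointwise
set_option linter.style.haveILetI false
set_option linter.unusedVariables false


/-- Let P be a Sylow 2-subgroup of the finite group G isomorphic to Z/2^m × Z/2^m with m ≥ 1. Then either P has a normal complement in G, or all involutions of G are conjugate. -/
theorem result {G : Type*} [Group G] [Finite G] (P : Sylow 2 G) (m : ℕ) (hm : 1 ≤ m) (e : (P : Subgroup G) ≃* Multiplicative (ZMod (2 ^ m) × ZMod (2 ^ m))) : (∃ N : Subgroup G, N.Normal ∧ Subgroup.IsComplement' N (P : Subgroup G)) ∨ ∀ s t : G, orderOf s = 2 → orderOf t = 2 → IsConj s t := by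
  obtain ⟨M, hM⟩ := exists_pmod Nat.prime_two
  haveI : PMod 2 M := ⟨hM⟩
  have h := maxP_B0 (M := M) (H1.isSylowIn_top P)
  obtain ⟨hab, h4, hc⟩ := homocyclic e
  obtain ⟨hf, he⟩ := h.fr_of_rank_two hab h4
  have he := he (by intro h; rw [h, Subgroup.card_bot] at hc; exact absurd hc (Nat.one_lt_pow (by omega) (by omega)).ne)
  refine he.imp (fun e => ?_) fun e s t hs ht => ?_
  · have hn := B0_nilp_iff.1 ((h.nilp_iff_ee hab).2 e)
    refine ⟨pResidual 2 G, inferInstance, Subgroup.isComplement'_of_coprime ?_ ?_⟩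
    · rw [← (pResidual 2 G).card_mul_index, npc_index hn, Sylow.card_eq_multiplicity]
    · rw [Sylow.card_eq_multiplicity]
      exact (not_dvd_iff_coprime.1 (npc_not_dvd hn)).pow_right _
  · obtain ⟨k, -, hk⟩ := exists_conj_mem_sylow h.sylow_B0 ⟨1, hs⟩ (Subgroup.mem_top s)
    obtain ⟨l, -, hl⟩ := exists_conj_mem_sylow h.sylow_B0 ⟨1, ht⟩ (Subgroup.mem_top t)
    exact (isConj_iff.2 ⟨k, rfl⟩).trans ((hf.fc_of_card (e ▸ h4) hk hl (by rwa [orderOf_conj'])
      (by rwa [orderOf_conj'])).isConj.trans (isConj_iff.2 ⟨l, rfl⟩).symm)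

end Cfsg.Agent.S0946
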