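import Cfsg.Statements.S0947
import Cfsg.Agent.H9.Princ

set_option autoImplicit false
open Cfsg

namespace Cfsg.Agent.S0947
open H9 H3 MonoidAlgebra
open scoped Pointwise
set_option linter.style.haveILetI false
set_option linter.unusedVariables false


/-- Let z ≠ 1 be a p-element of the finite group G with centralizer H, and fix a maximal ideal M of the algebraic integers containing p. (i) For every y ∈ H of order prime to p, the sum over ζ in the principal block of G of |ζ (z * y)|² equals the sum over χ in the principal block of H of |χ y|². (ii) If moreover H has a normal p-complement (its largest normal subgroup of order prime to p has p-power index), that common value is the largest power of p dividing the order of H. -/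
theorem result {G : Type*} [Group G] [Finite G] (p : ℕ) [Fact p.Prime] (M : Ideal Cfsg.AlgInt) (hM : Cfsg.IsPModular p M) (z : G) (hz : ∃ k : ℕ, orderOf z = p ^ k) (hz1 : z ≠ 1) (y : Subgroup.centralizer ({z} : Set G)) (hy : ¬ p ∣ orderOf y) : (∑ᶠ ζ ∈ Cfsg.principalBlock M G, ‖(ζ : G → ℂ) (z * (y : G))‖ ^ 2 = ∑ᶠ χ ∈ Cfsg.principalBlock M (Subgroup.centralizer ({z} : Set G)), ‖(χ : Subgroup.centralizer ({z} : Set G) → ℂ) y‖ ^ 2) ∧ ((∃ k : ℕ, (Cfsg.pPrimeCore p (Subgroup.centralizer ({z} : Set G))).index = p ^ k) → ∑ᶠ ζ ∈ Cfsg.principalBlock M G, ‖(ζ : G → ℂ) (z * (y : G))‖ ^ 2 = ((p ^ (Nat.card (Subgroup.centralizer ({z} : Set G))).factorization p : ℕ) : ℝ)) := by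
  classical
  haveI : PMod p M := ⟨hM⟩
  have e : ∀ x : ℂ, ((‖x‖ ^ 2 : ℝ) : ℂ) = x * (starRingEnd ℂ) x := fun x => by
    rw [Complex.mul_conj, Complex.normSq_eq_norm_sq]
  refine ⟨?_, fun ⟨k, hk⟩ => ?_⟩
  · apply Complex.ofReal_injective
    simp only [finsum_mem_irr, Complex.ofReal_sum, e]
    exact sum_B0_section hz hy hy
  · apply Complex.ofReal_injective
    have h := npc_of_index not_dvd_pPrimeCore hk
    simp only [finsum_mem_irr, Complex.ofReal_sum, e, Complex.ofReal_natCast]
    rw [← sum_B0_normSq_of_npc (M := M) hz h]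
    refine Finset.sum_congr rfl fun χ hχ => ?_
    rw [B0_const_of_npc hz h (Finset.mem_filter.1 hχ).2 (by rw [pp_selfC_mul hz hy])]

end Cfsg.Agent.S0947
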