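import Cfsg.Statements.S0948
import Cfsg.Agent.H9.Klein

set_option autoImplicit false
open Cfsg

namespace Cfsg.Agent.S0948
open H9 H3 MonoidAlgebra
open scoped Pointwise
set_option linter.style.haveILetI false
set_option linter.unusedVariables false


/-- Let the finite group G have a Sylow 2-subgroup P that is a Klein four-group, suppose all involutions of G are conjugate, and fix a maximal ideal M of the algebraic integers containing 2. Then the principal block consists of exactly four irreducible characters, the principal character and ζ₂, ζ₃, ζ₄, and there is a sign ε such that for every involution z: ζ₂ z = 1, ζ₃ z = ε, ζ₄ z = -1; moreover ζ₂ 1 ≡ 1, ζ₃ 1 ≡ ε, ζ₄ 1 ≡ -1 (mod 4), and 1 + ζ₂ y + ε ζ₃ y - ζ₄ y = 0 for every y of odd order. -/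
theorem result {G : Type*} [Group G] [Finite G] (M : Ideal Cfsg.AlgInt) (hM : Cfsg.IsPModular 2 M) (P : Sylow 2 G) (hP : IsKleinFour (P : Subgroup G)) (hone : ∀ s t : G, orderOf s = 2 → orderOf t = 2 → IsConj s t) : ∃ ζ₂ ζ₃ ζ₄ : Cfsg.IrrCharacter G, ∃ ε : ℤ, (ε = 1 ∨ ε = -1) ∧ (ζ₂ : G → ℂ) ≠ (fun _ => 1) ∧ (ζ₃ : G → ℂ) ≠ (fun _ => 1) ∧ ζ₂ ≠ ζ₃ ∧ ζ₂ ≠ ζ₄ ∧ ζ₃ ≠ ζ₄ ∧ Cfsg.principalBlock M G = {χ : Cfsg.IrrCharacter G | (χ : G → ℂ) = (fun _ => 1) ∨ χ = ζ₂ ∨ χ = ζ₃ ∨ χ = ζ₄} ∧ (∀ z : G, orderOf z = 2 → (ζ₂ : G → ℂ) z = 1 ∧ (ζ₃ : G → ℂ) z = (ε : ℂ) ∧ (ζ₄ : G → ℂ) z = -1) ∧ (4 : ℤ) ∣ (Cfsg.charDegree (ζ₂ : G → ℂ) : ℤ) - 1 ∧ (4 : ℤ) ∣ (Cfsg.charDegree (ζ₃ : G → ℂ) : ℤ) - ε ∧ (4 : ℤ) ∣ (Cfsg.charDegree (ζ₄ : G → ℂ) : ℤ) + 1 ∧ ∀ y : G, Odd (orderOf y) → 1 + (ζ₂ : G → ℂ) y + (ε : ℂ) * (ζ₃ : G → ℂ) y - (ζ₄ : G → ℂ) y = 0 := by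
  classical
  haveI : PMod 2 M := ⟨hM⟩
  obtain ⟨z, h⟩ := k4_of_exp (H1.isSylowIn_top P) hP.card_four (fun x hx => by
    rw [sq]; exact congrArg Subtype.val (IsKleinFour.mul_self (⟨x, hx⟩ : (P : Subgroup G)))) hone
  rw [← B0_val]
  have h3 : ((B0 M G).1 \ {trivChar G}).ncard = 3 := by
    rw [Set.ncard_diff_singleton_of_mem trivChar_mem_B0, ← Nat.card_coe_set_eq, h.card_B0]
  have hsum : ∀ a b c : IrrCharacter G, a ≠ b → a ≠ c → b ≠ c →
      (B0 M G).1 \ {trivChar G} = {a, b, c} → ∀ y, IsPRegular 2 y →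
      1 + a.1 z * a.1 y + b.1 z * b.1 y + c.1 z * c.1 y = 0 := fun a b c ab ac bc e y hy => by
    have := h.sum_reg (M := M) hy
    have n : trivChar G ∉ ({a, b, c} : Set _) := e ▸ fun h => h.2 rfl
    rw [show Finset.univ.filter (· ∈ (B0 M G).1) = insert (trivChar G) {a, b, c} by
      rw [← Set.insert_diff_self_of_mem (trivChar_mem_B0 (M := M) (G := G)), e]; ext; simp,
      Finset.sum_insert (by simpa using n), Finset.sum_insert (by simp [ab, ac]),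
      Finset.sum_pair bc] at this
    simpa [trivChar, add_assoc] using this
  suffices key : ∃ (a b c : IrrCharacter G) (ε : ℤ), (ε = 1 ∨ ε = -1) ∧ a ≠ b ∧ a ≠ c ∧ b ≠ c ∧
      (B0 M G).1 \ {trivChar G} = {a, b, c} ∧ a.1 z = 1 ∧ b.1 z = ε ∧ c.1 z = -1 by
    obtain ⟨a, b, c, ε, hε, ab, ac, bc, e, ha, hb, hc⟩ := key
    have n : ∀ χ ∈ ({a, b, c} : Set _), χ.1 ≠ fun _ => 1 := fun χ hχ e' =>
      (e.ge hχ).2 (Subtype.ext e')
    refine ⟨a, b, c, ε, hε, n a (by simp), n b (by simp), ab, ac, bc, ?_, fun t ht => ?_,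
      h.dvd (by simpa using ha), h.dvd hb, by simpa using h.dvd (ε := -1) (by simpa using hc),
      fun y hy => ?_⟩
    · rw [← Set.insert_diff_self_of_mem (trivChar_mem_B0 (M := M) (G := G)), e]
      ext χ; simp [trivChar, Subtype.ext_iff]
    · have := hone z t h.ord ht
      exact ⟨a.2.isClassFunction.of_isConj this ▸ ha, b.2.isClassFunction.of_isConj this ▸ hb,
        c.2.isClassFunction.of_isConj this ▸ hc⟩
    · have := hsum a b c ab ac bc e y hy.not_two_dvd_nat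
      rw [ha, hb, hc] at this
      linear_combination this
  obtain ⟨a, b, c, ab, ac, bc, e⟩ := Set.ncard_eq_three.1 h3
  have := hsum a b c ab ac bc e 1 isPRegular_one
  have p1 := charDegree_ne_zero a.2
  have p2 := charDegree_ne_zero b.2
  have p3 := charDegree_ne_zero c.2
  simp only [irr_deg] at this
  rcases h.sign (e.ge (show a ∈ _ by simp)).1 with ha | ha <;>
    rcases h.sign (e.ge (show b ∈ _ by simp)).1 with hb | hb <;>
    rcases h.sign (e.ge (show c ∈ _ by simp)).1 with hc | hc <;> rw [ha, hb, hc] at this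
  · norm_cast at this; omega
  · exact ⟨a, b, c, 1, by simp, ab, ac, bc, e, ha, by simpa, hc⟩
  · exact ⟨a, c, b, 1, by simp, ac, ab, bc.symm, e.trans (by rw [Set.pair_comm]), ha, by simpa, hb⟩
  · exact ⟨a, b, c, -1, by simp, ab, ac, bc, e, ha, by simpa, hc⟩
  · exact ⟨b, c, a, 1, by simp, bc, ab.symm, ac.symm, e.trans (by ext; simp; tauto), hb, by simpa, ha⟩
  · exact ⟨b, c, a, -1, by simp, bc, ab.symm, ac.symm, e.trans (by ext; simp; tauto), hb, by simpa, ha⟩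
  · exact ⟨c, a, b, -1, by simp, ac.symm, bc.symm, ab, e.trans (by ext; simp; tauto), hc, by simpa, hb⟩
  · norm_cast at this; omega

end Cfsg.Agent.S0948
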