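import Cfsg.Statements.S0949
import Cfsg.Agent.H9.Exc2

set_option autoImplicit false
open Cfsg

namespace Cfsg.Agent.S0949
open H9 H3 MonoidAlgebra
open scoped Pointwise
set_option linter.style.haveILetI false
set_option linter.unusedVariables false


/-- Let the finite group G have a Sylow 2-subgroup P isomorphic to Z/2^m × Z/2^m with m ≥ 2, and suppose G has no nontrivial normal subgroup of odd order. Then P is normal in G, C_G(P) = P, and the index of P is 1 or 3. -/
theorem result {G : Type*} [Group G] [Finite G] (P : Sylow 2 G) (m : ℕ) (hm : 2 ≤ m) (e : (P : Subgroup G) ≃* Multiplicative (ZMod (2 ^ m) × ZMod (2 ^ m))) (hO : ∀ N : Subgroup G, N.Normal → Odd (Nat.card N) → N = ⊥) : (P : Subgroup G).Normal ∧ Subgroup.centralizer (P : Set G) = (P : Subgroup G) ∧ ((P : Subgroup G).index = 1 ∨ (P : Subgroup G).index = 3) := by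
  classical
  haveI := Fintype.ofFinite G
  obtain ⟨M, hM⟩ := exists_pmod Nat.prime_two
  haveI : PMod 2 M := ⟨hM⟩
  obtain ⟨hab, h4, hc⟩ := homocyclic e
  have hS := H1.isSylowIn_top P
  have key : ∀ N : Subgroup G, N.Normal → (P : Subgroup G) ≤ N → N ⊓ nrm P ≤ cen P → N = P := by
    intro N hN hP hle
    have hS' := hS.of_le hP le_top
    have h1 : HasNormalPComplement 2 N := H2.hasNPC_of_normalizer_le_centralizer hS'.toSylow (by
      intro x hx
      have := hle ⟨x.2, mem_nrm_of_conj fun y hy =>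
        (Subgroup.mem_normalizer_iff.1 hx ⟨y, hP hy⟩).1 hy⟩
      exact Subgroup.mem_centralizer_iff.2 fun y hy => Subtype.ext (this y hy))
    have h2 := hO ((pResidual 2 N).map N.subtype) inferInstance (by
      rw [Subgroup.card_subtype, ← Nat.not_even_iff_odd, even_iff_two_dvd]; exact npc_not_dvd h1)
    rw [Subgroup.map_eq_bot_iff_of_injective _ N.subtype_injective] at h2
    have h3 := npc_index h1
    rw [h2, Subgroup.index_bot] at h3
    exact (P.is_maximal' (IsPGroup.of_card h3) hP)
  have hm' : 16 ≤ Nat.card P := by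
    change 16 ≤ Nat.card (P : Subgroup G)
    rw [hc]; exact Nat.pow_le_pow_right (by norm_num : 0 < 4) hm
  have mx : MaxP (B0 M G) P _ := maxP_B0 hS
  obtain ⟨fr, he⟩ := mx.fr_of_rank_two hab h4
  have he := he (by intro e; change 16 ≤ Nat.card (P : Subgroup G) at hm'; simp [e] at hm')
  have fin : ∀ N : Subgroup G, N.Normal → cen P ≤ N → N ⊓ nrm P ≤ cen P → (P : Subgroup G).Normal ∧
      Subgroup.centralizer (P : Set G) = (P : Subgroup G) ∧
      ((P : Subgroup G).index = 1 ∨ (P : Subgroup G).index = 3) := fun N hN h1 h2 => by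
    have h3 := key N hN (hab.trans h1) h2
    have h4 : cen (P : Subgroup G) = P := le_antisymm (h1.trans h3.le) hab
    have h5 : (P : Subgroup G).Normal := h3 ▸ hN
    refine ⟨h5, h4, ?_⟩
    rwa [ee, mx.inf_B0, h4, show nrm (P : Subgroup G) = ⊤ from Subgroup.normalizer_eq_top _,
      Subgroup.relIndex_top_right] at he
  rcases he with he | he
  · rw [ee, mx.inf_B0, Subgroup.relIndex_eq_one] at he
    exact fin ⊤ inferInstance le_top (inf_le_right.trans he)
  obtain ⟨χ, hχ, h1, h2, h3⟩ := fr.ex0.two_three (fr.ex0.card_E.trans he) (by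
    change 4 < Nat.card P; omega)
  haveI := χ.2.isClassFunction.charKer_normal
  have hP : (P : Subgroup G) ≤ charKer χ.1 := fun u hu =>
    χ.2.isCharacter.mem_charKer.2 ((h3 u hu).trans h2.symm)
  have hC : cen P ≤ charKer χ.1 := fun c hc => by
    obtain ⟨u, hu, o⟩ := exists_orderOf_two mx.isPGroup (by
      intro e; change 16 ≤ Nat.card (P : Subgroup G) at hm'; simp [e] at hm')
    have u1 : u ≠ 1 := by rintro rfl; simp at o
    have a1 : pp 2 c ∈ (P : Subgroup G) := by
      obtain ⟨k, hk, e⟩ := exists_conj_mem_sylow (hS.of_le hab le_top) (isPElt_pp c) (pp_mem hc)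
      have := Subgroup.mem_centralizer_iff.1 hk _ e
      rw [inv_mul_cancel_right, mul_assoc, mul_right_inj, ← mul_assoc] at this
      rwa [this]
    have a2 : u * pq 2 c ∈ charKer χ.1 := χ.2.isCharacter.mem_charKer.2 (by
      rw [fr.B0_const hu u1 hχ (by
        rw [pp_eq_of_isPPart (isPPart_mul ⟨1, by simpa using o⟩ (isPRegular_pq c)
          (Subgroup.mem_centralizer_iff.1 (pq_mem hc) u hu))]), h3 u hu, h2])
    rw [← pp_mul_pq (p := 2) c]
    exact mul_mem (hP a1) ((Subgroup.mul_mem_cancel_left _ (hP hu)).1 a2)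
  refine fin _ inferInstance hC ?_
  rw [ee, mx.inf_B0] at he
  have a := Subgroup.relIndex_mul_relIndex (cen (P : Subgroup G)) (charKer χ.1 ⊓ nrm P) (nrm P)
    (le_inf hC (cen_le_nrm _)) inf_le_right
  rw [he] at a
  rcases (Nat.dvd_prime Nat.prime_three).1 (Dvd.intro _ a) with b | b
  · exact Subgroup.relIndex_eq_one.1 b
  · rw [b] at a
    have : nrm (P : Subgroup G) ≤ charKer χ.1 :=
      (Subgroup.relIndex_eq_one.1 (by omega : (charKer χ.1 ⊓ nrm P).relIndex (nrm P) = 1)).trans
        inf_le_left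
    have b : nrm (P : Subgroup G) ⊔ _ = ⊤ := Sylow.normalizer_sup_eq_top' P hP
    rw [sup_eq_right.2 this] at b
    exact absurd (Subtype.ext (χ.2.eq_one_of_const fun g => χ.2.isCharacter.mem_charKer.1
      (b ▸ Subgroup.mem_top g))) h1

end Cfsg.Agent.S0949
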