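import Cfsg.Statements.S0950
import Cfsg.Agent.H1.Two5

set_option autoImplicit false
open Cfsg

namespace Cfsg.Agent.S0950

open H7 H1B Subgroup

/-- Let S be a Sylow 2-subgroup of the finite group G that is isomorphic to the quaternion group of order 8, and suppose S has no normal complement in G. Then any two subgroups of order 4 of S are conjugate by an element of the normalizer of S. -/
theorem result {G : Type*} [Group G] [Finite G] (S : Sylow 2 G) (e : (S : Subgroup G) ≃* QuaternionGroup 2) (hnc : ∀ N : Subgroup G, N.Normal → ¬ Subgroup.IsComplement' N (S : Subgroup G)) (A B : Subgroup G) (hA : A ≤ S) (hB : B ≤ S) (hA4 : Nat.card A = 4) (hB4 : Nat.card B = 4) : ∃ n ∈ Subgroup.normalizer ((S : Subgroup G) : Set G), B = A.map (MulAut.conj n).toMonoidHom := by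
  obtain ⟨a, h, hq⟩ := mx_of_quat (n := 0) e
  have s := syl_top S
  obtain ⟨p, pp, p2, Q, -, hQ, x, -, px, nx, cx⟩ := exists_of_not_npc (mt npc_top_iff.2 fun h =>
    let ⟨N, h1, h2⟩ := (H2.hasNPC_iff_sylow S).1 h; hnc N h1 h2)
  obtain ⟨g, -, hg⟩ := s.exists_cj_le hQ le_top
  haveI := Fact.mk pp
  have ox : Odd (orderOf x) := by
    obtain ⟨k, hk⟩ := card_pgroup px
    rw [← Nat.card_zpowers, hk]; exact (pp.odd_of_ne_two p2).pow
  have n1 : g * x * g⁻¹ ∈ nrm (H2.cj g Q) := by rw [← cj_nrm]; exact conj_mem_cj.2 nx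
  have c1 : g * x * g⁻¹ ∉ cen (H2.cj g Q) := by rwa [← cj_cen, conj_mem_cj]
  have o1 := (ord_conj g x).symm ▸ ox
  have nk : ∀ X ≤ (S : Subgroup G), ¬ IsKleinFour X := fun X hX k => by
    obtain ⟨t, ht, hta, h2, -⟩ := h.eq_four hX k
    exact h.z_ne ((hq t ht hta).symm.trans h2)
  obtain ⟨e'⟩ := (h.aut_cases hg n1 o1 c1).resolve_left (nk _ hg)
  rw [eq_of_le_of_card_ge hg (Nat.card_congr (e.trans e'.symm).toEquiv).le] at n1 c1
  obtain ⟨x, y, k, e1, e2, r⟩ := exists_s23 e n1 o1 c1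
  have nk' : k ∈ nrm (S : Subgroup G) := e2 ▸ r.nrm_Q
  have mx : x ∈ (S : Subgroup G) := e2 ▸ mem_sup_left (mem_zpowers x)
  have my : y ∈ (S : Subgroup G) := e2 ▸ mem_sup_right (mem_zpowers y)
  have h' : MX (S : Subgroup G) x 1 0 := MX.of_gen mx r.ord_x h.card my r.out (r.inv.trans (mul_one _).symm) (.inl rfl)
  have key : ∀ A ≤ (S : Subgroup G), ord A = 4 → ∃ n ∈ nrm (S : Subgroup G), H2.cj n (zpowers x) = A := by
    intro A hA h4
    have cA : IsCyclic A := (h.card_comm hA (IsPGroup.isMulCommutative_of_card_eq_prime_sq (p := 2) h4)).resolve_right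
      (nk A hA)
    obtain ⟨c, rfl⟩ := (Subgroup.isCyclic_iff_exists_zpowers_eq_top A).1 cA
    have := h'.mem_q8 my r.out (r.y2.trans (pow_two x).symm) (x := c)
      (by rw [pow_zero, pow_one, e2]; exact hA (mem_zpowers c)) (by rwa [← Nat.card_zpowers])
    rw [pow_zero, pow_one] at this
    rcases this with e | e | e <;> rw [e]
    · exact ⟨1, one_mem _, H2.cj_one _⟩
    · exact ⟨k, nk', by rw [H7.cj_zpowers, r.gx]⟩
    · exact ⟨k * k, mul_mem nk' nk', by rw [cj_mul, H7.cj_zpowers, r.gx, H7.cj_zpowers, r.gy]⟩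
  obtain ⟨n, hn, rfl⟩ := key A hA hA4
  obtain ⟨m, hm, rfl⟩ := key B hB hB4
  exact ⟨m * n⁻¹, mul_mem hm (inv_mem hn), show _ = H2.cj _ _ by rw [cj_mul, H2.cj_inv_cj]⟩

end Cfsg.Agent.S0950
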