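import Cfsg.Statements.S0951
import Cfsg.Agent.H9.BS

set_option autoImplicit false
open Cfsg

namespace Cfsg.Agent.S0951
open H9 H3 MonoidAlgebra
open scoped Pointwise
set_option linter.style.haveILetI false
set_option linter.unusedVariables false


/-- Let S be a Sylow 2-subgroup of the finite group G isomorphic to the quaternion group of order 8. Suppose G has no nontrivial normal subgroup of odd order and G ≠ S. Then, relative to any maximal ideal M of the algebraic integers containing 2, the principal block of G consists of exactly 7 irreducible characters. -/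
theorem result {G : Type*} [Group G] [Finite G] (M : Ideal Cfsg.AlgInt) (hM : Cfsg.IsPModular 2 M) (S : Sylow 2 G) (e : (S : Subgroup G) ≃* QuaternionGroup 2) (hO : ∀ N : Subgroup G, N.Normal → Odd (Nat.card N) → N = ⊥) (hG : (S : Subgroup G) ≠ ⊤) : Nat.card (Cfsg.principalBlock M G) = 7 := by
  haveI : PMod 2 M := ⟨hM⟩
  haveI := Fintype.ofFinite G
  have ui := ui_of_equiv_quaternion S e
  have hn : ¬ HasNormalPComplement 2 G := fun h => hG (by
    have := H2.pResidual_sup_sylow S
    rwa [← npc_pPrimeCore h, pPrimeCore_two_eq_bot hO, bot_sup_eq] at this)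
  rcases (ui.mono le_top).cyclic_or_quat S.isPGroup' with hc | ⟨a, m, h⟩
  · exact absurd (H2.hasNPC_top_iff.1 (npc_of_isCyclic (H1.isSylowIn_top S))) hn
  have hm : m = 0 := by
    have := h.card
    rw [Nat.card_congr e.toEquiv, Nat.card_eq_fintype_card, QuaternionGroup.card] at this
    have := Nat.pow_right_injective (a := 2) le_rfl (a₁ := 3) this
    omega
  subst hm
  exact (h.q8Hyp (H1.isSylowIn_top S) ui hn).card_B0

end Cfsg.Agent.S0951
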