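import Cfsg.Statements.S0953
import Cfsg.Agent.H9.Zsp

set_option autoImplicit false
open Cfsg

namespace Cfsg.Agent.S0953
open H9 H3 MonoidAlgebra
open scoped Pointwise
set_option linter.style.haveILetI false
set_option linter.unusedVariables false


/-- Let P be a Sylow p-subgroup of the finite group G with normalizer N, and fix a maximal ideal M of the algebraic integers containing p. The number of blocks of G having P as a defect group equals the number of conjugacy classes of N consisting of elements of order prime to p that centralize P. -/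
theorem result {G : Type*} [Group G] [Finite G] (p : ℕ) [Fact p.Prime] (M : Ideal Cfsg.AlgInt) (hM : Cfsg.IsPModular p M) (P : Sylow p G) : Nat.card {B : Set (Cfsg.IrrCharacter G) // Cfsg.IsPBlock M B ∧ Cfsg.IsDefectGroup p M B (P : Subgroup G)} = Nat.card {C : ConjClasses (Subgroup.normalizer ((P : Subgroup G) : Set G)) // ∀ n : Subgroup.normalizer ((P : Subgroup G) : Set G), ConjClasses.mk n = C → ¬ p ∣ orderOf n ∧ (n : G) ∈ Subgroup.centralizer ((P : Subgroup G) : Set G)} := by
  classical
  haveI : PMod p M := ⟨hM⟩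
  rw [card_setOf_blocks]
  refine (card_isDef_eq (M := M) (P : Subgroup G)).trans ?_
  set N := nrm (P : Subgroup G) with hN
  set D := (P : Subgroup G).subgroupOf N with hD
  haveI : D.Normal := Subgroup.normal_in_normalizer
  have h1 : H1.IsSylowIn p D ⊤ := by
    have := (H1.isSylowIn_of_le P (K := N) Subgroup.le_normalizer).subgroupOf le_rfl
    rwa [Subgroup.subgroupOf_self] at this
  have hc : ∀ n : N, (n : G) ∈ cen P ↔ n ∈ cen D := fun n =>
    ⟨fun h d hd => Subtype.ext (h _ hd), fun h d hd =>
      congrArg Subtype.val (h ⟨d, Subgroup.le_normalizer hd⟩ hd)⟩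
  have hc2 : ∀ {a b : N}, IsConj a b → a ∈ cen D → b ∈ cen D := fun h ha => by
    obtain ⟨c, rfl⟩ := isConj_iff.1 h
    exact (Subgroup.normal_centralizer (H := D)).conj_mem _ ha c
  refine le_antisymm (card_blocks_le _ _ fun B B' _ _ g hg _ n hn => ?_) ?_
  · have := (ConjClasses.mk_eq_mk_iff_isConj.1 hn).symm
    exact ⟨isPRegular_of_isConj (B'.isPRegular_of_coeff_e hg) this,
      (hc n).2 (hc2 this (B'.mem_centralizer_of_coeff h1.isPGroup hg))⟩
  · set S := {C : ConjClasses N // ∀ n : N, ConjClasses.mk n = C → ¬ p ∣ orderOf n ∧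
      (n : G) ∈ Subgroup.centralizer ((P : Subgroup G) : Set G)}
    haveI := Fintype.ofFinite S
    have h2 : ∀ (C : S) g, IsConj (crep C.1) g → IsPRegular p g ∧ g ∈ cen D := fun C g hg =>
      ⟨(C.2 g (isConj_crep_iff.1 hg)).1, (hc g).1 (C.2 g (isConj_crep_iff.1 hg)).2⟩
    obtain ⟨B, b1, b2, -⟩ := exists_blocks_of_sep M (fun C : S => crep C.1)
      (fun i j h => Subtype.ext (by rw [← isConj_crep_iff.1 h, mk_crep])) (D := D)
      (fun C => h1.of_le (mem_centralizer_iff_le.1 (h2 C _ (IsConj.refl _)).2) le_top)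
      fun i j g h hg hh hp => by
        have a1 : g * h⁻¹ ∈ D := Subgroup.zpowers_le.1 (h1.le_of_le_normalizer hp.isPGroup_zpowers
          le_top (le_nrm_of_normal _ _))
        have a2 := pp_mul hp (h2 j h hh).1 ((h2 j h hh).2 _ a1)
        rw [inv_mul_cancel_right, pp_of_isPRegular (h2 i g hg).1] at a2
        exact mul_inv_eq_one.1 a2.symm
    exact Nat.card_le_card_of_injective (fun C => ⟨B C, b2 C⟩)
      fun C C' e => b1 (congrArg Subtype.val e)

end Cfsg.Agent.S0953
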