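import Cfsg.Statements.S0954
import Cfsg.Agent.H9.FR

set_option autoImplicit false
open Cfsg

namespace Cfsg.Agent.S0954
open H9 H3 MonoidAlgebra
open scoped Pointwise
set_option linter.style.haveILetI false
set_option linter.unusedVariables false


/-- Let N be a normal subgroup of the finite group G of order prime to p and of p-power index (a normal p-complement), and fix a maximal ideal M of the algebraic integers containing p. Then two irreducible characters χ, ψ of G lie in the same block if and only if some irreducible character of N has nonzero inner product with both the restriction of χ and the restriction of ψ. -/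
theorem result {G : Type*} [Group G] [Fintype G] (p : ℕ) [Fact p.Prime] (M : Ideal Cfsg.AlgInt) (hM : Cfsg.IsPModular p M) (N : Subgroup G) [N.Normal] [Fintype N] (hN : ¬ p ∣ Nat.card N) (hidx : ∃ k : ℕ, N.index = p ^ k) (χ ψ : Cfsg.IrrCharacter G) : Cfsg.SameBlock M (χ : G → ℂ) (ψ : G → ℂ) ↔ ∃ θ : Cfsg.IrrCharacter N, Cfsg.classInner (fun n : N => (χ : G → ℂ) n) (θ : N → ℂ) ≠ 0 ∧ Cfsg.classInner (fun n : N => (ψ : G → ℂ) n) (θ : N → ℂ) ≠ 0 := by
  haveI : PMod p M := ⟨hM⟩
  obtain ⟨k, hk⟩ := hidx
  constructor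
  · intro h
    obtain ⟨θ, hθ, h1⟩ := exists_irr_under N χ.2
    exact ⟨⟨θ, hθ⟩, h1, Bl.over_of_not_dvd hN (mem_blk (M := M) χ) h h1⟩
  · rintro ⟨θ, h1, h2⟩
    exact blk_eq_iff.1 (Bl.eq_of_cov_of_reg (fun g => mem_of_reg_of_index hk)
      (cov_blk (mem_blk χ) (mem_blk θ) h1) (cov_blk (mem_blk ψ) (mem_blk θ) h2))

end Cfsg.Agent.S0954
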