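import Cfsg.Statements.S0955
import Cfsg.Agent.H9.Height

set_option autoImplicit false
open Cfsg

namespace Cfsg.Agent.S0955
open H9 H3 MonoidAlgebra
open scoped Pointwise
set_option linter.style.haveILetI false
set_option linter.unusedVariables false


/-- Let D be a defect group of a block of the finite group G relative to a maximal ideal M of the algebraic integers containing the prime p. Then D is the largest normal p-subgroup of its own normalizer: O_p(N_G(D)) = D. -/
theorem result {G : Type*} [Group G] [Finite G] (p : ℕ) [Fact p.Prime] (M : Ideal Cfsg.AlgInt) (hM : Cfsg.IsPModular p M) (B : Set (Cfsg.IrrCharacter G)) (hB : Cfsg.IsPBlock M B) (D : Subgroup G) (hD : Cfsg.IsDefectGroup p M B D) : (Cfsg.pCore p (Subgroup.normalizer (D : Set G))).map (Subgroup.normalizer (D : Set G)).subtype = D := by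
  haveI : PMod p M := ⟨hM⟩
  lift B to Bl M G using hB
  have hD : B.IsDef D := hD
  have h1 : D.subgroupOf (Subgroup.normalizer (D : Set G)) ≤ pCore p _ :=
    H1.le_pCore hD.isPGroup.comap_subtype
  have h2 : D ≤ (pCore p (Subgroup.normalizer (D : Set G))).map (Subgroup.normalizer (D : Set G)).subtype := by
    have := Subgroup.map_mono (f := (Subgroup.normalizer (D : Set G)).subtype) h1
    rwa [Subgroup.subgroupOf_map_subtype, inf_eq_left.2 Subgroup.le_normalizer] at this
  obtain ⟨c, hc⟩ := exists_ind_centralizer_of_br hD.isPGroup hD.br_ne_zero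
  obtain ⟨b, hb⟩ := exists_ind_of_centralizer (Subgroup.inclusion_injective
    (Subgroup.centralizer_le_normalizer (D : Set G))) (Q := D.subgroupOf _) hD.isPGroup.comap_subtype (by
      ext x
      rw [Subgroup.inclusion_range, Subgroup.mem_subgroupOf,
        ← map_mem_centralizer_map_iff (Subgroup.subtype_injective _), Subgroup.subgroupOf_map_subtype,
        inf_eq_left.2 Subgroup.le_normalizer]
      rfl) c
  have hb' : Ind (Subgroup.normalizer (D : Set G)).subtype b B := hb.of_trans hc
  exact hD.eq_of_le (H1.isPGroup_pCore.map _)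
    (hb'.br_map_ne_zero H1.isPGroup_pCore (b.br_ne_zero_of_normal H1.isPGroup_pCore)) h2

end Cfsg.Agent.S0955
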