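import Cfsg.Statements.S0958
import Cfsg.Agent.H9.Trans

set_option autoImplicit false
open Cfsg

namespace Cfsg.Agent.S0958
open H9 H3 MonoidAlgebra
open scoped Pointwise
set_option linter.style.haveILetI false
set_option linter.unusedVariables false


/-- Let P be a p-subgroup of the finite group G and H a subgroup with P ⊔ C_G(P) ≤ H ≤ N_G(P); fix a maximal ideal M of the algebraic integers containing p. Then a block B of G is induced by some block of H if and only if some conjugate of P is contained in a defect group of B. -/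
theorem result {G : Type*} [Group G] [Finite G] (p : ℕ) [Fact p.Prime] (M : Ideal Cfsg.AlgInt) (hM : Cfsg.IsPModular p M) (P H : Subgroup G) (hP : IsPGroup p P) (hPH : P ⊔ Subgroup.centralizer (P : Set G) ≤ H) (hHN : H ≤ Subgroup.normalizer (P : Set G)) (B : Set (Cfsg.IrrCharacter G)) (hB : Cfsg.IsPBlock M B) : (∃ b : Set (Cfsg.IrrCharacter H), Cfsg.IsInducedBlock M H b B) ↔ ∃ D : Subgroup G, Cfsg.IsDefectGroup p M B D ∧ ∃ x : G, P.map (MulAut.conj x).toMonoidHom ≤ D := by
  haveI : PMod p M := ⟨hM⟩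
  lift B to Bl M G using hB
  have hi : ∀ (b : Bl M H), IsInducedBlock M H b.1 B.1 ↔ br (RF M) P B.e * b.E = b.E := fun b =>
    isInducedBlock_iff_br hP (le_sup_left.trans hPH) (le_sup_right.trans hPH) hHN
  obtain ⟨D, hD⟩ := B.exists_isDef
  constructor
  · rintro ⟨b, h⟩
    lift b to Bl M H using h.1
    exact ⟨D, hD, hD.exists_conj_le hP fun h0 => b.isBlk.ne_zero (by
      rw [← (hi b).1 h, h0, zero_mul])⟩
  · rintro ⟨E, hE, h⟩
    obtain ⟨_, ⟨b, rfl⟩, h1⟩ := exists_isBlk_of_idem (br_mem_ZS (mem_ZS_top.2 B.e_mem) le_top hHN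
      (inf_le_right.trans (le_sup_right.trans hPH)))
      (br_idem hP (mem_Fix_of_mem_Zc B.e_mem _) B.e_mul_self)
      ((Bl.IsDef.br_ne_zero_iff hE hP).2 h)
    exact ⟨b.1, (hi b).2 h1⟩

end Cfsg.Agent.S0958
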