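import Cfsg.Statements.S4441
import Cfsg.Agent.H9.Cyc2

set_option autoImplicit false
open Cfsg

namespace Cfsg.Agent.S4441
open H9 H3 MonoidAlgebra
open scoped Pointwise
set_option linter.style.haveILetI false
set_option linter.unusedVariables false


/-- Let p be an odd prime and G a finite group whose Sylow p-subgroup P has order p; let C = C_G(P), N = N_G(P), e the index of C in N and t = (p − 1)/e; fix a maximal ideal M of the algebraic integers containing p and let B₀ be the principal block. Then B₀ is the disjoint union of a set X of e characters and a set Y of t characters such that: each χ ∈ X has a sign ε_χ with χ(1) ≡ ε_χ (mod p) and χ(x y) = ε_χ for every non-identity x ∈ P and every p-regular y ∈ C; all members of Y agree on the p-regular elements of G; there is one sign ε with θ(1) ≡ ε e (mod p) for every θ ∈ Y; and for every θ ∈ Y and every p-regular g, ε θ(g) = Σ_{χ ∈ X}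 ε_χ χ(g). -/
theorem result {G : Type*} [Group G] [Fintype G] (p : ℕ) [Fact p.Prime] (M : Ideal Cfsg.AlgInt) (hM : Cfsg.IsPModular p M) (hodd : p ≠ 2) (P : Sylow p G) (hP : Nat.card P = p) (e : ℕ) (he : (Subgroup.centralizer ((P : Subgroup G) : Set G)).relIndex (Subgroup.normalizer ((P : Subgroup G) : Set G)) = e) : ∃ X Y : Set (Cfsg.IrrCharacter G), Cfsg.principalBlock M G = X ∪ Y ∧ Disjoint X Y ∧ Nat.card X = e ∧ Nat.card Y = (p - 1) / e ∧ ∃ (εX : Cfsg.IrrCharacter G → ℤ) (ε : ℤ), (∀ χ ∈ X, (εX χ = 1 ∨ εX χ = -1) ∧ (Cfsg.charDegree (χ : G → ℂ) : ℤ) ≡ εX χ [ZMOD p] ∧ ∀ x : G, x ∈ (P : Subgroup G) → x ≠ 1 → ∀ y : G, y ∈ Subgroup.centralizer ((P : Subgroup G) : Set G) → ¬ p ∣ orderOf y → (χ : G → ℂ) (x * y) = (εX χ : ℂ)) ∧ (ε = 1 ∨ ε = -1) ∧ (∀ θ ∈ Y, (Cfsg.charDegree (θ : G → ℂ) : ℤ) ≡ ε * (e : ℤ) [ZMOD p]) ∧ (∀ θ ∈ Y, ∀ θ' ∈ Y, ∀ g : G, ¬ p ∣ orderOf g → (θ : G → ℂ) g = (θ' : G → ℂ) g)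 ∧ ∀ θ ∈ Y, ∀ g : G, ¬ p ∣ orderOf g → (ε : ℂ) * (θ : G → ℂ) g = ∑ᶠ χ ∈ X, (εX χ : ℂ) * (χ : G → ℂ) g := by
  classical
  haveI : PMod p M := ⟨hM⟩
  haveI : IsCyclic (P : Subgroup G) := isCyclic_of_prime_card hP
  have m := maxP_B0 (M := M) (H1.isSylowIn_top P)
  have h1 : (P : Subgroup G) ≠ ⊥ := fun e => by
    rw [e, Subgroup.card_bot] at hP; exact (Fact.out : p.Prime).one_lt.ne hP
  obtain ⟨w, hw⟩ := m.fr_of_cyclic.ex0.exc_B0
  obtain ⟨ζ, ε, δ, f⟩ := MaxP.full_of_exc h1 w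
  have hE : ee (P : Subgroup G) (B0 M (cen P)).E = e := by rw [ee, m.inf_B0, he]
  have key : ∀ χ ∈ (B0 M G).1 \ YY ζ, ∀ x ∈ (P : Subgroup G), x ≠ 1 → χ.1 x = δ χ := fun χ hχ x hx h =>
    (hw χ hχ.1 ⟨x, hx⟩ (by simpa using h)).symm.trans (f.x.non χ hχ _ (by simpa using h))
  have k2 : ∀ χ ∈ (B0 M G).1 \ YY ζ, (charDegree χ.1 : ℤ) ≡ δ χ [ZMOD p] := fun χ hχ => by
    obtain ⟨n, hn⟩ := exists_int_of_const χ.2.isGen (key χ hχ)
    rw [hP, irr_deg] at hn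
    exact (Int.modEq_iff_dvd.2 ⟨n - δ χ, by exact_mod_cast hn⟩).symm
  refine ⟨(B0 M G).1 \ YY ζ, YY ζ, (Set.sdiff_union_of_subset f.x.YY_sub).symm,
    Set.disjoint_sdiff_left, hE ▸ f.card_X, by rw [f.card_Y, hE, hP], δ, ε,
    fun χ hχ => ⟨f.sign hχ, k2 χ hχ, fun x hx h y hy hy' => ?_⟩, f.x.sign, fun θ h => ?_,
    fun ψ h ψ' h' g hg => f.x.reg f.w h h' hg, fun θ h g hg => ?_⟩
  · rw [m.fr_of_cyclic.B0_const hx h hχ.1 (by
      rw [pp_mul (m.isPElt hx) hy' (hy x hx)]), key χ hχ x hx h]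
  · obtain ⟨χ, hχ⟩ := f.exists_non
    have := (f.modEq_exc h hχ).mul_left ε
    rw [← mul_assoc, f.x.ε_sq, one_mul, hE, hP] at this
    refine this.trans (Int.ModEq.mul_left _ ?_)
    have := ((k2 χ hχ).mul_left (δ χ)).mul_left e
    rcases f.sign hχ with e | e <;> simpa [e] using this
  · rw [finsum_mem_irr, f.rel h hg]; congr

end Cfsg.Agent.S4441
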