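import Cfsg.Statements.S0960
import Cfsg.Agent.S4441
import Cfsg.Agent.H9.Cyc2

set_option autoImplicit false
open Cfsg

namespace Cfsg.Agent.S0960
open H9 H3 MonoidAlgebra
open scoped Pointwise
set_option linter.style.haveILetI false
set_option linter.unusedVariables false


/-- Let p be an odd prime and G a finite group whose Sylow p-subgroup P has order p; let e be the index of C_G(P) in N_G(P) (a divisor of p − 1) and fix a maximal ideal M of the algebraic integers containing p. Then the principal block of G consists of exactly e + (p - 1) / e irreducible characters, and the degree d of each of them satisfies d ≡ 1, d ≡ -1, d ≡ e or d ≡ -e modulo p. -/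
theorem result {G : Type*} [Group G] [Finite G] (p : ℕ) [Fact p.Prime] (M : Ideal Cfsg.AlgInt) (hM : Cfsg.IsPModular p M) (hodd : p ≠ 2) (P : Sylow p G) (hP : Nat.card P = p) (e : ℕ) (he : (Subgroup.centralizer ((P : Subgroup G) : Set G)).relIndex (Subgroup.normalizer ((P : Subgroup G) : Set G)) = e) : Nat.card (Cfsg.principalBlock M G) = e + (p - 1) / e ∧ ∀ χ ∈ Cfsg.principalBlock M G, ((Cfsg.charDegree (χ : G → ℂ) : ℤ) ≡ 1 [ZMOD p] ∨ (Cfsg.charDegree (χ : G → ℂ) : ℤ) ≡ -1 [ZMOD p] ∨ (Cfsg.charDegree (χ : G → ℂ) : ℤ) ≡ (e : ℤ) [ZMOD p] ∨ (Cfsg.charDegree (χ : G → ℂ) : ℤ) ≡ -(e : ℤ) [ZMOD p]) := by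
  classical
  haveI := Fintype.ofFinite G
  obtain ⟨X, Y, h1, h2, h3, h4, δ, ε, h5, h6, h7, -⟩ := S4441.result p M hM hodd P hP e he
  rw [h1]
  refine ⟨by rw [← h4, ← h3, Nat.card_coe_set_eq, Set.ncard_union_eq h2]; rfl, ?_⟩
  rintro χ (h | h)
  · obtain ⟨a | a, b, -⟩ := h5 χ h <;> simp [← a, b]
  · have := h7 χ h
    rcases h6 with rfl | rfl <;> simp_all

end Cfsg.Agent.S0960
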