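import Cfsg.Statements.S0961
import Cfsg.Agent.H9.Sect

set_option autoImplicit false
open Cfsg

namespace Cfsg.Agent.S0961
open H9 H3 MonoidAlgebra
open scoped Pointwise
set_option linter.style.haveILetI false
set_option linter.unusedVariables false


/-- Let χ be an irreducible character of the finite group G and let p ^ a be the largest power of the prime p dividing the order of G. Then the function equal to p ^ a * χ x at elements x of order prime to p and to 0 elsewhere is a generalized character (a difference of characters). -/
theorem result {G : Type*} [Group G] [Finite G] (p : ℕ) [Fact p.Prime] (χ : Cfsg.IrrCharacter G) : Cfsg.IsGeneralizedCharacter G (fun x : G => if p ∣ orderOf x then 0 else ((p ^ (Nat.card G).factorization p : ℕ) : ℂ) * (χ : G → ℂ) x) := by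
  convert isGen_pow_smul_reg (p := p) χ.2.isGen using 1
  ext x
  by_cases h : p ∣ orderOf x
  · simp [h, pRegularPart_of_not_reg (not_not.2 h)]
  · simp [h, pRegularPart_of_reg h]

end Cfsg.Agent.S0961
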