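import Cfsg.Statements.S0963
import Cfsg.Agent.H9.FR

set_option autoImplicit false
open Cfsg

namespace Cfsg.Agent.S0963
open H9 H3 MonoidAlgebra
open scoped Pointwise
set_option linter.style.haveILetI false
set_option linter.unusedVariables false


/-- Let N be a normal subgroup of the finite group G, χ an irreducible character of G and θ an irreducible character of N. Then θ occurs in the restriction of χ to N if and only if, for every n ∈ N, the central character of χ at n (class size in G times χ n over χ 1) equals the sum of θ m / θ 1 over the elements m of N conjugate in G to n. -/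
theorem result {G : Type*} [Group G] [Fintype G] (N : Subgroup G) [N.Normal] [Fintype N] (χ : Cfsg.IrrCharacter G) (θ : Cfsg.IrrCharacter N) : Cfsg.classInner (fun n : N => (χ : G → ℂ) n) (θ : N → ℂ) ≠ 0 ↔ ∀ n : N, Cfsg.centralChar (χ : G → ℂ) (n : G) = Cfsg.inducedCentralChar N (θ : N → ℂ) (n : G) := by
  have key : ∀ χ : IrrCharacter G, classInner (fun n : N => χ.1 n) θ.1 ≠ 0 →
      ∀ n : N, centralChar χ.1 (n : G) = inducedCentralChar N θ.1 (n : G) := fun χ h n => by
    rw [inducedCentralChar_eq, ← om_classSum χ.2.isClassFunction]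
    exact om_eq_of_over N.subtype_injective h (classSum_mem_Zc _)
      (by simpa using classSum_supp n.2)
  refine ⟨key χ, fun h => ?_⟩
  obtain ⟨ψ, hψ, h1⟩ := exists_irr_over N θ.2
  have h2 : (fun n : N => χ.1 n) = (χ.1 1 / ψ 1) • fun n : N => ψ n := by
    funext n
    have := (h n).trans (key ⟨ψ, hψ⟩ h1 n).symm
    have h3 : ((Subgroup.centralizer ({(n : G)} : Set G)).index : ℂ) ≠ 0 :=
      Nat.cast_ne_zero.2 Subgroup.index_ne_zero_of_finite
    have h4 := χ.2.deg_ne_zero
    have h5 := hψ.deg_ne_zero
    simp only [centralChar] at this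
    simp only [Pi.smul_apply, smul_eq_mul]
    field_simp at this ⊢
    exact this
  rw [h2, H3.inner_smul_left]
  exact mul_ne_zero (div_ne_zero χ.2.deg_ne_zero hψ.deg_ne_zero) h1

end Cfsg.Agent.S0963
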