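import Cfsg.Statements.S0965
import Cfsg.Agent.H9.FR

set_option autoImplicit false
open Cfsg

namespace Cfsg.Agent.S0965
open H9 H3 MonoidAlgebra
open scoped Pointwise
set_option linter.style.haveILetI false
set_option linter.unusedVariables false


/-- Let N be a normal subgroup of the finite group G and let B, b be blocks of G and of N relative to a maximal ideal M of the algebraic integers containing the prime p. Then some χ ∈ B has a constituent in b on restriction to N if and only if, for all χ ∈ B, θ ∈ b and n ∈ N, the central character of χ at n is congruent modulo the local ideal at M to the sum of θ m / θ 1 over the elements m ∈ N conjugate in G to n. -/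
theorem result {G : Type*} [Group G] [Fintype G] (p : ℕ) [Fact p.Prime] (M : Ideal Cfsg.AlgInt) (hM : Cfsg.IsPModular p M) (N : Subgroup G) [N.Normal] [Fintype N] (B : Set (Cfsg.IrrCharacter G)) (hB : Cfsg.IsPBlock M B) (b : Set (Cfsg.IrrCharacter N)) (hb : Cfsg.IsPBlock M b) : (∃ χ ∈ B, ∃ θ ∈ b, Cfsg.classInner (fun n : N => (χ : G → ℂ) n) (θ : N → ℂ) ≠ 0) ↔ ∀ χ ∈ B, ∀ θ ∈ b, ∀ n : N, Cfsg.MemLocalIdeal M (Cfsg.centralChar (χ : G → ℂ) (n : G) - Cfsg.inducedCentralChar N (θ : N → ℂ) (n : G)) := by
  haveI : PMod p M := ⟨hM⟩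
  lift B to Bl M G using hB
  lift b to Bl M N using hb
  have key : ∀ χ ∈ B.1, ∀ θ ∈ b.1, ∀ n : N, MemLocalIdeal M (centralChar χ.1 (n : G) -
      inducedCentralChar N θ.1 (n : G)) ↔ B.lam (classSum (RF M) (n : G)) =
      b.lam (pull (RF M) N.subtype (classSum (RF M) (n : G))) := fun χ hχ θ hθ n => by
    have h1 := b.lam_pull_toF N.subtype hθ (pull_mem_Zc _ (classSum_mem_Zc (k := LR M) (n : G)))
    have h2 := om_pull_toC_mem (M := M) N.subtype θ.2 (classSum_mem_Zc (k := LR M) (n : G))
    rw [map_classSum] at h2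
    rw [map_classSum, map_classSum] at h1
    rw [B.lam_classSum hχ, h1, inducedCentralChar_eq, ← mem_LI,
      red_eq_red_iff (centralChar_mem_LR χ.2 _) h2]
  rw [cov_subtype_iff]
  exact ⟨fun h χ hχ θ hθ n => (key χ hχ θ hθ n).2
      (Bl.lam_eq_of_cov h (classSum_mem_Zc _) (classSum_supp n.2)),
    fun h => Bl.cov_of_lam_classSum fun n =>
      (key _ B.rep_mem _ b.rep_mem n).1 (h _ B.rep_mem _ b.rep_mem n)⟩

end Cfsg.Agent.S0965
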