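import Cfsg.Statements.S0966
import Cfsg.Agent.H9.FR

set_option autoImplicit false
open Cfsg

namespace Cfsg.Agent.S0966
open H9 H3 MonoidAlgebra
open scoped Pointwise
set_option linter.style.haveILetI false
set_option linter.unusedVariables false


/-- Let N be a normal subgroup of p-power index in the finite group G and b a block of N relative to a maximal ideal M of the algebraic integers containing p. Then there is exactly one block B of G containing a character whose restriction to N has a constituent in b. -/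
theorem result {G : Type*} [Group G] [Fintype G] (p : ℕ) [Fact p.Prime] (M : Ideal Cfsg.AlgInt) (hM : Cfsg.IsPModular p M) (N : Subgroup G) [N.Normal] [Fintype N] (hidx : ∃ k : ℕ, N.index = p ^ k) (b : Set (Cfsg.IrrCharacter N)) (hb : Cfsg.IsPBlock M b) : ∃! B : Set (Cfsg.IrrCharacter G), Cfsg.IsPBlock M B ∧ ∃ χ ∈ B, ∃ θ ∈ b, Cfsg.classInner (fun n : N => (χ : G → ℂ) n) (θ : N → ℂ) ≠ 0 := by
  haveI : PMod p M := ⟨hM⟩
  lift b to Bl M N using hb
  obtain ⟨k, hk⟩ := hidx
  obtain ⟨c, hc, h⟩ := b.isBlk.exists_cov_above ⊤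
  obtain ⟨B, rfl⟩ := isBlk_top_iff.1 hc
  refine ⟨B.1, ⟨B.2, cov_subtype_iff.2 h⟩, fun B' hB' => ?_⟩
  lift B' to Bl M G using hB'.1
  rw [Bl.eq_of_cov_of_reg (fun g => mem_of_reg_of_index hk) (cov_subtype_iff.1 hB'.2) h]

end Cfsg.Agent.S0966
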