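import Cfsg.Statements.S0970
import Cfsg.Agent.H9.FR

set_option autoImplicit false
open Cfsg

namespace Cfsg.Agent.S0970
open H9 H3 MonoidAlgebra
open scoped Pointwise
set_option linter.style.haveILetI false
set_option linter.unusedVariables false


/-- Let N be a normal subgroup of the finite group G and fix a maximal ideal M of the algebraic integers containing the prime p. Let b be a block of N that is invariant under conjugation by G, and B a block of G covering b (some χ ∈ B has a constituent in b) whose defect is at least that of every block covering b. If P is a defect group of B, then p does not divide the index of P ⊔ N, the subgroup P ∩ N of N is a defect group of b, and the defect of B equals the defect of b plus the exponent of p in the index of N. -/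
theorem result {G : Type*} [Group G] [Fintype G] (p : ℕ) [Fact p.Prime] (M : Ideal Cfsg.AlgInt) (hM : Cfsg.IsPModular p M) (N : Subgroup G) [hN : N.Normal] [Fintype N] (b : Set (Cfsg.IrrCharacter N)) (hb : Cfsg.IsPBlock M b) (hinv : ∀ g : G, ∀ θ ∈ b, ∀ θ' : Cfsg.IrrCharacter N, (∀ n : N, (θ' : N → ℂ) n = (θ : N → ℂ) ⟨g * n * g⁻¹, hN.conj_mem n n.2 g⟩) → θ' ∈ b) (B : Set (Cfsg.IrrCharacter G)) (hB : Cfsg.IsPBlock M B) (hcov : ∃ χ ∈ B, ∃ θ ∈ b, Cfsg.classInner (fun n : N => (χ : G → ℂ) n) (θ : N → ℂ) ≠ 0) (hmax : ∀ B' : Set (Cfsg.IrrCharacter G), Cfsg.IsPBlock M B' → (∃ χ ∈ B', ∃ θ ∈ b, Cfsg.classInner (fun n : N => (χ : G → ℂ) n) (θ : N → ℂ) ≠ 0) → Cfsg.blockDefect p B' ≤ Cfsg.blockDefect p B) (P : Subgroup G) (hP : Cfsg.IsDefectGroup p M B P) : ¬ p ∣ (P ⊔ N).index ∧ Cfsg.IsDefectGroup p M b ((P ⊓ N).subgroupOf N) ∧ Cfsg.blockDefect p B = Cfsg.blockDefect p b + N.index.factorization p := by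
  haveI : PMod p M := ⟨hM⟩
  lift B to Bl M G using hB
  lift b to Bl M N using hb
  have hf : b.E ∈ Zc (RF M) G := le_stab_iff.1 fun g _ => Bl.mem_stab_iff_normal.2 (hinv g)
  have h1 := b.isBlk.adef_top_of_max hf (cov_subtype_iff.1 hcov)
    (fun B' h => hmax B'.1 B'.2 (cov_subtype_iff.2 h)) hP
  have h2 := (b.isBlk.rb_top hf).not_dvd_relIndex h1
  have h3 := (b.isBlk.rb_top hf).adef_inf h1
  rw [Subgroup.relIndex_top_right, sup_comm] at h2
  refine ⟨h2, (isDefectGroup_subgroupOf_iff inf_le_right).2 h3, ?_⟩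
  have h4 := Bl.IsDef.factorization_card (B := B) hP
  have h5 := congrArg (·.factorization p) h3.card_eq
  have h6 := congrArg (·.factorization p) (H1.card_sup_mul_card_inf (le_nrm_of_normal P N))
  have h7 := factorization_card_add_index p (P ⊔ N)
  have h8 := factorization_card_add_index p N
  simp only [factorization_p_pow, Nat.factorization_mul Nat.card_pos.ne' Nat.card_pos.ne',
    Finsupp.add_apply, Nat.factorization_eq_zero_of_not_dvd h2] at h5 h6 h7
  omega

end Cfsg.Agent.S0970
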