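import Cfsg.Statements.S0971
import Cfsg.Agent.H9.FR

set_option autoImplicit false
open Cfsg

namespace Cfsg.Agent.S0971
open H9 H3 MonoidAlgebra
open scoped Pointwise
set_option linter.style.haveILetI false
set_option linter.unusedVariables false


/-- Let Q be a normal p-subgroup of the finite group G, let N = Q ⊔ C_G(Q) (a normal subgroup) and let b be a block of N relative to a maximal ideal M of the algebraic integers containing p. Then b induces some block of G, and every block B of G containing a character whose restriction to N has a constituent in b is induced by b. -/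
theorem result {G : Type*} [Group G] [Fintype G] (p : ℕ) [Fact p.Prime] (M : Ideal Cfsg.AlgInt) (hM : Cfsg.IsPModular p M) (Q : Subgroup G) [Q.Normal] (hQ : IsPGroup p Q) [Fintype ↥(Q ⊔ Subgroup.centralizer (Q : Set G))] (b : Set (Cfsg.IrrCharacter ↥(Q ⊔ Subgroup.centralizer (Q : Set G)))) (hb : Cfsg.IsPBlock M b) : Cfsg.InducedBlockDefined M (Q ⊔ Subgroup.centralizer (Q : Set G)) b ∧ ∀ B : Set (Cfsg.IrrCharacter G), Cfsg.IsPBlock M B → (∃ χ ∈ B, ∃ θ ∈ b, Cfsg.classInner (fun n : ↥(Q ⊔ Subgroup.centralizer (Q : Set G)) => (χ : G → ℂ) n) (θ : ↥(Q ⊔ Subgroup.centralizer (Q : Set G)) → ℂ) ≠ 0) → Cfsg.IsInducedBlock M (Q ⊔ Subgroup.centralizer (Q : Set G)) b B := by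
  haveI : PMod p M := ⟨hM⟩
  lift b to Bl M (Q ⊔ cen Q : Subgroup G) using hb
  obtain ⟨B, hB⟩ := exists_ind_subgroup hQ le_sup_left le_sup_right (le_nrm_of_normal _ _) b
  refine ⟨⟨B.1, isInducedBlock_iff.2 hB⟩, fun B hB h => ?_⟩
  lift B to Bl M G using hB
  rw [isInducedBlock_iff_br hQ le_sup_left le_sup_right (le_nrm_of_normal _ _),
    B.br_e_of_normal hQ]
  exact b.isBlk.mul_eq_of_cov_of_supp (isBlk_top B) le_top (fun g hg => by
    by_contra h0
    exact hg (Subgroup.mem_sup_right (B.mem_centralizer_of_coeff hQ h0))) (cov_subtype_iff.1 h)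

end Cfsg.Agent.S0971
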