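import Cfsg.Statements.S0972
import Cfsg.Agent.H9.Misc2
import Cfsg.Agent.H3.Deg

set_option autoImplicit false
open Cfsg

namespace Cfsg.Agent.S0972
open H9 H3 MonoidAlgebra
open scoped Pointwise
set_option linter.style.haveILetI false
set_option linter.unusedVariables false


/-- Let B be a block of the finite group G (relative to a maximal ideal M of the algebraic integers containing the prime p) with a defect group P that is normal in G. Then P is commutative if and only if every member of B has height zero. -/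
theorem result {G : Type*} [Group G] [Finite G] (p : ℕ) [Fact p.Prime] (M : Ideal Cfsg.AlgInt) (hM : Cfsg.IsPModular p M) (B : Set (Cfsg.IrrCharacter G)) (hB : Cfsg.IsPBlock M B) (P : Subgroup G) [P.Normal] (hP : Cfsg.IsDefectGroup p M B P) : (∀ a ∈ P, ∀ c ∈ P, a * c = c * a) ↔ ∀ χ ∈ B, Cfsg.blockHeight p B (χ : G → ℂ) = 0 := by
  haveI : PMod p M := ⟨hM⟩
  lift B to Bl M G using hB
  haveI := Fintype.ofFinite ↥(P ⊔ cen P)
  obtain ⟨c, θ, h1, h2, h3⟩ := Bl.IsDef.exists_can_normal hP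
  refine ⟨fun h χ hχ => ?_, fun h a ha b hb => ?_⟩
  · obtain ⟨ψ, hψ, h4⟩ := Bl.exists_under h1 hχ
    obtain ⟨ζ, hζ⟩ := h2.exists_res hψ
    obtain ⟨l, hl⟩ := ζ.2.exists_lin_of_comm fun a b => Subtype.ext (Subtype.ext (h _ a.2 _ b.2))
    simpa using h3 χ hχ ψ hψ h4 1 (by simpa [hl] using hζ 1)
  · refine congrArg (fun x : P.subgroupOf (P ⊔ cen P) => ((x : ↥(P ⊔ cen P)) : G)) (comm_of_forall_deg (G := P.subgroupOf (P ⊔ cen P))
      (fun ζ hζ => ?_) ⟨⟨a, Subgroup.mem_sup_left ha⟩, ha⟩ ⟨⟨b, Subgroup.mem_sup_left hb⟩, hb⟩)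
    obtain ⟨ψ, hψ, h4⟩ := h2.exists_mem ⟨ζ, hζ⟩
    obtain ⟨χ, hχ, h5⟩ := Bl.exists_over h1 hψ
    have := h3 χ hχ ψ hψ h5 (dg ζ) (by simpa [hζ.deg] using h4 1)
    rw [hζ.deg, show dg ζ = 1 from irr_eq_one_of_isPGroup h2.isPGroup (χ := ⟨ζ, hζ⟩) fun hd => ?_,
      Nat.cast_one]
    exact (Nat.Prime.factorization_pos_of_dvd Fact.out hζ.dg_pos.ne' hd).ne' (this ▸ h χ hχ)

end Cfsg.Agent.S0972
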