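import Cfsg.Statements.S0973
import Cfsg.Agent.H9.Trans

set_option autoImplicit false
open Cfsg

namespace Cfsg.Agent.S0973
open H9 H3 MonoidAlgebra
open scoped Pointwise
set_option linter.style.haveILetI false
set_option linter.unusedVariables false


/-- Let B be a block of the finite group G with defect group P (relative to a maximal ideal M of the algebraic integers containing p), and let L = P ⊔ C_G(P). Then (i) some block b of L with defect group P (viewed in L) induces B, and (ii) if b and b' are blocks of L both inducing B, there is n ∈ N_G(P) carrying b to b': for every θ ∈ b there is θ' ∈ b' with θ' x = θ (n x n⁻¹) for all x ∈ L. -/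
theorem result {G : Type*} [Group G] [Finite G] (p : ℕ) [Fact p.Prime] (M : Ideal Cfsg.AlgInt) (hM : Cfsg.IsPModular p M) (B : Set (Cfsg.IrrCharacter G)) (hB : Cfsg.IsPBlock M B) (P : Subgroup G) (hP : Cfsg.IsDefectGroup p M B P) : (∃ b : Set (Cfsg.IrrCharacter ↥(P ⊔ Subgroup.centralizer (P : Set G))), Cfsg.IsDefectGroup p M b (P.subgroupOf (P ⊔ Subgroup.centralizer (P : Set G))) ∧ Cfsg.IsInducedBlock M (P ⊔ Subgroup.centralizer (P : Set G)) b B) ∧ ∀ b b' : Set (Cfsg.IrrCharacter ↥(P ⊔ Subgroup.centralizer (P : Set G))), Cfsg.IsInducedBlock M (P ⊔ Subgroup.centralizer (P : Set G)) b B → Cfsg.IsInducedBlock M (P ⊔ Subgroup.centralizer (P : Set G)) b' B → ∃ n ∈ Subgroup.normalizer (P : Set G), ∀ θ ∈ b, ∃ θ' ∈ b', ∀ x : ↥(P ⊔ Subgroup.centralizer (P : Set G)), ∀ hx : n * (x : G) * n⁻¹ ∈ P ⊔ Subgroup.centralizer (P : Set G), (θ' : ↥(P ⊔ Subgroup.centralizer (P : Set G)) → ℂ) x = (θ : ↥(P ⊔ Subgroup.centralizer (P : Set G))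 → ℂ) ⟨n * (x : G) * n⁻¹, hx⟩ := by
  haveI : PMod p M := ⟨hM⟩
  lift B to Bl M G using hB
  have hp := Bl.IsDef.isPGroup hP
  have hN : P ⊔ cen P ≤ nrm P := sup_le Subgroup.le_normalizer (cen_le_nrm P)
  have hi : ∀ (b : Bl M ↥(P ⊔ cen P)), IsInducedBlock M (P ⊔ cen P) b.1 B.1 ↔
      NSub ⊥ B.e P b.E := fun b => by
    rw [isInducedBlock_iff_br hp le_sup_left le_sup_right hN, nsub_bot_iff,
      and_iff_right (bp_of_isBlk_sup hp b.isBlk)]
  refine ⟨?_, fun b b' h h' => ?_⟩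
  · obtain ⟨a, ha⟩ := exists_maxP_of_isDef hP
    obtain ⟨b, rfl⟩ := ha.bp.isBlk_sup
    exact ⟨b.1, (isDefectGroup_subgroupOf_iff le_sup_left).2
      (ha.adef_of_le (Sub.refl _ _) ha.bp.loc_sup le_sup_left), (hi b).2 ha.nsub⟩
  · lift b to Bl M ↥(P ⊔ cen P) using h.1
    lift b' to Bl M ↥(P ⊔ cen P) using h'.1
    obtain ⟨t, ht, h1⟩ := (loc_top B).exists_cj_eq (adef_top_iff.2 hP) ((hi b).1 h) ((hi b').1 h')
    have h2 : MulAut.conj t • (P ⊔ cen P) = P ⊔ cen P := H1.conj_smul_eq_self_iff.2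
      (H1.le_normalizer_sup le_rfl (nrm_le_nrm_cen P) ht.2)
    refine ⟨t⁻¹, inv_mem ht.2, fun θ hθ => ?_⟩
    obtain ⟨θ', hr⟩ := exists_cjRel h2 θ
    exact ⟨θ', (Bl.mem_iff_of_rel h2 h1.symm hr).2 hθ, fun x hx => hr _ _ (by simp [mul_assoc])⟩

end Cfsg.Agent.S0973
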