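import Cfsg.Statements.S0986
import Mathlib
import Cfsg.Agent.H7.Cop

set_option autoImplicit false
open Cfsg

namespace Cfsg.Agent.S0986

open Subgroup H7

/-- Let P and Q be distinct Sylow p-subgroups of a finite group G chosen so that the order of P ∩ Q is as large as possible among intersections of two distinct Sylow p-subgroups, and let N be the normalizer of P ∩ Q. Then N has more than one Sylow p-subgroup, any two distinct Sylow p-subgroups of N intersect exactly in P ∩ Q, and each Sylow p-subgroup of N lies in exactly one Sylow p-subgroup of G. -/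
theorem result {G : Type*} [Group G] [Finite G] (p : ℕ) [Fact p.Prime] (P Q : Sylow p G) (hPQ : P ≠ Q) (hmax : ∀ P' Q' : Sylow p G, P' ≠ Q' → Nat.card ↥((P' : Subgroup G) ⊓ (Q' : Subgroup G)) ≤ Nat.card ↥((P : Subgroup G) ⊓ (Q : Subgroup G))) : 1 < Nat.card (Sylow p ↥(Subgroup.normalizer (((P : Subgroup G) ⊓ (Q : Subgroup G) : Subgroup G) : Set G))) ∧ (∀ S T : Sylow p ↥(Subgroup.normalizer (((P : Subgroup G) ⊓ (Q : Subgroup G) : Subgroup G) : Set G)), S ≠ T → (S : Subgroup _) ⊓ (T : Subgroup _) = ((P : Subgroup G) ⊓ (Q : Subgroup G)).subgroupOf (Subgroup.normalizer (((P : Subgroup G) ⊓ (Q : Subgroup G) : Subgroup G) : Set G))) ∧ ∀ S : Sylow p ↥(Subgroup.normalizer (((P : Subgroup G) ⊓ (Q : Subgroup G) : Subgroup G) : Set G)), ∃! T : Sylow p G, (S : Subgroup _).map (Subgroup.normalizer (((P : Subgroup G) ⊓ (Q : Subgroup G) : Subgroup G) : Set G)).subtype ≤ (T : Subgroup G) := by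
  set D : Subgroup G := (P : Subgroup G) ⊓ Q with hD
  have pD : IsPGroup p D := P.isPGroup'.to_inf_left
  have big : ∀ (U : Subgroup G) (T T' : Sylow p G), D < U → U ≤ T → U ≤ T' → T = T' :=
    fun U T T' a b c => by
      by_contra hne
      exact absurd ((card_le_of_le (le_inf b c)).trans (hmax T T' hne)) (card_lt_of_lt a).not_ge
  have lt : ∀ R R' : Sylow p G, R ≠ R' → D = (R : Subgroup G) ⊓ R' → D < (R : Subgroup G) ⊓ nrm D :=
    fun R R' h e => pgroup_lt_nrm R.isPGroup' (lt_of_le_of_ne (e ▸ inf_le_left) fun e' =>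
      h (Sylow.ext (R.is_maximal' R'.isPGroup' (e'.ge.trans (e.le.trans inf_le_right))).symm))
  have l1 := lt P Q hPQ rfl
  have hS : ∀ S : Sylow p (nrm D), D < (S : Subgroup (nrm D)).map (nrm D).subtype := fun S => by
    have s := H2.isSylowIn_map_subtype S
    refine lt_of_le_of_ne (s.le_of_normal pD (le_nrm_self D) s.le) fun e => ?_
    exact absurd ((s.card_le (P.isPGroup'.to_inf_left (K := nrm D)) inf_le_right).trans_eq
      (congrArg (fun X : Subgroup G => Nat.card X) e.symm)) (card_lt_of_lt l1).not_ge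
  have ex : ∀ S : Sylow p (nrm D), ∃ T : Sylow p G, (S : Subgroup (nrm D)).map (nrm D).subtype ≤ T :=
    fun S => (S.isPGroup'.map _).exists_le_sylow
  refine ⟨?_, fun S T hne => ?_, fun S => ?_⟩
  · by_contra hc
    haveI : Subsingleton (Sylow p (nrm D)) := Finite.card_le_one_iff_subsingleton.1 (not_lt.1 hc)
    obtain ⟨T, hT⟩ := ex default
    have key : ∀ R : Sylow p G, (R : Subgroup G) ⊓ nrm D ≤ T := fun R => by
      obtain ⟨S, h⟩ := ((R.isPGroup'.to_inf_left (K := nrm D)).comap_subtype
        (K := nrm D)).exists_le_sylow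
      rw [Subsingleton.elim S default] at h
      exact (map_subgroupOf_eq_of_le inf_le_right).ge.trans ((map_mono h).trans hT)
    exact hPQ ((big _ P T l1 inf_le_left (key P)).trans
      (big _ Q T (lt Q P hPQ.symm (inf_comm _ _)) inf_le_left (key Q)).symm)
  · obtain ⟨S', h1⟩ := ex S
    obtain ⟨T', h2⟩ := ex T
    have key : ∀ (S : Sylow p (nrm D)) (T : Sylow p G), (S : Subgroup (nrm D)).map (nrm D).subtype ≤ T →
        (S : Subgroup (nrm D)) = (T : Subgroup G).subgroupOf _ := fun S T h =>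
      (S.is_maximal' T.isPGroup'.comap_subtype (map_le_iff_le_comap.1 h)).symm
    have h3 : S' ≠ T' := fun e => hne (Sylow.ext ((key S S' h1).trans (e ▸ (key T T' h2).symm)))
    have h4 : D = (S' : Subgroup G) ⊓ T' := eq_of_le_of_card_ge
      (le_inf ((hS S).le.trans h1) ((hS T).le.trans h2)) (hmax S' T' h3)
    rw [key S S' h1, key T T' h2]
    exact (comap_inf _ _ _).symm.trans (congrArg (subgroupOf · _) h4.symm)
  · obtain ⟨T, hT⟩ := ex S
    exact ⟨T, hT, fun T' h => big _ T' T (hS S) h hT⟩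

end Cfsg.Agent.S0986
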