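import Cfsg.Statements.S0987
import Mathlib
import Cfsg.Agent.H8.Sm1

set_option autoImplicit false
open Cfsg

namespace Cfsg.Agent.S0987

open Subgroup H7 H8

/-- If a finite group has order pqr for primes p < q < r, then its Sylow r-subgroups are normal. -/
theorem result {G : Type*} [Group G] [Finite G] (p q r : ℕ) (hp : p.Prime) (hq : q.Prime) [Fact r.Prime] (hpq : p < q) (hqr : q < r) (hG : Nat.card G = p * q * r) (R : Sylow r G) : (R : Subgroup G).Normal := by
  have hr : r.Prime := Fact.out
  haveI := Fact.mk hp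
  have c1 : p.Coprime (q * r) := Nat.Coprime.mul_right ((Nat.coprime_primes hp hq).2 hpq.ne)
    ((Nat.coprime_primes hp hr).2 (hpq.trans hqr).ne)
  have mf : ∀ a b : ℕ, a.Prime → (∀ s, s.Prime → s ∣ b → a ≤ s) → (a * b).minFac = a :=
    fun a b ha h => by
      have h1 := Nat.minFac_prime (n := a * b) fun e => ha.one_lt.ne' (Nat.eq_one_of_mul_eq_one_right e)
      refine le_antisymm (Nat.minFac_le_of_dvd ha.two_le (dvd_mul_right a b)) ?_
      rcases (Nat.Prime.dvd_mul h1).1 (Nat.minFac_dvd _) with k | k
      · exact ((Nat.prime_dvd_prime_iff_eq h1 ha).1 k).ge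
      · exact h _ h1 k
  obtain ⟨N, hN, hi⟩ := exists_normal_index_of_card_prime (G := G) hp
    (by rw [hG, mul_assoc]; exact dvd_mul_right _ _) (by
      rw [hG, mul_assoc, pow_two]
      exact fun h => (Nat.Prime.coprime_iff_not_dvd hp).1 c1 (Nat.dvd_of_mul_dvd_mul_left hp.pos h))
    (by
      rw [hG]
      have k : ∀ s, s.Prime → p ≤ s → s.Coprime (p - 1) := fun s hs h =>
        (Nat.coprime_of_lt_prime (by have := hp.two_le; omega) (by have := hp.two_le; omega) hs)
      exact ((k p hp le_rfl).mul_left (k q hq hpq.le)).mul_left (k r hr (hpq.trans hqr).le))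
  have hc : ord N = q * r := by
    have := N.index_mul_card
    rw [hi, hG, mul_assoc] at this
    exact Nat.eq_of_mul_eq_mul_left hp.pos this
  have hR := sylow_le_of_normal_of_not_dvd_index N (by
    rw [hi]; exact fun h => (hpq.trans hqr).ne' ((Nat.prime_dvd_prime_iff_eq hr hp).1 h)) R
  have hRc : ord (R : Subgroup G) = r := by
    simpa using card_sylow_of_dvd_of_not_dvd (k := 1) R (by rw [hG, pow_one]; exact dvd_mul_left _ _)
      (by
        rw [hG, show 1 + 1 = 2 from rfl, pow_two]
        intro h
        rcases (Nat.Prime.dvd_mul hr).1 (Nat.dvd_of_mul_dvd_mul_right hr.pos h) with k | k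
        · exact absurd (Nat.le_of_dvd hp.pos k) (by omega)
        · exact absurd (Nat.le_of_dvd hq.pos k) (by omega))
  haveI : ((R.subtype hR : Sylow r N) : Subgroup N).Normal := by
    refine normal_of_index_eq_minFac_card ?_
    rw [hc, mf q r hq fun s hs h => ((Nat.prime_dvd_prime_iff_eq hs hr).1 h) ▸ hqr.le]
    have := (R.subtype hR : Subgroup N).index_mul_card
    rw [hc, Sylow.coe_subtype, Nat.card_congr (subgroupOfEquivOfLe hR).toEquiv, hRc] at this
    exact Nat.eq_of_mul_eq_mul_right hr.pos this
  haveI := (R.subtype hR).characteristic_of_normal this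
  rw [← map_subgroupOf_eq_of_le hR, ← Sylow.coe_subtype R hR]
  infer_instance

end Cfsg.Agent.S0987
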