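import Cfsg.Statements.S0988
import Mathlib
import Cfsg.Agent.H8.DK

set_option autoImplicit false
open Cfsg

namespace Cfsg.Agent.S0988

/-- If a finite simple group has order p^2 * q * r with p, q and r prime, then its order is 60. -/
theorem result {G : Type*} [Group G] [Finite G] [IsSimpleGroup G] (p q r : ℕ) (hp : p.Prime) (hq : q.Prime) (hr : r.Prime) (hG : Nat.card G = p ^ 2 * q * r) : Nat.card G = 60 := by
  have hN : ¬ (Nat.card G).Prime := by
    rw [hG, mul_assoc]
    exact Nat.not_prime_mul (Nat.one_lt_pow (by norm_num) hp.one_lt).ne'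
      (Nat.one_lt_mul_iff.2 ⟨hq.pos, hr.pos, Or.inl hq.one_lt⟩).ne'
  by_cases p2 : p = 2
  · exact H8.card_of_four hN hq hr (a := 1) (b := 1) (by rw [hG, p2]; ring)
  exfalso
  have pq : p ≠ q := fun e => H8.solv_pq hN hp hr (a := 3) (b := 1) (by rw [hG, ← e]; exact dvd_of_eq (by ring))
  have pr : p ≠ r := fun e => H8.solv_pq hN hp hq (a := 3) (b := 1) (by rw [hG, ← e]; exact dvd_of_eq (by ring))
  have qr : q ≠ r := fun e => H8.solv_pq hN hp hq (a := 2) (b := 2) (by rw [hG, ← e]; exact dvd_of_eq (by ring))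
  have c1 : ∀ s t : ℕ, s.Prime → t.Prime → t < s → s.Coprime (t ^ 1 - 1) := fun s t hs ht h =>
    hs.coprime_iff_not_dvd.2 fun e => by
      rw [pow_one] at e
      have := Nat.le_of_dvd (by have := ht.two_le; omega) e
      omega
  have c2 : ∀ s : ℕ, s.Prime → p < s → s.Coprime (p ^ 2 - 1) := fun s hs h => by
    rw [show p ^ 2 - 1 = (p ^ 1 - 1) * (p + 1) by
      rw [pow_one, mul_comm, ← Nat.sq_sub_sq]]
    refine (c1 s p hs hp h).mul_right (hs.coprime_iff_not_dvd.2 fun e => ?_)
    have := Nat.le_of_dvd (by omega) e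
    have := hp.eq_two_or_odd
    have := hs.eq_two_or_odd
    have := hp.two_le
    omega
  have k : ∀ q r : ℕ, q.Prime → r.Prime → Nat.card G = p ^ 2 * q * r → q < p → q < r → False :=
    fun q r hq hr hG h1 h2 => by
      haveI := Fact.mk hq
      refine (H8.syl_small hN (p := q) (k := 1) (m := p ^ 2 * r) (hG.trans (by ring)) (fun e => ?_)
        le_rfl (by norm_num)).2 (((c1 p q hp hq h1).pow_left 2).mul_left (c1 r q hr hq h2))
      rcases hq.dvd_mul.1 e with e | e
      · have := (Nat.prime_dvd_prime_iff_eq hq hp).1 (hq.dvd_of_dvd_pow e); omega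
      · have := (Nat.prime_dvd_prime_iff_eq hq hr).1 e; omega
  by_cases h1 : q < p ∧ q < r
  · exact k q r hq hr hG h1.1 h1.2
  by_cases h2 : r < p ∧ r < q
  · exact k r q hr hq (hG.trans (by ring)) h2.1 h2.2
  haveI := Fact.mk hp
  refine (H8.syl_small hN (p := p) (k := 2) (m := q * r) (hG.trans (by ring)) (fun e => ?_)
    (by norm_num) le_rfl).2 ((c2 q hq (by omega)).mul_left (c2 r hr (by omega)))
  rcases hp.dvd_mul.1 e with e | e
  · exact pq ((Nat.prime_dvd_prime_iff_eq hp hq).1 e)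
  · exact pr ((Nat.prime_dvd_prime_iff_eq hp hr).1 e)

end Cfsg.Agent.S0988
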