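import Cfsg.Statements.S0989
import Cfsg.Agent.H2.Ms1

set_option autoImplicit false
open Cfsg

namespace Cfsg.Agent.S0989

open Subgroup hiding upperCentralSeries
open H2 Cfsg.FusionSystem

open Subgroup H2 H7 H1B Equiv.Perm

/-- In the symmetric group on p or p + 1 letters, p a prime, the normalizer of a Sylow p-subgroup has order p * (p - 1). -/
theorem result {α : Type*} [Fintype α] [DecidableEq α] (p : ℕ) [Fact p.Prime] (hα : Fintype.card α = p ∨ Fintype.card α = p + 1) (P : Sylow p (Equiv.Perm α)) : Nat.card ↥(Subgroup.normalizer ((P : Subgroup (Equiv.Perm α)) : Set (Equiv.Perm α))) = p * (p - 1) := by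
  have hp : p.Prime := Fact.out
  have h2 := hp.two_le
  have c : ∀ x : Equiv.Perm α, orderOf x = p → x.cycleType = {p} := fun x hx => by
    have := isCycle_of_prime_order' (hx ▸ hp) (show Fintype.card α < 2 * orderOf x by omega)
    rw [this.cycleType, ← this.orderOf, hx]
  obtain ⟨z, hz⟩ := exists_prime_orderOf_dvd_card' (G := Equiv.Perm α) p (by
    rw [Nat.card_perm, Nat.card_eq_fintype_card]; exact Nat.dvd_factorial hp.pos (by omega))
  have hC : cen1 z = zpowers z := (H7.eq_of_le_of_card_le (zpowers_le.2 (self_mem_cen1 z)) (by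
    rw [nat_card_centralizer, c z hz, Nat.card_zpowers, hz]
    rcases hα with h | h <;> simp [h])).symm
  have h := cls_mul_nrm hz hC
  rw [show ConjClasses.mk '' {x : Equiv.Perm α | orderOf x = p} = {ConjClasses.mk z} from
    Set.eq_singleton_iff_unique_mem.2 ⟨⟨z, hz, rfl⟩, by
      rintro _ ⟨x, hx, rfl⟩
      exact ConjClasses.mk_eq_mk_iff_isConj.2 (isConj_iff_cycleType_eq.2 ((c x hx).trans (c z hz).symm))⟩,
    Set.ncard_singleton, one_mul] at h
  obtain ⟨g, -, e⟩ := (syl_of_cen1 hz hC).exists_cj_eq (sylow_isSylowIn_top P)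
  rw [← h, ← e, ← cj_nrm, H7.card_cj]

end Cfsg.Agent.S0989
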