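import Cfsg.Statements.S0990
import Cfsg.Agent.H2.Ms1

set_option autoImplicit false
open Cfsg

namespace Cfsg.Agent.S0990

open Subgroup hiding upperCentralSeries
open H2 Cfsg.FusionSystem

open Subgroup H2 H7 H1B

/-- Let p be an odd prime and P a Sylow p-subgroup of the symmetric group on a finite set with at least two elements. Then P is contained in the alternating group, and twice the order of the normalizer of P inside the alternating group equals the order of the normalizer of P in the symmetric group. -/
theorem result {α : Type*} [Fintype α] [DecidableEq α] (hα : 2 ≤ Fintype.card α) (p : ℕ) [Fact p.Prime] (hp : p ≠ 2) (P : Sylow p (Equiv.Perm α)) : (P : Subgroup (Equiv.Perm α)) ≤ alternatingGroup α ∧ 2 * Nat.card ↥(Subgroup.normalizer ((((P : Subgroup (Equiv.Perm α)).subgroupOf (alternatingGroup α) : Subgroup ↥(alternatingGroup α)) : Set ↥(alternatingGroup α)))) = Nat.card ↥(Subgroup.normalizer ((P : Subgroup (Equiv.Perm α)) : Set (Equiv.Perm α))) := by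
  haveI := Fintype.one_lt_card_iff_nontrivial.1 hα
  have i := alternatingGroup.index_eq_two (α := α)
  have l : (P : Subgroup (Equiv.Perm α)) ≤ alternatingGroup α := H8.sylow_le_of_normal_of_not_dvd_index _
    (by rw [i]; exact fun h => hp ((Nat.prime_dvd_prime_iff_eq Fact.out Nat.prime_two).1 h)) P
  refine ⟨l, ?_⟩
  have f := syl_frattini (sylow_isSylowIn P l) le_top (le_nrm_of_normal ⊤ _)
  rw [top_inf_eq] at f
  have := relIndex_sup_nrm (le_nrm_of_normal (nrm (P : Subgroup (Equiv.Perm α))) (alternatingGroup α))
  rw [f, relIndex_top_right, i] at this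
  rw [← subgroupOf_normalizer_eq l, this, ← inf_subgroupOf_right,
    Nat.card_congr (subgroupOfEquivOfLe inf_le_right).toEquiv, inf_comm]
  exact relIndex_mul_card_inf _ _

end Cfsg.Agent.S0990
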