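import Cfsg.Statements.S0992
import Mathlib
import Cfsg.Agent.H8.Sm1
import Cfsg.Agent.H1.Two4
import Cfsg.Agent.H4.Klein

set_option autoImplicit false
open Cfsg

namespace Cfsg.Agent.S0992

open Subgroup H7 H8

/-- Let G be a non-abelian finite simple group of even order not divisible by 8, and T a Sylow 2-subgroup. Then T is a Klein four-group and the centralizer of T has index 3 in the normalizer of T. -/
theorem result {G : Type*} [Group G] [Finite G] [IsSimpleGroup G] (hG : ¬ IsMulCommutative G) (h2 : Even (Nat.card G)) (h8 : ¬ 8 ∣ Nat.card G) (T : Sylow 2 G) : IsKleinFour ↥(T : Subgroup G) ∧ (Subgroup.centralizer ((T : Subgroup G) : Set G)).relIndex (Subgroup.normalizer ((T : Subgroup G) : Set G)) = 3 := by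
  have h1 := not_nrm_le_cen hG T h2.two_dvd
  have nc : ¬ IsCyclic (T : Subgroup G) := fun hc => h1
    (IsCyclic.normalizer_le_centralizer (((Nat.minFac_eq_two_iff _).2 h2.two_dvd)) hc)
  obtain ⟨k, hk⟩ := card_pgroup T.isPGroup'
  have hk3 : k < 3 := by
    by_contra h
    exact h8 ((pow_dvd_pow 2 (not_lt.1 h)).trans (hk ▸ card_subgroup_dvd_card _))
  have hK : IsKleinFour (T : Subgroup G) := by
    interval_cases k
    · exact absurd (isCyclic_of_card_dvd_prime (p := 2) (by rw [hk]; norm_num)) nc
    · exact absurd (isCyclic_of_card_dvd_prime (p := 2) (by rw [hk]; norm_num)) nc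
    refine H4.isKleinFour_of hk fun g => ?_
    have h := orderOf_dvd_natCard g
    rw [hk] at h
    obtain ⟨j, hj, e⟩ := (Nat.dvd_prime_pow Nat.prime_two).1 h
    rw [← pow_two, ← orderOf_dvd_iff_pow_eq_one, e]
    interval_cases j
    · norm_num
    · norm_num
    · exact absurd (isCyclic_of_orderOf_eq_card g (e.trans hk.symm)) nc
  exact ⟨hK, ((H1B.klein_syl (H2.sylow_isSylowIn_top T) hK).resolve_left fun h => h1 h.1).1⟩

end Cfsg.Agent.S0992
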