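import Cfsg.Statements.S0995
import Cfsg.Agent.H2.Ms1

set_option autoImplicit false
open Cfsg

namespace Cfsg.Agent.S0995

open Subgroup hiding upperCentralSeries
open H2 Cfsg.FusionSystem

open Subgroup H2 H7 H1B

/-- Let G be a finite perfect group containing an element z of prime order p whose centralizer is the cyclic group it generates. Let t be the number of conjugacy classes of elements of order p. Then t divides p - 1, the number of Sylow p-subgroups has the form 1 + n * p, and |G| * t = (p - 1) * p * (1 + n * p). -/
theorem result {G : Type*} [Group G] [Finite G] (hperf : commutator G = ⊤) (p : ℕ) [Fact p.Prime] (z : G) (hz : orderOf z = p) (hC : Subgroup.centralizer ({z} : Set G) = Subgroup.zpowers z) : ∃ n t : ℕ, t = Nat.card {c : ConjClasses G // ∃ g : G, ConjClasses.mk g = c ∧ orderOf g = p} ∧ t ∣ p - 1 ∧ Nat.card (Sylow p G) = 1 + n * p ∧ Nat.card G * t = (p - 1) * p * (1 + n * p) := by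
  have h := cls_mul_nrm hz hC
  have t := syl_of_cen1 hz hC
  obtain ⟨e, he⟩ := card_dvd_of_le (le_nrm_self (zpowers z))
  have k := t.toSylowTop.card_eq_index_normalizer
  change _ = (nrm (zpowers z)).index at k
  have m := (Nat.modEq_iff_dvd' Nat.card_pos).1 (card_sylow_modEq_one p G).symm
  obtain ⟨n, hn⟩ := m
  have e1 : Nat.card (Sylow p G) = 1 + n * p := by
    have := Nat.card_pos (α := Sylow p G)
    rw [mul_comm n]; omega
  refine ⟨n, _, rfl, ?_, e1, ?_⟩
  all_goals change _ = _ at h; rw [show Nat.card {c : ConjClasses G // ∃ g : G, ConjClasses.mk g = c ∧ orderOf g = p} =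
      (ConjClasses.mk '' {x : G | orderOf x = p}).ncard from Nat.card_congr
        (Equiv.subtypeEquivRight fun c => by simp [and_comm])]
  · rw [he, Nat.card_zpowers, hz, mul_left_comm] at h
    exact Dvd.intro _ (Nat.eq_of_mul_eq_mul_left (Fact.out : p.Prime).pos h)
  · rw [← e1, k, ← (nrm (zpowers z)).index_mul_card, mul_comm (p - 1), ← h]; ring

end Cfsg.Agent.S0995
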