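import Cfsg.Statements.S0996
import Mathlib
import Cfsg.Agent.H8.BRe

set_option autoImplicit false
open Cfsg

namespace Cfsg.Agent.S0996

/-- Let G be a finite perfect group containing an element z of prime order p whose centralizer is the cyclic group it generates, and suppose the number 1 + n * p of Sylow p-subgroups satisfies n < (p + 3) / 2. Then p > 3 and G is isomorphic to the projective special linear group of dimension 2 over the field with p elements, or p - 1 is a power of 2 and G is isomorphic to that group over the field with p - 1 elements. -/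
theorem result {G : Type*} [Group G] [Finite G] (hperf : commutator G = ⊤) (p : ℕ) [Fact p.Prime] (z : G) (hz : orderOf z = p) (hC : Subgroup.centralizer ({z} : Set G) = Subgroup.zpowers z) (hn : 2 * Nat.card (Sylow p G) < (p + 1) * (p + 2)) : (∃ (F : Type) (_ : Field F) (_ : Fintype F), Fintype.card F = p ∧ 3 < p ∧ Nonempty (G ≃* Matrix.ProjectiveSpecialLinearGroup (Fin 2) F)) ∨ (∃ (m : ℕ) (F : Type) (_ : Field F) (_ : Fintype F), Fintype.card F = 2 ^ m ∧ p = 2 ^ m + 1 ∧ 3 < p ∧ Nonempty (G ≃* Matrix.ProjectiveSpecialLinearGroup (Fin 2) F)) := by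
  haveI := Fintype.ofFinite G
  have hp : p.Prime := Fact.out
  obtain ⟨P, hP, hc⟩ := H8.sylow_of_cen hz hC
  haveI := H8.simple_of_few hperf hP hc (by nlinarith)
  obtain ⟨n, hS⟩ := H8.exists_syl_eq (G := G) (p := p)
  have np : ¬ (Nat.card G).Prime := fun h => by
    haveI := Fact.mk h
    haveI := isCyclic_of_prime_card (α := G) rfl
    have : commutator G = ⊥ := (commutator_eq_bot_iff_center_eq_top G).2
      (eq_top_iff.2 fun x _ => Subgroup.mem_center_iff.2 fun y => IsCyclic.commGroup.mul_comm y x)
    exact bot_ne_top (this.symm.trans hperf)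
  have p2 := hp.two_le
  have n0 : n ≠ 0 := fun e => H8.syl_ne_one np (hz ▸ orderOf_dvd_natCard z) (by rw [hS, e, zero_mul, add_zero])
  refine H8.br_main np P hP hS (by rw [hS] at hn; nlinarith) ?_
  rw [hc, show Nat.card (P : Subgroup G) = p from hP]
  obtain ⟨q, rfl⟩ : ∃ q, p = q + 1 := ⟨p - 1, by omega⟩
  rw [Nat.add_sub_cancel]
  nlinarith [Nat.mul_le_mul (show 1 ≤ q by omega) (Nat.mul_le_mul_right (q + 1) (Nat.pos_of_ne_zero n0))]

end Cfsg.Agent.S0996
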