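import Cfsg.Statements.S0999
import Mathlib
import Cfsg.Agent.H8.BRe

set_option autoImplicit false
open Cfsg

namespace Cfsg.Agent.S0999

/-- Let G be a non-cyclic finite simple group and p a prime divisor of its order with p^3 > |G|. Then p > 3 and G is isomorphic to the projective special linear group of dimension 2 over the field with p elements, or p - 1 is a power of 2 and G is isomorphic to that group over the field with p - 1 elements. -/
theorem result {G : Type*} [Group G] [Finite G] [IsSimpleGroup G] (hG : ¬ IsCyclic G) (p : ℕ) (hp : p.Prime) (hdvd : p ∣ Nat.card G) (hbig : Nat.card G < p ^ 3) : (∃ (F : Type) (_ : Field F) (_ : Fintype F), Fintype.card F = p ∧ 3 < p ∧ Nonempty (G ≃* Matrix.ProjectiveSpecialLinearGroup (Fin 2) F)) ∨ (∃ (m : ℕ) (F : Type) (_ : Field F) (_ : Fintype F), Fintype.card F = 2 ^ m ∧ p = 2 ^ m + 1 ∧ 3 < p ∧ Nonempty (G ≃* Matrix.ProjectiveSpecialLinearGroup (Fin 2) F)) := by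
  haveI := Fintype.ofFinite G
  haveI := Fact.mk hp
  have np : ¬ (Nat.card G).Prime := fun h => by
    haveI := Fact.mk h
    exact hG (isCyclic_of_prime_card rfl)
  obtain ⟨n, hS⟩ := H8.exists_syl_eq (G := G) (p := p)
  have p2 := hp.two_le
  have n0 : n ≠ 0 := fun e => H8.syl_ne_one np hdvd (by rw [hS, e, zero_mul, add_zero])
  have n1 := Nat.mul_le_mul_right p (Nat.pos_of_ne_zero n0)
  obtain ⟨P⟩ : Nonempty (Sylow p G) := inferInstance
  have hP := H8.card_sylow_of_not_sq hdvd (fun h => by
    have a := Nat.le_of_dvd Nat.card_pos (P.pow_dvd_card_of_pow_dvd_card h)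
    have b := Nat.le_of_dvd (Nat.pos_of_ne_zero Subgroup.index_ne_zero_of_finite) P.card_dvd_index
    have c := (P : Subgroup G).card_mul_index
    nlinarith [Nat.mul_le_mul a b]) P
  have e1 := H8.relIndex_ne_one np hP
  have a := H8.card_eq_syl (P := P) rfl
  have b := (H9.cen (P : Subgroup G)).card_mul_index
  have c : p ≤ Nat.card (H9.cen (P : Subgroup G)) := by
    haveI : IsCyclic P := isCyclic_of_prime_card hP
    exact hP.ge.trans (Subgroup.card_le_of_le fun x hx => Subgroup.mem_centralizer_iff.2 fun y hy =>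
      congrArg Subtype.val (IsCyclic.commGroup.mul_comm (⟨y, hy⟩ : P) ⟨x, hx⟩))
  have e0 : (H9.cen (P : Subgroup G)).relIndex (H9.nrm (P : Subgroup G)) ≠ 0 :=
    Subgroup.index_ne_zero_of_finite
  rw [a, hS] at b
  generalize (H9.cen (P : Subgroup G)).relIndex (H9.nrm (P : Subgroup G)) = e at *
  have d := Nat.mul_le_mul_right (1 + n * p) (show 2 ≤ e by omega)
  refine H8.br_main np P hP hS ?_ ?_
  · have := Nat.mul_le_mul c d
    by_contra h
    nlinarith [Nat.mul_le_mul_right (p * p) (not_lt.1 h)]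
  · by_contra h
    have := Nat.mul_le_mul (not_lt.1 h) d
    obtain ⟨q, rfl⟩ : ∃ q, p = q + 1 := ⟨p - 1, by omega⟩
    rw [Nat.add_sub_cancel] at this
    have k : q + 2 ≤ 1 + n * (q + 1) := by omega
    nlinarith [Nat.mul_le_mul (Nat.mul_le_mul_left q k) (Nat.mul_le_mul_left 2 k), Nat.zero_le (q * q * q)]

end Cfsg.Agent.S0999
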