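import Cfsg.Statements.S1001
import Mathlib
import Cfsg.Agent.H8.BT

set_option autoImplicit false
open Cfsg

namespace Cfsg.Agent.S1001

/-- In a finite simple group whose order has the form p * 3^a * 2^b with p prime, the centralizer of any element of order p is the cyclic group it generates. -/
theorem result {G : Type*} [Group G] [Finite G] [IsSimpleGroup G] (p a b : ℕ) (hp : p.Prime) (hG : Nat.card G = p * 3 ^ a * 2 ^ b) (x : G) (hx : orderOf x = p) : Subgroup.centralizer ({x} : Set G) = Subgroup.zpowers x := by
  by_cases h : p = 3 ∨ p = 2
  · have hs : Group.IsSolvable G := H3.burnside_pq Nat.prime_three Nat.prime_two (a := a + 1) (b := b + 1)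
      (by rw [hG]; rcases h with rfl | rfl
          · exact Dvd.intro 2 (by ring)
          · exact Dvd.intro 3 (by ring))
    have hc := H3.prime_card_of_simple_of_comm (IsSimpleGroup.comm_iff_isSolvable.2 hs)
    haveI := Fact.mk hc
    have : Subgroup.zpowers x = ⊤ :=
      zpowers_eq_top_of_prime_card rfl (by rintro rfl; simp at hx; exact hp.ne_one hx.symm)
    rw [this, eq_top_iff, ← this, Subgroup.zpowers_le]
    exact Subgroup.mem_centralizer_singleton_iff.2 rfl
  · push Not at h
    exact H8.cen1_eq_zpowers Nat.prime_three Nat.prime_two hp h.1.symm h.2.symm (a := a) (b := b)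
      (by rw [hG]; ring) hx

end Cfsg.Agent.S1001
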