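import Cfsg.Statements.S1003
import Cfsg.Agent.H1.L27

set_option autoImplicit false
open Cfsg

namespace Cfsg.Agent.S1003

open H1B H1B.L27

/-- A simple group of order 168 has exactly 21 Sylow 2-subgroups, 28 Sylow 3-subgroups and 8 Sylow 7-subgroups. -/
theorem result {G : Type*} [Group G] [Finite G] [IsSimpleGroup G] (h : Nat.card G = 168) : Nat.card (Sylow 2 G) = 21 ∧ Nat.card (Sylow 3 G) = 28 ∧ Nat.card (Sylow 7 G) = 8 := by
  exact ⟨n2 h, n3 h, n7 h⟩

end Cfsg.Agent.S1003
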