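import Cfsg.Statements.S1006
import Cfsg.Agent.H1.L27

set_option autoImplicit false
open Cfsg

namespace Cfsg.Agent.S1006

open H1B H1B.L27

/-- In a simple group of order 168 there are 56 elements of order 3, all conjugate; 42 elements of order 4, all conjugate; and 48 elements of order 7 falling into two conjugacy classes of size 24, an element of order 7 not being conjugate to its inverse. -/
theorem result {G : Type*} [Group G] [Finite G] [IsSimpleGroup G] (h : Nat.card G = 168) : Nat.card {g : G // orderOf g = 3} = 56 ∧ (∀ s t : G, orderOf s = 3 → orderOf t = 3 → IsConj s t) ∧ Nat.card {g : G // orderOf g = 4} = 42 ∧ (∀ s t : G, orderOf s = 4 → orderOf t = 4 → IsConj s t) ∧ Nat.card {g : G // orderOf g = 7} = 48 ∧ ∀ x : G, orderOf x = 7 → Nat.card {g : G // IsConj x g} = 24 ∧ ¬ IsConj x x⁻¹ := by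
  exact ⟨(Nat.card_coe_set_eq _).trans (cnt3 h), fun s t => conj3 h, (Nat.card_coe_set_eq _).trans (cnt4 h),
    fun s t => conj4 h, (Nat.card_coe_set_eq _).trans (cnt7 h), fun x hx =>
    ⟨(Nat.card_coe_set_eq _).trans (cls h (cen7 h hx) rfl (by omega)), not_real7 h hx⟩⟩

end Cfsg.Agent.S1006
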