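import Cfsg.Statements.S1007
import Cfsg.Agent.H1.L27b

set_option autoImplicit false
open Cfsg

namespace Cfsg.Agent.S1007

open H1B H1B.L27

/-- Let G be a simple group of order 168 and T a Sylow 2-subgroup. Then T contains exactly two subgroups that are Klein four-groups; they are not conjugate in G; and the normalizer of every Klein four-subgroup of G is isomorphic to the symmetric group of degree 4. -/
theorem result {G : Type*} [Group G] [Finite G] [IsSimpleGroup G] (h : Nat.card G = 168) (T : Sylow 2 G) : Nat.card {U : Subgroup G // U ≤ (T : Subgroup G) ∧ IsKleinFour ↥U} = 2 ∧ (∀ U W : Subgroup G, U ≤ (T : Subgroup G) → W ≤ (T : Subgroup G) → IsKleinFour ↥U → IsKleinFour ↥W → U ≠ W → ∀ g : G, U.map (MulAut.conj g).toMonoidHom ≠ W) ∧ ∀ U : Subgroup G, IsKleinFour ↥U → Nonempty (↥(Subgroup.normalizer (U : Set G)) ≃* Equiv.Perm (Fin 4)) := by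
  refine ⟨?_, fun U W hU hW k1 k2 hne g e => hne (not_cj h T hU hW k1 k2 e), fun U hk => s4 h (nrm_klein h hk)⟩
  obtain ⟨U, W, hne, hX⟩ := two_klein h T
  rw [Nat.card_eq_two_iff]
  refine ⟨⟨U, (hX U).2 (Or.inl rfl)⟩, ⟨W, (hX W).2 (Or.inr rfl)⟩, fun e => hne (congrArg Subtype.val e), ?_⟩
  rw [Set.eq_univ_iff_forall]
  rintro ⟨X, h1⟩
  rcases (hX X).1 h1 with rfl | rfl
  · exact Or.inl rfl
  · exact Or.inr rfl

end Cfsg.Agent.S1007
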