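import Cfsg.Statements.S1008
import Cfsg.Agent.H1.L27c

set_option autoImplicit false
open Cfsg

namespace Cfsg.Agent.S1008

open H1B H1B.L27 H7 Subgroup
open H2 (cj)

/-- In a simple group of order 168 every maximal subgroup is either isomorphic to the symmetric group of degree 4 or non-abelian of order 21; the maximal subgroups of order 21 form one conjugacy class and those isomorphic to the symmetric group of degree 4 form exactly two conjugacy classes. -/
theorem result {G : Type*} [Group G] [Finite G] [IsSimpleGroup G] (h : Nat.card G = 168) : (∀ M : Subgroup G, IsCoatom M → Nonempty (↥M ≃* Equiv.Perm (Fin 4)) ∨ (Nat.card ↥M = 21 ∧ ¬ IsMulCommutative ↥M)) ∧ (∀ M M' : Subgroup G, IsCoatom M → IsCoatom M' → Nat.card ↥M = 21 → Nat.card ↥M' = 21 → ∃ g : G, M' = M.map (MulAut.conj g).toMonoidHom) ∧ ∃ M₁ M₂ : Subgroup G, IsCoatom M₁ ∧ IsCoatom M₂ ∧ Nonempty (↥M₁ ≃* Equiv.Perm (Fin 4)) ∧ Nonempty (↥M₂ ≃* Equiv.Perm (Fin 4))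 ∧ (∀ g : G, M₂ ≠ M₁.map (MulAut.conj g).toMonoidHom) ∧ ∀ M : Subgroup G, IsCoatom M → Nonempty (↥M ≃* Equiv.Perm (Fin 4)) → ∃ g : G, M = M₁.map (MulAut.conj g).toMonoidHom ∨ M = M₂.map (MulAut.conj g).toMonoidHom := by
  refine ⟨fun M hM => ?_, fun M M' hM hM' c c' => ?_, ?_⟩
  · rcases co_cases h hM with e | e
    · exact Or.inl (s4 h e)
    · obtain ⟨P, rfl⟩ := co7 h hM e
      refine Or.inr ⟨nrm7 h P, fun hc => ?_⟩
      exact H8.not_nrm_le_cen (nc h) P (by rw [h]; norm_num)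
        ((H7.isComm_iff.1 hc).trans (centralizer_le le_normalizer))
  · obtain ⟨P, rfl⟩ := co7 h hM (by rw [c]; norm_num)
    obtain ⟨P', rfl⟩ := co7 h hM' (by rw [c']; norm_num)
    obtain ⟨g, hg⟩ := H2.sylow_exists_cj_eq P P'
    exact ⟨g, by rw [← hg, H2.normalizer_cj]; rfl⟩
  · obtain ⟨U, W, hne, hX⟩ := two_klein h default
    have hU := (hX U).2 (Or.inl rfl)
    have hW := (hX W).2 (Or.inr rfl)
    refine ⟨nrm U, nrm W, co24 h (nrm_klein h hU.2), co24 h (nrm_klein h hW.2),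
      s4 h (nrm_klein h hU.2), s4 h (nrm_klein h hW.2), fun g e => hne ?_, fun M _ ⟨e⟩ => ?_⟩
    · refine not_cj h _ hU.1 hW.1 hU.2 hW.2 (g := g) (nrm_inj h (klein_cj hU.2 g) hW.2 ?_)
      rw [H2.normalizer_cj]; exact e.symm
    · obtain ⟨V, kV, rfl⟩ := eq_nrm_klein h e
      obtain ⟨g, hg⟩ := H2.sylow_exists_cj_le (default : Sylow 2 G)
        (IsPGroup.of_card (p := 2) (n := 2) kV.card_four)
      refine ⟨g⁻¹, ((hX _).1 ⟨hg, klein_cj kV g⟩).imp (fun e => ?_) fun e => ?_⟩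
      · rw [← e, H2.normalizer_cj]; exact (H2.cj_inv_cj g _).symm
      · rw [← e, H2.normalizer_cj]; exact (H2.cj_inv_cj g _).symm

end Cfsg.Agent.S1008
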