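import Cfsg.Statements.S1010
import Mathlib
import Cfsg.Agent.H8.BRg

set_option autoImplicit false
open Cfsg

namespace Cfsg.Agent.S1010

/-- No finite group has exactly twenty-one Sylow 5-subgroups. -/
theorem result {G : Type*} [Group G] [Finite G] : Nat.card (Sylow 5 G) ≠ 21 := by
  haveI : Fact (Nat.Prime 5) := ⟨by norm_num⟩
  intro h
  obtain ⟨l, h1, h2⟩ := H8.hall_sylnum (p := 5) _ G rfl
  rw [h] at h1
  have k : ∀ m ∈ l, m = 1 := fun m hm => by
    have d : m ∣ 21 := h1 ▸ List.dvd_prod hm
    have := Nat.le_of_dvd (by norm_num) d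
    rcases h2 m hm with ⟨a, b⟩ | ⟨S, _, _, _, -, a⟩
    · have c : m ≠ 21 := by rintro rfl; exact absurd a (by decide +kernel)
      interval_cases m <;> omega
    · have b : m % 5 = 1 := a ▸ card_sylow_modEq_one 5 S
      have c : m ≠ 21 := a ▸ H8.syl5_ne
      clear a
      interval_cases m <;> omega
  rw [List.prod_eq_one k] at h1
  omega

end Cfsg.Agent.S1010
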