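import Cfsg.Statements.S1013
import Mathlib
import Cfsg.Agent.H8.PD

set_option autoImplicit false
open Cfsg

namespace Cfsg.Agent.S1013

/-- Let G be a transitive permutation group of prime degree p having more than one Sylow p-subgroup, and suppose a Sylow p-subgroup P has prime index in its normalizer. Then G is simple. -/
theorem result {α : Type*} [Fintype α] [DecidableEq α] {p : ℕ} [Fact p.Prime] (hα : Fintype.card α = p) (G : Subgroup (Equiv.Perm α)) [MulAction.IsPretransitive ↥G α] (P : Sylow p ↥G) (hn : 1 < Nat.card (Sylow p ↥G)) (ht : (((P : Subgroup ↥G).subgroupOf (Subgroup.normalizer ((P : Subgroup ↥G) : Set ↥G))).index).Prime) : IsSimpleGroup ↥G := by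
  have hK := H8.dvd_card_normal hα G
  have hd : p ∣ Nat.card G := by
    have := hK ⊤ inferInstance fun e => by
      haveI : Subsingleton G := ⟨fun a b => by
        rw [Subgroup.mem_bot.1 (e.le (Subgroup.mem_top a)), Subgroup.mem_bot.1 (e.le (Subgroup.mem_top b))]⟩
      haveI : Subsingleton (Sylow p G) := ⟨fun a b => Sylow.ext (Subsingleton.elim _ _)⟩
      exact (Finite.card_le_one_iff_subsingleton.2 this).not_gt hn
    rwa [Subgroup.card_top] at this
  exact H8.simple_of_dvd (H8.card_syl_perm hα G hd P) hn.ne' (fun d h => ht.eq_one_or_self_of_dvd d h) hK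

end Cfsg.Agent.S1013
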