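import Cfsg.Statements.S1018
import Cfsg.Agent.H2.Ms1

set_option autoImplicit false
open Cfsg

namespace Cfsg.Agent.S1018

open Subgroup hiding upperCentralSeries
open H2 Cfsg.FusionSystem

open Subgroup H2 H7 H1B MulAction

/-- Let P be a Sylow p-subgroup of order p of a finite group G, and consider the action of G on the left cosets of the normalizer N of P. Then every element of order p fixes exactly one coset, and an element of N that does not centralize P fixes at most as many cosets as there are orbits of P. -/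
theorem result {G : Type*} [Group G] [Finite G] (p : ℕ) [Fact p.Prime] (P : Sylow p G) (hP : Nat.card ↥(P : Subgroup G) = p) : (∀ y : G, orderOf y = p → Nat.card (MulAction.fixedBy (G ⧸ Subgroup.normalizer ((P : Subgroup G) : Set G)) y) = 1) ∧ ∀ x : G, x ∈ Subgroup.normalizer ((P : Subgroup G) : Set G) → x ∉ Subgroup.centralizer ((P : Subgroup G) : Set G) → Nat.card (MulAction.fixedBy (G ⧸ Subgroup.normalizer ((P : Subgroup G) : Set G)) x) ≤ Nat.card (MulAction.orbitRel.Quotient ↥(P : Subgroup G) (G ⧸ Subgroup.normalizer ((P : Subgroup G) : Set G))) := by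
  have t := sylow_isSylowIn P (le_nrm_self (P : Subgroup G))
  have fx : ∀ (y g : G), y • (g : G ⧸ nrm (P : Subgroup G)) = g ↔ g⁻¹ * y * g ∈ nrm (P : Subgroup G) :=
    fun y g => by rw [eq_comm, Quotient.smul_mk, QuotientGroup.eq, smul_eq_mul, mul_assoc]
  have key : ∀ y g : G, orderOf y = p → (y • (g : G ⧸ nrm (P : Subgroup G)) = g ↔ cj g P = zpowers y) :=
    fun y g hy => by
      rw [fx]
      refine ⟨fun h => (H7.eq_of_le_of_card_le (zpowers_le.2 (H7.mem_cj.2 (zpowers_le.1
        (t.le_of_le_normalizer (isPGroup_zpowers_of_orderOf (hy ▸ by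
          simpa using MulEquiv.orderOf_eq (MulAut.conj g⁻¹) y)) (zpowers_le.2 h) (zpowers_le.2 h)))))
          (by rw [H7.card_cj, hP, Nat.card_zpowers, hy])).symm,
        fun h => le_nrm_self _ (H7.mem_cj.1 (h.ge (mem_zpowers y)))⟩
  refine ⟨fun y hy => Nat.card_eq_one_iff_exists.2 ?_, fun x hx hx' => ?_⟩
  · obtain ⟨g, -, l⟩ := (sylow_isSylowIn_top P).exists_cj_le (isPGroup_zpowers_of_orderOf hy) le_top
    have e : cj g⁻¹ P = zpowers y := (H7.eq_of_le_of_card_le (H7.cj_le_iff.1 l)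
      (by rw [H7.card_cj, hP, Nat.card_zpowers, hy])).symm
    refine ⟨⟨(g⁻¹ : G), (key y _ hy).2 e⟩, fun ⟨c, hc⟩ => Subtype.ext ?_⟩
    induction c using QuotientGroup.induction_on with | H c => ?_
    refine QuotientGroup.eq.2 (cj_eq_self_iff.1 ?_)
    rw [H7.cj_mul, e, ← (key y c hy).1 hc, H7.cj_inv_cj]
  refine Nat.card_le_card_of_injective (fun c => Quotient.mk'' c.1) fun ⟨a, ha⟩ ⟨b, hb⟩ e => Subtype.ext ?_
  obtain ⟨u, rfl⟩ : ∃ u : P, (u : G) • b = a := Quotient.exact' e
  by_contra ne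
  have k : ∀ v ∈ (P : Subgroup G), v ≠ 1 → (P : Subgroup G) = zpowers v := fun v hv v1 =>
    eq_zpowers_of_card hP hv v1
  have u1 : (u : G) ≠ 1 := fun e => ne (by show (u : G) • b = b; rw [e, one_smul])
  have m : (u : G)⁻¹ * (x * u * x⁻¹) ∈ (P : Subgroup G) := mul_mem (inv_mem u.2) (nconj_mem hx u.2)
  have s : (u : G)⁻¹ * (x * u * x⁻¹) ∈ stabilizer G b := by
    rw [mem_stabilizer_iff, mul_smul, mul_smul, mul_smul, inv_smul_eq_iff.2 (hb : x • b = b).symm,
      (ha : x • _ = _), inv_smul_smul]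
  refine ne (((k _ m fun e => hx' ?_).le.trans (zpowers_le.2 s)) u.2)
  rw [k u u.2 u1, cen_zpowers]
  exact mem_cen1.2 (mul_inv_eq_iff_eq_mul.1 (inv_mul_eq_one.1 e).symm)

end Cfsg.Agent.S1018
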