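import Cfsg.Statements.S1019
import Mathlib
import Cfsg.Agent.H8.ClassCount

set_option autoImplicit false
open Cfsg

namespace Cfsg.Agent.S1019

open Subgroup H8

/-- Let H be a subgroup of a finite group G and x an element of H. In the action of G on the left cosets of H, the number of cosets fixed by x, multiplied by the size of the conjugacy class of x, equals the index of H multiplied by the number of conjugates of x that lie in H. -/
theorem result {G : Type*} [Group G] [Finite G] (H : Subgroup G) (x : G) (hx : x ∈ H) : Nat.card (MulAction.fixedBy (G ⧸ H) x) * Nat.card {g : G // IsConj x g} = H.index * Nat.card {g : G // IsConj x g ∧ g ∈ H} := by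
  classical
  haveI := Fintype.ofFinite G
  have fx : ∀ g : G, x • (g : G ⧸ H) = g ↔ g⁻¹ * x * g ∈ H := fun g => by
    rw [MulAction.Quotient.smul_coe, eq_comm, QuotientGroup.eq, smul_eq_mul, mul_assoc]
  have h1 : Nat.card {g : G // g⁻¹ * x * g ∈ H} = Nat.card (MulAction.fixedBy (G ⧸ H) x) * Nat.card H := by
    rw [← Nat.card_prod]
    exact Nat.card_congr ((Equiv.subtypeEquivRight fun g => (fx g).symm).trans
      (QuotientGroup.preimageMkEquivSubgroupProdSet H (MulAction.fixedBy (G ⧸ H) x)) |>.trans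
        (Equiv.prodComm _ _))
  have h2 : ∀ (p : G → Prop), Nat.card {g : G // p (g⁻¹ * x * g)} =
      Nat.card {g : G // IsConj x g ∧ p g} * Nat.card (centralizer ({x} : Set G)) := fun p => by
    rw [← Nat.card_prod]
    have c : ∀ y : {g : G // IsConj x g ∧ p g}, ∃ a : G, a⁻¹ * x * a = y := fun y => by
      obtain ⟨a, ha⟩ := isConj_iff.1 y.2.1
      exact ⟨a⁻¹, by simpa using ha⟩
    choose f hf using c
    refine (Nat.card_eq_of_bijective (fun z : _ × centralizer ({x} : Set G) =>
      (⟨z.2 * f z.1, by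
        rw [show ((z.2 : G) * f z.1)⁻¹ * x * (z.2 * f z.1) = (f z.1)⁻¹ * ((z.2 : G)⁻¹ * (x * z.2)) *
          f z.1 by group, ← mem_centralizer_singleton_iff.1 z.2.2, inv_mul_cancel_left, hf]
        exact z.1.2.2⟩ : {g : G // p (g⁻¹ * x * g)})) ⟨?_, ?_⟩).symm
    · rintro ⟨y, c⟩ ⟨y', c'⟩ e
      have e' : (c : G) * f y = c' * f y' := congrArg Subtype.val e
      have k : ∀ (y : {g : G // IsConj x g ∧ p g}) (c : centralizer ({x} : Set G)),
          ((c : G) * f y)⁻¹ * x * (c * f y) = y := fun y c => by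
        rw [show ((c : G) * f y)⁻¹ * x * (c * f y) = (f y)⁻¹ * ((c : G)⁻¹ * (x * c)) * f y by group,
          ← mem_centralizer_singleton_iff.1 c.2, inv_mul_cancel_left, hf]
      obtain rfl : y = y' := Subtype.ext (by rw [← k y c, e', k])
      rw [Subtype.ext (mul_right_cancel e')]
    · rintro ⟨g, hg⟩
      let y : {g : G // IsConj x g ∧ p g} := ⟨_, isConj_iff.2 ⟨g⁻¹, by simp⟩, hg⟩
      refine ⟨(y, ⟨g * (f y)⁻¹, mem_centralizer_singleton_iff.2 ?_⟩), Subtype.ext (by simp)⟩
      calc g * (f y)⁻¹ * x = g * ((f y)⁻¹ * x * f y) * (f y)⁻¹ := by group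
        _ = _ := by rw [hf]; simp [y, mul_assoc]
  have h3 := h2 fun _ => True
  simp only [and_true] at h3
  rw [Nat.card_congr (Equiv.subtypeUnivEquiv fun _ : G => trivial), ← H.index_mul_card] at h3
  rw [h2 (· ∈ H)] at h1
  refine Nat.eq_of_mul_eq_mul_right (Nat.mul_pos (Nat.card_pos (α := H))
    (Nat.card_pos (α := centralizer ({x} : Set G)))) ?_
  calc _ = (Nat.card (MulAction.fixedBy (G ⧸ H) x) * Nat.card H) *
      (Nat.card {g : G // IsConj x g} * Nat.card (centralizer ({x} : Set G))) := by ring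
    _ = _ := by rw [← h1, ← h3]; ring

end Cfsg.Agent.S1019
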