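import Cfsg.Statements.S1026
import Cfsg.Agent.H5.GoodAll
import Cfsg.Agent.H5.St3

set_option autoImplicit false
open Cfsg

namespace Cfsg.Agent.S1026

/-- Every element of `U` has a unique expression `∏_{r ∈ Φ⁺} x_r(t_r)`, the product over the positive roots in increasing index order (the coefficient family `t`, supported on the positive roots, exists and is unique); and conversely every such ordered product is the matrix of an element of `U`. -/
theorem result {F : Type*} [Field F] (D : Cfsg.Lie.ChevalleyDatum) (hD : D ∈ [Cfsg.Lie.chevG2, Cfsg.Lie.chevB2, Cfsg.Lie.chevD4, Cfsg.Lie.chevF4, Cfsg.Lie.chevE6, Cfsg.Lie.chevE7, Cfsg.Lie.chevE8]) :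
    (∀ g : GL D.Idx F, g ∈ D.posUnipotent F →
      ∃! t : ℕ → F, (∀ r, ¬ D.IsPosRoot r → t r = 0) ∧
        (g : Matrix D.Idx D.Idx F) = D.wordMat F (D.posRoots.map fun r => (r, t r))) ∧
    (∀ t : ℕ → F, ∃ g : GL D.Idx F, g ∈ D.posUnipotent F ∧
      (g : Matrix D.Idx D.Idx F) = D.wordMat F (D.posRoots.map fun r => (r, t r))) := by
  obtain ⟨G⟩ := H5.Chev.good_of_mem hD
  open H5.Chev in
  let L : List (Rt D) := (List.finRange D.nroots).filter fun r => decide (Pos r)
  have hL : ∀ r, r ∈ L ↔ r ∈ {r : H5.Chev.Rt D | H5.Chev.Pos r} := by simp [L]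
  have hn : L.Nodup := (List.nodup_finRange _).filter _
  have h1 : D.posRoots = L.map Fin.val := by
    rw [Lie.ChevalleyDatum.posRoots, ← List.map_coe_finRange_eq_range, List.filter_map]; rfl
  have h2 : ∀ t : ℕ → F, D.wordMat F (D.posRoots.map fun r => (r, t r)) =
      (((H5.Chev.glSys D F).pr L fun r => t r : GL D.Idx F) : Matrix D.Idx D.Idx F) := by
    intro t
    rw [← H5.Chev.glSys_π, H5.Chev.StSys.pr_eq_wd, H5.Chev.StSys.π_wd, ← H5.Chev.wordMat_map, h1]
    simp [Function.comp_def]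
  rw [H5.Chev.posUnipotent_eq]
  refine ⟨fun g hg => ?_, fun t => ⟨_, (H5.Chev.glSys D F).pr_mem_U (fun r => (hL r).1) _, (h2 t).symm⟩⟩
  obtain ⟨t, rfl⟩ := (H5.Chev.glSys D F).exists_pr H5.Chev.nil_pos hL hn hg
  classical
  refine ⟨fun r => if h : D.IsPosRoot r then t ⟨r, h.1⟩ else 0, ⟨fun r hr => dif_neg hr, ?_⟩, ?_⟩
  · rw [h2]
    congr 1
    exact (H5.Chev.glSys D F).pr_congr fun r hr => by
      rw [dif_pos (show D.IsPosRoot r from (hL r).1 hr)]
  · rintro t' ⟨h3, h4⟩
    rw [h2] at h4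
    have := (H5.Chev.glSys D F).pr_inj H5.Chev.nil_pos (fun r => (hL r).1) hn (Units.ext h4)
    ext r
    by_cases h : D.IsPosRoot r
    · rw [dif_pos h, this ⟨r, h.1⟩ ((hL _).2 h)]
    · rw [dif_neg h, h3 r h]

end Cfsg.Agent.S1026
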