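import Cfsg.Statements.S1031
import Cfsg.Agent.H5.GoodAll

set_option autoImplicit false
open Cfsg

namespace Cfsg.Agent.S1031

/-- For a fundamental root `p = p_{i+1}` and any root `s`: `n_p x_s(t) n_p⁻¹ = x_{w_p(s)}(η t)` with a sign `η = ±1` independent of `t`, where `w_p(s)` is the reflected root (`reflectRoot`). Stated as `n_p x_s(t) = x_{w_p(s)}(η t) n_p`. -/
theorem result {F : Type*} [Field F] (D : Cfsg.Lie.ChevalleyDatum) (hD : D ∈ [Cfsg.Lie.chevG2, Cfsg.Lie.chevB2, Cfsg.Lie.chevD4, Cfsg.Lie.chevF4, Cfsg.Lie.chevE6, Cfsg.Lie.chevE7, Cfsg.Lie.chevE8]) (i s : ℕ) (hi : i < D.rank) (hs : s < D.nroots) :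
    ∃ η : ℤ, (η = 1 ∨ η = -1) ∧
      ∀ t : F, D.nMat F (D.simple i) 1 * D.x F s t = D.x F (D.reflectRoot i s) ((η : F) * t) * D.nMat F (D.simple i) 1 := by
  obtain ⟨G⟩ := H5.Chev.good_of_mem hD
  obtain ⟨i, rfl⟩ : ∃ r' : H5.Chev.Ix D, (r' : ℕ) = i := ⟨⟨i, hi⟩, rfl⟩
  obtain ⟨s, rfl⟩ : ∃ r' : H5.Chev.Rt D, (r' : ℕ) = s := ⟨⟨s, hs⟩, rfl⟩
  refine ⟨H5.Chev.eta i s, H5.Chev.eta_cases i s, fun t => ?_⟩
  rw [← H5.Chev.val_refl, H5.Chev.x_eq, H5.Chev.x_eq]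
  exact H5.Chev.nMat_simple_conj i s t

end Cfsg.Agent.S1031
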