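import Cfsg.Statements.S1034
import Cfsg.Agent.H5.St6

set_option autoImplicit false
open Cfsg

namespace Cfsg.Agent.S1034

/-- Every element of `H` is a product `h_{p_1}(c_1) ⋯ h_{p_l}(c_l)` over the fundamental roots, with non-zero `c_i`. -/
theorem result {F : Type*} [Field F] (D : Cfsg.Lie.ChevalleyDatum) (hD : D ∈ [Cfsg.Lie.chevG2, Cfsg.Lie.chevB2, Cfsg.Lie.chevD4, Cfsg.Lie.chevF4, Cfsg.Lie.chevE6, Cfsg.Lie.chevE7, Cfsg.Lie.chevE8]) (g : GL D.Idx F) (hg : g ∈ D.diagonalSubgroup F) :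
    ∃ c : ℕ → F, (∀ i < D.rank, c i ≠ 0) ∧
      (g : Matrix D.Idx D.Idx F) = D.wordMat F ((List.range D.rank).flatMap fun i => D.hWord (D.simple i) (c i)) := by
  obtain ⟨G⟩ := H5.Chev.good_of_mem hD
  have := H5.Chev.conn_of_mem hD
  rw [H5.Chev.diagonalSubgroup_eq] at hg
  obtain ⟨c, h, -⟩ := (H5.Chev.glSys D F).exists_chi hg
  refine ⟨fun i => if h : i < D.rank then c ⟨i, h⟩ else 1, fun i hi => by simp [hi], ?_⟩
  rw [H5.Chev.glSys_π] at h
  rw [h, ← List.map_coe_finRange_eq_range, List.flatMap_map]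
  have key : ∀ L : List (H5.Chev.Ix D), D.wordMat F (L.flatMap fun i : H5.Chev.Ix D => D.hWord (D.simple i) (c i : F)) =
      H5.Chev.dg fun r => (L.map fun i => (c i : F) ^ H5.Chev.wt r i).prod := by
    intro L
    induction L with
    | nil => simp [H5.Chev.dg_one, H5.Chev.wordMat_nil]
    | cons i L ih =>
      rw [List.flatMap_cons, H5.Chev.wordMat_append, ih]
      have := H5.Chev.hMat_eq_dg (H5.Chev.simple i) (c i).ne_zero
      rw [Lie.ChevalleyDatum.hMat, H5.Chev.val_simple] at this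
      rw [this, H5.Chev.dg_mul]; simp
  simp only [Fin.is_lt, dif_pos, Fin.eta]
  rw [key]
  congr 1
  funext r
  rw [← Fin.prod_univ_def]; simp [H5.Chev.chi]

end Cfsg.Agent.S1034
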