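import Cfsg.Statements.S1039
import Cfsg.Agent.H5.CoxAll

set_option autoImplicit false
open Cfsg

namespace Cfsg.Agent.S1039

theorem aux {F : Type*} [Field F] {D : Lie.ChevalleyDatum} [H5.Chev.Good D] [H5.Chev.Conn D]
    (M : CoxeterMatrix (Fin D.rank))
    (h : ∃ e : H5.Chev.Wg D ≃* M.Group, ∀ i, e ((H5.Chev.wgen D).σ i) = M.simple i) :
    ∃ φ : ↥(D.monomialSubgroup F) →* M.Group, Function.Surjective φ ∧
      φ.ker = (D.diagonalSubgroup F).subgroupOf (D.monomialSubgroup F) ∧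
      ∀ (i : Fin D.rank) (g : ↥(D.monomialSubgroup F)),
        ((g : GL D.Idx F) : Matrix D.Idx D.Idx F) = D.nMat F (D.simple i) 1 → φ g = M.simple i := by
  obtain ⟨e, he⟩ := h
  rw [H5.Chev.monomialSubgroup_eq, H5.Chev.diagonalSubgroup_eq]
  refine ⟨e.toMonoidHom.comp (H5.Chev.glSys D F).φ, e.surjective.comp (H5.Chev.glSys D F).φ_surjective,
    ?_, fun i g hg => ?_⟩
  · rw [← H5.Chev.StSys.ker_φ]; ext g; simp
  · rw [← he, ← (H5.Chev.glSys D F).φ_ns,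
      show g = (H5.Chev.glSys D F).ns i from
        Subtype.ext (Units.ext (hg.trans ((H5.Chev.glSys D F).π_n (H5.Chev.simple i) 1).symm))]
    rfl

/-- `N/H ≅ W`: there is a surjective homomorphism from `N` onto the Coxeter group of the type (Mathlib's Coxeter matrix G₂, B₂, F₄, E₆, E₇, E₈, nodes numbered as the fundamental roots) with kernel `H`, mapping each `n_{p_i}` to the `i`-th simple reflection. -/
theorem result {F : Type*} [Field F]
    (p : Cfsg.Lie.ChevalleyDatum × (Σ n : ℕ, CoxeterMatrix (Fin n)))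
    (hp : p ∈ [(Cfsg.Lie.chevG2, ⟨2, CoxeterMatrix.G₂⟩), (Cfsg.Lie.chevB2, ⟨2, CoxeterMatrix.B 2⟩), (Cfsg.Lie.chevD4, ⟨4, Cfsg.Lie.coxeterD4⟩), (Cfsg.Lie.chevF4, ⟨4, CoxeterMatrix.F₄⟩),
      (Cfsg.Lie.chevE6, ⟨6, CoxeterMatrix.E₆⟩), (Cfsg.Lie.chevE7, ⟨7, CoxeterMatrix.E₇⟩), (Cfsg.Lie.chevE8, ⟨8, CoxeterMatrix.E₈⟩)]) :
    ∃ φ : ↥(p.1.monomialSubgroup F) →* p.2.2.Group, Function.Surjective φ ∧
      φ.ker = (p.1.diagonalSubgroup F).subgroupOf (p.1.monomialSubgroup F) ∧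
      ∀ (i : Fin p.2.1) (g : ↥(p.1.monomialSubgroup F)),
        ((g : GL p.1.Idx F) : Matrix p.1.Idx p.1.Idx F) = p.1.nMat F (p.1.simple i) 1 → φ g = p.2.2.simple i := by
  simp only [List.mem_cons, List.not_mem_nil, or_false] at hp
  rcases hp with rfl | rfl | rfl | rfl | rfl | rfl | rfl
  · exact aux (D := Lie.chevG2) _ H5.Chev.coxeterG2
  · exact aux (D := Lie.chevB2) _ H5.Chev.coxeterB2
  · exact aux (D := Lie.chevD4) _ H5.Chev.coxeterD4
  · exact aux (D := Lie.chevF4) _ H5.Chev.coxeterF4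
  · exact aux (D := Lie.chevE6) _ H5.Chev.coxeterE6
  · exact aux (D := Lie.chevE7) _ H5.Chev.coxeterE7
  · exact aux (D := Lie.chevE8) _ H5.Chev.coxeterE8

end Cfsg.Agent.S1039
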