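import Cfsg.Statements.S1044
import Cfsg.Agent.H5.St6

set_option autoImplicit false
open Cfsg

namespace Cfsg.Agent.S1044

/-- For a fundamental root `p` the set `B ∪ B n_p B` is (the carrier of) a subgroup of the general linear group. -/
theorem result {F : Type*} [Field F] (D : Cfsg.Lie.ChevalleyDatum) (hD : D ∈ [Cfsg.Lie.chevG2, Cfsg.Lie.chevB2, Cfsg.Lie.chevD4, Cfsg.Lie.chevF4, Cfsg.Lie.chevE6, Cfsg.Lie.chevE7, Cfsg.Lie.chevE8]) (i : ℕ) (hi : i < D.rank) (n : GL D.Idx F)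
    (hn : (n : Matrix D.Idx D.Idx F) = D.nMat F (D.simple i) 1) :
    ∃ P : Subgroup (GL D.Idx F), (P : Set (GL D.Idx F)) =
      (D.borelSubgroup F : Set (GL D.Idx F)) ∪ DoubleCoset.doubleCoset n (D.borelSubgroup F : Set (GL D.Idx F)) (D.borelSubgroup F) := by
  obtain ⟨G⟩ := H5.Chev.good_of_mem hD
  have := H5.Chev.conn_of_mem hD
  let P := (H5.Chev.grpSys D F).bn H5.Chev.grpSys_top
  let s : P.S := ⟨_, ⟨⟨i, hi⟩, rfl⟩⟩
  have hs : ((s : D.group F) : GL D.Idx F) = n :=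
    Units.ext (((H5.Chev.grpSys D F).π_n _ 1).trans hn.symm)
  have hB : ∀ b : D.group F, b ∈ P.B ↔ (b : GL D.Idx F) ∈ D.borelSubgroup F := fun b => by
    change b ∈ (H5.Chev.grpSys D F).B ↔ _
    rw [H5.Chev.grpSys_B, Subgroup.mem_subgroupOf]
  have hle : D.borelSubgroup F ≤ D.group F := by
    rw [H5.Chev.borelSubgroup_eq, H5.Chev.group_eq]; exact (H5.Chev.glSys D F).B_le_U
  refine ⟨(P.parabolic {(s : D.group F)}).map (D.group F).subtype, ?_⟩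
  ext g
  simp only [SetLike.mem_coe, Subgroup.mem_map, H5.BN.mem_parabolic_singleton, Set.mem_union,
    DoubleCoset.mem_doubleCoset, H5.BN.gen_σ, H5.BN.inC_iff_mem]
  constructor
  · rintro ⟨x, hx | ⟨a, ha, b, hb, rfl⟩, rfl⟩
    · exact Or.inl ((hB x).1 hx)
    · exact Or.inr ⟨a, (hB a).1 ha, b, (hB b).1 hb, by rw [← hs]; rfl⟩
  · rintro (h | ⟨a, ha, b, hb, rfl⟩)
    · exact ⟨⟨g, hle h⟩, Or.inl ((hB _).2 h), rfl⟩
    · exact ⟨_, Or.inr ⟨⟨a, hle ha⟩, (hB _).2 ha, ⟨b, hle hb⟩, (hB _).2 hb, rfl⟩, by rw [← hs]; rfl⟩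

end Cfsg.Agent.S1044
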