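import Cfsg.Statements.S1045
import Cfsg.Agent.H5.St6

set_option autoImplicit false
open Cfsg

namespace Cfsg.Agent.S1045

/-- For a fundamental root `p`, the subgroup `U_p` generated by the `X_s`, `s` positive and `s ≠ p`, is normalised by `X_p` and `X_{-p}`, and `U = U_p ⊔ X_p`. -/
theorem result {F : Type*} [Field F] (D : Cfsg.Lie.ChevalleyDatum) (hD : D ∈ [Cfsg.Lie.chevG2, Cfsg.Lie.chevB2, Cfsg.Lie.chevD4, Cfsg.Lie.chevF4, Cfsg.Lie.chevE6, Cfsg.Lie.chevE7, Cfsg.Lie.chevE8]) (i : ℕ) (hi : i < D.rank) :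
    D.rootSubgroup F (D.simple i) ⊔ D.rootSubgroup F (D.neg (D.simple i)) ≤
        Subgroup.normalizer (Subgroup.closure {g : GL D.Idx F | ∃ (s : ℕ) (t : F), D.IsPosRoot s ∧ s ≠ D.simple i ∧
          (g : Matrix D.Idx D.Idx F) = D.x F s t} : Set (GL D.Idx F)) ∧
      Subgroup.closure {g : GL D.Idx F | ∃ (s : ℕ) (t : F), D.IsPosRoot s ∧ s ≠ D.simple i ∧
          (g : Matrix D.Idx D.Idx F) = D.x F s t} ⊔ D.rootSubgroup F (D.simple i) = D.posUnipotent F := by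
  obtain ⟨G⟩ := H5.Chev.good_of_mem hD
  have := H5.Chev.conn_of_mem hD
  obtain ⟨i, rfl⟩ : ∃ i' : H5.Chev.Ix D, (i' : ℕ) = i := ⟨⟨i, hi⟩, rfl⟩
  have h1 := H5.Chev.closure_eq_U (F := F) (fun s => D.IsPosRoot s ∧ s ≠ D.simple i) fun _ h => h.1.1
  simp only [and_assoc] at h1
  have h2 : {r : H5.Chev.Rt D | D.IsPosRoot r ∧ (r : ℕ) ≠ D.simple i} =
      {r | H5.Chev.Pos r ∧ r ∉ H5.Chev.PhiJ {i}} := by
    ext r
    refine and_congr_right fun hr => not_congr ⟨fun h => ?_, fun h => ?_⟩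
    · rw [show r = H5.Chev.simple i from Fin.ext h]; exact H5.Chev.simple_mem_PhiJ.2 rfl
    · by_contra hc
      obtain ⟨j, hj, h3⟩ := H5.Chev.exists_vec_ne (i := i) (s := r) (fun e => hc (by rw [e]; rfl))
        (fun e => by
          have : H5.Chev.Pos r := hr
          rw [e, H5.Chev.pos_neg_iff] at this; exact this (H5.Chev.pos_simple i))
      exact h3 (h j hj)
  rw [h1, h2, ← H5.Chev.val_simple, ← H5.Chev.val_neg, H5.Chev.rootSubgroup_eq,
    H5.Chev.rootSubgroup_eq, H5.Chev.posUnipotent_eq, ← H5.Chev.StSys.U_union,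
    ← H5.Chev.StSys.U_union]
  constructor
  · refine le_trans ?_ ((H5.Chev.glSys D F).PJ_le_normalizer {i})
    rw [H5.Chev.StSys.PJ_eq]
    refine le_trans ((H5.Chev.glSys D F).U_mono ?_) le_sup_right
    rintro r (rfl | rfl)
    · exact Or.inl (H5.Chev.pos_simple i)
    · exact Or.inr (H5.Chev.neg_mem_PhiJ.2 (H5.Chev.simple_mem_PhiJ.2 rfl))
  · rw [← h2]
    congr 1
    ext r
    by_cases h : r = H5.Chev.simple i
    · simp [h, H5.Chev.pos_simple]
    · have : (r : ℕ) ≠ D.simple i := fun e => h (Fin.ext e)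
      simp [h, this, H5.Chev.Pos]

end Cfsg.Agent.S1045
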