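import Cfsg.Statements.S1054
import Cfsg.Agent.H5.St6

set_option autoImplicit false
open Cfsg

namespace Cfsg.Agent.S1054

/-- The Chevalley groups of types D₄, F₄, E₆, E₇, E₈ are simple over every field. -/
theorem result {F : Type*} [Field F] (D : Cfsg.Lie.ChevalleyDatum)
    (hD : D ∈ [Cfsg.Lie.chevD4, Cfsg.Lie.chevF4, Cfsg.Lie.chevE6, Cfsg.Lie.chevE7, Cfsg.Lie.chevE8]) :
    IsSimpleGroup ↥(D.group F) ∧ ¬ IsMulCommutative ↥(D.group F) := by
  have := H5.Chev.perf_of_mem hD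
  have hD := List.mem_cons_of_mem Cfsg.Lie.chevG2 (List.mem_cons_of_mem Cfsg.Lie.chevB2 hD)
  obtain ⟨G⟩ := H5.Chev.good_of_mem hD
  have := H5.Chev.conn_of_mem hD
  exact (H5.Chev.grpSys D F).isSimpleGroup H5.Chev.grpSys_top H5.Chev.grpSys_π_injective
    ((H5.Chev.grpSys D F).perfect_of_perf H5.Chev.grpSys_top)

end Cfsg.Agent.S1054
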