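import Cfsg.Statements.S1057
import Cfsg.Agent.H0.IG22
import Cfsg.Agent.H0.IU33


set_option autoImplicit false
open Cfsg

namespace Cfsg.Agent.S1057

/-- G₂(2)′ ≅ PSU₃(3). -/
theorem result {F K : Type*} [Field F] [Fintype F] [Field K] [Fintype K] (hF : Fintype.card F = 2) (hK : Fintype.card K = 9) :
    Nonempty (↥(commutator ↥(Cfsg.Lie.chevG2.group F)) ≃* Cfsg.PSU 3 K 3) := by
  obtain ⟨e⟩ := H0.IG22.iso
  obtain ⟨f⟩ := H0.IU33.iso
  exact ⟨(H0.commEquiv (H0.chevEquiv (H0.fe (ZMod 2) hF (ZMod.card 2)) _)).symm.trans (e.symm.trans (f.trans (H0.cenEquiv (H0.suEquiv (H0.fe H0.G9 hK H0.c9) 3 3))))⟩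

end Cfsg.Agent.S1057
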