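import Cfsg.Statements.S1058
import Cfsg.Agent.H0.Sym
import Cfsg.Agent.S1060


set_option autoImplicit false
open Cfsg

namespace Cfsg.Agent.S1058

set_option maxRecDepth 100000
set_option Elab.async false
section
open H0 BN Matrix

noncomputable def C := ((mc2 (ZMod 2) 10 0x40100401004010040100401 0x8010020040080100200400801 (by decide +kernel) (by decide +kernel)).reix (finSumFinEquiv (m := 2) (n := 8) : Lie.chevB2.Idx ≃ Fin (2 + 8)))
theorem hC : Rd (rc2 (ZMod 2)) (finSumFinEquiv (m := 2) (n := 8) : Lie.chevB2.Idx ≃ Fin (2 + 8)) C := (rd_2 _)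
def c : List ℕ := [0x8010020040081102220480a01, 0x8111022040080100200401805, 0x80100e004098150b6a4490b01, 0x8018020060080180200408801, 0x8010060040180100600410801]
theorem e0 : Ex (ιG (Lie.chevB2.group (ZMod 2))) C 0x8010020040081102220480a01 :=
  ex_chev hC 1 (by decide +kernel) ⟨0, by decide⟩ 1 _ 0x8010020040081102220480a01 (by decide +kernel) (by decide +kernel)
theorem e1 : Ex (ιG (Lie.chevB2.group (ZMod 2))) C 0x80100a0040880504284400901 :=
  ex_chev hC 1 (by decide +kernel) ⟨1, by decide⟩ 1 _ 0x80100a0040880504284400901 (by decide +kernel) (by decide +kernel)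
theorem e3 : Ex (ιG (Lie.chevB2.group (ZMod 2))) C 0x8010060040180100600410801 :=
  ex_chev hC 1 (by decide +kernel) ⟨3, by decide⟩ 1 _ 0x8010060040180100600410801 (by decide +kernel) (by decide +kernel)
theorem e4 : Ex (ιG (Lie.chevB2.group (ZMod 2))) C 0x8018020060080180200408801 :=
  ex_chev hC 1 (by decide +kernel) ⟨4, by decide⟩ 1 _ 0x8018020060080180200408801 (by decide +kernel) (by decide +kernel)
theorem e7 : Ex (ιG (Lie.chevB2.group (ZMod 2))) C 0x8111022040080100200401805 :=
  ex_chev hC 1 (by decide +kernel) ⟨7, by decide⟩ 1 _ 0x8111022040080100200401805 (by decide +kernel) (by decide +kernel)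
noncomputable def ι := ιG (Lie.chevB2.group (ZMod 2))
theorem hι : Function.Injective ι := ιG_inj
theorem ex : ∀ x < 5, Ex ι C (c.getD x C.one) := (ex_step (ex_step (ex_step (ex_step (ex_step ex_nil e0 (by decide +kernel)) e7 (by decide +kernel)) (Ex.mul e3 (Ex.mul e1 e0)) (by decide +kernel)) e4 (by decide +kernel)) e3 (by decide +kernel))
theorem cod : C.Cod ι (tOf ι C c _ ex) c := cod_tOf ex rfl
end

/-- B₂(2) ≅ S₆. -/
theorem result {F : Type*} [Field F] [Fintype F] (hF : Fintype.card F = 2) :
    Nonempty (↥(Cfsg.Lie.chevB2.group F) ≃* Equiv.Perm (Fin 6)) := by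
  exact (H0.sym_iso hι cod (by decide +kernel) (H0.cardB (S1060.result (ZMod.card 2)) (by decide))).map (H0.chevEquiv (H0.fe (ZMod 2) hF (ZMod.card 2)) _).symm.trans

end Cfsg.Agent.S1058
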