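import Cfsg.Statements.S1061
import Cfsg.Agent.H5.PoinAll

set_option autoImplicit false
open Cfsg

namespace Cfsg.Agent.S1061

/-- `gcd(2, q-1)² · |D₄(q)| = q¹² (q² - 1)(q⁴ - 1)(q⁴ - 1)(q⁶ - 1)`. -/
theorem result {F : Type*} [Field F] [Fintype F] {q : ℕ} (hq : Fintype.card F = q) : Nat.gcd 2 (q - 1) ^ 2 * Nat.card ↥(Cfsg.Lie.chevD4.group F) = q ^ 12 * (q ^ 2 - 1) * (q ^ 4 - 1) * (q ^ 4 - 1) * (q ^ 6 - 1) := by
  have hq' : Nat.card F = q := by rw [Nat.card_eq_fintype_card, hq]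
  have h0 : 0 < q := hq' ▸ Nat.card_pos
  have h1 := H5.Chev.card_diag (D := Cfsg.Lie.chevD4) (F := F)
  have h2 := H5.Chev.PWD4_factor h0
  rw [H5.Chev.card_ker_D4, hq'] at h1
  change _ = (q - 1) ^ 4 at h1
  rw [H5.Chev.card_group, hq', show Cfsg.Lie.chevD4.nroots / 2 = 12 from rfl]
  rw [← h1] at h2
  linear_combination q ^ 12 * h2

end Cfsg.Agent.S1061
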