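import Cfsg.Statements.S1062
import Cfsg.Agent.H5.PoinAll

set_option autoImplicit false
open Cfsg

namespace Cfsg.Agent.S1062

/-- `|F₄(q)| = q²⁴ (q² - 1)(q⁶ - 1)(q⁸ - 1)(q¹² - 1)`. -/
theorem result {F : Type*} [Field F] [Fintype F] {q : ℕ} (hq : Fintype.card F = q) : Nat.card ↥(Cfsg.Lie.chevF4.group F) = q ^ 24 * (q ^ 2 - 1) * (q ^ 6 - 1) * (q ^ 8 - 1) * (q ^ 12 - 1) := by
  have hq' : Nat.card F = q := by rw [Nat.card_eq_fintype_card, hq]
  have h0 : 0 < q := hq' ▸ Nat.card_pos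
  have h1 := H5.Chev.card_diag (D := Cfsg.Lie.chevF4) (F := F)
  have h2 := H5.Chev.PWF4_factor h0
  rw [H5.Chev.card_ker_F4, hq'] at h1
  change _ = (q - 1) ^ 4 at h1
  rw [H5.Chev.card_group, hq', show Cfsg.Lie.chevF4.nroots / 2 = 24 from rfl]
  rw [← h1] at h2
  simp only [Nat.gcd_one_left] at h2
  linear_combination q ^ 24 * h2

end Cfsg.Agent.S1062
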