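import Cfsg.Statements.S1066
import Cfsg.Agent.H5.TwE6

set_option autoImplicit false
open Cfsg

namespace Cfsg.Agent.S1066

/-- `gcd(3, q+1) · |²E₆(q)| = q³⁶ (q² - 1)(q⁵ + 1)(q⁶ - 1)(q⁸ - 1)(q⁹ + 1)(q¹² - 1)`, the group being realised inside E₆ over the field with `q²` elements. -/
theorem result {K : Type*} [Field K] [Fintype K] {q : ℕ} (hq : IsPrimePow q) (hK : Fintype.card K = q ^ 2) :
    Nat.gcd 3 (q + 1) * Nat.card ↥(Cfsg.Lie.twistedE6 K q) =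
      q ^ 36 * (q ^ 2 - 1) * (q ^ 5 + 1) * (q ^ 6 - 1) * (q ^ 8 - 1) * (q ^ 9 + 1) * (q ^ 12 - 1) := by
  obtain ⟨T, h, e, hH⟩ := H5.Chev.exists_isE6 hq hK
  rw [e, T.card_M, T.card_G0_of h.ne h.cover (h.card_UO hq.pos hK), h.PW_eq, ← mul_assoc,
    mul_left_comm _ (q ^ _), hH]
  have h1 : ∀ k, 1 ≤ q ^ k := fun k => Nat.one_le_pow _ _ hq.pos
  have h2 : 1 ≤ q := hq.pos
  simp only [H5.Chev.horner, List.foldr]
  zify [h1, h2]
  rw [show Cfsg.Lie.chevE6.nroots / 2 = 36 from rfl]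
  ring

end Cfsg.Agent.S1066
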