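import Cfsg.Statements.S1070
import Cfsg.Agent.H5.TwE6

set_option autoImplicit false
open Cfsg

namespace Cfsg.Agent.S1070

/-- ²E₆(q) is simple for every `q`. -/
theorem result {K : Type*} [Field K] [Fintype K] {q : ℕ} (hq : IsPrimePow q) (hK : Fintype.card K = q ^ 2) :
    IsSimpleGroup ↥(Cfsg.Lie.twistedE6 K q) ∧ ¬ IsMulCommutative ↥(Cfsg.Lie.twistedE6 K q) := by
  obtain ⟨T, h, e, -⟩ := H5.Chev.exists_isE6 hq hK
  rw [e]
  refine h.ne.simple_M h.gen (h.perfect H5.Chev.grpSys_hmul ?_)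
  have := hq.two_le
  rw [hK]; nlinarith

end Cfsg.Agent.S1070
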