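import Cfsg.Statements.S1074
import Cfsg.Agent.H0.SubW
import Cfsg.Agent.H0.MTits.Main
import Cfsg.Agent.H0.ITits


set_option autoImplicit false
set_option maxRecDepth 100000
open Cfsg

namespace Cfsg.Agent.S1074

/-- ²F₄(2)′ has index 2 in ²F₄(2), is simple, and has order `2¹¹ · 3³ · 5² · 13`. -/
theorem result : (commutator ↥(Cfsg.Lie.twistedF4 (ZMod 2) 1)).index = 2 ∧ IsSimpleGroup Cfsg.Lie.TitsGroup ∧ ¬ IsMulCommutative Cfsg.Lie.TitsGroup ∧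
    Nat.card Cfsg.Lie.TitsGroup = 2 ^ 11 * 3 ^ 3 * 5 ^ 2 * 13 := by
  exact ⟨H0.ITits.iso'.2, H0.simple_sub _ H0.ITits.iso (H0.MTits.simple (H0.Pres.pg 9 H0.MTits.B))
    (H0.MTits.card (H0.Pres.pg 9 H0.MTits.B)) (Nat.not_prime_of_dvd_of_lt (m := 2) (by decide) le_rfl (by decide))⟩

end Cfsg.Agent.S1074
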