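import Cfsg.Statements.S1078
import Cfsg.Agent.H5.EmbAll

set_option autoImplicit false
open Cfsg

namespace Cfsg.Agent.S1078

/-- For G₂, F₄, E₈ the presented group has trivial centre (the universal and adjoint groups coincide). -/
theorem result {K : Type*} [Field K] (D : Cfsg.Lie.ChevalleyDatum) (hD : D ∈ [Cfsg.Lie.chevG2, Cfsg.Lie.chevF4, Cfsg.Lie.chevE8]) :
    Subgroup.center (D.SteinbergGroup K) = ⊥ := by
  simp only [List.mem_cons, List.not_mem_nil, or_false] at hD
  rcases hD with rfl | rfl | rfl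
  · rw [H5.Chev.stSys_hmul.center_eq H5.Chev.stSys_top, H5.Chev.ker_G2, Subgroup.map_bot]
  · rw [H5.Chev.stSys_hmul.center_eq H5.Chev.stSys_top, H5.Chev.ker_F4, Subgroup.map_bot]
  · rw [H5.Chev.stSys_hmul.center_eq H5.Chev.stSys_top, H5.Chev.ker_E8, Subgroup.map_bot]

end Cfsg.Agent.S1078
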