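import Cfsg.Statements.S1081
import Cfsg.Agent.H5.Tw1
import Cfsg.Agent.H5.EmbAll

set_option autoImplicit false
open Cfsg

namespace Cfsg.Agent.S1081

open H5.Chev in
theorem aux {F : Type*} [Field F] {D : Cfsg.Lie.ChevalleyDatum} [Good D] [Conn D] (T : Tw (grpSys D F))
    (τ e : ℕ → ℕ) (h1 : ∀ i, (T.τ i : ℕ) = τ i) (h2 : ∀ (i : Ix D) t, T.θ (simple i) t = t ^ e i) :
    ∃ α : ↥(D.group F) ≃* ↥(D.group F), ∀ (g : ↥(D.group F)) (i : ℕ) (t : F), i < D.rank →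
      (((g : GL D.Idx F) : Matrix D.Idx D.Idx F) = D.x F (D.simple i) t →
        ((α g : GL D.Idx F) : Matrix D.Idx D.Idx F) = D.x F (D.simple (τ i)) (t ^ e i)) ∧
      (((g : GL D.Idx F) : Matrix D.Idx D.Idx F) = D.x F (D.neg (D.simple i)) t →
        ((α g : GL D.Idx F) : Matrix D.Idx D.Idx F) = D.x F (D.neg (D.simple (τ i))) (t ^ e i)) := by
  refine ⟨T.equiv grpSys_top grpSys_π_injective, fun g i t hi => ?_⟩
  obtain ⟨i, rfl⟩ : ∃ i' : Ix D, (i' : ℕ) = i := ⟨⟨i, hi⟩, rfl⟩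
  rw [← h1, ← val_simple, ← val_simple, ← val_neg, ← val_neg]
  refine ⟨fun h => ?_, fun h => ?_⟩
  · rw [eq_grpSys_x h, T.equiv_x, coe_grpSys_x, T.ρ_simple, T.γ_simple, one_mul, h2]
  · rw [eq_grpSys_x h, T.equiv_x, coe_grpSys_x, T.ρ_neg, T.γ_neg, T.θ_neg, T.ρ_simple, T.γ_simple,
      one_mul, h2]

/-- Graph automorphisms: for E₆ with ρ = (p₁ p₆)(p₃ p₅) and for D₄ with ρ the 3-cycle on the outer nodes there is a group automorphism sending `x_p(t) ↦ x_{ρ(p)}(t)` and `x_{-p}(t) ↦ x_{-ρ(p)}(t)` for every fundamental root `p`. -/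
theorem result {F : Type*} [Field F] (p : Cfsg.Lie.ChevalleyDatum × List ℕ)
    (hp : p ∈ [(Cfsg.Lie.chevE6, [5, 1, 4, 3, 2, 0]), (Cfsg.Lie.chevD4, [2, 1, 3, 0]), (Cfsg.Lie.chevD4, [3, 1, 0, 2])]) :
    ∃ α : ↥(p.1.group F) ≃* ↥(p.1.group F), ∀ (g : ↥(p.1.group F)) (i : ℕ) (t : F), i < p.1.rank →
      (((g : GL p.1.Idx F) : Matrix p.1.Idx p.1.Idx F) = p.1.x F (p.1.simple i) t →
        ((α g : GL p.1.Idx F) : Matrix p.1.Idx p.1.Idx F) = p.1.x F (p.1.simple (p.2.getD i 0)) t) ∧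
      (((g : GL p.1.Idx F) : Matrix p.1.Idx p.1.Idx F) = p.1.x F (p.1.neg (p.1.simple i)) t →
        ((α g : GL p.1.Idx F) : Matrix p.1.Idx p.1.Idx F) = p.1.x F (p.1.neg (p.1.simple (p.2.getD i 0))) t) := by
  simp only [List.mem_cons, List.not_mem_nil, or_false] at hp
  rcases hp with rfl | rfl | rfl
  · obtain ⟨Θ, h1, h2, -, -, h3⟩ := H5.Chev.exists_twD_E6 (RingEquiv.refl F)
    obtain ⟨T, rfl⟩ := Θ.exists_tw H5.Chev.grpSys_top H5.Chev.grpSys_π_injective (h3 _)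
    have h : ∀ i : Fin 6, (H5.Chev.grE6τ i : ℕ) = [5, 1, 4, 3, 2, 0].getD i 0 := by decide
    simpa only [pow_one] using aux T (fun i => [5, 1, 4, 3, 2, 0].getD i 0) (fun _ => 1)
      (fun i => by rw [h1]; exact h i) (fun i t => by simp [h2])
  · obtain ⟨Θ, h1, h2, -, -, h3⟩ := H5.Chev.exists_twD_D4a (RingEquiv.refl F)
    obtain ⟨T, rfl⟩ := Θ.exists_tw H5.Chev.grpSys_top H5.Chev.grpSys_π_injective (h3 _)
    have h : ∀ i : Fin 4, (H5.Chev.grD4aτ i : ℕ) = [2, 1, 3, 0].getD i 0 := by decide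
    simpa only [pow_one] using aux T (fun i => [2, 1, 3, 0].getD i 0) (fun _ => 1)
      (fun i => by rw [h1]; exact h i) (fun i t => by simp [h2])
  · obtain ⟨Θ, h1, h2, -, -, h3⟩ := H5.Chev.exists_twD_D4b (RingEquiv.refl F)
    obtain ⟨T, rfl⟩ := Θ.exists_tw H5.Chev.grpSys_top H5.Chev.grpSys_π_injective (h3 _)
    have h : ∀ i : Fin 4, (H5.Chev.grD4bτ i : ℕ) = [3, 1, 0, 2].getD i 0 := by decide
    simpa only [pow_one] using aux T (fun i => [3, 1, 0, 2].getD i 0) (fun _ => 1)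
      (fun i => by rw [h1]; exact h i) (fun i t => by simp [h2])

end Cfsg.Agent.S1081
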