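import Cfsg.Statements.S1092
import Cfsg.Agent.H5.CoxAll

set_option autoImplicit false
open Cfsg

namespace Cfsg.Agent.S1092

/-- `|W(B₂)| = 8`, `|W(G₂)| = 12`, `|W(D₄)| = 192`, `|W(F₄)| = 1152` for the groups presented by the Coxeter matrices (the product of the degrees of the basic invariants). -/
theorem result (p : (Σ n : ℕ, CoxeterMatrix (Fin n)) × ℕ)
    (hp : p ∈ [(⟨2, CoxeterMatrix.B 2⟩, 8), (⟨2, CoxeterMatrix.G₂⟩, 12), (⟨4, Cfsg.Lie.coxeterD4⟩, 192), (⟨4, CoxeterMatrix.F₄⟩, 1152)]) :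
    Nat.card p.1.2.Group = p.2 := by
  simp only [List.mem_cons, List.not_mem_nil, or_false] at hp
  rcases hp with rfl | rfl | rfl | rfl
  · obtain ⟨e, -⟩ := H5.Chev.coxeterB2
    rw [← Nat.card_congr e.toEquiv, H5.Chev.card_Wg, H5.Chev.PWB2]
    decide +kernel
  · obtain ⟨e, -⟩ := H5.Chev.coxeterG2
    rw [← Nat.card_congr e.toEquiv, H5.Chev.card_Wg, H5.Chev.PWG2]
    decide +kernel
  · obtain ⟨e, -⟩ := H5.Chev.coxeterD4
    rw [← Nat.card_congr e.toEquiv, H5.Chev.card_Wg, H5.Chev.PWD4]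
    decide +kernel
  · obtain ⟨e, -⟩ := H5.Chev.coxeterF4
    rw [← Nat.card_congr e.toEquiv, H5.Chev.card_Wg, H5.Chev.PWF4]
    decide +kernel

end Cfsg.Agent.S1092
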