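import Cfsg.Statements.S1094
import Cfsg.Agent.H5.CoxAll

set_option autoImplicit false
open Cfsg

namespace Cfsg.Agent.S1094

theorem aux {D : Lie.ChevalleyDatum} [H5.Chev.Good D] (M : CoxeterMatrix (Fin D.rank))
    (h : ∃ e : H5.Chev.Wg D ≃* M.Group, ∀ i, e ((H5.Chev.wgen D).σ i) = M.simple i) (n : ℕ)
    (hn : H5.Chev.chkOrd (H5.Chev.Good.T D) (List.range D.rank) n = true) :
    orderOf ((List.finRange D.rank).map M.simple).prod = n := by
  obtain ⟨e, he⟩ := h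
  rw [← List.map_coe_finRange_eq_range] at hn
  rw [← H5.Chev.chkOrd_sound _ _ hn, ← e.orderOf_eq, H5.InvGen.wp, map_list_prod, List.map_map]
  congr 3
  exact funext fun i => (he i).symm

/-- The Coxeter element `s₁ s₂ ⋯ s_l` of the Coxeter group of type B₂, G₂, D₄, F₄, E₆, E₇, E₈ has order `h = 2N/l` = 4, 6, 6, 12, 12, 18, 30. -/
theorem result (p : (Σ n : ℕ, CoxeterMatrix (Fin n)) × ℕ)
    (hp : p ∈ [(⟨2, CoxeterMatrix.B 2⟩, 4), (⟨2, CoxeterMatrix.G₂⟩, 6), (⟨4, Cfsg.Lie.coxeterD4⟩, 6), (⟨4, CoxeterMatrix.F₄⟩, 12),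
      (⟨6, CoxeterMatrix.E₆⟩, 12), (⟨7, CoxeterMatrix.E₇⟩, 18), (⟨8, CoxeterMatrix.E₈⟩, 30)]) :
    orderOf ((List.finRange p.1.1).map p.1.2.simple).prod = p.2 := by
  simp only [List.mem_cons, List.not_mem_nil, or_false] at hp
  rcases hp with rfl | rfl | rfl | rfl | rfl | rfl | rfl
  · exact aux (D := Lie.chevB2) _ H5.Chev.coxeterB2 _ (by decide +kernel)
  · exact aux (D := Lie.chevG2) _ H5.Chev.coxeterG2 _ (by decide +kernel)
  · exact aux (D := Lie.chevD4) _ H5.Chev.coxeterD4 _ (by decide +kernel)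
  · exact aux (D := Lie.chevF4) _ H5.Chev.coxeterF4 _ (by decide +kernel)
  · exact aux (D := Lie.chevE6) _ H5.Chev.coxeterE6 _ (by decide +kernel)
  · exact aux (D := Lie.chevE7) _ H5.Chev.coxeterE7 _ (by decide +kernel)
  · exact aux (D := Lie.chevE8) _ H5.Chev.coxeterE8 _ (by decide +kernel)

end Cfsg.Agent.S1094
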