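import Cfsg.Statements.S1096
import Cfsg.Agent.H5.GoodAll

set_option autoImplicit false
open Cfsg

namespace Cfsg.Agent.S1096

/-- `n_p h_{p_j}(t) n_p⁻¹ = h_{w_p(p_j)}(t)` for fundamental `p`, `p_j` and `t ≠ 0`, stated as `n_p h_{p_j}(t) = h_{w_p(p_j)}(t) n_p`. -/
theorem result {F : Type*} [Field F] (D : Cfsg.Lie.ChevalleyDatum) (hD : D ∈ [Cfsg.Lie.chevG2, Cfsg.Lie.chevB2, Cfsg.Lie.chevD4, Cfsg.Lie.chevF4, Cfsg.Lie.chevE6, Cfsg.Lie.chevE7, Cfsg.Lie.chevE8]) (i j : ℕ) (hi : i < D.rank) (hj : j < D.rank) (t : F) (ht : t ≠ 0) :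
    D.nMat F (D.simple i) 1 * D.hMat F (D.simple j) t = D.hMat F (D.reflectRoot i (D.simple j)) t * D.nMat F (D.simple i) 1 := by
  obtain ⟨G⟩ := H5.Chev.good_of_mem hD
  obtain ⟨i, rfl⟩ : ∃ r' : H5.Chev.Ix D, (r' : ℕ) = i := ⟨⟨i, hi⟩, rfl⟩
  obtain ⟨j, rfl⟩ : ∃ r' : H5.Chev.Ix D, (r' : ℕ) = j := ⟨⟨j, hj⟩, rfl⟩
  change D.nMat F (H5.Chev.simple i) 1 * D.hMat F (H5.Chev.simple j) t =
    D.hMat F (H5.Chev.refl i (H5.Chev.simple j)) t * D.nMat F (H5.Chev.simple i) 1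
  rw [H5.Chev.hMat_eq_dg _ ht, H5.Chev.hMat_eq_dg _ ht]
  apply H5.Chev.mat_ext
  · intro k
    simp only [← Matrix.mulVec_mulVec, H5.Chev.dg_eh, H5.Chev.nMat_simple_eh, Matrix.mulVec_sub,
      Matrix.mulVec_smul]
  · intro s
    simp only [← Matrix.mulVec_mulVec, H5.Chev.dg_ee, H5.Chev.nMat_simple_ee,
      Matrix.mulVec_smul, H5.Chev.pair_refl, smul_smul, mul_comm]

end Cfsg.Agent.S1096
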