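import Cfsg.Statements.S1097
import Cfsg.Agent.H5.St8

set_option autoImplicit false
open Cfsg

namespace Cfsg.Agent.S1097

/-- Any homomorphism from the presented group to the Chevalley group with `x̄_r(t) ↦ x_r(t)` has kernel contained in `H̄ = ⟨h̄_p(t) : p fundamental, t ≠ 0⟩`. -/
theorem result {K : Type*} [Field K] (D : Cfsg.Lie.ChevalleyDatum) (hD : D ∈ [Cfsg.Lie.chevG2, Cfsg.Lie.chevB2, Cfsg.Lie.chevD4, Cfsg.Lie.chevF4, Cfsg.Lie.chevE6, Cfsg.Lie.chevE7, Cfsg.Lie.chevE8]) (θ : D.SteinbergGroup K →* ↥(D.group K))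
    (hθ : ∀ (r : ℕ) (t : K), r < D.nroots → ((θ (D.stGen K r t) : GL D.Idx K) : Matrix D.Idx D.Idx K) = D.x K r t) :
    θ.ker ≤ Subgroup.closure {h | ∃ (i : ℕ) (t : K), i < D.rank ∧ t ≠ 0 ∧ h = PresentedGroup.mk (D.steinbergRels K) (D.stH (D.simple i) t)} := by
  obtain ⟨G⟩ := H5.Chev.good_of_mem hD
  have := H5.Chev.conn_of_mem hD
  have hf : ∀ r t, θ ((H5.Chev.stSys D K).x r t) = (H5.Chev.grpSys D K).x r t :=
    fun r t => H5.Chev.eq_grpSys_x (hθ r t r.2)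
  intro g hg
  have h1 := (H5.Chev.stSys D K).mem_H_of_π (H5.Chev.stSys_top (D := D) (F := K) ▸ Subgroup.mem_top g)
    ((H5.Chev.StSys.mem_center_iff H5.Chev.stSys_top).1
      (H5.Chev.StSys.ker_le_center H5.Chev.stSys_top hf hg))
  rw [H5.Chev.stSys_hmul.H_eq] at h1
  refine Subgroup.closure_mono ?_ h1
  rintro _ ⟨i, t, ht, rfl⟩
  refine ⟨i, t, i.2, ht, ?_⟩
  rw [← H5.Chev.val_simple, H5.Chev.hom_stH]
  simp only [H5.Chev.hh, H5.Chev.nn, H5.Chev.StSys.h, H5.Chev.StSys.n, H5.Chev.stSys, H5.Chev.stGen_eq]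
  rfl

end Cfsg.Agent.S1097
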