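import Cfsg.Statements.S1099
import Cfsg.Agent.S1081
import Cfsg.Agent.H5.ExcB2G2

set_option autoImplicit false
open Cfsg

namespace Cfsg.Agent.S1099

/-- Graph automorphism of G₂ in characteristic 3 (K perfect): `x_a(t) ↦ x_b(t³)`, `x_b(t) ↦ x_a(t)`, `x_{-a}(t) ↦ x_{-b}(t³)`, `x_{-b}(t) ↦ x_{-a}(t)` extend to an automorphism of the group. -/
theorem result {K : Type*} [Field K] [CharP K 3] (hperf : ∀ x : K, ∃ y : K, y ^ 3 = x) :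
    ∃ α : ↥(Cfsg.Lie.chevG2.group K) ≃* ↥(Cfsg.Lie.chevG2.group K), ∀ (g : ↥(Cfsg.Lie.chevG2.group K)) (t : K),
      (((g : GL Cfsg.Lie.chevG2.Idx K) : Matrix _ _ K) = Cfsg.Lie.chevG2.x K Cfsg.Lie.g2a t →
        ((α g : GL Cfsg.Lie.chevG2.Idx K) : Matrix _ _ K) = Cfsg.Lie.chevG2.x K Cfsg.Lie.g2b (t ^ 3)) ∧
      (((g : GL Cfsg.Lie.chevG2.Idx K) : Matrix _ _ K) = Cfsg.Lie.chevG2.x K Cfsg.Lie.g2b t →
        ((α g : GL Cfsg.Lie.chevG2.Idx K) : Matrix _ _ K) = Cfsg.Lie.chevG2.x K Cfsg.Lie.g2a t) ∧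
      (((g : GL Cfsg.Lie.chevG2.Idx K) : Matrix _ _ K) = Cfsg.Lie.chevG2.x K Cfsg.Lie.g2ma t →
        ((α g : GL Cfsg.Lie.chevG2.Idx K) : Matrix _ _ K) = Cfsg.Lie.chevG2.x K Cfsg.Lie.g2mb (t ^ 3)) ∧
      (((g : GL Cfsg.Lie.chevG2.Idx K) : Matrix _ _ K) = Cfsg.Lie.chevG2.x K Cfsg.Lie.g2mb t →
        ((α g : GL Cfsg.Lie.chevG2.Idx K) : Matrix _ _ K) = Cfsg.Lie.chevG2.x K Cfsg.Lie.g2ma t) := by
  have : Fact (Nat.Prime 3) := ⟨Nat.prime_three⟩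
  let φ : K ≃+* K := RingEquiv.ofBijective (frobenius K 3) ⟨(frobenius K 3).injective, hperf⟩
  obtain ⟨T, h1, -, -, h2⟩ := H5.Chev.exists_tw_G2 φ (RingEquiv.refl K) (fun _ => rfl)
  have h : ∀ i : Fin 2, (H5.Chev.exG2τ i : ℕ) = ([(1, 3), (0, 1)].getD i (0, 1)).1 ∧
      H5.Chev.digit H5.Chev.exG2E 2 3 (Cfsg.Lie.chevG2.simple i) = ([(1, 3), (0, 1)].getD i (0, 1)).2 := by
    decide +kernel
  obtain ⟨α, hα⟩ := Cfsg.Agent.S1081.aux T (fun i => ([(1, 3), (0, 1)].getD i (0, 1)).1)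
      (fun i => ([(1, 3), (0, 1)].getD i (0, 1)).2) (fun i => by rw [h1]; exact (h i).1)
      (fun i t => by rw [h2, ← (h i).2]; rfl)
  refine ⟨α, fun g t => ?_⟩
  have a := hα g 0 t (by decide)
  have b := hα g 1 t (by decide)
  simp only [List.getD_cons_zero, List.getD_cons_succ, pow_one] at a b
  exact ⟨a.1, b.1, a.2, b.2⟩

end Cfsg.Agent.S1099
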