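import Cfsg.Statements.S1100
import Cfsg.Agent.H5.St6

set_option autoImplicit false
open Cfsg

namespace Cfsg.Agent.S1100

/-- Canonical form `g = b n_w u` (`b ∈ B`, `u ∈ U_w⁻ = ⟨X_r : r > 0, n_w X_r n_w⁻¹ ≤ V⟩`): such a decomposition exists for every element of the group; the coset `n_w H` is determined by `g`; and for a fixed representative `n_w` the factors `b`, `u` are unique. -/
theorem result {F : Type*} [Field F] (D : Cfsg.Lie.ChevalleyDatum) (hD : D ∈ [Cfsg.Lie.chevG2, Cfsg.Lie.chevB2, Cfsg.Lie.chevD4, Cfsg.Lie.chevF4, Cfsg.Lie.chevE6, Cfsg.Lie.chevE7, Cfsg.Lie.chevE8]) :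
    (∀ g ∈ D.group F, ∃ b ∈ D.borelSubgroup F, ∃ n ∈ D.monomialSubgroup F,
      ∃ u ∈ Subgroup.closure {x : GL D.Idx F | ∃ (r : ℕ) (t : F), D.IsPosRoot r ∧
            (D.rootSubgroup F r).map (MulAut.conj n).toMonoidHom ≤ D.negUnipotent F ∧ (x : Matrix D.Idx D.Idx F) = D.x F r t},
        g = b * n * u) ∧
    (∀ (b b' n n' u u' : GL D.Idx F), b ∈ D.borelSubgroup F → b' ∈ D.borelSubgroup F →
      n ∈ D.monomialSubgroup F → n' ∈ D.monomialSubgroup F →
      u ∈ Subgroup.closure {x : GL D.Idx F | ∃ (r : ℕ) (t : F), D.IsPosRoot r ∧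
            (D.rootSubgroup F r).map (MulAut.conj n).toMonoidHom ≤ D.negUnipotent F ∧ (x : Matrix D.Idx D.Idx F) = D.x F r t} →
      u' ∈ Subgroup.closure {x : GL D.Idx F | ∃ (r : ℕ) (t : F), D.IsPosRoot r ∧
            (D.rootSubgroup F r).map (MulAut.conj n').toMonoidHom ≤ D.negUnipotent F ∧ (x : Matrix D.Idx D.Idx F) = D.x F r t} →
      b * n * u = b' * n' * u' → n⁻¹ * n' ∈ D.diagonalSubgroup F ∧ (n = n' → b = b' ∧ u = u')) := by
  obtain ⟨G⟩ := H5.Chev.good_of_mem hD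
  have := H5.Chev.conn_of_mem hD
  have key : ∀ n : (H5.Chev.glSys D F).N, Subgroup.closure {x : GL D.Idx F | ∃ (r : ℕ) (t : F),
      D.IsPosRoot r ∧ (D.rootSubgroup F r).map (MulAut.conj (n : GL D.Idx F)).toMonoidHom ≤
        D.negUnipotent F ∧ (x : Matrix D.Idx D.Idx F) = D.x F r t} =
      (H5.Chev.glSys D F).U (H5.Chev.Inv ((H5.Chev.glSys D F).φ n)) := by
    intro n
    have h1 := H5.Chev.closure_eq_U (F := F) (fun r => D.IsPosRoot r ∧
      (D.rootSubgroup F r).map (MulAut.conj (n : GL D.Idx F)).toMonoidHom ≤ D.negUnipotent F)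
      fun _ h => h.1.1
    simp only [and_assoc] at h1
    rw [h1]
    congr 1
    ext r
    refine and_congr_right fun _ => ?_
    rw [H5.Chev.rootSubgroup_eq, ((H5.Chev.glSys D F).acts_φ n).map_U, H5.Chev.negUnipotent_eq,
      Set.image_singleton]
    refine ⟨fun h => ?_, fun h => (H5.Chev.glSys D F).U_mono (Set.singleton_subset_iff.2 h)⟩
    exact (H5.Chev.glSys D F).mem_of_x_mem_U H5.Chev.nil_neg one_ne_zero
      (h ((H5.Chev.glSys D F).x_mem_U (Set.mem_singleton _) 1))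
  rw [H5.Chev.group_eq, H5.Chev.borelSubgroup_eq, H5.Chev.monomialSubgroup_eq,
    H5.Chev.diagonalSubgroup_eq]
  constructor
  · intro g hg
    obtain ⟨b, hb, n, u, hu, e⟩ := (H5.Chev.glSys D F).exists_bruhat hg
    exact ⟨b, hb, n, n.2, u, (key n).symm ▸ hu, e⟩
  · intro b b' n n' u u' hb hb' hn hn' hu hu' e
    rw [key ⟨n, hn⟩] at hu
    rw [key ⟨n', hn'⟩] at hu'
    refine ⟨((H5.Chev.glSys D F).φ_eq_φ_iff (a := ⟨n, hn⟩) (b := ⟨n', hn'⟩)).1
      ((H5.Chev.glSys D F).cell_unique hb ((H5.Chev.glSys D F).U_inv_le_B _ hu) hb'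
        ((H5.Chev.glSys D F).U_inv_le_B _ hu') e), ?_⟩
    rintro rfl
    exact (H5.Chev.glSys D F).bruhat_unique (n := ⟨n, hn⟩) hb hb' hu hu' e

end Cfsg.Agent.S1100
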