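import Cfsg.Statements.S1108
import Cfsg.Agent.H5.TwD4

set_option autoImplicit false
open Cfsg

namespace Cfsg.Agent.S1108

/-- ³D₄(q) equals its derived subgroup. -/
theorem result {K : Type*} [Field K] [Fintype K] {q : ℕ} (hq : IsPrimePow q) (hK : Fintype.card K = q ^ 3) : commutator ↥(Cfsg.Lie.twistedD4 K q) = ⊤ := by
  obtain ⟨T, h, e, -⟩ := H5.Chev.exists_isD4 hq hK
  rw [e]
  refine h.ne.perfect_M (h.perfect H5.Chev.grpSys_hmul ?_)
  have := Nat.pow_le_pow_left hq.two_le 3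
  omega

end Cfsg.Agent.S1108
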