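import Cfsg.Statements.S1116
import Cfsg.Agent.H5.TwG2

set_option autoImplicit false
open Cfsg

namespace Cfsg.Agent.S1116

/-- ²G₂(3^(2m+1)) (m ≥ 1) equals its derived subgroup. -/
theorem result {K : Type*} [Field K] [Fintype K] {m : ℕ} (hK : Fintype.card K = 3 ^ (2 * m + 1)) (hm : 1 ≤ m) : commutator ↥(Cfsg.Lie.twistedG2 K (3 ^ m)) = ⊤ := by
  obtain ⟨_, T, h, e, h4⟩ := H5.Chev.exists_isG2 hK
  rw [e]
  refine h.ne.perfect_M (h.perfect h4 ?_)
  rw [Nat.card_eq_fintype_card, hK]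
  exact lt_of_lt_of_le (by norm_num) (Nat.pow_le_pow_right (by norm_num) (show 2 ≤ 2 * m + 1 by omega))

end Cfsg.Agent.S1116
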