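import Cfsg.Statements.S1118
import Mathlib
import Cfsg.Agent.H8.Rk2

set_option autoImplicit false
open Cfsg

namespace Cfsg.Agent.S1118

open H8 Subgroup MulAction

/-- In the rank-one set-up (`G` finite and doubly transitive on `Ω`, `t` an involution moving `a`, `Q` normal in `G_a` with `G_a = Q D`, `Q ⊓ D = 1` for the two-point stabiliser `D = G_a ⊓ G_{t • a}`, `|Q|` even, `|D|` odd), the normaliser of a subset of `Q` containing a non-identity element lies in `G_a`; consequently `N_G(Q) = N_G(G_a) = G_a`. -/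
theorem result {G Ω : Type*} [Group G] [Finite G] [MulAction G Ω] {a : Ω} {t : G} {Q : Subgroup G}
    (hS : Cfsg.IsRankOneSetup G Ω a t Q) :
    (∀ X : Set G, X ⊆ (Q : Set G) → (∃ x ∈ X, x ≠ 1) → Subgroup.normalizer X ≤ MulAction.stabilizer G a) ∧
      Subgroup.normalizer (Q : Set G) = MulAction.stabilizer G a ∧
      Subgroup.normalizer (MulAction.stabilizer G a : Set G) = MulAction.stabilizer G a := by
  refine ⟨fun X hX ⟨x, hx, h1⟩ g hg => R1.fix_of_conj_mem hS (hX hx) h1
    (hS.le (hX ((mem_set_normalizer_iff.1 hg x).1 hx))), ?_, ?_⟩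
  · obtain ⟨s, hs, -, h1⟩ := R1.exists_invol hS
    exact le_antisymm (fun g hg => R1.fix_of_conj_mem hS hs h1
      (hS.le ((mem_normalizer_iff.1 hg s).1 hs))) (R1.stab_le_nrm hS)
  · obtain ⟨s, hs, -, h1⟩ := R1.exists_invol hS
    exact le_antisymm (fun g hg => R1.fix_of_conj_mem hS hs h1
      ((mem_normalizer_iff.1 hg s).1 (hS.le hs))) le_normalizer

end Cfsg.Agent.S1118
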