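import Cfsg.Statements.S1119
import Mathlib
import Cfsg.Agent.H8.Rk2

set_option autoImplicit false
open Cfsg

namespace Cfsg.Agent.S1119

open H8 Subgroup MulAction

/-- In the rank-one set-up (`G` finite and doubly transitive on `Ω`, `t` an involution moving `a`, `Q` normal in `G_a` with `G_a = Q D`, `Q ⊓ D = 1` for the two-point stabiliser `D = G_a ⊓ G_{t • a}`, `|Q|` even, `|D|` odd): `Q` acts regularly on `Ω` minus `a`; hence `|Ω| = |Q| + 1`, `|G| = |Q| |D| (|Q| + 1)`, some Sylow 2-subgroup of `G` lies in `Q`, and each `g ∉ G_a` is uniquely `x t y` with `x ∈ G_a`, `y ∈ Q` (canonical form). -/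
theorem result {G Ω : Type*} [Group G] [Finite G] [MulAction G Ω] {a : Ω} {t : G} {Q : Subgroup G}
    (hS : Cfsg.IsRankOneSetup G Ω a t Q) :
    (∀ b c : Ω, b ≠ a → c ≠ a → ∃! x : Q, (x : G) • b = c) ∧
      Nat.card Ω = Nat.card Q + 1 ∧
      Nat.card G = Nat.card Q * Nat.card ↥(MulAction.stabilizer G a ⊓ MulAction.stabilizer G (t • a)) * (Nat.card Q + 1) ∧
      (∃ P : Sylow 2 G, (P : Subgroup G) ≤ Q) ∧
      ∀ g : G, g ∉ MulAction.stabilizer G a → ∃! p : G × G, p.1 ∈ MulAction.stabilizer G a ∧ p.2 ∈ Q ∧ g = p.1 * t * p.2 := by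
  refine ⟨fun b c hb hc => ?_, R1.card_Ω hS, R1.card_G hS, ?_, fun g hg => ?_⟩
  · obtain ⟨q, hq, e⟩ := R1.tr hS hb hc
    exact ⟨⟨q, hq⟩, e, fun y hy => Subtype.ext (R1.ext hS y.2 hq hb (hy.trans e.symm))⟩
  · obtain ⟨P⟩ : Nonempty (Sylow 2 G) := inferInstance
    obtain ⟨c, hc⟩ := R1.exists_fix hS P.isPGroup'
    obtain ⟨g, rfl⟩ := R1.trans hS a c
    refine ⟨g⁻¹ • P, fun x hx => ?_⟩
    obtain ⟨n, hn⟩ := (g⁻¹ • P).isPGroup' ⟨x, hx⟩
    refine R1.mem_of_pow hS ?_ (congrArg Subtype.val hn)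
    have h1 : g * x * g⁻¹ ∈ (P : Subgroup G) := by
      simpa [Sylow.coe_subgroup_smul, Subgroup.mem_pointwise_smul_iff_inv_smul_mem] using hx
    have := hc _ h1
    rw [conj_smul_smul] at this
    exact smul_left_cancel g this
  · obtain ⟨x, hx, y, hy, e⟩ := R1.canon hS hg
    refine ⟨(x, y), ⟨hx, hy, e⟩, fun p hp => ?_⟩
    obtain ⟨h1, h2⟩ := R1.canon_unique hS hp.1 hp.2.1 hx hy (hp.2.2.symm.trans e)
    exact Prod.ext h1 h2

end Cfsg.Agent.S1119
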