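import Cfsg.Statements.S1120
import Mathlib
import Cfsg.Agent.H1.Fitting
import Cfsg.Agent.H8.Rk2
import Cfsg.Agent.H8.Invol

set_option autoImplicit false
open Cfsg

namespace Cfsg.Agent.S1120

open H8 Subgroup MulAction

/-- In the rank-one set-up (`G` finite and doubly transitive on `Ω`, `t` an involution moving `a`, `Q` normal in `G_a` with `G_a = Q D`, `Q ⊓ D = 1` for the two-point stabiliser `D = G_a ⊓ G_{t • a}`, `|Q|` even, `|D|` odd), if `G` has 2-rank at least 2 then `O_{2'}(G)` equals the normal core of `G_a`. -/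
theorem result {G Ω : Type*} [Group G] [Finite G] [MulAction G Ω] {a : Ω} {t : G} {Q : Subgroup G}
    (hS : Cfsg.IsRankOneSetup G Ω a t Q)
    (h2 : ∃ x y : G, x ≠ 1 ∧ y ≠ 1 ∧ x ≠ y ∧ x * x = 1 ∧ y * y = 1 ∧ x * y = y * x) :
    Cfsg.pPrimeCore 2 G = (MulAction.stabilizer G a).normalCore := by
  apply le_antisymm
  · rw [normal_le_normalCore]
    obtain ⟨x, hx, y, hy, hxy, e⟩ := R1.exists_four hS h2
    set A := R1.Q0 hS h2
    have hA : ∀ s ∈ A, s ∈ Q := fun s hs => R1.invol_mem hS hs.1 hs.2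
    haveI : IsMulCommutative A := ⟨⟨fun u v => Subtype.ext (by
      by_cases h1 : (u : G) = 1
      · simp [h1]
      · exact R1.I_central hS h2 ⟨u.2.1, h1, u.2.2⟩ (hA _ v.2))⟩⟩
    refine H1.coprime_le_of_centralizers (A := A) ?_ le_normalizer_of_normal ?_
      fun s hs s1 g hg => R1.fix_of_comm hS (hA s hs) s1 (hg.2 s rfl).symm
    · intro hc
      have := eq_of_sq_of_isCyclic (G := A) (x := ⟨x, hx.1, hx.2.2⟩) (y := ⟨y, hy.1, hy.2.2⟩)
        (Subtype.ext (by simpa [sq] using hx.2.2)) (Subtype.ext (by simpa [sq] using hy.2.2))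
        (fun e => hx.2.1 (congrArg Subtype.val e)) (fun e => hy.2.1 (congrArg Subtype.val e))
      exact hxy (congrArg Subtype.val this)
    · obtain ⟨n, hn⟩ := IsPGroup.iff_card.1 (show IsPGroup 2 A from
        fun u => ⟨1, Subtype.ext (by simpa [sq] using u.2.2)⟩)
      rw [hn]
      exact Nat.Coprime.pow_left _ H1.coprime_pPrimeCore.symm
  · refine H1.le_pPrimeCore (Nat.coprime_two_right.2 ((R1.oddD hS).of_dvd_nat (card_dvd_of_le ?_)))
    intro x hx
    refine ⟨normalCore_le _ hx, ?_⟩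
    have := hx t⁻¹
    rw [inv_inv, mem_stabilizer_iff, mul_smul, mul_smul, inv_smul_eq_iff] at this
    exact this

end Cfsg.Agent.S1120
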