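import Cfsg.Statements.S1124
import Mathlib
import Cfsg.Agent.H8.Rk2

set_option autoImplicit false
open scoped Pointwise
open Cfsg

namespace Cfsg.Agent.S1124

open H8 Subgroup MulAction

/-- Let `t` be an element of order 2 of a finite group normalising a subgroup `X` of odd order, `Y = C_X(t)` and `Z` the set of elements of `X` inverted by `t`. Then `(y, z) ↦ y z` is a bijection `Y × Z → X`, so `|X| = |Y| |Z|`, and the subgroup generated by `Z` is normal in `X`. -/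
theorem result {M : Type*} [Group M] [Finite M]
    (t : M) (ht : orderOf t = 2) (X : Subgroup M) (hodd : Odd (Nat.card X))
    (hnorm : ∀ x ∈ X, t * x * t⁻¹ ∈ X) :
    (∀ x ∈ X, ∃! p : M × M, p.1 ∈ X ⊓ Subgroup.centralizer {t} ∧ p.2 ∈ Cfsg.invertedBy X t ∧ x = p.1 * p.2) ∧
      Nat.card X = Nat.card ↥(X ⊓ Subgroup.centralizer {t}) * Nat.card (Cfsg.invertedBy X t) ∧
      ∀ x ∈ X, MulAut.conj x • Subgroup.closure (Cfsg.invertedBy X t) = Subgroup.closure (Cfsg.invertedBy X t) := by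
  have h2 := (orderOf_eq_two_iff'.1 ht).1
  have key : ∀ x ∈ X, ∃! p : M × M, p.1 ∈ X ⊓ Subgroup.centralizer {t} ∧
      p.2 ∈ Cfsg.invertedBy X t ∧ x = p.1 * p.2 := by
    intro x hx
    obtain ⟨y, hy, z, hz, h3, h4, e⟩ := exists_cen_mul_inv h2 hodd hnorm hx
    refine ⟨(y, z), ⟨⟨hy, by rintro _ rfl; exact h3⟩, ⟨hz, h4⟩, e⟩, fun p hp => ?_⟩
    obtain ⟨h5, h6⟩ := cen_mul_inv_unique hodd hp.2.1.1 hz (hp.1.2 t rfl) h3 hp.2.1.2 h4
      (hp.2.2.symm.trans e)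
    exact Prod.ext h5 h6
  refine ⟨key, ?_, fun x hx => ?_⟩
  · rw [← Nat.card_prod]
    symm
    refine Nat.card_eq_of_bijective (fun p => ⟨p.1 * p.2, mul_mem p.1.2.1 p.2.2.1⟩)
      ⟨fun p p' e => ?_, fun x => ?_⟩
    · obtain ⟨h5, h6⟩ := cen_mul_inv_unique hodd p.2.2.1 p'.2.2.1 (p.1.2.2 t rfl) (p'.1.2.2 t rfl)
        p.2.2.2 p'.2.2.2 (congrArg Subtype.val e)
      exact Prod.ext (Subtype.ext h5) (Subtype.ext h6)
    · obtain ⟨p, hp, -⟩ := key x x.2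
      exact ⟨(⟨p.1, hp.1⟩, ⟨p.2, hp.2.1⟩), Subtype.ext hp.2.2.symm⟩
  · have aux : ∀ x ∈ X, x ∈ normalizer (Subgroup.closure (Cfsg.invertedBy X t) : Set M) := by
      intro x hx
      obtain ⟨y, hy, z, hz, h3, h4, rfl⟩ := exists_cen_mul_inv h2 hodd hnorm hx
      refine mul_mem ?_ (le_normalizer (subset_closure (show z ∈ Cfsg.invertedBy X t from ⟨hz, h4⟩)))
      refine H7.nrm_closure (A := zpowers y) (s := Cfsg.invertedBy X t) (fun b hb w hw => ⟨mul_mem (mul_mem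
        (zpowers_le.2 hy hb) hw.1) (inv_mem (zpowers_le.2 hy hb)), ?_⟩) (mem_zpowers y)
      obtain ⟨n, rfl⟩ := hb
      have h5 : t * y ^ n * t⁻¹ = y ^ n := by
        rw [(Commute.zpow_right h3 n).eq]; group
      simp only
      calc t * (y ^ n * w * (y ^ n)⁻¹) * t⁻¹ =
            (t * y ^ n * t⁻¹) * (t * w * t⁻¹) * (t * y ^ n * t⁻¹)⁻¹ := by group
        _ = _ := by rw [h5, hw.2]; group
    rw [← H7.cj_eq_smul]
    exact H7.cj_of_mem_nrm (aux x hx)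

end Cfsg.Agent.S1124
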