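import Cfsg.Statements.S1132
import Mathlib
import Cfsg.Agent.H8.Rk3

set_option autoImplicit false
open Cfsg

namespace Cfsg.Agent.S1132

open H8 Subgroup MulAction

/-- In the rank-one set-up (`G` finite and doubly transitive on `Ω`, `t` an involution moving `a`, `Q` normal in `G_a` with `G_a = Q D`, `Q ⊓ D = 1` for the two-point stabiliser `D = G_a ⊓ G_{t • a}`, `|Q|` even, `|D|` odd), with the action faithful and `G` containing two distinct commuting involutions: a Sylow 2-subgroup of `Q` is abelian or a Suzuki 2-group. -/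
theorem result {G Ω : Type*} [Group G] [Finite G] [MulAction G Ω] [FaithfulSMul G Ω] {a : Ω} {t : G} {Q : Subgroup G}
    (hS : Cfsg.IsRankOneSetup G Ω a t Q)
    (h2 : ∃ x y : G, x ≠ 1 ∧ y ≠ 1 ∧ x ≠ y ∧ x * x = 1 ∧ y * y = 1 ∧ x * y = y * x)
    (S : Sylow 2 ↥Q) : IsMulCommutative (S : Subgroup ↥Q) ∨ Cfsg.IsSuzukiTwoGroup ↥(S : Subgroup ↥Q) := by
  classical
  haveI := R1.nilp hS h2
  haveI : (S : Subgroup Q).Normal := inferInstance
  haveI : (S : Subgroup Q).Characteristic := S.characteristic_of_normal this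
  refine or_iff_not_imp_left.2 fun hc => ?_
  have hmem : ∀ x : Q, x * x = 1 → x ∈ (S : Subgroup Q) := fun x hx => by
    have : IsPGroup 2 (zpowers x) := IsPGroup.of_card_dvd_pow (n := 1) (by
      rw [Nat.card_zpowers, pow_one]; exact orderOf_dvd_of_pow_eq_one (by rw [pow_two, hx]))
    obtain ⟨T, hT⟩ := this.exists_le_sylow
    haveI := Sylow.unique_of_normal S inferInstance
    rw [Subsingleton.elim S T]
    exact hT (mem_zpowers x)
  have hI : ∀ x : (S : Subgroup Q), x ≠ 1 → x * x = 1 →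
      ((x : Q) : G) ∈ involutionsIn (stabilizer G a : Set G) := fun x h1 h =>
    ⟨hS.le x.1.2, fun e => h1 (Subtype.ext (Subtype.ext e)),
      congrArg (fun y : (S : Subgroup Q) => ((y : Q) : G)) h⟩
  refine ⟨inferInstance, S.isPGroup', ?_, ?_, ?_⟩
  · by_contra h
    push Not at h
    exact hc ⟨⟨h⟩⟩
  · obtain ⟨x, hx, y, hy, hxy, -⟩ := R1.exists_four hS h2
    have hx' := R1.invol_mem hS hx.1 hx.2.2
    have hy' := R1.invol_mem hS hy.1 hy.2.2
    exact ⟨⟨⟨x, hx'⟩, hmem _ (Subtype.ext hx.2.2)⟩, ⟨⟨y, hy'⟩, hmem _ (Subtype.ext hy.2.2)⟩,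
      fun e => hxy (congrArg (fun y : (S : Subgroup Q) => ((y : Q) : G)) e),
      fun e => hx.2.1 (congrArg (fun y : (S : Subgroup Q) => ((y : Q) : G)) e),
      Subtype.ext (Subtype.ext hx.2.2),
      fun e => hy.2.1 (congrArg (fun y : (S : Subgroup Q) => ((y : Q) : G)) e),
      Subtype.ext (Subtype.ext hy.2.2)⟩
  obtain ⟨k, hk, e⟩ := R1.K_cyc hS h2
  have hK : ∀ x : zpowers k, (x : G) ∈ invertedBy (S2 G a (t • a)) t := fun x => e ▸ x.2
  have hle : zpowers k ≤ normalizer (Q : Set G) := fun x hx => R1.stab_le_nrm hS (hK ⟨x, hx⟩).1.1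
  let φ : zpowers k →* MulAut (S : Subgroup Q) :=
    (MulAut.characteristic (S : Subgroup Q)).comp (Q.normalizerMonoidHom.comp (inclusion hle))
  have hφ : ∀ (x : zpowers k) (y : (S : Subgroup Q)), ((φ x y : Q) : G) = x * y * (x : G)⁻¹ :=
    fun _ _ => rfl
  refine ⟨φ.range, isCyclic_of_surjective _ φ.rangeRestrict_surjective, fun x y hx1 hx hy1 hy => ?_⟩
  obtain ⟨l, hl, el⟩ := R1.K_surj hS (hI x hx1 hx) (hI y hy1 hy)
  have hl' : l⁻¹ ∈ zpowers k := by
    show _ ∈ (zpowers k : Set G)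
    rw [e]; exact R1.K_inv hl
  have h3 : φ ⟨_, hl'⟩ x = y := Subtype.ext (Subtype.ext ((hφ _ _).trans (by simpa using el)))
  refine ⟨⟨φ ⟨_, hl'⟩, _, rfl⟩, h3, ?_⟩
  rintro ⟨_, m, rfl⟩ hm
  have h4 : (m : G) * x * (m : G)⁻¹ = y := (hφ m x).symm.trans (congrArg (fun y : (S : Subgroup Q) => ((y : Q) : G)) hm)
  have h5 := R1.K_inj hS (hI x hx1 hx) (R1.K_inv (hK m)) hl (by rw [inv_inv, h4, el])
  exact Subtype.ext (congrArg φ (Subtype.ext (by simp [← h5])))

end Cfsg.Agent.S1132
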