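import Cfsg.Statements.S1138
import Mathlib
import Cfsg.Agent.H8.Sz4

set_option autoImplicit false
open Cfsg

namespace Cfsg.Agent.S1138

/-- Let `P` be a Suzuki 2-group with `|Z(P)| = q`. Then every square lies in `Z(P)` and `P/Z(P)` is abelian (so elementary abelian), `|P| = q²` or `|P| = q³`, and `P` has exponent 4. -/
theorem result {P : Type*} [Group P] (hP : Cfsg.IsSuzukiTwoGroup P) :
    (∀ x : P, x * x ∈ Subgroup.center P) ∧ (∀ x y : P, x⁻¹ * y⁻¹ * x * y ∈ Subgroup.center P) ∧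
      (Nat.card P = Nat.card (Subgroup.center P) ^ 2 ∨ Nat.card P = Nat.card (Subgroup.center P) ^ 3) ∧
      Monoid.exponent P = 4 := by
  obtain ⟨_, hnc, K, h⟩ := H8.sz_of hP
  rw [h.center_eq hnc, h.card_Z]
  refine ⟨h.sq_mem hnc, fun x y => by simpa [commutatorElement_def] using h.cm_mem_Z hnc x⁻¹ y⁻¹,
    h.card_eq hnc, ?_⟩
  obtain ⟨x, hx⟩ : ∃ x, x ∉ h.Z := by
    by_contra hc
    push Not at hc
    exact h.Z_ne_top hnc (eq_top_iff.2 fun x _ => hc x)
  have h4 : ∀ x : P, x ^ 4 = 1 := fun x => by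
    rw [show 4 = 2 * 2 from rfl, pow_mul, sq, sq]; exact h.sq_mem hnc x
  refine Nat.dvd_antisymm (Monoid.exponent_dvd_of_forall_pow_eq_one h4) ?_
  have : orderOf x = 2 ^ (1 + 1) := orderOf_eq_prime_pow (by rw [pow_one, sq]; exact hx) (h4 x)
  exact this.symm.dvd.trans (Monoid.order_dvd_exponent x)

end Cfsg.Agent.S1138
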