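import Cfsg.Statements.S1141
import Cfsg.Agent.H5.TB5

set_option autoImplicit false
open Cfsg

namespace Cfsg.Agent.S1141

/-- Let `q = 2^n ≥ 4` and `|F| = q²`. A Sylow 2-subgroup `S` of `PSU₃(q)` has order `q³`, its centre has order `q`, and `S` is a Suzuki 2-group. -/
theorem result {F : Type*} [Field F] [Fintype F] {n : ℕ} (hn : 2 ≤ n)
    (hF : Fintype.card F = (2 ^ n) ^ 2) (S : Sylow 2 (Cfsg.PSU 3 F (2 ^ n))) :
    Nat.card S = (2 ^ n) ^ 3 ∧ Nat.card (Subgroup.center ↥(S : Subgroup (Cfsg.PSU 3 F (2 ^ n)))) = 2 ^ n ∧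
      Cfsg.IsSuzukiTwoGroup ↥(S : Subgroup (Cfsg.PSU 3 F (2 ^ n))) := by
  haveI : CharP F 2 := charP_of_card_eq_prime_pow (hF.trans (pow_mul _ _ _).symm)
  obtain ⟨φ, _, e, he, c1, c2, ⟨i⟩⟩ := H5.U3.main (by omega) hF S
  refine ⟨(Nat.card_congr i.toEquiv).trans c2,
    (Nat.card_congr (Subgroup.centerCongr i).toEquiv).trans ((H5.U3.card_center he).trans c1), ?_⟩
  obtain ⟨c, h0, h1⟩ := ENat.exists_ne_ne_of_three_le (α := {t // φ t = t}) (by
    rw [ENat.card_eq_coe_natCard, c1]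
    exact_mod_cast (by norm_num : 3 ≤ 2 ^ 2).trans (Nat.pow_le_pow_right two_pos hn)) ⟨0, map_zero _⟩ ⟨1, map_one _⟩
  exact H5.U3.suzuki_equiv i (H5.U3.suzuki he c.2 (fun h => h0 (Subtype.ext h)) fun h => h1 (Subtype.ext h))

end Cfsg.Agent.S1141
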