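import Cfsg.Statements.S1151
import Cfsg.Agent.H5.RE2
import Cfsg.Agent.H5.RE6

set_option autoImplicit false
open Cfsg

namespace Cfsg.Agent.S1151



/-- In the small Ree group ²G₂(q), q = 3^(2m+1), realised as G¹ inside the Chevalley group G₂ over the field with q elements (θ the 3^m-th power map), with H¹ = G¹ ∩ H and U¹ = G¹ ∩ U the intersections with the ambient diagonal and positive unipotent subgroups: `H¹` has exactly `(q - 1)/2` elements of odd order, and each non-identity one centralises no non-identity element of `U¹`. -/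
theorem result {K : Type*} [Field K] [Fintype K] {m : ℕ} (hK : Fintype.card K = 3 ^ (2 * m + 1)) :
    2 * Nat.card {h : ↥(Cfsg.Lie.chevG2.diagonalSubgroup K ⊓ Cfsg.Lie.twistedG2 K (3 ^ m)) // Odd (orderOf h)} = 3 ^ (2 * m + 1) - 1 ∧
      ∀ h ∈ (Cfsg.Lie.chevG2.diagonalSubgroup K ⊓ Cfsg.Lie.twistedG2 K (3 ^ m)), h ≠ 1 → Odd (orderOf h) →
        (Cfsg.Lie.chevG2.posUnipotent K ⊓ Cfsg.Lie.twistedG2 K (3 ^ m)) ⊓ Subgroup.centralizer {h} = ⊥ := by
  obtain ⟨R, hU, h, -⟩ := H5.Chev.exists_reeS hK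
  have := R.finite
  constructor
  · rw [← hK, ← R.card_A1]
    congr 1
    refine Nat.card_congr ⟨fun x => ⟨⟨x.1.1, x.1.2.2⟩, R.tor_A1.mem _ (by rw [h]; exact x.1.2.1) ?_⟩,
      fun y => ⟨⟨y.1.1, ⟨by have := R.A1_le y.2; rw [h] at this; exact this, y.1.2⟩⟩, ?_⟩, fun _ => rfl,
      fun _ => rfl⟩
    · rw [Subgroup.orderOf_mk, Subgroup.orderOf_coe]; exact x.2
    · rw [← Subgroup.orderOf_coe]
      show Odd (orderOf (y.1.1 : GL _ K))
      rw [Subgroup.orderOf_coe, Subgroup.orderOf_coe]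
      exact R.odd_A1.of_dvd_nat (orderOf_dvd_natCard y)
  · rintro x ⟨hx, hx'⟩ h1 h2
    have h3 : (⟨x, hx'⟩ : Cfsg.Lie.twistedG2 K (3 ^ m)) ∈ R.h.range := by rw [h]; exact hx
    obtain ⟨k, hk⟩ := h3
    have h4 : R.h k * R.h k ≠ 1 := H5.Ree.ReeS.sq_ne_of_odd (by rw [hk, Subgroup.orderOf_mk]; exact h2)
      (by rw [hk]; exact fun e => h1 (congrArg Subtype.val e))
    rw [eq_bot_iff]
    rintro y ⟨⟨hy, hy'⟩, hc⟩
    have h5 : (⟨y, hy'⟩ : Cfsg.Lie.twistedG2 K (3 ^ m)) ∈ R.U := by rw [hU]; exact hy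
    have h6 : (⟨y, hy'⟩ : Cfsg.Lie.twistedG2 K (3 ^ m)) ∈ R.h.range := by
      rw [← R.centralizer_h h4, hk, Subgroup.mem_centralizer_singleton_iff]
      exact Subtype.ext (Subgroup.mem_centralizer_singleton_iff.1 hc)
    obtain ⟨l, hl⟩ := h6
    by_contra h7
    exact R.pt_ne_inf 0 0 0 (R.U_fix h5 (fun e => h7 (congrArg Subtype.val e)) (hl ▸ R.h_zero l))

end Cfsg.Agent.S1151
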