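import Cfsg.Statements.S1161
import Mathlib
import Cfsg.Agent.H8.AppI
import Cfsg.Agent.FT.Main
import Cfsg.Agent.H1.Fitting

set_option autoImplicit false
open Cfsg

namespace Cfsg.Agent.S1161

/-- Let `D` be a finite group of odd order acting faithfully by additive automorphisms on a finite elementary abelian `q`-group `E ≠ 0` (`q` prime), transitively on `E ∖ {0}`. Then the Fitting subgroup `F(D)` is cyclic, its non-identity elements fix only `0`, and `D/F(D)` is abelian (the derived subgroup lies in `F(D)`). -/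
theorem result {D E : Type*} [Group D] [Finite D]
    [AddCommGroup E] [Finite E] [Nontrivial E] [DistribMulAction D E] [FaithfulSMul D E]
    (hodd : Odd (Nat.card D)) {q : ℕ} (hq : q.Prime) (hE : ∀ e : E, q • e = 0)
    (htrans : ∀ a b : E, a ≠ 0 → b ≠ 0 → ∃ d : D, d • a = b) :
    IsCyclic ↥(Cfsg.fittingSubgroup D) ∧
      (∀ g ∈ Cfsg.fittingSubgroup D, g ≠ 1 → ∀ a : E, g • a = a → a = 0) ∧
      commutator D ≤ Cfsg.fittingSubgroup D := by
  obtain ⟨h1, h2⟩ := H8.appI hodd hq hE htrans
  haveI := FT.odd_solvable hodd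
  haveI := h1
  haveI : (Cfsg.fittingSubgroup D).Normal := H1.fitting_normal
  exact ⟨h1, h2, (H8.commutator_le_centralizer_of_cyclic _).trans H1.centralizer_fitting_le⟩

end Cfsg.Agent.S1161
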