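import Cfsg.Statements.S1167
import Mathlib
import Cfsg.Agent.H8.Zas8

set_option autoImplicit false
open Cfsg

namespace Cfsg.Agent.S1167

open H8

/-- Let `G` be a finite simple Zassenhaus group on `Ω`, `U` a normal subgroup of `G_a` regular on `Ω` minus `a` which is an abelian 2-group, and `v` an involution with `v • a ≠ a`. Then there is a unique `u₀ ∈ U`, `u₀ ≠ 1`, with `v u₀ v = u₀ v u₀`. -/
theorem result {G Ω : Type*} [Group G] [Finite G] [MulAction G Ω] [Finite Ω]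
    (hZ : Cfsg.IsZassenhausGroup G Ω) [IsSimpleGroup G] {a : Ω}
    (U : Subgroup G) (hUle : U ≤ MulAction.stabilizer G a)
    (hUn : ∀ h ∈ MulAction.stabilizer G a, ∀ u ∈ U, h * u * h⁻¹ ∈ U)
    (hreg : ∀ c d : Ω, c ≠ a → d ≠ a → ∃! u : U, (u : G) • c = d)
    (hU2 : IsPGroup 2 U) (hUab : ∀ u ∈ U, ∀ u' ∈ U, u * u' = u' * u)
    (v : G) (hv1 : v ≠ 1) (hv2 : v * v = 1) (hva : v • a ≠ a) :
    ∃! u₀ : G, u₀ ∈ U ∧ u₀ ≠ 1 ∧ v * u₀ * v = u₀ * v * u₀ := by
  set h := Zs.of_zas hZ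
  have h1 := h.eq_ker_of_reg hUle hreg
  subst h1
  haveI : IsMulCommutative (h.ker a) := ⟨⟨fun x y => Subtype.ext (hUab _ x.2 _ y.2)⟩⟩
  have hab : a ≠ v • a := hva.symm
  have hs : Sw v a (v • a) := ⟨rfl, by rw [← mul_smul, hv2, one_smul]⟩
  obtain ⟨f, hn⟩ := IsPGroup.iff_card.1 hU2
  have h2 := h.two_le_card_ker a
  have hev : Even (Nat.card (h.ker a)) := by
    rcases f with _ | f
    · omega
    · rw [hn, pow_succ]; simp
  have hodd : Odd (Nat.card Ω) := by rw [← h.card_ker a]; exact hev.add_one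
  have hd : Nat.card (S2 G a (v • a)) = Nat.card (h.ker a) - 1 := by
    refine (h.eq_or_two_mul_le hab).resolve_right fun hd => ?_
    have := zas_le_of_comm hZ hab
    change Nat.card (h.ker a) - 1 ≤ _ at this
    obtain ⟨k, hk⟩ := hev
    omega
  have hsq : ∀ u ∈ h.ker a, u * u = 1 := by
    intro u hu
    by_cases hu1 : u = 1
    · simp [hu1]
    obtain ⟨j, hj, j2, j1⟩ := exists_invol_of_even hev
    obtain ⟨k, -, rfl⟩ := h.exists_conj_ker hab hd hj j1 hu hu1
    rw [conj_mul, j2]; simp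
  obtain ⟨c, hc⟩ := Set.ncard_eq_one.1 (h.ncard_fixed_of_odd hodd hv2 hv1)
  have hvc : v • c = c := by
    have : c ∈ MulAction.fixedBy Ω v := by rw [hc]; rfl
    exact this
  have hca : c ≠ a := by rintro rfl; exact hva hvc
  have hcb : c ≠ v • a := by
    intro e
    rw [e, hs.2] at hvc
    exact hab hvc
  obtain ⟨u, hu, e⟩ := h.exists_ker hab.symm hca
  have hua : u • a = a := Zs.ker_fix hu
  have huc : u • c = v • a := by rw [← e, ← mul_smul, hsq u hu, one_smul]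
  refine ⟨u, ⟨hu, ?_, ?_⟩, ?_⟩
  · rintro rfl
    rw [one_smul] at e
    exact hcb e.symm
  · refine h.ext3 hab hcb.symm hca.symm ?_ ?_ ?_
    · simp only [mul_smul, e, hvc, hua]
    · simp only [mul_smul, hs.2, hua, e, hvc, huc]
    · simp only [mul_smul, hvc, huc, hs.2, hua]
  · rintro w ⟨hw, -, e'⟩
    have h3 := congrArg (· • a) e'
    simp only [mul_smul, Zs.ker_fix hw] at h3
    have h4 : w • v • a ∈ MulAction.fixedBy Ω v := h3
    rw [hc] at h4
    exact Zs.ker_ext hw hu hab.symm (h4.trans e.symm)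

end Cfsg.Agent.S1167
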