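import Cfsg.Statements.S1176
import Cfsg.Agent.H1.Inv2

set_option autoImplicit false
open Cfsg

namespace Cfsg.Agent.S1176

open H7 H1B Subgroup
open scoped commutatorElement

/-- Let x₀ be an involution of the finite group G and D its conjugacy class. Assume (a) for each x ∈ D the subgroup W(x) generated by the members of D commuting with x is a 2-group of nilpotency class at most 2, and (b) the product of two distinct commuting members of D again lies in D. Then for all x, y ∈ D, if xy has even order greater than 2, its order is 4. -/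
theorem result {G : Type*} [Group G] [Finite G] (x₀ : G) (hx₀ : orderOf x₀ = 2) (ha : ∀ x : G, IsConj x₀ x → IsPGroup 2 ↥(Subgroup.closure {y : G | IsConj x₀ y ∧ Commute y x}) ∧ ⁅⁅Subgroup.closure {y : G | IsConj x₀ y ∧ Commute y x}, Subgroup.closure {y : G | IsConj x₀ y ∧ Commute y x}⁆, Subgroup.closure {y : G | IsConj x₀ y ∧ Commute y x}⁆ = ⊥) (hb : ∀ x y : G, IsConj x₀ x → IsConj x₀ y → x ≠ y → Commute x y → IsConj x₀ (x * y)) (x y : G) (hx : IsConj x₀ x) (hy : IsConj x₀ y) (heven : Even (orderOf (x * y))) (hgt : 2 < orderOf (x * y)) : orderOf (x * y) = 4 := by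
  have ox := (ord_isConj hx).trans hx₀
  have oy := (ord_isConj hy).trans hx₀
  have xx := (ord2.1 ox).1
  have yy := (ord2.1 oy).1
  obtain ⟨h1, h2, h3⟩ := dih_z xx yy heven
  obtain ⟨m, hm⟩ : ∃ m, m = orderOf (x * y) / 2 := ⟨_, rfl⟩
  rw [← hm] at h1 h2 h3
  have h4 : IsConj x₀ (x * (x * y) ^ m) := by
    rcases Nat.even_or_odd' m with ⟨j, e | e⟩
    · have := H9.dih_even (a := x) (b := y) (by rw [pow_two, xx]) (by rw [pow_two, yy]) (j : ℤ)
      rw [show 2 * (j : ℤ) = ((2 * j : ℕ) : ℤ) by push_cast; ring, zpow_natCast, ← e] at this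
      rw [this]; exact hx.trans (isConj_iff.2 ⟨((x * y) ^ (j : ℤ))⁻¹, by rw [inv_inv]⟩)
    · have := H9.dih_odd (a := x) (b := y) (by rw [pow_two, xx]) (by rw [pow_two, yy]) (j : ℤ)
      rw [show 2 * (j : ℤ) + 1 = ((2 * j + 1 : ℕ) : ℤ) by push_cast; ring, zpow_natCast, ← e] at this
      rw [this]; exact hy.trans (isConj_iff.2 ⟨((x * y) ^ (j : ℤ))⁻¹, by rw [inv_inv]⟩)
  have h5 := hb x _ hx h4 (fun e => (ord2.1 h1).2 (by simpa using e.symm))
    ((Commute.refl x).mul_right h2.symm)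
  rw [← mul_assoc, xx, one_mul] at h5
  have h6 := (ha _ h5).2
  have hc : ⁅⁅x, y⁆, x⁆ = 1 := by
    rw [← mem_bot, ← h6]
    exact commutator_mem_commutator (commutator_mem_commutator (subset_closure ⟨hx, h2.symm⟩)
      (subset_closure ⟨hy, h3.symm⟩)) (subset_closure ⟨hx, h2.symm⟩)
  have e1 : ⁅x, y⁆ = (x * y) ^ (2 : ℤ) := by
    rw [commutatorElement_def, inv_eq_of_mul_self xx, inv_eq_of_mul_self yy, zpow_two]; group
  rw [commutatorElement_eq_one_iff_commute, e1] at hc
  have e2 := dih_conj xx yy 2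
  rw [← hc.eq, mul_inv_cancel_right, eq_inv_iff_mul_eq_one, ← zpow_add] at e2
  have e3 : orderOf (x * y) ∣ 4 := orderOf_dvd_of_pow_eq_one (by exact_mod_cast e2)
  have := Nat.le_of_dvd (by norm_num) e3
  obtain ⟨k, hk⟩ := heven
  omega

end Cfsg.Agent.S1176
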