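import Cfsg.Statements.S1177
import Cfsg.Agent.H1.Inv2

set_option autoImplicit false
open Cfsg

namespace Cfsg.Agent.S1177

open H7 H1B Subgroup
open scoped commutatorElement

/-- Let A be a nontrivial elementary abelian 2-subgroup of a finite group G which is a T.I. set (each conjugate of A meets A trivially or equals A) and which does not commute elementwise with any conjugate of A other than A itself. Then for every a ∈ A, a ≠ 1, every conjugate of A contained in C_G(a) is equal to A (A is weakly closed in C_G(a)). -/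
theorem result {G : Type*} [Group G] [Finite G] (A : Subgroup G) (hA : Cfsg.IsElementaryAbelian 2 A) (hA1 : A ≠ ⊥) (hTI : ∀ g : G, A.map (MulAut.conj g).toMonoidHom ⊓ A = ⊥ ∨ A.map (MulAut.conj g).toMonoidHom = A) (hb : ∀ g : G, (∀ a ∈ A, ∀ b ∈ A.map (MulAut.conj g).toMonoidHom, a * b = b * a) → A.map (MulAut.conj g).toMonoidHom = A) (a : G) (ha : a ∈ A) (ha1 : a ≠ 1) (g : G) (hg : A.map (MulAut.conj g).toMonoidHom ≤ Subgroup.centralizer ({a} : Set G)) : A.map (MulAut.conj g).toMonoidHom = A := by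
  change cj g A ≤ cen1 a at hg
  change cj g A = A
  change ∀ g, cj g A ⊓ A = ⊥ ∨ cj g A = A at hTI
  by_contra hne
  have h0 : cj g A ⊓ A = ⊥ := (hTI g).resolve_right hne
  have n1 : ∀ u : G, u ∈ A → u ≠ 1 → ∀ b, b ∈ cen1 u → b ∈ nrm A := by
    intro u hu h1 b hb
    refine cj_eq_self_iff.1 ((hTI b).resolve_left fun e => h1 ?_)
    rw [← mem_bot, ← e]
    refine ⟨?_, hu⟩
    have : b * u * b⁻¹ = u := by rw [mem_cen1.1 hb]; group
    rw [← this]; exact conj_mem_cj.2 hu
  have nB : cj g A ≤ nrm A := fun b hb => n1 a ha ha1 b (hg hb)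
  have n2 : ∀ x ∈ A, ∀ b ∈ cj g A, b ≠ 1 → x * b = b * x → x ∈ cen (cj g A) := by
    intro x hx b hb b1 e
    have : g⁻¹ * x * g ∈ nrm A := by
      refine n1 (g⁻¹ * b * g) (mem_cj.1 hb) (fun e => b1 ?_) _ (mem_cen1.2 ?_)
      · rw [show b = g * (g⁻¹ * b * g) * g⁻¹ by group, e]; group
      · calc g⁻¹ * x * g * (g⁻¹ * b * g) = g⁻¹ * (x * b) * g := by group
          _ = _ := by rw [e]; group
    rw [← mem_cj, cj_nrm] at this
    refine mem_cen.2 fun c hc => ?_
    have h2 : ⁅c, x⁆ ∈ cj g A ⊓ A := by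
      constructor
      · rw [commutatorElement_def, mul_assoc, mul_assoc, ← mul_assoc x]
        exact mul_mem hc (nconj_mem this (inv_mem hc))
      · exact A.mul_mem (nconj_mem (nB hc) hx) (A.inv_mem hx)
    rw [h0, mem_bot, commutatorElement_eq_one_iff_mul_comm] at h2
    exact h2
  have cA := isComm_iff'.1 hA.1
  obtain ⟨x, hx, hxc⟩ : ∃ x ∈ A, x ∉ cen (cj g A) := by
    by_contra! h
    exact hne (hb g fun a ha b hb => (mem_cen.1 (h a ha) b hb).symm)
  have sq : ∀ b ∈ cj g A, b * b = 1 := by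
    intro b hb
    obtain ⟨y, hy, rfl⟩ := mem_cj'.1 hb
    rw [conj_mul, ← pow_two, hA.2 y hy]; group
  have mem : ∀ b : cj g A, x * (b * x * (b : G)⁻¹) ∈ A ⊓ cen (cj g A) := by
    rintro ⟨b, hb⟩
    have m1 := nconj_mem (nB hb) hx
    refine ⟨mul_mem hx m1, ?_⟩
    rcases eq_or_ne b 1 with rfl | b1
    · simp only [one_mul, inv_one, mul_one]
      rw [← pow_two, hA.2 x hx]; exact one_mem _
    · refine n2 _ (mul_mem hx m1) b hb b1 ?_
      simp only
      rw [cA x hx _ m1]
      conv_rhs => rw [← cA x hx _ m1]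
      rw [inv_eq_of_mul_self (sq b hb)]
      calc b * x * b * x * b = b * x * b * x * b := rfl
        _ = b * (x * (b * x * b)) := by group
  have inj : Function.Injective fun b : cj g A => (⟨_, mem b⟩ : (A ⊓ cen (cj g A) : Subgroup G)) := by
    rintro ⟨b, hb⟩ ⟨c, hc⟩ e
    have e1 : b * x * b⁻¹ = c * x * c⁻¹ := mul_left_cancel (congrArg Subtype.val e)
    have e2 := mem_cen1.1 (conj_eq_iff_mem_cen1.1 e1)
    by_contra hbc
    refine hxc (n2 x hx _ (mul_mem (inv_mem hc) hb) (fun e => hbc ?_) e2.symm)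
    exact Subtype.ext (inv_mul_eq_one.1 e).symm
  have le := Nat.card_le_card_of_injective _ inj
  rw [H2.card_cj] at le
  have := eq_of_le_of_card_le (inf_le_left : A ⊓ cen (cj g A) ≤ A) le
  exact hxc (this.symm.le hx).2

end Cfsg.Agent.S1177
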