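import Cfsg.Statements.S1181
import Cfsg.Agent.H1.Inv2

set_option autoImplicit false
open Cfsg

namespace Cfsg.Agent.S1181

open H7 H1B Subgroup

/-- Let z be an isolated involution of the finite group G and N a normal subgroup with z ∉ N. Then the centralizer of zN in G/N is the image of C_G(z), and zN is an isolated involution of G/N. -/
theorem result {G : Type*} [Group G] [Finite G] (z : G) (hz : Cfsg.IsIsolatedInvolution z) (N : Subgroup G) [N.Normal] (hzN : z ∉ N) : Subgroup.centralizer ({(QuotientGroup.mk z : G ⧸ N)} : Set (G ⧸ N)) = (Subgroup.centralizer ({z} : Set G)).map (QuotientGroup.mk' N) ∧ Cfsg.IsIsolatedInvolution (QuotientGroup.mk z : G ⧸ N) := by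
  have h := iso_of hz
  have h' := h.map (QuotientGroup.mk' N) (QuotientGroup.mk'_surjective N)
  refine ⟨le_antisymm (fun y hy => ?_) ?_, ord2'.2 ⟨h'.sq, fun e => hzN ((QuotientGroup.eq_one_iff z).1 e)⟩,
    fun g hg => h'.eq_of_commute hg⟩
  · obtain ⟨g, rfl⟩ := QuotientGroup.mk'_surjective N y
    obtain ⟨k, hk, -, -, e⟩ := Iso.exists_k h g
    refine ⟨k⁻¹ * g, conj_eq_iff_mem_cen1.1 e.symm, ?_⟩
    have : QuotientGroup.mk' N k = 1 := by
      rw [← MonoidHom.mem_ker]
      refine zpowers_le.2 ?_ hk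
      have e := mem_cen1.1 hy
      rw [MonoidHom.mem_ker, map_mul, map_mul, map_mul, map_inv]
      simp only [QuotientGroup.mk'_apply] at e ⊢
      rw [e, mul_inv_cancel_right, ← QuotientGroup.mk_mul, Iso.mul_self h, QuotientGroup.mk_one]
    rw [map_mul, map_inv, this, inv_one, one_mul]
  · rintro _ ⟨c, hc, rfl⟩
    exact mem_cen1.2 (by simpa using congrArg (QuotientGroup.mk' N) (mem_cen1.1 hc))

end Cfsg.Agent.S1181
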