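import Cfsg.Statements.S1182
import Cfsg.Agent.H1.Inv2

set_option autoImplicit false
open Cfsg

namespace Cfsg.Agent.S1182

open H7 H1B Subgroup

/-- Let z be an isolated involution of the finite group G and H a subgroup normalized by z. If x, y ∈ H both commute with z and y = h x h⁻¹ for some h ∈ H, then y = c x c⁻¹ for some c ∈ H commuting with z. -/
theorem result {G : Type*} [Group G] [Finite G] (z : G) (hz : Cfsg.IsIsolatedInvolution z) (H : Subgroup G) (hzH : z ∈ Subgroup.normalizer (H : Set G)) (x y : G) (hx : x ∈ H) (hy : y ∈ H) (hxz : Commute x z) (hyz : Commute y z) (h : G) (hh : h ∈ H) (hconj : h * x * h⁻¹ = y) : ∃ c ∈ H, Commute c z ∧ c * x * c⁻¹ = y := by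
  have hi := iso_of hz
  obtain ⟨k, hk, -, -, e⟩ := Iso.exists_k hi h⁻¹
  have kH : k ∈ H := by
    refine zpowers_le.2 ?_ hk
    rw [show h⁻¹ * z * h⁻¹⁻¹ * z = h⁻¹ * (z * h * z⁻¹) * (z * z) by group, Iso.mul_self hi, mul_one]
    exact mul_mem (inv_mem hh) (nconj_mem hzH hh)
  have kx : Commute k x := by
    refine comm_zpowers (Commute.mul_left ?_ hxz.symm) hk
    have := (Commute.conj_iff h⁻¹).2 hyz.symm
    rwa [← hconj, show h⁻¹ * (h * x * h⁻¹) * h⁻¹⁻¹ = x by group] at this
  refine ⟨h * k, mul_mem hh kH, ?_, ?_⟩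
  · have := mem_cen1.1 (conj_eq_iff_mem_cen1.1 e)
    rwa [inv_inv] at this
  · rw [← hconj, mul_assoc h, kx.eq]; group

end Cfsg.Agent.S1182
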