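import Cfsg.Statements.S1183
import Cfsg.Agent.H1.Inv2

set_option autoImplicit false
open Cfsg

namespace Cfsg.Agent.S1183

open H7 H1B Subgroup

/-- Let z be an isolated involution of the finite group G and C = C_G(z). Then the subgroup of G generated by its elements of odd order is all of G if and only if the subgroup of C generated by its elements of odd order is all of C. -/
theorem result {G : Type*} [Group G] [Finite G] (z : G) (hz : Cfsg.IsIsolatedInvolution z) : Cfsg.pResidual 2 G = ⊤ ↔ Cfsg.pResidual 2 ↥(Subgroup.centralizer ({z} : Set G)) = ⊤ := by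
  have hi := iso_of hz
  have hs := Iso.sup hi
  have hO : Op' 2 (⊤ : Subgroup G) ≤ pResidual 2 G := by
    rw [← H2.pRes_top]; exact Op'_le_pRes 2 ⊤
  have nO : ⊤ ≤ nrm (Op' 2 (⊤ : Subgroup G)) := le_nrm_Opi _ _
  rw [H2.pResidual_eq_top_iff_pRes]
  constructor
  · intro h
    have nN : ⊤ ≤ nrm (Op' 2 (⊤ : Subgroup G) ⊔ H2.pRes 2 (cen1 z)) := by
      conv_lhs => rw [← hs]
      exact sup_le (le_sup_left.trans (le_nrm_self _))
        (nrm_sup (le_top.trans nO) (le_nrm_pRes (le_nrm_self _)))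
    have : pResidual 2 G ≤ Op' 2 (⊤ : Subgroup G) ⊔ H2.pRes 2 (cen1 z) := by
      rw [← H2.pRes_top]
      refine pRes_le_of_piN nN ((isPGroup_iff_piN_relIndex nN).2 fun x _ => ?_)
      obtain ⟨o, ho, c, hc, rfl⟩ := (mem_sup_nrm' (le_top.trans nO)).1 (hs.ge (mem_top x))
      obtain ⟨k, hk⟩ := H2.exists_pow_coprime (p := 2) c
      refine ⟨k, ?_⟩
      have := normal_of nN
      rw [← QuotientGroup.eq_one_iff, QuotientGroup.mk_pow, QuotientGroup.mk_mul,
        (QuotientGroup.eq_one_iff o).2 (mem_sup_left ho), one_mul, ← QuotientGroup.mk_pow,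
        QuotientGroup.eq_one_iff]
      exact mem_sup_right (H2.mem_pRes (pow_mem hc _) hk)
    rw [h, sup_comm] at this
    refine le_antisymm (H2.pRes_le _) fun c hc => ?_
    have m : c ∈ (H2.pRes 2 (cen1 z) ⊔ Op' 2 (⊤ : Subgroup G)) ⊓ cen1 z := ⟨this (mem_top c), hc⟩
    rw [modular (le_top.trans nO) (H2.pRes_le _)] at m
    refine (show _ ≤ H2.pRes 2 (cen1 z) from sup_le le_rfl fun x hx => ?_) m
    exact H2.mem_pRes hx.2 ((coprime_Op' 2 ⊤).coprime_dvd_left (orderOf_dvd_card' hx.1))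
  · intro h
    rw [eq_top_iff, ← hs]
    exact sup_le hO (h.ge.trans (H2.pRes_le_pResidual _))

end Cfsg.Agent.S1183
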