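import Cfsg.Statements.S1184
import Cfsg.Agent.H1.Inv2

set_option autoImplicit false
open Cfsg

namespace Cfsg.Agent.S1184

open H7 H1B Subgroup

/-- Let z be an isolated involution of the finite group G. If s and t are distinct conjugates of z, then st does not commute with z. -/
theorem result {G : Type*} [Group G] [Finite G] (z : G) (hz : Cfsg.IsIsolatedInvolution z) (g h : G) (hne : g * z * g⁻¹ ≠ h * z * h⁻¹) : ¬ Commute (g * z * g⁻¹ * (h * z * h⁻¹)) z := by
  intro hc
  have hi := iso_of hz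
  have c1 : IsConj z (g * z * g⁻¹) := isConj_iff.2 ⟨g, rfl⟩
  have c2 : IsConj z (h * z * h⁻¹) := isConj_iff.2 ⟨h, rfl⟩
  generalize g * z * g⁻¹ = s at *
  generalize h * z * h⁻¹ = t at *
  have ss := Iso.mul_self (Iso.of_conj hi c1)
  have tt := Iso.mul_self (Iso.of_conj hi c2)
  have e1 : s * (s * t) * s⁻¹ = (s * t)⁻¹ := by simpa using dih_conj ss tt 1
  have e2 : (z * s) * (s * t) * (z * s)⁻¹ = (s * t)⁻¹ := by
    calc (z * s) * (s * t) * (z * s)⁻¹ = z * (s * (s * t) * s⁻¹) * z⁻¹ := by group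
      _ = _ := by rw [e1, ← hc.inv_left.eq]; group
  have := eq_one_of_odd (Iso.odd' hi c1 c2) (sq_eq_one_of_odd_inverts e2 (Iso.odd' hi (IsConj.refl z) c1))
  exact hne (by rw [eq_inv_of_mul_eq_one_left this, inv_eq_of_mul_self tt])

end Cfsg.Agent.S1184
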