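import Cfsg.Statements.S1185
import Cfsg.Agent.H1.Inv2

set_option autoImplicit false
open Cfsg

namespace Cfsg.Agent.S1185

open H7 H1B Subgroup

/-- Let z be an isolated involution of the finite group G with centralizer C. Then for every g ∈ G there is exactly one element k in the coset gC that has odd order and is inverted by z. -/
theorem result {G : Type*} [Group G] [Finite G] (z : G) (hz : Cfsg.IsIsolatedInvolution z) (g : G) : ∃! k : G, (Odd (orderOf k) ∧ z * k * z⁻¹ = k⁻¹) ∧ g⁻¹ * k ∈ Subgroup.centralizer ({z} : Set G) := by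
  have hi := iso_of hz
  obtain ⟨k, -, h1, h2, e⟩ := Iso.exists_k hi g
  refine ⟨k, ⟨⟨h1, h2⟩, conj_eq_iff_mem_cen1.1 e⟩, fun l hl => ?_⟩
  exact k_unique (Iso.mul_self hi) hl.1.1 h1 hl.1.2 h2 ((conj_eq_iff_mem_cen1.2 hl.2).trans e.symm)

end Cfsg.Agent.S1185
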