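import Cfsg.Statements.S1226
import Cfsg.Agent.H1.Inv2

set_option autoImplicit false
open Cfsg

namespace Cfsg.Agent.S1226

open H7 H1B Subgroup

/-- Let G be a finite group with a Sylow 2-subgroup T that is neither cyclic nor normal, such that the centralizer of every involution is an elementary abelian 2-group. Then N_G(T) is a strongly embedded subgroup of G. -/
theorem result {G : Type*} [Group G] [Finite G] (T : Sylow 2 G) (hnc : ¬ IsCyclic (T : Subgroup G)) (hnn : ¬ (T : Subgroup G).Normal) (hC : ∀ t : G, orderOf t = 2 → IsMulCommutative (Subgroup.centralizer ({t} : Set G)) ∧ ∀ c ∈ Subgroup.centralizer ({t} : Set G), c ^ 2 = 1) : Cfsg.IsStronglyEmbedded (Subgroup.normalizer ((T : Subgroup G) : Set G)) := by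
  have hT := syl_top T
  have T1 : (T : Subgroup G) ≠ ⊥ := fun e => hnc (by rw [e]; infer_instance)
  have key : ∀ t ∈ (T : Subgroup G), orderOf t = 2 → cen1 t = T := by
    intro t ht h2
    obtain ⟨z, hz, z1⟩ := exists_ne_one (pgroup_inf_cen_ne_bot' T.isPGroup' T.isPGroup' (le_nrm_self _) T1)
    have pz : ∀ s : G, orderOf s = 2 → IsPGroup 2 (cen1 s) := fun s hs =>
      H7.isPGroup_iff_mem.2 fun a ha => ⟨1, by simpa using (hC s hs).2 a ha⟩
    obtain ⟨w, hw, w2⟩ := exists_inv (H := zpowers z) (by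
      have : IsPGroup 2 (zpowers z) := T.isPGroup'.to_le (zpowers_le.2 hz.1)
      exact even_iff_two_dvd.2 (dvd_card_of_isPGroup this (by simpa using z1)))
    have hw' : w ∈ (T : Subgroup G) ⊓ cen T := zpowers_le.2 hz hw
    have e : cen1 w = T := hT.eq_of_le (pz w w2) (le_cen1_iff.2 hw'.2) le_top
    have c : (T : Subgroup G) ≤ cen T := by
      have := (hC w w2).1
      rw [e] at this; exact isComm_iff.1 this
    exact hT.eq_of_le (pz t h2) (le_cen1_iff.2 (c ht)) le_top
  have hN : H2.IsSylowIn 2 (T : Subgroup G) (nrm T) := hT.mono (le_nrm_self _) le_top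
  have inT : ∀ t ∈ nrm (T : Subgroup G), orderOf t = 2 → t ∈ (T : Subgroup G) := fun t ht h2 =>
    zpowers_le.1 (hN.le_of_le_normalizer (H7.isPGroup_zpowers (k := 1) (by simpa using (ord2'.1 h2).1))
      (zpowers_le.2 ht) (zpowers_le.2 ht))
  refine se_iff.2 ⟨fun e => hnn (normal_of e.ge), ?_, fun g t h2 ht hg => ?_⟩
  · obtain ⟨t, ht, h2⟩ := exists_inv (even_iff_two_dvd.2 (dvd_card_of_isPGroup T.isPGroup' T1))
    exact ⟨t, le_nrm_self _ ht, h2⟩
  · have h3 := (ord_conj g t).trans h2
    rw [← cj_eq_self_iff]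
    conv_lhs => rw [← key t (inT t ht h2) h2, cj_cen1, key _ (inT _ hg h3) h3]

end Cfsg.Agent.S1226
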