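import Cfsg.Statements.S1227
import Mathlib
import Cfsg.Agent.H8.AbC1

set_option autoImplicit false
open Cfsg

namespace Cfsg.Agent.S1227

open H8 H7 H1B Subgroup

/-- Let G be a finite group with a Sylow 2-subgroup T that is neither cyclic nor normal, such that the centralizer of every involution is an elementary abelian 2-group; put H = N_G(T), let u be an involution outside H and D = H ∩ uHu⁻¹. Then u inverts every element of D, |H| = |T|·(|T| − 1), and D is a complement to T in H. -/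
theorem result {G : Type*} [Group G] [Finite G] (T : Sylow 2 G) (hnc : ¬ IsCyclic (T : Subgroup G)) (hnn : ¬ (T : Subgroup G).Normal) (hC : ∀ t : G, orderOf t = 2 → IsMulCommutative (Subgroup.centralizer ({t} : Set G)) ∧ ∀ c ∈ Subgroup.centralizer ({t} : Set G), c ^ 2 = 1) (u : G) (hu : orderOf u = 2) (huH : u ∉ Subgroup.normalizer ((T : Subgroup G) : Set G)) : (∀ d ∈ Subgroup.normalizer ((T : Subgroup G) : Set G) ⊓ (Subgroup.normalizer ((T : Subgroup G) : Set G)).map (MulAut.conj u).toMonoidHom, u * d * u⁻¹ = d⁻¹) ∧ Nat.card (Subgroup.normalizer ((T : Subgroup G) : Set G)) = Nat.card T * (Nat.card T - 1) ∧ Subgroup.IsComplement' ((Subgroup.normalizer ((T : Subgroup G) : Set G) ⊓ (Subgroup.normalizer ((T : Subgroup G) : Set G)).map (MulAut.conj u).toMonoidHom).subgroupOf (Subgroup.normalizer ((T : Subgroup G) : Set G))) ((T : Subgroup G).subgroupOf (Subgroup.normalizer ((T : Subgroup G) : Set G))) := by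
  have h := acm_of_elem T hnc hnn hC
  have ui := inv_eq_of_mul_self (ord2.1 hu).1
  have hy : ((1 : G) : G ⧸ nrm (T : Subgroup G)) ≠ (u : G) := fun e =>
    huH (by simpa using QuotientGroup.eq.1 e)
  have hD : ∀ d, d ∈ nrm (T : Subgroup G) ⊓ H2.cj u (nrm (T : Subgroup G)) ↔
      d ∈ nrm (T : Subgroup G) ∧ u * d * u⁻¹ ∈ nrm (T : Subgroup G) := fun d => by
    rw [mem_inf, H2.mem_cj, ui]
  refine ⟨fun d hd => h.inverts ((hD d).1 hd).1 hu huH ((hD d).1 hd).2, ?_, ?_⟩
  · have := h.zs.card_stab hy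
    rw [h.card_S2 hy, h.ker_eq'] at this
    rw [← this]
    congr 2
    ext g
    exact ACM.fix_one.symm
  · refine (isComplement'_of_disjoint_and_mul_eq_univ ?_ ?_)
    · rw [disjoint_iff_inf_le]
      intro x hx
      exact mem_bot.2 (Subtype.ext (h.eq_one (h.le_cen hx.2) hu huH ((hD x).1 hx.1).2))
    · refine Set.eq_univ_of_forall fun g => ?_
      obtain ⟨k, hk, ik, hc⟩ := h.exists_k hu huH g.2
      refine ⟨⟨k, hk⟩, (hD k).2 ⟨hk, ik ▸ inv_mem hk⟩, ⟨k⁻¹ * g, cen_le_nrm _ hc⟩, h.cen_eq.le hc,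
        Subtype.ext (by simp)⟩

end Cfsg.Agent.S1227
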