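import Cfsg.Statements.S1228
import Mathlib
import Cfsg.Agent.H8.AbC1

set_option autoImplicit false
open Cfsg

namespace Cfsg.Agent.S1228

open H8 H7 H1B Subgroup

/-- Let G be a finite group with a Sylow 2-subgroup T that is neither cyclic nor normal, such that the centralizer of every involution is an elementary abelian 2-group; put H = N_G(T), let u be an involution outside H and D = H ∩ uHu⁻¹. Then N_G(D) = D ⊔ ⟨u⟩, and a coset gH is fixed by every element of D exactly when gH = H or gH = uH. -/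
theorem result {G : Type*} [Group G] [Finite G] (T : Sylow 2 G) (hnc : ¬ IsCyclic (T : Subgroup G)) (hnn : ¬ (T : Subgroup G).Normal) (hC : ∀ t : G, orderOf t = 2 → IsMulCommutative (Subgroup.centralizer ({t} : Set G)) ∧ ∀ c ∈ Subgroup.centralizer ({t} : Set G), c ^ 2 = 1) (u : G) (hu : orderOf u = 2) (huH : u ∉ Subgroup.normalizer ((T : Subgroup G) : Set G)) : Subgroup.normalizer ((Subgroup.normalizer ((T : Subgroup G) : Set G) ⊓ (Subgroup.normalizer ((T : Subgroup G) : Set G)).map (MulAut.conj u).toMonoidHom : Subgroup G) : Set G) = (Subgroup.normalizer ((T : Subgroup G) : Set G) ⊓ (Subgroup.normalizer ((T : Subgroup G) : Set G)).map (MulAut.conj u).toMonoidHom) ⊔ Subgroup.zpowers u ∧ ∀ g : G, ((∀ d ∈ Subgroup.normalizer ((T : Subgroup G) : Set G) ⊓ (Subgroup.normalizer ((T : Subgroup G) : Set G)).map (MulAut.conj u).toMonoidHom, d • (QuotientGroup.mk g : G ⧸ Subgroup.normalizer ((T : Subgroup G) : Set G)) = QuotientGroup.mk g) ↔ (QuotientGroup.mk g : G ⧸ Subgroup.normalizer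 ((T : Subgroup G) : Set G)) = QuotientGroup.mk 1 ∨ (QuotientGroup.mk g : G ⧸ Subgroup.normalizer ((T : Subgroup G) : Set G)) = QuotientGroup.mk u) := by
  have h := acm_of_elem T hnc hnn hC
  have ui := inv_eq_of_mul_self (ord2.1 hu).1
  have hy : ((1 : G) : G ⧸ nrm (T : Subgroup G)) ≠ (u : G) := fun e =>
    huH (by simpa using QuotientGroup.eq.1 e)
  have hD : nrm (T : Subgroup G) ⊓ (nrm (T : Subgroup G)).map (MulAut.conj u).toMonoidHom =
      S2 G ((1 : G) : G ⧸ nrm (T : Subgroup G)) (u : G) := by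
    ext d
    rw [mem_inf, mem_S2, ACM.fix_one, ACM.fix_iff hu, ← H2.cj_def, H2.mem_cj, ui]
  rw [hD]
  have hne : S2 G ((1 : G) : G ⧸ nrm (T : Subgroup G)) (u : G) ≠ ⊥ := exists_S2_ne_one h.zas hy
  have sw : Sw u ((1 : G) : G ⧸ nrm (T : Subgroup G)) (u : G) :=
    ⟨by rw [MulAction.Quotient.smul_mk]; simp,
      by rw [MulAction.Quotient.smul_mk, smul_eq_mul, (ord2.1 hu).1]⟩
  refine ⟨le_antisymm (fun g hg => ?_) (sup_le (le_nrm_self _) (zpowers_le.2 sw.mem_normalizer)),
    fun g => ⟨fun hg => ?_, fun hg d hd => ?_⟩⟩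
  · rcases (h.zs.mem_normalizer_S2 hy hne).1 hg with e | e
    · exact mem_sup_left e
    · have := mul_mem (mem_sup_left (T := zpowers u) (e.mul sw.inv)) (mem_sup_right (mem_zpowers u))
      simpa using this
  · obtain ⟨d, hd, d1⟩ := exists_ne_one hne
    exact h.zs.fix_S2 hy hd d1 (hg d hd)
  · rcases hg with e | e <;> rw [e]
    · exact hd.1
    · exact hd.2

end Cfsg.Agent.S1228
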