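import Cfsg.Statements.S1229
import Mathlib
import Cfsg.Agent.H8.AbC1

set_option autoImplicit false
open Cfsg

namespace Cfsg.Agent.S1229

open H8 H7 Subgroup

/-- Let G be a finite group with a Sylow 2-subgroup T that is neither cyclic nor normal, such that the centralizer of every involution is an elementary abelian 2-group; put H = N_G(T) and X = G/H. Then G is triply transitive on X, an element fixing three distinct points of X is the identity, and T acts regularly on X minus the point H. -/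
theorem result {G : Type*} [Group G] [Finite G] (T : Sylow 2 G) (hnc : ¬ IsCyclic (T : Subgroup G)) (hnn : ¬ (T : Subgroup G).Normal) (hC : ∀ t : G, orderOf t = 2 → IsMulCommutative (Subgroup.centralizer ({t} : Set G)) ∧ ∀ c ∈ Subgroup.centralizer ({t} : Set G), c ^ 2 = 1) : (∀ x₁ x₂ x₃ y₁ y₂ y₃ : G ⧸ Subgroup.normalizer ((T : Subgroup G) : Set G), x₁ ≠ x₂ → x₁ ≠ x₃ → x₂ ≠ x₃ → y₁ ≠ y₂ → y₁ ≠ y₃ → y₂ ≠ y₃ → ∃ g : G, g • x₁ = y₁ ∧ g • x₂ = y₂ ∧ g • x₃ = y₃) ∧ (∀ g : G, ∀ x₁ x₂ x₃ : G ⧸ Subgroup.normalizer ((T : Subgroup G) : Set G), x₁ ≠ x₂ → x₁ ≠ x₃ → x₂ ≠ x₃ → g • x₁ = x₁ → g • x₂ = x₂ → g • x₃ = x₃ → g = 1) ∧ (∀ x y : G ⧸ Subgroup.normalizer ((T : Subgroup G) : Set G), x ≠ QuotientGroup.mk 1 → y ≠ QuotientGroup.mk 1 → ∃! t : G, t ∈ T ∧ t • x = y) := by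
  have h := acm_of_elem T hnc hnn hC
  obtain ⟨y, hy⟩ := h.exists_pt
  refine ⟨fun x₁ x₂ x₃ y₁ y₂ y₃ h1 h2 h3 h4 h5 h6 =>
    h.zs.tri hy.symm (h.card_S2 hy.symm) h1 h2 h3 h4 h5 h6,
    fun g x₁ x₂ x₃ h1 h2 h3 => h.three h1 h3 h2, fun x z hx hz => ?_⟩
  obtain ⟨c, hc, e⟩ := h.trans hx hz
  refine ⟨c, ⟨h.cen_eq.le hc, e⟩, fun b hb => ?_⟩
  have := h.semireg (mul_mem (inv_mem hc) (h.le_cen hb.1)) hx
    (by rw [mul_smul, hb.2, ← e, inv_smul_smul])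
  exact (inv_mul_eq_one.1 this).symm

end Cfsg.Agent.S1229
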