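import Cfsg.Statements.S1231
import Cfsg.Agent.H1.Inv2

set_option autoImplicit false
open Cfsg

namespace Cfsg.Agent.S1231

open H7 H1B Subgroup
theorem rk_mono {G : Type*} [Group G] {p k : ℕ} {X Y : Subgroup G} (h : X ≤ Y) (hY : Cfsg.PRankLE p k Y) :
    Cfsg.PRankLE p k X := by
  intro A hA h1
  have := hY (A.map (inclusion h)) (isComm_iff'.2 (by
    rintro _ ⟨a, ha, rfl⟩ _ ⟨b, hb, rfl⟩
    rw [← map_mul, ← map_mul, isComm_iff'.1 hA a ha b hb])) (by
    rintro _ ⟨a, ha, rfl⟩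
    rw [← map_pow, h1 a ha, map_one])
  rwa [card_map_of_injective (inclusion_injective h)] at this

theorem rk_equiv {G H : Type*} [Group G] [Group H] {p k : ℕ} (e : G ≃* H) (hY : Cfsg.PRankLE p k H) :
    Cfsg.PRankLE p k G := by
  intro A hA h1
  have := hY (A.map e.toMonoidHom) (isComm_iff'.2 (by
    rintro _ ⟨a, ha, rfl⟩ _ ⟨b, hb, rfl⟩
    rw [← map_mul, ← map_mul, isComm_iff'.1 hA a ha b hb])) (by
    rintro _ ⟨a, ha, rfl⟩
    rw [← map_pow, h1 a ha, map_one])
  rwa [card_map_of_injective e.injective] at this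

/-- Let H be a subgroup of the finite group G, p a prime, k ≥ 1, and P a Sylow p-subgroup of H whose p-rank is at least k. Then N_G(X) ≤ H for every subgroup X of P of p-rank at least k if and only if H ∩ gHg⁻¹ has p-rank less than k for every g ∉ H. -/
theorem result {G : Type*} [Group G] [Finite G] {p : ℕ} [Fact p.Prime] (k : ℕ) (hk : 1 ≤ k) (H : Subgroup G) (P : Sylow p ↥H) (hP : ¬ Cfsg.PRankLE p (k - 1) ↥(P : Subgroup ↥H)) : (∀ X : Subgroup G, X ≤ (P : Subgroup ↥H).map H.subtype → ¬ Cfsg.PRankLE p (k - 1) ↥X → Subgroup.normalizer (X : Set G) ≤ H) ↔ (∀ g : G, g ∉ H → Cfsg.PRankLE p (k - 1) ↥(H ⊓ H.map (MulAut.conj g).toMonoidHom)) := by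
  rw [nrm_le_iff_ti (syl_sub P) (fun X => ¬ Cfsg.PRankLE p (k - 1) X)
    (fun X Y h hX hY => hX (rk_mono h hY)) (fun g X hX hY => hX (rk_equiv (H2.cjEquiv g X) hY))
    (fun h => hP (rk_equiv (equivMapOfInjective _ _ H.subtype_injective) h))]
  refine forall₂_congr fun g hg => ⟨fun h A hA h1 => ?_, fun h X hX _ h' => h' (rk_mono hX h)⟩
  have := not_not.1 (h (A.map (H ⊓ H.map (MulAut.conj g).toMonoidHom).subtype) (map_subtype_le A)
    (IsPGroup.map (fun a => ⟨1, Subtype.ext (by rw [pow_one]; exact h1 a a.2)⟩) _))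
  have := rk_equiv (equivMapOfInjective _ _ (subtype_injective _)) this ⊤
    (isComm_iff'.2 fun a _ b _ => Subtype.ext (isComm_iff'.1 hA _ a.2 _ b.2))
    (fun a _ => Subtype.ext (h1 a a.2))
  rwa [card_top] at this

end Cfsg.Agent.S1231
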