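import Cfsg.Statements.S1236
import Cfsg.Agent.H1.Two4

set_option autoImplicit false
open Cfsg

namespace Cfsg.Agent.S1236

open H7 H1B Subgroup

/-- Let R be a finite group, t a central involution of R such that R ⧸ ⟨t⟩ is dihedral (of order ≥ 4) or quasi-dihedral, and A ≤ R an elementary abelian subgroup of order 8 containing t. Then C_R(A) = A. -/
theorem result {R : Type*} [Group R] [Finite R] (t : R) (ht : orderOf t = 2) (htz : t ∈ Subgroup.center R) [(Subgroup.zpowers t).Normal] (hq : (∃ m : ℕ, 2 ≤ m ∧ Nonempty (R ⧸ Subgroup.zpowers t ≃* DihedralGroup m)) ∨ Cfsg.IsQuasiDihedral (R ⧸ Subgroup.zpowers t)) (A : Subgroup R) (hA : Cfsg.IsElementaryAbelian 2 A) (hA8 : Nat.card A = 8) (htA : t ∈ A) : Subgroup.centralizer (A : Set R) = A := by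
  refine le_antisymm (fun c hc => ?_) (EA.le_cen hA)
  have k : (QuotientGroup.mk' (zpowers t)).ker ≤ A := by rwa [QuotientGroup.ker_mk', zpowers_le]
  have c4 := relIndex_mul_card' k
  rw [relIndex_ker, QuotientGroup.ker_mk', Nat.card_zpowers, ht, hA8] at c4
  have kl := klein_of_ea (EA.map hA (QuotientGroup.mk' (zpowers t))) (by omega)
  have : cen (A.map (QuotientGroup.mk' (zpowers t))) ≤ A.map (QuotientGroup.mk' (zpowers t)) := by
    rcases hq with ⟨m, hm, ⟨e⟩⟩ | hq
    · exact cen_klein_dih (by omega) e kl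
    · obtain ⟨a, n, hn, h⟩ := mx_of_qd hq
      obtain ⟨s, hs, hsa, -, e⟩ := h.eq_four le_top kl
      refine (cen_le_cen1 (e ▸ mem_sup_right (mem_zpowers s))).trans ?_
      rw [e, ← h.inf_cen1 hs hsa, top_inf_eq]
  rw [← comap_map_eq_self k]
  refine this (mem_cen.2 ?_)
  rintro _ ⟨x, hx, rfl⟩
  rw [← map_mul, mem_cen.1 hc x hx, map_mul]

end Cfsg.Agent.S1236
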