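import Cfsg.Statements.S1239
import Cfsg.Agent.H1.Two8

set_option autoImplicit false
open Cfsg

namespace Cfsg.Agent.S1239

open H7 H1B Subgroup

/-- Let X be a finite group whose Sylow 2-subgroup S is quasi-dihedral or wreathed, and suppose some involution of S is isolated in X. Then the product of the largest normal odd-order subgroup O(X) with the centre of S is normal in X. -/
theorem result {X : Type*} [Group X] [Finite X] (S : Sylow 2 X) (hS : Cfsg.IsQuasiDihedral (S : Subgroup X) ∨ Cfsg.IsWreathed (S : Subgroup X)) (z : X) (hzS : z ∈ S) (hz : Cfsg.IsIsolatedInvolution z) : (Cfsg.oddCore X ⊔ (Subgroup.center (S : Subgroup X)).map (S : Subgroup X).subtype).Normal := by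
  have s := syl_top S
  have zc : z ∈ (S : Subgroup X) ⊓ cen S := ⟨hzS, (iso_of hz).mem_cen S.isPGroup' hzS⟩
  have w : ∀ g, g * z * g⁻¹ ∈ S → g * z * g⁻¹ = z := fun g hg => hz.2 g (zc.2 _ hg).symm
  rw [center_map_subtype]
  rcases hS with hS | hS
  · obtain ⟨a, n, hn, h⟩ := mx_of_qd' hS
    obtain rfl := (h.mem_ctr.1 zc).resolve_left (ord2.1 hz.1).2
    exact h.ctr ▸ normal_sup_of_wc s hzS w
  · obtain ⟨x, y, t, n, h⟩ := wr_of hS
    obtain rfl := (h.invZ (h.ctr ▸ zc) (ord2.1 hz.1).1).resolve_left (ord2.1 hz.1).2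
    refine h.ctr ▸ normal_sup_of_wc s (mul_mem h.xm h.ym) (h.wc s ((h.ocU_iff s).2 fun c => ?_)
      (mem_zpowers _))
    obtain ⟨g, e⟩ := isConj_iff.1 c
    exact h.x1Z (by rw [← e, w g (e ▸ pow_mem h.xm _)]; exact npow_mem_zpowers _ _)

end Cfsg.Agent.S1239
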