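import Cfsg.Statements.S1242
import Cfsg.Agent.H7.PP
import Cfsg.Agent.H2.Transfer

set_option autoImplicit false
open Cfsg

namespace Cfsg.Agent.S1242
open H7
open scoped commutatorElement

/-- Let G be a finite group, p a prime and H a subgroup of index prime to p such that any two elements of H of p-power order that are conjugate in G are conjugate in H. Then (O^p(G)·G') ∩ H = O^p(H)·H', where O^p denotes the subgroup generated by the elements of order prime to p. -/
theorem result {G : Type*} [Group G] [Finite G] {p : ℕ} [Fact p.Prime] (H : Subgroup G) (hidx : Nat.Coprime p H.index) (hfus : ∀ g ∈ H, (∃ k : ℕ, orderOf g = p ^ k) → ∀ a : G, a * g * a⁻¹ ∈ H → ∃ h ∈ H, h * g * h⁻¹ = a * g * a⁻¹) : (Cfsg.pResidual p G ⊔ commutator G) ⊓ H = (Cfsg.pResidual p ↥H ⊔ commutator ↥H).map H.subtype := by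
  open Subgroup in
  rw [Subgroup.map_sup, H2.map_pResidual_subtype, map_subtype_commutator]
  set K := H2.pRes p H ⊔ ⁅H, H⁆
  have lK : K ≤ H := sup_le (H2.pRes_le H) (commutator_le_self H)
  refine le_antisymm (fun x hx => ?_) (le_inf (sup_le_sup (H2.pRes_le_pResidual H) (commutator_mono le_top le_top)) lK)
  obtain ⟨a, b, ha, hb, rfl, ⟨k, hk⟩, cb⟩ := H2.exists_p_part (p := p) x (orderOf_pos x).ne'
  have aH := zpowers_le.2 hx.2 ha
  refine mul_mem (by_contra fun na => ?_) (mem_sup_left (H2.mem_pRes (zpowers_le.2 hx.2 hb) cb))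
  obtain ⟨M, nM, h1, h3, h2⟩ := H2.exists_normal_notMem_of_transfer (p := p) (H := H) (K := K)
    le_sup_right ((Nat.Prime.coprime_iff_not_dvd Fact.out).1 hidx) aH na (n := k)
    (by rw [← hk, pow_orderOf_eq_one]; exact one_mem _) fun m c hc => by
      obtain ⟨h, hh, e⟩ := hfus (a ^ m) (pow_mem aH m) (((Nat.dvd_prime_pow Fact.out).1 (hk ▸ orderOf_pow_dvd m)).imp fun _ h => h.2)
        c⁻¹ (by simpa using hc)
      rw [inv_inv] at e
      rw [← e]
      refine mem_sup_right ?_
      have := commutator_mem_commutator (inv_mem (pow_mem aH m)) hh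
      simpa [commutatorElement_def, mul_assoc] using this
  obtain ⟨n, hn⟩ := H2.relIndex_pRes (p := p) H
  have d : K.relIndex H ∣ p ^ n := hn ▸ relIndex_dvd_of_le_left H le_sup_left
  obtain ⟨j, -, hj⟩ := (Nat.dvd_prime_pow Fact.out).1 (h3.trans d)
  exact h2 (zpowers_le.2 (sup_le (H2.pResidual_le_of_index hj) h1 hx.1) ha)

end Cfsg.Agent.S1242
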