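import Cfsg.Statements.S1244
import Cfsg.Agent.H7.PP
import Cfsg.Agent.H2.Transfer

set_option autoImplicit false
open Cfsg

namespace Cfsg.Agent.S1244
open H7
open scoped commutatorElement

/-- Let G be a finite group with no subgroup of index 2 whose Sylow 2-subgroup S is commutative, and let R ≤ S be a subgroup whose 2-rank is exactly one less than the 2-rank r of S. Then every involution of S is conjugate, by an element of N_G(S), to an element of R. -/
theorem result {G : Type*} [Group G] [Finite G] (hG : ∀ H : Subgroup G, H.index ≠ 2) (S : Sylow 2 G) (hS : IsMulCommutative (S : Subgroup G)) (r : ℕ) (hr1 : 1 ≤ r) (hSr : Cfsg.PRankLE 2 r (S : Subgroup G) ∧ ¬ Cfsg.PRankLE 2 (r - 1) (S : Subgroup G)) (R : Subgroup G) (hRS : R ≤ S) (hRr : Cfsg.PRankLE 2 (r - 1) R ∧ (r = 1 ∨ ¬ Cfsg.PRankLE 2 (r - 2) R)) (t : G) (ht : orderOf t = 2) (htS : t ∈ S) : ∃ n ∈ Subgroup.normalizer ((S : Subgroup G) : Set G), n * t * n⁻¹ ∈ R := by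
  open Subgroup in
  replace htS : t ∈ (S : Subgroup G) := htS
  have cS : (S : Subgroup G) ≤ cen (S : Subgroup G) := Subgroup.le_centralizer (S : Subgroup G)
  have hcm : ⁅(S : Subgroup G), (S : Subgroup G)⁆ ≤ R := by
    rw [commutator_eq_bot_iff_le_centralizer.2 cS]; exact bot_le
  have hM : ∃ g : G, g * t * g⁻¹ ∈ R ∧ g * t * g⁻¹ ∈ (S : Subgroup G) := by
    by_contra h
    push Not at h
    have t2 : t ^ 2 = 1 := by rw [← ht, pow_orderOf_eq_one]
    have tR : t ∉ R := fun k => h 1 (by simpa using k) (by simpa using htS)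
    have oS : Nat.card (Om 2 (S : Subgroup G)) ≤ 2 ^ r := by
      have l : Om 2 (S : Subgroup G) ≤ S := fun x hx => ((mem_Om_iff hS).1 hx).1
      rw [← H2.card_subgroupOf l]
      exact hSr.1 _ inferInstance fun a ha => Subtype.ext ((mem_Om_iff hS).1 ha).2
    have oR : 2 ^ r ≤ 2 * Nat.card (R ⊓ Om 2 (S : Subgroup G) : Subgroup G) := by
      rcases (show r = 1 ∨ 2 ≤ r by omega) with e | e
      · subst e; have := Nat.card_pos (α := (R ⊓ Om 2 (S : Subgroup G) : Subgroup G)); omega
      obtain ⟨A, cA, eA, oA⟩ : ∃ A : Subgroup R, IsMulCommutative A ∧ (∀ a ∈ A, a ^ 2 = 1) ∧ 2 ^ (r - 2) < Nat.card A := by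
        have := hRr.2.resolve_left (by omega)
        simpa [PRankLE] using this
      have l : A.map R.subtype ≤ R ⊓ Om 2 (S : Subgroup G) := by
        rintro _ ⟨a, ha, rfl⟩
        exact ⟨a.2, mem_Om (hRS a.2) (congrArg Subtype.val (eA a ha))⟩
      obtain ⟨k, hk⟩ := IsPGroup.iff_card.1 ((S.2.to_le hRS).to_subgroup A)
      have := H2.card_le_of_le' l
      rw [card_map_of_injective (subtype_injective _), hk] at this
      rw [hk] at oA
      have k1 := (Nat.pow_lt_pow_iff_right (by norm_num)).1 oA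
      calc 2 ^ r ≤ 2 ^ (k + 1) := Nat.pow_le_pow_right (by norm_num) (by omega)
        _ ≤ _ := by rw [pow_succ']; omega
    have i2 : R.relIndex (Om 2 (S : Subgroup G)) = 2 := by
      have k1 := H2.card_inf_mul_relIndex R (Om 2 (S : Subgroup G))
      have k2 : R.relIndex (Om 2 (S : Subgroup G)) ≠ 1 := fun e => tR (relIndex_eq_one.1 e (mem_Om htS t2))
      have k3 : 0 < R.relIndex (Om 2 (S : Subgroup G)) := H2.relIndex_pos
      have k4 := Nat.card_pos (α := (R ⊓ Om 2 (S : Subgroup G) : Subgroup G))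
      have : R.relIndex (Om 2 (S : Subgroup G)) ≤ 2 := by nlinarith
      omega
    obtain ⟨M, nM, -, h3, h2⟩ := H2.exists_normal_notMem_of_transfer (p := 2) (H := (S : Subgroup G)) (K := R)
      hcm S.not_dvd_index htS tR (n := 1)
      (by simp [t2]) fun m c hc => by
        rcases Nat.even_or_odd' m with ⟨k, rfl | rfl⟩
        · simp [pow_mul, t2]
        rw [pow_succ, pow_mul, t2, one_pow, one_mul] at hc ⊢
        rw [H2.mul_mem_iff_of_relIndex_two i2 (inv_mem (mem_Om htS t2)) (mem_Om hc (by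
          have := conj_pow (a := c⁻¹) (b := t) (i := 2); rw [inv_inv] at this; rw [this, t2]; simp)), inv_mem_iff]
        exact iff_of_false tR fun k => h c⁻¹ (by simpa using k) (by simpa using hc)
    obtain ⟨n, hn⟩ := H2.relIndex_eq_pow (Q := R) S.2
    obtain ⟨j, -, hj⟩ := (Nat.dvd_prime_pow Nat.prime_two).1 (hn ▸ h3)
    exact h2 (H2.pResidual_le_of_index hj (H2.pResidual_two_eq_top_iff.2 hG ▸ mem_top t))
  obtain ⟨g, h1, h2⟩ := hM
  obtain ⟨n, hn, e⟩ := H2.weaklyClosed_controls_fusion (H2.sylow_isWeaklyClosed S) {t} g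
    (fun d hd => by rw [hd]; exact cS htS) fun d hd => by rw [hd]; exact cS h2
  exact ⟨n, hn, by rw [e t rfl]; exact h1⟩

end Cfsg.Agent.S1244
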