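import Cfsg.Statements.S1246
import Cfsg.Agent.H7.PP
import Cfsg.Agent.H7.Tk2

set_option autoImplicit false
open Cfsg

namespace Cfsg.Agent.S1246
open H7
open scoped commutatorElement

/-- Let V ≤ U be p-subgroups of the finite group G. If the generalized Fitting subgroup of C_G(V) is a p-group, then so is that of C_G(U). -/
theorem result {G : Type*} [Group G] [Finite G] {p : ℕ} [Fact p.Prime] (U V : Subgroup G) (hVU : V ≤ U) (hU : IsPGroup p U) (hV : IsPGroup p ↥(Cfsg.generalizedFittingSubgroup ↥(Subgroup.centralizer (V : Set G)))) : IsPGroup p ↥(Cfsg.generalizedFittingSubgroup ↥(Subgroup.centralizer (U : Set G))) := by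
  open Subgroup in
  have h1 : IsPGroup p (Fst (cen V)) := by
    rw [← gfit_map]; exact hV.map _
  have h2 := Fst_eq_Op_iff'.1 (Fst_cen_of_le hU hVU (Fst_eq_Op_iff'.2 h1))
  rw [← gfit_map] at h2
  exact h2.of_equiv (equivMapOfInjective _ _ (subtype_injective _)).symm

end Cfsg.Agent.S1246
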