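import Cfsg.Statements.S1247
import Cfsg.Agent.H7.PP
import Cfsg.Agent.H7.Bend
import Cfsg.Agent.H1.LS1

set_option autoImplicit false
open Cfsg

namespace Cfsg.Agent.S1247
open H7
open scoped commutatorElement

section
open Subgroup

theorem key {G : Type*} [Group G] [Finite G] {p : ℕ} [Fact p.Prime] {M N T : Subgroup G} (h : Lds M N) (pT : IsPGroup p T)
    (h1 : T ≤ M) (h2 : N ≤ nrm T) : T ≤ cen (Op' p (Fit M)) := by
  obtain ⟨-, Q, k1, k2, k3⟩ := h
  have lY : Op' p (Fit M) ≤ Fit M := Opi_le _ _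
  have co : (Nat.card (Op' p (Fit M))).Coprime p := coprime_Op' p _
  have nY : T ≤ nrm (Op' p (Fit M)) := nrm_Opi _ (h1.trans (le_nrm_Fit M))
  have c2 : Op' p (Fit M) ⊓ N ≤ cen T := comm_eq_bot.1 (eq_bot_of_le (le_inf
    (comm_le_right (inf_le_right.trans h2)) ((commutator_mono inf_le_left le_rfl).trans (comm_le_left nY)))
    (inf_eq_bot_of_isPGroup pT co))
  refine cen_of_self_cen (nilp_of_le lY (nilp_Fit M)) nY (coprime_of_isPGroup pT co).symm
    (le_trans (le_inf inf_le_left (le_trans (le_inf (inf_le_left.trans lY) ?_) k3)) (le_inf inf_le_left c2))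
  rw [← nilp_Opi_sup (nilp_of_le k1 (nilp_Fit M)) {p}]
  have a1 : Opi {p} Q ≤ Opi {p} (Fit M) := nilp_le_Opi (nilp_Fit M) ((Opi_le _ _).trans k1) (piN_Opi _ _)
  have a2 : Opi {p}ᶜ Q ≤ Op' p (Fit M) := nilp_le_Opi (nilp_Fit M) ((Opi_le _ _).trans k1) (piN_Opi _ _)
  exact le_cen_sup (inf_le_left.trans ((Op'_le_cen p _).trans (cen_anti a1)))
    (inf_le_right.trans (cen_anti (le_inf a2 ((le_inf a2 ((Opi_le _ _).trans k2)).trans c2))))

end

/-- Let G be a non-abelian finite simple group, A a maximal subgroup, F = F*(A) its generalized Fitting subgroup (viewed in G), and S ≤ F a subgroup subnormal in F with C_F(S) ≤ S. Let B be any subgroup of G containing S. Then (a) for every prime q not dividing |F(A)|, O_q(B) ∩ A = 1; and (b) for every prime p dividing |F(A)|, O_p(B) commutes elementwise with the subgroup of F generated by its elements of order prime to p. -/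
theorem result {G : Type*} [Group G] [Finite G] [IsSimpleGroup G] (hna : ¬ IsMulCommutative G) (A : Subgroup G) (hA : IsCoatom A) (S : Subgroup G) (hSF : S ≤ (Cfsg.generalizedFittingSubgroup ↥A).map A.subtype) (hSsn : (S.subgroupOf ((Cfsg.generalizedFittingSubgroup ↥A).map A.subtype)).IsSubnormal) (hSC : (Cfsg.generalizedFittingSubgroup ↥A).map A.subtype ⊓ Subgroup.centralizer (S : Set G) ≤ S) (B : Subgroup G) (hSB : S ≤ B) : (∀ q : ℕ, q.Prime → ¬ q ∣ Nat.card (Cfsg.fittingSubgroup ↥A) → (Cfsg.pCore q ↥B).map B.subtype ⊓ A = ⊥) ∧ (∀ p : ℕ, p.Prime → p ∣ Nat.card (Cfsg.fittingSubgroup ↥A) → ∀ x ∈ (Cfsg.pCore p ↥B).map B.subtype, ∀ y ∈ (Cfsg.pResidual p ↥(Cfsg.generalizedFittingSubgroup ↥A)).map ((Cfsg.generalizedFittingSubgroup ↥A).subtype) , x * (A.subtype y) = (A.subtype y) * x) := by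
  open Subgroup in
  rw [gfit_map] at hSF hSsn hSC
  have sn : SN (Fst A) S := sn_iff.2 ⟨hSF, hSsn⟩
  have sn' : SN A S := sn.trans (sn_Fst A)
  have L : Lds A B := by
    refine ⟨Lay_le_iff.2 fun K hK => ?_, S ⊓ Fit A, inf_le_right, inf_le_left.trans hSB, le_trans (le_inf (inf_le_left.trans
      (Fit_le_Fst A)) ?_) (hSC.trans hSB)⟩
    · exact ((hK.le_or_cen sn').elim id fun h => (le_inf (hK.le_Lay.trans (Lay_le_Fst A)) h).trans hSC).trans hSB
    conv_rhs => rw [← Fst_eq_self_of_sn sn]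
    exact le_cen_sup (inf_le_left.trans (le_cen_symm ((Lay_le_of_sn sn').trans (Lay_le_cen_Fit A))))
      (inf_le_right.trans (cen_anti (le_inf (Fit_le S) (Fit_le_of_sn sn'))))
  have k := prim_of_coatom hA B
  have oF : Nat.card (fittingSubgroup A) = Nat.card (Fit A) := by
    rw [← fitting_map, card_map_of_injective (subtype_injective _)]
  rw [oF]
  refine ⟨fun q qq h => ?_, fun p pp h x hx y hy => ?_⟩
  · haveI := Fact.mk qq
    rw [pCore_map]
    exact L.Op_inf (by_contra fun e => h ((dvd_card_of_isPGroup (isPGroup_Op q A) e).trans (card_dvd_of_le (Op_le_Fit q A))))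
  haveI := Fact.mk pp
  rw [pCore_map] at hx
  have ne : Op p A ≠ ⊥ := fun e => syl_ne_bot (nilp_sylow_Op (nilp_Fit A)) h (by rw [Op_Fit, e])
  have c1 : Op' p (Fit A) ≤ cen (Op p B) := by
    by_cases e : Op' p (Fit A) = ⊥
    · exact e.le.trans bot_le
    obtain ⟨r, rr, hr⟩ := Nat.exists_prime_and_dvd (mt card_eq_one.1 e)
    haveI := Fact.mk rr
    have n2 : Op r A ≠ ⊥ := fun e => syl_ne_bot (nilp_sylow_Op (nilp_Fit A)) (hr.trans (card_dvd_of_le (Opi_le _ _)))
      (by rw [Op_Fit, e])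
    exact le_cen_symm (key L (isPGroup_Op p B) (L.Op_le k ne n2 fun e' => coprime_iff_not_dvd.1 (coprime_Op' p (Fit A)) (e' ▸ hr))
      (le_nrm_Opi _ _))
  have y1 : (y : G) ∈ H2.pRes p (Fst A) := by
    rw [H2.map_pResidual_subtype] at hy
    rw [← gfit_map]
    refine (pRes_le_iff (K := (H2.pRes p ((generalizedFittingSubgroup A).map A.subtype)).comap A.subtype)).2 (fun z hz hc => ?_) hy
    exact H2.mem_pRes ⟨z, hz, rfl⟩ (by simpa using hc)
  have y2 : H2.pRes p (Fst A) ≤ Lay A ⊔ Op' p (Fit A) := by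
    have n1 : A ≤ nrm (Lay A ⊔ Op' p (Fit A) : Subgroup G) := nrm_sup (le_nrm_Lay A) (nrm_Opi _ (le_nrm_Fit A))
    have e : Fst A = (Lay A ⊔ Op' p (Fit A)) ⊔ Op p (Fit A) := by
      rw [sup_assoc, sup_comm (Op' p (Fit A))]; exact congrArg (Lay A ⊔ ·) (nilp_Opi_sup (nilp_Fit A) {p}).symm
    rw [e, H1B.pRes_sup_pg (isPGroup_Op p _) ((Opi_le _ _).trans ((Fit_le A).trans n1))]
    exact H2.pRes_le _
  exact (mem_cen.1 (sup_le (L.Lay_le_cen k ne) c1 (y2 y1)) x hx)

end Cfsg.Agent.S1247
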