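import Cfsg.Statements.S1248
import Cfsg.Agent.H5.TB5

set_option autoImplicit false
open Cfsg

namespace Cfsg.Agent.S1248

/-- Let F be a field with 16 elements and S a Sylow 2-subgroup of PSU(3) over F (the unitary group U₃(4)). Then |S| = 64; the centre Z(S) is a Klein four-group and coincides with the subgroup generated by the involutions of S and with the derived subgroup; and every element of S ⧸ Z(S) squares to the identity, S ⧸ Z(S) having order 16. -/
theorem result {F : Type*} [Field F] [Fintype F] (hF : Fintype.card F = 16) (S : Sylow 2 (Cfsg.PSU 3 F 4)) : Nat.card S = 64 ∧ IsKleinFour (Subgroup.center (S : Subgroup (Cfsg.PSU 3 F 4))) ∧ Subgroup.center (S : Subgroup (Cfsg.PSU 3 F 4)) = Subgroup.closure {x : (S : Subgroup (Cfsg.PSU 3 F 4)) | orderOf x = 2} ∧ Subgroup.center (S : Subgroup (Cfsg.PSU 3 F 4)) = commutator (S : Subgroup (Cfsg.PSU 3 F 4)) ∧ Nat.card ((S : Subgroup (Cfsg.PSU 3 F 4)) ⧸ Subgroup.center (S : Subgroup (Cfsg.PSU 3 F 4))) = 16 ∧ ∀ x : (S :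 Subgroup (Cfsg.PSU 3 F 4)) ⧸ Subgroup.center (S : Subgroup (Cfsg.PSU 3 F 4)), x ^ 2 = 1 := by
  haveI : CharP F 2 := charP_of_card_eq_prime_pow (f := 4) hF
  obtain ⟨φ, _, e, he, c1, c2, ⟨i⟩⟩ := H5.U3.main (n := 2) one_le_two hF S
  replace i : (S : Subgroup (Cfsg.PSU 3 F 4)) ≃* H5.U3.UU φ := i
  have m : ∀ x, x ∈ Subgroup.center S ↔ x * x = 1 := fun x => by
    rw [← i.map_eq_one_iff, map_mul, H5.U3.sq_eq_one, ← H5.U3.mem_center he]
    exact (MulEquivClass.apply_mem_center_iff i).symm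
  have a : Nat.card S = 64 := (Nat.card_congr i.toEquiv).trans c2
  have b : Nat.card (Subgroup.center S) = 4 :=
    (Nat.card_congr (Subgroup.centerCongr i).toEquiv).trans ((H5.U3.card_center he).trans c1)
  haveI : Nontrivial (Subgroup.center S) := Finite.one_lt_card_iff_nontrivial.1 (by omega)
  refine ⟨a, ⟨b, (Monoid.exponent_eq_prime_iff Nat.prime_two).2 fun g h => orderOf_eq_prime
    (Subtype.ext ((sq _).trans ((m _).1 g.2))) h⟩, le_antisymm (fun x h => ?_) ((Subgroup.closure_le _).2 fun x h =>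
      (m x).2 ((sq x).symm.trans (orderOf_dvd_iff_pow_eq_one.1 h.dvd))), Subgroup.map_injective (f := i.toMonoidHom) i.injective ?_, ?_, ?_⟩
  · by_cases h1 : x = 1
    exacts [h1 ▸ one_mem _, Subgroup.subset_closure (orderOf_eq_prime ((sq x).trans ((m x).1 h)) h1)]
  · rw [map_commutator_eq, MonoidHom.range_eq_top.2 i.surjective, ← commutator_def, ← H5.U3.center_eq he]
    ext y
    obtain ⟨x, rfl⟩ := i.surjective y
    exact (Subgroup.mem_map_iff_mem i.injective).trans (MulEquivClass.apply_mem_center_iff i).symm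
  · have := Subgroup.card_eq_card_quotient_mul_card_subgroup (Subgroup.center S)
    rw [a, b] at this
    omega
  rintro ⟨x⟩
  refine (QuotientGroup.eq_one_iff (x ^ 2)).2 ((m _).2 ?_)
  rw [← i.map_eq_one_iff, map_mul, H5.U3.sq_eq_one]
  simp [sq, CharTwo.add_self_eq_zero]

end Cfsg.Agent.S1248
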