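import Cfsg.Statements.S1254
import Cfsg.Agent.H1.Two4

set_option autoImplicit false
open Cfsg

namespace Cfsg.Agent.S1254

open H7 H1B Subgroup

/-- Let X be a finite group whose Sylow 2-subgroup S is dihedral (of order at least 4). Then X has a normal 2-complement if and only if, for every Klein four-subgroup U ≤ S, the normalizer N_X(U) is generated by C_X(U) and N_S(U). -/
theorem result {X : Type*} [Group X] [Finite X] (S : Sylow 2 X) (m : ℕ) (hm : 2 ≤ m) (eS : (S : Subgroup X) ≃* DihedralGroup m) : Cfsg.HasNormalPComplement 2 X ↔ ∀ U : Subgroup X, U ≤ S → IsKleinFour U → Subgroup.normalizer (U : Set X) = Subgroup.centralizer (U : Set X) ⊔ ((S : Subgroup X) ⊓ Subgroup.normalizer (U : Set X)) := by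
  have s := syl_top S
  rcases dih_cases s.isPGroup hm eS with h | ⟨a, n, h⟩
  · have cS := (ea_of_klein h).le_cen
    rcases klein_syl s h with ⟨h1, h2, -⟩ | ⟨h1, h2, -⟩
    · refine iff_of_true h2 fun U hU kU => ?_
      obtain rfl := eq_of_le_of_card_ge hU (h.card_four.trans kU.card_four.symm).le
      exact le_antisymm (h1.trans le_sup_left) (sup_le (cen_le_nrm _) inf_le_right)
    · refine iff_of_false (fun np => ?_) fun h' => ?_
      · have := inf_res_eq_bot s np
        rw [h2, inf_top_eq] at this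
        exact klein_not_cyc h (this ▸ inferInstance)
      · have := relIndex_eq_one.2 ((h' _ le_rfl h).le.trans (sup_le le_rfl (inf_le_left.trans cS)))
        have := h1.symm.trans this; omega
  refine ⟨fun np U hU kU => ?_, fun h' => h.1.npc_of_out s fun t ht hta hR => ?_⟩
  · obtain ⟨t, ht, hta, h2, e⟩ := h.1.eq_four hU kU
    have i := (h.1.four_two s ht hta h2 e).2 fun c => by
      obtain ⟨x, hx, e⟩ := npc_fus s np h.1.z_memP ht c
      rw [(h.1.z_comm hx).eq, mul_inv_cancel_right] at e
      exact hta (e ▸ MX.z_memA)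
    have l : cen U ⊔ ((S : Subgroup X) ⊓ nrm U) ≤ nrm U := sup_le (cen_le_nrm _) inf_le_right
    refine le_antisymm (relIndex_eq_one.1 ?_) l
    have m := relIndex_mul_relIndex _ _ _ (le_sup_left (b := (S : Subgroup X) ⊓ nrm U)) l
    rw [i] at m
    refine ((Nat.dvd_prime Nat.prime_two).1 (Dvd.intro_left _ m)).resolve_right fun e' => ?_
    rw [e'] at m
    have := relIndex_eq_one.1 (show (cen U).relIndex (cen U ⊔ ((S : Subgroup X) ⊓ nrm U)) = 1 by omega)
      (mem_sup_right ⟨pow_mem h.1.mem (2 ^ n), e ▸ h.1.u_nrm ht hta⟩)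
    exact h.1.not_comm_u ht hta (mem_cen.1 this t (e ▸ mem_sup_right (mem_zpowers t))).symm
  · have h2 := h.2 t ht hta
    obtain ⟨g, hg, e⟩ := ((h.1.four_cases s ht hta h2 rfl).resolve_left fun h3 =>
      h3.2 ((h.1.mem_res_iff s ht hta h2).1 hR)).2
    have := (h' _ (sup_le (zpowers_le.2 h.1.z_memP) (zpowers_le.2 ht)) (h.1.klein ht hta h2)).le hg
    have l := sup_le (cen_le_cen1 (mem_sup_left (mem_zpowers _)))
      (inf_le_left.trans (le_cen1_iff.2 h.1.z_cen)) this
    rw [mem_cen1.1 l, mul_inv_cancel_right] at e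
    exact hta (e ▸ MX.z_memA)

end Cfsg.Agent.S1254
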