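import Cfsg.Statements.S1255
import Cfsg.Agent.H1.Two4

set_option autoImplicit false
open Cfsg

namespace Cfsg.Agent.S1255

open H7 H1B Subgroup

/-- Let X be a finite group whose Sylow 2-subgroup S is dihedral of order 2m ≥ 4. Then X has no subgroup of index 2 and no isolated involution if and only if either all involutions of X are conjugate, or for every Klein four-subgroup U ≤ S the index |N_X(U) : C_X(U)| equals 3 when |S| = 4 and equals 6 when |S| > 4. -/
theorem result {X : Type*} [Group X] [Finite X] (S : Sylow 2 X) (m : ℕ) (hm : 2 ≤ m) (eS : (S : Subgroup X) ≃* DihedralGroup m) : ((∀ H : Subgroup X, H.index ≠ 2) ∧ (∀ z : X, ¬ Cfsg.IsIsolatedInvolution z)) ↔ ((∀ a b : X, orderOf a = 2 → orderOf b = 2 → IsConj a b) ∨ (∀ U : Subgroup X, U ≤ S → IsKleinFour U → (Subgroup.centralizer (U : Set X)).relIndex (Subgroup.normalizer (U : Set X)) = (if Nat.card S = 4 then 3 else 6))) := by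
  have s := syl_top S
  have iso : ∀ x y : X, orderOf x = 2 → orderOf y = 2 → x ≠ y → Commute x y →
      (∀ a b : X, orderOf a = 2 → orderOf b = 2 → IsConj a b) → ∀ z : X, ¬ Cfsg.IsIsolatedInvolution z := by
    intro x y hx hy ne c h z hz
    obtain ⟨g, rfl⟩ := isConj_iff.1 (h x z hx hz.1)
    obtain ⟨k, hk⟩ := isConj_iff.1 (h _ _ hz.1 ((ord_conj g y).trans hy))
    have := hz.2 k (hk ▸ by simpa [mul_assoc] using c.conj g)
    rw [hk] at this
    exact ne (by simpa using this.symm)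
  rcases dih_cases s.isPGroup hm eS with h | ⟨a, n, h⟩
  · obtain ⟨a, b, ha, hb, hab, a1, b1, ne, e⟩ := H4.exists_four h
    rcases klein_syl s h with ⟨h1, h2, h3⟩ | ⟨h1, h2, h3⟩
    · refine iff_of_false (fun h' => ?_) (not_or.2 ⟨fun h' => ?_, fun h' => ?_⟩)
      · have := inf_res_eq_bot s h2
        rw [H2.pResidual_two_eq_top_iff.2 h'.1, inf_top_eq] at this
        exact klein_not_cyc h (this ▸ inferInstance)
      · exact ne (h3 a (e ▸ H4.mem_four.2 (by simp)) b (e ▸ H4.mem_four.2 (by simp))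
          (h' a b (ord2.2 ⟨ha, a1⟩) (ord2.2 ⟨hb, b1⟩)))
      · have := h' _ le_rfl h
        rw [if_pos h.card_four, relIndex_eq_one.2 h1] at this; omega
    · exact iff_of_true ⟨H2.pResidual_two_eq_top_iff.1 h2,
        iso a b (ord2.2 ⟨ha, a1⟩) (ord2.2 ⟨hb, b1⟩) ne hab h3⟩ (.inl h3)
  obtain ⟨b, hb, hba⟩ := h.1.ex
  rcases h.cases s with ⟨h1, h2⟩ | h'
  · have h3 := fun x y hx hy => (h2 x hx).symm.trans (h2 y hy)
    exact iff_of_true ⟨H2.pResidual_two_eq_top_iff.1 h1, iso _ b h.1.z_ord (MX.qd_ord2 hba (h.2 b hb hba))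
      (fun e => hba (e ▸ MX.z_memA)) (h.1.z_comm hb).symm h3⟩ (.inl h3)
  obtain ⟨t, ht, hta, c⟩ : ∃ b ∈ S, b ∉ zpowers a ∧ ¬ IsConj (a ^ 2 ^ (n + 1)) b :=
    h'.elim (·.2.2) fun h' => ⟨b, hb, hba, h'.2.2 b hb hba⟩
  have h2 := h.2 t ht hta
  refine iff_of_false (fun h' => c ((h.1.mem_res_iff s ht hta h2).1 ?_))
    (not_or.2 ⟨fun h' => c (h' _ _ h.1.z_ord (MX.qd_ord2 hta h2)), fun h' => ?_⟩)
  · rw [H2.pResidual_two_eq_top_iff.2 h'.1]; trivial
  · have := h' _ (sup_le (zpowers_le.2 h.1.z_memP) (zpowers_le.2 ht)) (h.1.klein ht hta h2)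
    rw [if_neg (by
      have := Nat.one_le_two_pow (n := n)
      show ord (S : Subgroup X) ≠ 4
      rw [h.1.card, pow_add]
      omega)] at this
    exact c ((h.1.four_six s ht hta h2 rfl).1 this)

end Cfsg.Agent.S1255
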