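import Cfsg.Statements.S1256
import Cfsg.Agent.H1.Two4

set_option autoImplicit false
open Cfsg

namespace Cfsg.Agent.S1256

open H7 H1B Subgroup

/-- Let X be a finite group whose Sylow 2-subgroup S is dihedral of order 2m ≥ 4. If |S| = 4, any two Klein four-subgroups of X are conjugate; if |S| > 4, there are Klein four-subgroups U₁, U₂ of X that are not conjugate, and every Klein four-subgroup of X is conjugate to U₁ or to U₂. -/
theorem result {X : Type*} [Group X] [Finite X] (S : Sylow 2 X) (m : ℕ) (hm : 2 ≤ m) (eS : (S : Subgroup X) ≃* DihedralGroup m) : (Nat.card S = 4 → ∀ U V : Subgroup X, IsKleinFour U → IsKleinFour V → (∃ x : X, U.map (MulAut.conj x).toMonoidHom = V)) ∧ (4 < Nat.card S → ∃ U₁ U₂ : Subgroup X, IsKleinFour U₁ ∧ IsKleinFour U₂ ∧ ¬ (∃ x : X, U₁.map (MulAut.conj x).toMonoidHom = U₂) ∧ ∀ V : Subgroup X, IsKleinFour V → (∃ x : X, V.map (MulAut.conj x).toMonoidHom = U₁) ∨ (∃ x : X, V.map (MulAut.conj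 x).toMonoidHom = U₂)) := by
  have s := syl_top S
  have into : ∀ V : Subgroup X, IsKleinFour V → ∃ g, H2.cj g V ≤ S := fun V hV =>
    let ⟨g, _, h⟩ := s.exists_cj_le (ea_of_klein hV).isPGroup le_top; ⟨g, h⟩
  refine ⟨fun h4 U V hU hV => ?_, fun h4 => ?_⟩
  · obtain ⟨g, hg⟩ := into U hU
    obtain ⟨k, hk⟩ := into V hV
    have e1 := eq_of_le_of_card_ge hg (h4.trans (klein_cj hU g).card_four.symm).le
    have e2 := eq_of_le_of_card_ge hk (h4.trans (klein_cj hV k).card_four.symm).le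
    exact ⟨k⁻¹ * g, show H2.cj _ _ = _ by rw [cj_mul, e1, ← e2, H2.cj_inv_cj]⟩
  obtain ⟨a, n, h⟩ := (dih_cases s.isPGroup hm eS).resolve_left fun h => h4.ne' h.card_four
  obtain ⟨b, hb, hba⟩ := h.1.ex
  have o := h.1.mul_out hb hba (mem_zpowers a)
  have m := mul_mem h.1.mem hb
  refine ⟨_, _, h.1.klein hb hba (h.2 b hb hba), h.1.klein m o (h.2 _ m o), ?_, fun V hV => ?_⟩
  · rintro ⟨g, hg⟩
    change H2.cj g _ = _ at hg
    have U2 := sup_le (zpowers_le.2 h.1.z_memP) (zpowers_le.2 m)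
    obtain ⟨k, hk, e⟩ : ∃ k ∈ cen1 (a ^ 2 ^ (n + 1)), H2.cj k (zpowers (a ^ 2 ^ (n + 1)) ⊔ zpowers b) =
        zpowers (a ^ 2 ^ (n + 1)) ⊔ zpowers (a * b) := by
      have mz : g * a ^ 2 ^ (n + 1) * g⁻¹ ∈ _ := hg.le (conj_mem_cj.2 (mem_sup_left (mem_zpowers _)))
      have oz := (ord_conj g _).trans h.1.z_ord
      by_cases hz : g * a ^ 2 ^ (n + 1) * g⁻¹ ∈ zpowers a
      · exact ⟨g, mem_cen1.2 (mul_inv_eq_iff_eq_mul.1 (inv_unique_zpowers hz MX.z_memA oz h.1.z_ord)), hg⟩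
      · have eU := eq_of_le_of_card_ge (sup_le (le_sup_left (a := zpowers (a ^ 2 ^ (n + 1))))
          (zpowers_le.2 mz)) ((h.1.card_four m o).trans (h.1.card_four (U2 mz) hz).symm).le
        obtain ⟨k, hk, e⟩ := ((h.1.four_cases s (U2 mz) hz (ord2.1 oz).1 eU.symm).resolve_left
          fun h' => h'.2 (isConj_of rfl)).2
        refine ⟨k⁻¹ * g, mem_cen1.2 ?_, by rw [cj_mul, hg, cj_of_mem_nrm (inv_mem hk)]⟩
        rw [mul_assoc, mul_inv_eq_iff_eq_mul.1 e.symm]; group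
    have mb : k * b * k⁻¹ ∈ _ := e.le (conj_mem_cj.2 (mem_sup_right (mem_zpowers _)))
    obtain ⟨x, hx, e2⟩ := npc_fus' (s.mono (le_cen1_iff.2 h.1.z_cen) le_top) (h.1.npc_cen s h.2) hb hk (U2 mb)
    have c := h.1.comm_memB hx hb
    rw [e2] at c
    have nb : k * b * k⁻¹ ∉ zpowers a := fun h' =>
      hba (inv_mem_iff.1 ((mul_mem_cancel_left h').1 (zp_pow_le _ _ c)))
    rcases (h.1.mem_four m o).1 mb with e | e | e | e <;> rw [e] at c nb
    · exact nb (one_mem _)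
    · exact nb MX.z_memA
    · exact h.1.not_both hb c
    · exact h.1.not_both hb ((mul_mem_cancel_left MX.z_mem).1 (by simpa only [mul_assoc] using c))
  · obtain ⟨g, hg⟩ := into V hV
    obtain ⟨t, ht, hta, -, e⟩ := h.1.eq_four hg (klein_cj hV g)
    refine (h.1.out_conj hb hba ht hta).imp ?_ ?_ <;> rintro ⟨x, hx, rfl⟩ <;>
      exact ⟨x⁻¹ * g, show H2.cj _ _ = _ by rw [cj_mul, e, ← h.1.cj_sub hx, H2.cj_inv_cj]⟩

end Cfsg.Agent.S1256
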