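import Cfsg.Statements.S1258
import Cfsg.Agent.H7.Comp

set_option autoImplicit false
open Cfsg

namespace Cfsg.Agent.S1258
open H7
open scoped commutatorElement

/-- If the central quotient of a finite group X is non-abelian simple, then X = X' Z(X) and the commutator subgroup X' is quasisimple. -/
theorem result {X : Type*} [Group X] [Finite X] (hs : IsSimpleGroup (X ⧸ Subgroup.center X)) (hna : ¬ IsMulCommutative (X ⧸ Subgroup.center X)) : commutator X ⊔ Subgroup.center X = ⊤ ∧ Cfsg.IsQuasisimple ↥(commutator X) := by
  open Subgroup in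
  set f := res (QuotientGroup.mk' (center X)) ⊤
  have hk : kr f = center X := by rw [kr_top, QuotientGroup.ker_mk']
  have htop : im f ⊤ = ⊤ := by rw [im_top, map_top_of_surjective _ (QuotientGroup.mk'_surjective _)]
  have hq : QS (im f ⊤) := by
    rw [htop]
    haveI := hs.toNontrivial
    refine ⟨?_, top_ne_bot, fun N _ hn => ?_⟩
    · refine (hs.eq_bot_or_eq_top_of_normal _ inferInstance).resolve_left fun h => hna ?_
      exact (commutator_eq_bot_iff _).1 h
    · rcases hs.eq_bot_or_eq_top_of_normal N (normal_iff_top_le_nrm.2 hn) with h | h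
      · exact Or.inl (h ▸ bot_le)
      · exact Or.inr h
  obtain ⟨h1, h2⟩ := QS.of_im_comm (f := f) le_top (by rw [hk, cen_top]; exact inf_le_right) hq
  refine ⟨top_le_iff.1 ?_, qs_iff.2 h1⟩
  rw [← hk]
  exact (im_le_im_iff le_top le_top).1 h2.ge

end Cfsg.Agent.S1258
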