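import Cfsg.Statements.S1261
import Cfsg.Agent.H7.Comp

set_option autoImplicit false
open Cfsg

namespace Cfsg.Agent.S1261
open H7
open scoped commutatorElement

/-- Let L be a component and H a subnormal subgroup of the finite group G. Then L ≤ H (so L is a component of H) or ⁅L, H⁆ = 1. -/
theorem result {G : Type*} [Group G] [Finite G] (L H : Subgroup G) (hL : Cfsg.IsComponent L) (hH : H.IsSubnormal) : L ≤ H ∨ ⁅L, H⁆ = ⊥ := by
  open Subgroup in
  rw [comm_eq_bot]
  exact (isComponent_iff.1 hL).le_or_cen (sn_top_iff.2 hH)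

end Cfsg.Agent.S1261
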