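import Cfsg.Statements.S1262
import Cfsg.Agent.H7.Comp

set_option autoImplicit false
open Cfsg

namespace Cfsg.Agent.S1262
open H7
open scoped commutatorElement

/-- Let L be a component of the finite group G and H a solvable subgroup normalized by L. Then ⁅L, H⁆ = 1. -/
theorem result {G : Type*} [Group G] [Finite G] (L H : Subgroup G) (hL : Cfsg.IsComponent L) (hsolv : Group.IsSolvable ↥H) (hinv : L ≤ Subgroup.normalizer (H : Set G)) : ⁅L, H⁆ = ⊥ := by
  open Subgroup in
  rw [comm_eq_bot]
  have := isComponent_iff.1 hL
  exact (this.le_or_cen_of_nrm le_top hinv).resolve_left (this.qs.not_le_solv hsolv)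

end Cfsg.Agent.S1262
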