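import Cfsg.Statements.S1263
import Cfsg.Agent.H7.Comp

set_option autoImplicit false
open Cfsg

namespace Cfsg.Agent.S1263
open H7
open scoped commutatorElement

section
open Subgroup

theorem aux {G : Type*} [Group G] [Finite G] (S : Set (Subgroup G)) (hS : S.Finite)
    (h : ∀ K ∈ S, IsComp K ⊤) : sSup S ⊓ cen (sSup S) ≤ ⨆ K ∈ S, K ⊓ cen K := by
  induction S, hS using Set.Finite.induction_on with
  | empty => simp
  | @insert L S hL _ ih =>
    have hc : L ≤ cen (sSup S) := le_cen_sSup fun K hK =>
      (h L (by simp)).cen_of_ne (h K (by simp [hK])) (by rintro rfl; exact hL hK)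
    rw [sSup_insert, iSup_insert]
    rintro x ⟨h1, h2⟩
    obtain ⟨l, hl, e, he, rfl⟩ := (mem_sup_nrm (le_nrm_of_le_cen hc)).1 h1
    rw [cen_sup] at h2
    refine mul_mem (mem_sup_left ⟨hl, ?_⟩) (mem_sup_right (ih (fun K hK => h K (by simp [hK])) ⟨he, ?_⟩))
    · exact (mul_mem_cancel_right (le_cen_symm hc he)).1 h2.1
    · exact (mul_mem_cancel_left (hc hl)).1 h2.2

end

/-- For a finite group G, Z(E(G)) is the subgroup generated by the centres Z(L) of the components L of G (all viewed as subgroups of G). -/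
theorem result {G : Type*} [Group G] [Finite G] : (Subgroup.center ↥(Cfsg.layer G)).map (Cfsg.layer G).subtype = ⨆ L : {K : Subgroup G // Cfsg.IsComponent K}, (Subgroup.center ↥(L : Subgroup G)).map (L : Subgroup G).subtype := by
  open Subgroup in
  rw [center_map_subtype, layer_eq]
  simp only [center_map_subtype]
  refine le_antisymm ((aux _ (Set.toFinite _) fun K hK => hK).trans (iSup₂_le fun K hK =>
    le_iSup_of_le ⟨K, isComponent_iff.2 hK⟩ le_rfl)) (iSup_le fun ⟨K, hK⟩ => ?_)
  have hK := isComponent_iff.1 hK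
  refine le_inf (inf_le_left.trans hK.le_Lay) (le_cen_symm (Lay_le_cen_of_solv ?_ ?_))
  · exact (SN.of_normal inf_le_left (nrm_inf (le_nrm_self K) (nrm_cen (le_nrm_self K)))).trans hK.sn
  · exact solv_of_comm (isComm_iff.2 (inf_le_right.trans (cen_anti inf_le_left)))

end Cfsg.Agent.S1263
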