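import Cfsg.Statements.S1264
import Cfsg.Agent.H7.Comp

set_option autoImplicit false
open Cfsg

namespace Cfsg.Agent.S1264
open H7
open scoped commutatorElement

/-- Let G be finite, C = C_G(F(G)) the centralizer of the Fitting subgroup, and N a solvable subgroup of C normalized by C. Then N ≤ Z(F(G)). -/
theorem result {G : Type*} [Group G] [Finite G] (N : Subgroup G) (hN : N ≤ Subgroup.centralizer (Cfsg.fittingSubgroup G : Set G)) (hnorm : Subgroup.centralizer (Cfsg.fittingSubgroup G : Set G) ≤ Subgroup.normalizer (N : Set G)) (hsolv : Group.IsSolvable ↥N) : N ≤ (Subgroup.center ↥(Cfsg.fittingSubgroup G)).map (Cfsg.fittingSubgroup G).subtype := by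
  open Subgroup in
  rw [center_map_subtype, fitting_eq] at *
  have hn : (⊤ : Subgroup G) ≤ nrm (cen (Fit (⊤ : Subgroup G))) := nrm_cen (le_nrm_Fit ⊤)
  refine le_inf ((le_Osol hN hnorm hsolv).trans ?_) hN
  exact le_Fit_of_solv_of_cen le_top (nrm_Osol hn) (solv_Osol _) (Osol_le _)

end Cfsg.Agent.S1264
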