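import Cfsg.Statements.S1267
import Cfsg.Agent.H7.Elem

set_option autoImplicit false
open Cfsg

namespace Cfsg.Agent.S1267
open H7
open scoped commutatorElement

/-- Let G be finite and P ≤ O_p(G). Then E(N_G(P)) = E(G). -/
theorem result {G : Type*} [Group G] [Finite G] (p : ℕ) [Fact p.Prime] (P : Subgroup G) (hP : P ≤ Cfsg.pCore p G) : (Cfsg.layer ↥(Subgroup.normalizer ((P : Subgroup G) : Set G))).map (Subgroup.normalizer ((P : Subgroup G) : Set G)).subtype = Cfsg.layer G := by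
  open Subgroup in
  rw [layer_map, layer_eq]
  rw [pCore_eq] at hP
  have hPp : IsPGroup p P := (isPGroup_Op p ⊤).to_le hP
  have h1 : Lay ⊤ ≤ nrm P := le_nrm_of_le_cen ((Lay_le_cen_Op p ⊤).trans (cen_anti hP))
  refine le_antisymm ?_ (Lay_le_Lay le_top h1)
  have h2 : Lay (nrm P) ≤ cen (Op p ⊤) := by
    refine (Lay_le_PLay_sup p _).trans ?_
    simpa only [top_inf_eq] using PLay_sup_nrm_le_cen_Op (H := ⊤) hPp le_top
  refine (Lay_le_Lay ((cen_anti hP).trans (cen_le_nrm P)) h2).trans (Lay_le_of_sn ?_)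
  exact .of_normal le_top (nrm_cen (le_nrm_Opi _ _))

end Cfsg.Agent.S1267
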