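import Cfsg.Statements.S1271
import Cfsg.Agent.H7.Bal

set_option autoImplicit false
open Cfsg

namespace Cfsg.Agent.S1271
open H7
open scoped commutatorElement

/-- Let G be finite with O_{p'}(G) = 1. Suppose that for every component L of G and every subgroup H ≥ L in which L is normal, the quotient H / C_H(L) is balanced for the prime p. Then G is balanced for p. -/
theorem result {G : Type*} [Group G] [Finite G] (p : ℕ) [Fact p.Prime] (hO : Cfsg.pPrimeCore p G = ⊥) (h : ∀ L : Subgroup G, Cfsg.IsComponent L → ∀ H : Subgroup G, L ≤ H → (L.subgroupOf H).Normal → ∀ [((Subgroup.centralizer (L : Set G)).subgroupOf H).Normal], Cfsg.IsBalancedFor p (↥H ⧸ (Subgroup.centralizer (L : Set G)).subgroupOf H)) : Cfsg.IsBalancedFor p G := by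
  open Subgroup in
  intro x hx
  rw [hO, le_bot_iff, centralizerPPrimeCore_eq, ← top_inf_eq (cen1 x)]
  rw [pPrimeCore_eq] at hO
  have hz := isPGroup_zpowers_of_orderOf hx
  refine eq_bot_of_cen_comps hO le_top (coprime_Op' p _) (by
    rw [← cen_zpowers]; exact Op'_cen_le_cen_Op hz (le_nrm_of_normal _ _)) fun L hL => ?_
  by_cases hne : ⁅L, zpowers x⁆ = L
  swap
  · exact le_cen_symm (hL.le_cen_Op'_cen1 hO (mem_top x) hx hne)
  set Q := Op' p (⊤ ⊓ cen1 x)
  have hQL : Q ≤ nrm L := by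
    have := hL.Op'_cen_le_nrm hO hz le_top
    rwa [cen_zpowers] at this
  have hT : zpowers x ⊔ Q ≤ nrm L := sup_le (le_nrm_of_comm_le hne.le) hQL
  have hH : zpowers x ⊔ Q ⊔ L ≤ nrm L := sup_le hT (le_nrm_self L)
  set H := zpowers x ⊔ Q ⊔ L
  have hxH : x ∈ H := mem_sup_left (mem_sup_left (mem_zpowers x))
  have hQH : Q ≤ H := le_sup_right.trans le_sup_left
  haveI : ((cen L).subgroupOf H).Normal := normal_subgroupOf (nrm_cen hH)
  let f := QuotientGroup.mk' ((cen L).subgroupOf H)
  have hk : kr f = cen L ⊓ H := kr_mk'_subgroupOf _ _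
  have h1 := hL.im_Op'_cen1 (f := f) hO hx (mem_sup_left (mem_zpowers x))
    (sup_le (le_inf le_top (zpowers_le_cen1 x)) (Opi_le _ _)) hT le_rfl (hk.le.trans inf_le_left) le_rfl hQH
  have hx1 : orderOf (ev f x) = p := by
    refine orderOf_eq_prime (by rw [← ev_pow hxH, ← hx, pow_orderOf_eq_one, ev_one]) fun e => ?_
    rw [ev_eq_one_iff hxH, hk] at e
    exact hL.qs.ne_bot (hne.symm.trans (comm_eq_bot'.2 (zpowers_le.2 e.1)))
  have h2 := h L (isComponent_iff.2 hL) H le_sup_right (normal_subgroupOf hH) _ hx1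
  have ht : im f H = ⊤ := im_mk'_dom _
  rw [centralizerPPrimeCore_eq, pPrimeCore_eq] at h2
  rw [ht, top_inf_eq (cen1 (ev f x))] at h1
  have hne' : im f L ≠ ⊥ := by
    rw [Ne, im_eq_bot_iff le_sup_right, hk]; exact fun e => hL.qs.not_le_cen (e.trans inf_le_left)
  have hL' : IsComp (im f L) ⊤ := ht ▸ (hL.mono le_sup_right le_top).im le_sup_right hne'
  rcases hL'.le_or_cen (sn_Opi {p}ᶜ ⊤) with e | e
  · exfalso
    refine not_dvd_Op' p _ (Dvd.dvd.trans ?_ (card_dvd_of_le e))
    rw [card_im le_sup_right, hk, ← inf_relIndex_right, inf_assoc, inf_eq_right.2 (le_sup_right : L ≤ H),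
      inf_relIndex_right]
    exact hL.qs.dvd_relIndex (hL.dvd_of_Op' hO)
  · have := (im_le_cen_iff hQH le_sup_right).1 (le_cen_symm (e.trans (cen_anti (h1.trans h2))))
    exact le_cen_of_perfect hL.qs.perfect (this.trans (hk.le.trans inf_le_left))

end Cfsg.Agent.S1271
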