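import Cfsg.Statements.S1272
import Cfsg.Agent.H7.Elem

set_option autoImplicit false
open Cfsg

namespace Cfsg.Agent.S1272
open H7
open scoped commutatorElement

/-- Let X be finite and Q = X / O_{p'}(X). For every component Kbar of Q there is a unique p-component K of X whose image in Q is Kbar; and the image of the p-layer L_{p'}(X) in Q is E(Q). -/
theorem result {X : Type*} [Group X] [Finite X] (p : ℕ) [Fact p.Prime] : (∀ Kbar : Subgroup (X ⧸ Cfsg.pPrimeCore p X), Cfsg.IsComponent Kbar → ∃! K : Subgroup X, Cfsg.IsPComponent p K ∧ K.map (QuotientGroup.mk' (Cfsg.pPrimeCore p X)) = Kbar) ∧ (Cfsg.pLayer p X).map (QuotientGroup.mk' (Cfsg.pPrimeCore p X)) = Cfsg.layer (X ⧸ Cfsg.pPrimeCore p X) := by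
  open Subgroup in
  have hk : (⊤ : Subgroup X) ⊓ kr (res (QuotientGroup.mk' (pPrimeCore p X)) ⊤) = Op' p ⊤ := by
    rw [kr_top, QuotientGroup.ker_mk', pPrimeCore_eq, top_inf_eq]
  have ht : im (res (QuotientGroup.mk' (pPrimeCore p X)) ⊤) ⊤ = ⊤ := by
    rw [im_top, map_top_of_surjective _ (QuotientGroup.mk'_surjective _)]
  refine ⟨fun L hL => ?_, by rw [pLayer_eq, layer_eq, ← im_top, im_PLay le_rfl hk, ht]⟩
  obtain ⟨K, h1, h2⟩ := exists_isPComp_of_im le_rfl hk (ht ▸ isComponent_iff.1 hL)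
  refine ⟨K, ⟨isPComponent_iff.2 h1, by rw [← im_top, h2]⟩, fun M ⟨a, b⟩ => ?_⟩
  exact (isPComponent_iff.1 a).eq_of_im_eq h1 le_rfl hk (by rw [h2, im_top, b])

end Cfsg.Agent.S1272
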