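import Cfsg.Statements.S1273
import Cfsg.Agent.H7.Elem

set_option autoImplicit false
open Cfsg

namespace Cfsg.Agent.S1273
open H7
open scoped commutatorElement

/-- Let K be a p-component of the finite group X and N a normal subgroup of K whose index in K is prime to p. Then N = K. -/
theorem result {X : Type*} [Group X] [Finite X] (p : ℕ) [Fact p.Prime] (K : Subgroup X) (hK : Cfsg.IsPComponent p K) (N : Subgroup ↥K) [N.Normal] (hidx : (N.index).Coprime p) : N = ⊤ := by
  open Subgroup in
  rw [eq_iff_map, map_subtype_top]
  refine (isPComponent_iff.1 hK).pqs.eq_of_coprime_relIndex (map_subtype_le N) (le_nrm_map_subtype N) ?_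
  rwa [relIndex, subgroupOf, comap_map_eq_self_of_injective K.subtype_injective]

end Cfsg.Agent.S1273
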