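import Cfsg.Statements.S1275
import Cfsg.Agent.H7.Elem

set_option autoImplicit false
open Cfsg

namespace Cfsg.Agent.S1275
open H7
open scoped commutatorElement

/-- For a 2-component K of a finite group X, the quotient of K by its core O(K) is quasisimple. -/
theorem result {X : Type*} [Group X] [Finite X] (K : Subgroup X) (hK : Cfsg.IsPComponent 2 K) : Cfsg.IsQuasisimple (↥K ⧸ Cfsg.oddCore ↥K) := by
  open Subgroup in
  rw [← qs_top_iff, ← im_mk'_dom]
  exact (isPComponent_iff.1 hK).pqs.qs_im le_rfl
    (by rw [kr_mk', pPrimeCore_map, inf_eq_right.2 (Opi_le _ _)])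

end Cfsg.Agent.S1275
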