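import Cfsg.Statements.S1277
import Cfsg.Agent.H7.Elem

set_option autoImplicit false
open Cfsg

namespace Cfsg.Agent.S1277
open H7
open scoped commutatorElement

/-- For a finite group X with core O(X): the image of E(X) in X / O(X) is all of E(X / O(X)) if and only if every 2-component of X is a component, i.e. L_{2'}(X) ≤ E(X). -/
theorem result {X : Type*} [Group X] [Finite X] : (Cfsg.layer X).map (QuotientGroup.mk' (Cfsg.oddCore X)) = Cfsg.layer (X ⧸ Cfsg.oddCore X) ↔ Cfsg.pLayer 2 X ≤ Cfsg.layer X := by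
  open Subgroup in
  have hk : (⊤ : Subgroup X) ⊓ kr (res (QuotientGroup.mk' (pPrimeCore 2 X)) ⊤) = Op' 2 ⊤ := by
    rw [kr_top, QuotientGroup.ker_mk', pPrimeCore_eq, top_inf_eq]
  have ht : im (res (QuotientGroup.mk' (pPrimeCore 2 X)) ⊤) ⊤ = ⊤ := by
    rw [im_top, map_top_of_surjective _ (QuotientGroup.mk'_surjective _)]
  rw [pLayer_eq, layer_eq, layer_eq, ← im_top, ← ht, ← im_PLay le_rfl hk]
  constructor
  · intro h
    refine PLay_le_iff.2 fun K hK => hK.le_of_le_sup (sn_Lay _) (hK.le_PLay.trans ?_)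
    rw [← hk, top_inf_eq]; exact (im_le_im_iff le_top le_top).1 h.ge
  · intro h
    refine le_antisymm ?_ (im_mono _ h)
    rw [im_le_im_iff le_top le_top, ← top_inf_eq (kr _), hk]; exact Lay_le_PLay_sup 2 _

end Cfsg.Agent.S1277
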