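import Cfsg.Statements.S1279
import Cfsg.Agent.H7.Elem

set_option autoImplicit false
open Cfsg

namespace Cfsg.Agent.S1279
open H7
open scoped commutatorElement

/-- Let A be a noncyclic elementary abelian p-subgroup of the finite group G such that C_G(a) is solvable for every non-identity a ∈ A. Then a ↦ O_{p'}(C_G(a)) is a solvable A-signalizer functor on G. -/
theorem result {G : Type*} [Group G] [Finite G] (p : ℕ) [Fact p.Prime] (A : Subgroup G) (hA : Cfsg.IsElementaryAbelian p A) (hA2 : p ^ 2 ≤ Nat.card ↥A) (hsolv : ∀ a ∈ A, a ≠ 1 → Group.IsSolvable ↥(Subgroup.centralizer ({a} : Set G))) : Cfsg.IsSolvableSignalizerFunctor p A (fun a => Cfsg.centralizerPPrimeCore p a) := by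
  open Subgroup in
  simp only [centralizerPPrimeCore_eq]
  refine ⟨⟨fun a _ _ => Opi_le _ _, fun a _ _ => not_dvd_Op' p _, fun a ha _ =>
    le_nrm_iff_conj.1 (nrm_Opi _ (nrm_cen1 (EA.le_cen1 hA ha))), fun a ha ha1 b hb hb1 => ?_⟩,
    fun a ha ha1 => solv_of_le (Opi_le _ _) (hsolv a ha ha1)⟩
  have := (pcon_cen (PLay_eq_bot_of_solv (hsolv b hb hb1))
    (isPGroup_zpowers_of_orderOf (EA.orderOf hA ha ha1))
    (nrm_cen1 (zpowers_le.2 (EA.le_cen1 hA hb ha)))).2
  rw [cen_zpowers] at this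
  refine le_trans ?_ this
  refine le_trans (le_inf inf_le_left (le_inf inf_le_right (inf_le_left.trans (Opi_le _ _)))) ?_
  exact inf_le_Opi _ inf_le_right

end Cfsg.Agent.S1279
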