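import Cfsg.Statements.S1280
import Cfsg.Agent.H7.Elem

set_option autoImplicit false
open Cfsg

namespace Cfsg.Agent.S1280
open H7
open scoped commutatorElement

/-- Let θ be a solvable A-signalizer functor (A a noncyclic elementary abelian p-subgroup of the finite group G), and X, Y members of its family with Y ≤ N_G(X). Then X ⊔ Y (= XY) is again in the family. -/
theorem result {G : Type*} [Group G] [Finite G] (p : ℕ) [Fact p.Prime] (A : Subgroup G) (hA : Cfsg.IsElementaryAbelian p A) (hA2 : p ^ 2 ≤ Nat.card ↥A) (θ : G → Subgroup G) (hθ : Cfsg.IsSolvableSignalizerFunctor p A θ) (X Y : Subgroup G) (hX : X ∈ Cfsg.signalizerFamily p A θ) (hY : Y ∈ Cfsg.signalizerFamily p A θ) (hn : Y ≤ Subgroup.normalizer (X : Set G)) : X ⊔ Y ∈ Cfsg.signalizerFamily p A θ := by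
  open Subgroup in
  obtain ⟨x1, x2, x3, x4⟩ := hX
  obtain ⟨y1, y2, y3, y4⟩ := hY
  rw [← le_nrm_iff_conj] at x3 y3
  rw [sup_comm]
  refine ⟨solv_sup hn y1 x1, coprime_iff_not_dvd.1 (coprime_sup hn (coprime_iff_not_dvd.2 y2)
    (coprime_iff_not_dvd.2 x2)), le_nrm_iff_conj.1 (nrm_sup y3 x3), fun a ha ha1 => ?_⟩
  have hz := zpowers_le.2 ha
  rw [← cen_zpowers, Cop.sup_inf_cen (hz.trans y3) (hz.trans x3) ((EA.cop hA (fun e => y2 (e.trans
    (card_dvd_of_le inf_le_left))) (nrm_inf y3 x3)).left hz) (prm_of_nrm hn), cen_zpowers]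
  exact sup_le (y4 a ha ha1) (x4 a ha ha1)

end Cfsg.Agent.S1280
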