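import Cfsg.Statements.S1285
import Cfsg.Agent.H7.Sig1

set_option autoImplicit false
open Cfsg

namespace Cfsg.Agent.S1285
open H7
open scoped commutatorElement

/-- Let θ be a solvable A-signalizer functor on the finite group G with A elementary abelian of rank at least 3, and suppose that for some prime q every θ a (a ∈ A non-identity) is a q-group. Then θ is complete. -/
theorem result {G : Type*} [Group G] [Finite G] (p : ℕ) [Fact p.Prime] (A : Subgroup G) (hA : Cfsg.IsElementaryAbelian p A) (hA3 : p ^ 3 ≤ Nat.card ↥A) (θ : G → Subgroup G) (hθ : Cfsg.IsSolvableSignalizerFunctor p A θ) (q : ℕ) [Fact q.Prime] (hq : ∀ a ∈ A, a ≠ 1 → IsPGroup q ↥(θ a)) : Cfsg.IsCompleteSignalizerFunctor p A θ := by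
  open Subgroup in
    have sf := sigF_of hA hθ.1
    have ne : A ≠ ⊥ := ne_bot_of_pow_le hA3
    obtain ⟨b, hb, hb1⟩ := exists_ne_one ne
    obtain ⟨Q, mq, lQ⟩ := (sf.ts_sigInf le_rfl ne).exists_mq ((hq b hb hb1).to_le (sigInf_le hb hb1))
    refine ⟨hθ.1, Q, le_nrm_iff_conj.1 mq.1.nr, mq.1.cop, fun a ha h1 => le_antisymm (mq.1.fx a ha h1)
      (le_inf (sf.le_of_nrm hA3 mq ((inf_le_right.trans lQ).trans (le_nrm_self _)) (sf.ts ha h1)
        (hq a ha h1)) (hθ.1.1 a ha h1))⟩

end Cfsg.Agent.S1285
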