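import Cfsg.Statements.S1286
import Cfsg.Agent.H7.Sig1

set_option autoImplicit false
open Cfsg

namespace Cfsg.Agent.S1286
open H7
open scoped commutatorElement

section
open Subgroup

abbrev S5 := Equiv.Perm (Fin 5)
def a : S5 := Equiv.swap 0 1
def b : S5 := Equiv.swap 2 3
def x : S5 := Equiv.swap 2 3 * Equiv.swap 3 4
def y : S5 := Equiv.swap 0 1 * Equiv.swap 1 4
def A : Subgroup S5 where
  carrier := {1, a, b, a * b}
  one_mem' := by simp
  mul_mem' := by
    rintro u v (rfl | rfl | rfl | rfl) (rfl | rfl | rfl | rfl) <;>
      simp only [Set.mem_insert_iff, Set.mem_singleton_iff] <;> decide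
  inv_mem' := by
    rintro u (rfl | rfl | rfl | rfl) <;> simp only [Set.mem_insert_iff, Set.mem_singleton_iff] <;> decide
def th (g : S5) : Subgroup S5 := if g = a then Subgroup.zpowers x else if g = b then Subgroup.zpowers y else ⊥
theorem th_a : th a = Subgroup.zpowers x := if_pos rfl
theorem th_b : th b = Subgroup.zpowers y := by rw [th, if_neg (by decide), if_pos rfl]
theorem th_ab : th (a * b) = ⊥ := by rw [th, if_neg (by decide), if_neg (by decide)]
theorem mem3 {g u : S5} (h : orderOf g = 3) (hu : u ∈ Subgroup.zpowers g) : u = 1 ∨ u = g ∨ u = g ^ 2 := by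
  obtain ⟨n, hn, rfl⟩ := Finset.mem_image.1 (mem_zpowers_iff_mem_range_orderOf.1 hu)
  rw [h, Finset.mem_range] at hn
  interval_cases n <;> simp
theorem ox : orderOf x = 3 := haveI := Fact.mk Nat.prime_three; orderOf_eq_prime (by decide) (by decide)
theorem oy : orderOf y = 3 := haveI := Fact.mk Nat.prime_three; orderOf_eq_prime (by decide) (by decide)

end

/-- There exist a finite group X, an elementary abelian subgroup A of order 4 and a solvable A-signalizer functor θ on X for the prime 2 which is not complete. -/
theorem result : ∃ (X : Type) (_ : Group X) (_ : Finite X) (A : Subgroup X) (θ : X → Subgroup X), Cfsg.IsElementaryAbelian 2 A ∧ Nat.card ↥A = 4 ∧ Cfsg.IsSolvableSignalizerFunctor 2 A θ ∧ ¬ Cfsg.IsCompleteSignalizerFunctor 2 A θ := by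
  open Subgroup in
    have cs : ∀ g ∈ A, g ≠ 1 → g = a ∨ g = b ∨ g = a * b := by
      rintro g (rfl | h) h1
      exacts [absurd rfl h1, h]
    have sf : IsSignalizerFunctor 2 A th := by
      refine ⟨fun g hg h1 => ?_, fun g hg h1 => ?_, fun g hg h1 c hc u hu => ?_, fun g hg h1 c hc c1 u hu => ?_⟩
      · rcases cs g hg h1 with rfl | rfl | rfl
        · rw [th_a]; exact zpowers_le.2 (mem_cen1.2 (by decide))
        · rw [th_b]; exact zpowers_le.2 (mem_cen1.2 (by decide))
        · rw [th_ab]; exact bot_le
      · rcases cs g hg h1 with rfl | rfl | rfl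
        · rw [th_a, Nat.card_zpowers, ox]; decide
        · rw [th_b, Nat.card_zpowers, oy]; decide
        · rw [th_ab, card_bot]; decide
      · rcases cs g hg h1 with rfl | rfl | rfl
        · rw [th_a] at hu ⊢
          have h2 := pow_mem (mem_zpowers x) 2
          have h3 := mem_zpowers x
          rcases mem3 ox hu with rfl | rfl | rfl <;> rcases hc with rfl | rfl | rfl | rfl <;>
            first | (convert h2 using 1; decide) | (convert h3 using 1; decide) | simp
        · rw [th_b] at hu ⊢
          have h2 := pow_mem (mem_zpowers y) 2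
          have h3 := mem_zpowers y
          rcases mem3 oy hu with rfl | rfl | rfl <;> rcases hc with rfl | rfl | rfl | rfl <;>
            first | (convert h2 using 1; decide) | (convert h3 using 1; decide) | simp
        · rw [th_ab] at hu ⊢; rw [mem_bot.1 hu]; simp
      · have h2 := mem_cen1.1 hu.2
        have h3 := hu.1
        rcases cs g hg h1 with rfl | rfl | rfl
        · rw [th_a] at h3
          rcases cs c hc c1 with rfl | rfl | rfl
          · exact hu.1
          all_goals
            rcases mem3 ox h3 with rfl | rfl | rfl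
            · exact one_mem _
            all_goals exact absurd h2 (by decide)
        · rw [th_b] at h3
          rcases cs c hc c1 with rfl | rfl | rfl
          rotate_left
          · exact hu.1
          all_goals
            rcases mem3 oy h3 with rfl | rfl | rfl
            · exact one_mem _
            all_goals exact absurd h2 (by decide)
        · rw [th_ab] at h3; rw [mem_bot.1 h3]; exact one_mem _
    refine ⟨S5, inferInstance, inferInstance, A, th, ea_iff.2 ⟨le_cen_iff.2 ?_, ?_⟩, ?_, ⟨sf, fun g hg h1 => ?_⟩, ?_⟩
    · rintro u (rfl | rfl | rfl | rfl) v (rfl | rfl | rfl | rfl) <;> decide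
    · rintro u (rfl | rfl | rfl | rfl) <;> decide
    · change Nat.card ({1, a, b, a * b} : Set S5) = 4
      rw [Nat.card_coe_set_eq, Set.ncard_insert_of_notMem (by simp only [Set.mem_insert_iff, Set.mem_singleton_iff]; decide),
        Set.ncard_insert_of_notMem (by simp only [Set.mem_insert_iff, Set.mem_singleton_iff]; decide),
        Set.ncard_pair (by decide)]
    · rcases cs g hg h1 with rfl | rfl | rfl
      · rw [th_a]; exact solv_of_comm (isComm_zpowers _)
      · rw [th_b]; exact solv_of_comm (isComm_zpowers _)
      · rw [th_ab]; exact solv_bot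
    · rintro ⟨-, X, -, h2, h3⟩
      have hx : x ∈ X := ((h3 a (Or.inr (Or.inl rfl)) (by decide)).trans th_a).ge (mem_zpowers x) |>.1
      have hy : y ∈ X := ((h3 b (Or.inr (Or.inr (Or.inl rfl))) (by decide)).trans th_b).ge (mem_zpowers y) |>.1
      have : orderOf (y * (x * y * x⁻¹)) = 2 := haveI := Fact.mk Nat.prime_two
        orderOf_eq_prime (by decide) (by decide)
      exact h2 (this ▸ orderOf_dvd_card' (mul_mem hy (mul_mem (mul_mem hx hy) (inv_mem hx))))

end Cfsg.Agent.S1286
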