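import Cfsg.Statements.S1288
import Cfsg.Agent.H7.Sig2

set_option autoImplicit false
open Cfsg

namespace Cfsg.Agent.S1288
open H7
open scoped commutatorElement

/-- Let A be a noncyclic elementary abelian p-subgroup of a finite group H normalizing a solvable subgroup K of order prime to p, q a prime dividing |K|, and U ≤ K a subgroup of order prime to q such that ⁅U, C_K(B)⁆ has order prime to q for every subgroup B of index p in A. Then U ≤ O_{q'}(K). -/
theorem result {H : Type*} [Group H] [Finite H] (p : ℕ) [Fact p.Prime] (A K : Subgroup H) (hA : Cfsg.IsElementaryAbelian p A) (hA2 : p ^ 2 ≤ Nat.card ↥A) (hK : ¬ p ∣ Nat.card ↥K) (hKs : Group.IsSolvable ↥K) (hAK : A ≤ Subgroup.normalizer (K : Set H)) (q : ℕ) [Fact q.Prime] (hqK : q ∣ Nat.card ↥K) (U : Subgroup H) (hU : U ≤ K) (hUq : ¬ q ∣ Nat.card ↥U) (hcomm : ∀ B : Subgroup H, B ≤ A → B.relIndex A = p → ¬ q ∣ Nat.card ↥⁅U, K ⊓ Subgroup.centralizer (B : Set H)⁆) : U ≤ (Cfsg.pPrimeCore q ↥K).map K.subtype :=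 by
  open Subgroup in
    rw [pPrimeCore_map]
    have cp := EA.cop hA hK hAK
    refine le_Op'_of_char (PLay_eq_bot_of_solv hKs) hU (coprime_iff_not_dvd.2 hUq) (le_cen_symm ?_)
    have hD : K ≤ nrm (Op' q K) := le_nrm_Opi _ _
    have hAD : A ≤ nrm (Op' q K) := nrm_Opi _ hAK
    rw [← im_Omod {q} hD (by rw [kr_qm])]
    have c2 := cp.right (Omod_le {q} (Op' q K) K) (nrm_Omod _ hAD hAK)
    have l : Omod {q} (Op' q K) K ≤ cmod (Op' q K) U := c2.le_of_hyper hA (ne_bot_of_pow_le hA2) fun B hB i => by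
      refine le_cmod.2 ⟨inf_le_left.trans ((Omod_le _ _ _).trans hD), ?_⟩
      refine le_of_piN_relIndex (π := {q}ᶜ) (U := Omod {q} (Op' q K) K) ?_ ?_ (self_le_Omod _ (Opi_le _ _) hD) ?_ ?_
      · exact (comm_le_of_le (inf_le_left.trans (Omod_le _ _ _)) hU).trans hD
      · exact (commutator_mono inf_le_left le_rfl).trans (comm_le_left (hU.trans (le_nrm_Omod _ _ _)))
      · rw [Subgroup.commutator_comm]
        exact (piN_compl_iff'.2 (hcomm B hB i)).of_le (commutator_mono le_rfl (inf_le_inf_right _ (Omod_le _ _ _)))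
      · rw [compl_compl]; exact piN_relIndex_Omod _ hD
    exact (im_le_cen_iff ((Omod_le _ _ _).trans hD) (hU.trans hD)).2 (by rw [kr_qm]; exact (le_cmod.1 l).2)

end Cfsg.Agent.S1288
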