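import Cfsg.Statements.S1289
import Cfsg.Agent.H7.Elem

set_option autoImplicit false
open Cfsg

namespace Cfsg.Agent.S1289
open H7
open scoped commutatorElement

/-- A p-component K of the finite group X is subnormal, perfect, of order divisible by p, and minimal among the subnormal perfect subgroups of X of order divisible by p. -/
theorem result {X : Type*} [Group X] [Finite X] (p : ℕ) [Fact p.Prime] (K : Subgroup X) (hK : Cfsg.IsPComponent p K) : K.IsSubnormal ∧ ⁅K, K⁆ = K ∧ p ∣ Nat.card ↥K ∧ ∀ H : Subgroup X, H ≤ K → H.IsSubnormal → ⁅H, H⁆ = H → p ∣ Nat.card ↥H → H = K := by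
  open Subgroup in
  have h := isPComponent_iff.1 hK
  refine ⟨sn_top_iff.1 h.sn, h.pqs.perfect, h.pqs.dvd, fun H a b c d => ?_⟩
  rcases ((sn_top_iff.2 b).mono a le_top).eq_or_exists with e | ⟨M, x, y, z⟩
  · exact e
  · exact absurd (d.trans (card_dvd_of_le (c.ge.trans ((commutator_mono x a).trans
      ((h.pqs.normal M y.le z).resolve_right y.ne))))) (not_dvd_Op' p K)

end Cfsg.Agent.S1289
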