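import Cfsg.Statements.S1298
import Cfsg.Agent.H7.Bal

set_option autoImplicit false
open Cfsg

namespace Cfsg.Agent.S1298
open H7
open scoped commutatorElement

/-- Let G be finite and k ≥ 1. Suppose that for every x of order p, writing C = C_G(x), every component K of C / O_{p'}(C) has K / Z(K) locally k-balanced for p. Then G is k-balanced for p. -/
theorem result {G : Type*} [Group G] [Finite G] (p k : ℕ) [Fact p.Prime] (hk : 1 ≤ k) (h : ∀ x : G, orderOf x = p → ∀ K : Subgroup (↥(Subgroup.centralizer ({x} : Set G)) ⧸ Cfsg.pPrimeCore p ↥(Subgroup.centralizer ({x} : Set G))), Cfsg.IsComponent K → Cfsg.IsLocallyKBalanced p k (↥K ⧸ Subgroup.center ↥K)) : Cfsg.IsKBalanced p k G := by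
  open Subgroup in
  intro A hA hAk b hb hc
  have hAb : A ≤ cen1 b := fun a ha => mem_cen1.2 (hc a ha)
  let f := QuotientGroup.mk' (pPrimeCore p (cen1 b))
  have hk' : kr f = Op' p (cen1 b) := by rw [kr_mk', pPrimeCore_map]
  have hkr : cen1 b ⊓ kr f = Op' p (cen1 b) := by rw [hk', inf_eq_right.2 (Opi_le _ _)]
  have ht : im f (cen1 b) = ⊤ := im_mk'_dom _
  have hAk' : A ⊓ kr f = ⊥ := hk' ▸ inf_eq_bot_of_isPGroup (EA.isPGroup hA) (coprime_Op' p _)
  rw [centralizerPPrimeCore_eq, ← hk', ← im_eq_bot_iff inf_le_right]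
  have hc' := card_im_of_inf_eq_bot hAb hAk'
  refine eq_bot_of_locallyKBalanced (k := k) (ht ▸ Opi_im_eq_bot le_rfl hkr) (fun K hK => h b hb K
    (isComponent_iff.2 hK)) (EA.im hA f) le_top (hc'.trans hAk) (ne_bot_of_pow_le (p := p) (n := 0) ?_) ?_
  · rw [hc', hAk]; exact Nat.pow_le_pow_right (Fact.out : p.Prime).pos hk
  intro z hz hz1
  obtain ⟨a, ha, rfl⟩ := (mem_im_of_le hAb).1 hz
  have ha1 : a ≠ 1 := by rintro rfl; exact hz1 ev_one
  rw [← ht, Cop.im_cen1 (hAb ha) le_rfl (le_nrm_self _ (hAb ha)) (hkr ▸ cop_of_pgroup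
    ((EA.isPGroup hA).to_le (zpowers_le.2 ha)) (coprime_Op' p _) (zpowers_le.2 (le_nrm_Opi _ _ (hAb ha))))]
  refine (im_mono f ?_).trans (im_Opi_le _ inf_le_left)
  have h1 : signalizerDelta p A ≤ Op' p (cen1 a) := by
    rw [← centralizerPPrimeCore_eq]; exact iInf_le_of_le ⟨a, ha, ha1⟩ le_rfl
  exact le_trans (le_inf (inf_le_left.trans h1) (le_inf inf_le_right (inf_le_left.trans (h1.trans
    (Opi_le _ _))))) (inf_le_Opi _ inf_le_right)

end Cfsg.Agent.S1298
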