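import Cfsg.Statements.S1300
import Cfsg.Agent.H7.Elem

set_option autoImplicit false
open Cfsg

namespace Cfsg.Agent.S1300
open H7
open scoped commutatorElement

/-- For a finite group G, balance in the sense of commuting involutions is the same as 1-balance for the prime 2. -/
theorem result {G : Type*} [Group G] [Finite G] : Cfsg.IsBalanced G ↔ Cfsg.IsKBalanced 2 1 G := by
  open Subgroup in
  simp only [IsBalanced, IsKBalanced, signalizerDelta, pow_one]
  constructor
  · intro h A hA h2 b hb hc
    obtain ⟨a, ha, ha1⟩ := exists_ne_one (ne_bot_of_pow_le (p := 2) (n := 0) (A := A) h2.ge)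
    refine le_trans (inf_le_inf_right _ (iInf_le _ ⟨a, ha, ha1⟩)) ?_
    rw [h a b (EA.orderOf hA ha ha1) hb (hc a ha)]; exact inf_le_left
  · intro h
    have key : ∀ x y : G, orderOf x = 2 → orderOf y = 2 → x * y = y * x →
        centralizerPPrimeCore 2 x ⊓ cen1 y ≤ centralizerPPrimeCore 2 y ⊓ cen1 x := fun x y hx hy hxy => by
      refine le_inf (le_trans (inf_le_inf_right _ (le_iInf fun ⟨a, ha, ha1⟩ => ?_))
        (h (zpowers x) (ea_zpowers (hx ▸ pow_orderOf_eq_one x)) (by rw [card_zpowers_eq, hx]) y hy
        fun a ha => mem_cen1.1 (zpowers_le.2 (mem_cen1.2 hxy) ha)))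
        (inf_le_left.trans (map_subtype_le _))
      have := eq_zpowers_of_card (p := 2) (by rw [card_zpowers_eq, hx]) ha ha1
      show _ ≤ centralizerPPrimeCore 2 a
      rw [centralizerPPrimeCore_eq, centralizerPPrimeCore_eq, ← cen_zpowers, this, cen_zpowers]
    exact fun x y hx hy hxy => le_antisymm (key x y hx hy hxy) (key y x hy hx hxy.symm)

end Cfsg.Agent.S1300
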