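import Cfsg.Statements.S1302
import Cfsg.Agent.H7.Sig2

set_option autoImplicit false
open Cfsg

namespace Cfsg.Agent.S1302
open H7
open scoped commutatorElement

/-- Let X be a finite p-constrained group, p an odd prime, and A an abelian p-subgroup of X containing every element of order p of C_X(A). Then every subgroup of X of order prime to p that is normalized by A lies in O_{p'}(X). -/
theorem result {X : Type*} [Group X] [Finite X] (p : ℕ) [Fact p.Prime] (hp : p ≠ 2) (hX : Cfsg.IsPConstrained p X) (A : Subgroup X) (hA : IsMulCommutative ↥A) (hAp : IsPGroup p ↥A) (hΩ : ∀ x ∈ Subgroup.centralizer (A : Set X), orderOf x = p → x ∈ A) (Q : Subgroup X) (hQ : ¬ p ∣ Nat.card ↥Q) (hAQ : A ≤ Subgroup.normalizer (Q : Set X)) : Q ≤ Cfsg.pPrimeCore p X := by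
  open Subgroup in
    rw [pPrimeCore_eq]
    refine bender_le_Op' hp (isPConstrained_iff_top.1 hX) hAp le_top (fun x hx h1 => ?_) le_top
      (coprime_iff_not_dvd.2 hQ) hAQ
    by_cases e : x = 1
    · exact e ▸ one_mem A
    · exact hΩ x hx.2 (orderOf_eq_prime h1 e)

end Cfsg.Agent.S1302
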