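import Cfsg.Statements.S1303
import Cfsg.Agent.H7.Tk6
import Cfsg.Agent.H3.Integral

set_option autoImplicit false
open Cfsg

namespace Cfsg.Agent.S1303
open H7
open scoped commutatorElement

/-- The group X = SL(2, 3): it is 2-constrained, O_{2'}(X) = 1, its centre A = Z(X) contains every involution of X = C_X(A), and X has a subgroup of order 3 (normalized by A) not contained in O_{2'}(X). -/
theorem result : Cfsg.IsPConstrained 2 (Matrix.SpecialLinearGroup (Fin 2) (ZMod 3)) ∧ Cfsg.pPrimeCore 2 (Matrix.SpecialLinearGroup (Fin 2) (ZMod 3)) = ⊥ ∧ (∀ t : Matrix.SpecialLinearGroup (Fin 2) (ZMod 3), orderOf t = 2 → t ∈ Subgroup.center (Matrix.SpecialLinearGroup (Fin 2) (ZMod 3))) ∧ ∃ Q : Subgroup (Matrix.SpecialLinearGroup (Fin 2) (ZMod 3)), Nat.card ↥Q = 3 ∧ ¬ (Q ≤ Cfsg.pPrimeCore 2 (Matrix.SpecialLinearGroup (Fin 2) (ZMod 3))) := by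
  open Subgroup in
  have c : Nat.card (Matrix.SpecialLinearGroup (Fin 2) (ZMod 3)) = 24 := card_sl2p (p := 3)
  have z : ∀ t : Matrix.SpecialLinearGroup (Fin 2) (ZMod 3), t ^ 2 = 1 → ∀ g, g * t = t * g := by decide
  have o : pPrimeCore 2 (Matrix.SpecialLinearGroup (Fin 2) (ZMod 3)) = ⊥ := by
    have d : ∀ w : Matrix.SpecialLinearGroup (Fin 2) (ZMod 3), w ^ 3 = 1 → w = 1 ∨ ∃ g, (w * (g * w * g ^ 3)) ^ 3 ≠ 1 ∧ g * g ^ 3 = 1 := by decide
    rw [pPrimeCore_eq]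
    have k : ∀ w ∈ Op' 2 (⊤ : Subgroup (Matrix.SpecialLinearGroup (Fin 2) (ZMod 3))), w ^ 3 = 1 := fun w hw =>
      orderOf_dvd_iff_pow_eq_one.1 (((coprime_orderOf hw (coprime_Op' 2 _)).pow_right 3).dvd_of_dvd_mul_left
        (by rw [show 2 ^ 3 * 3 = 24 from rfl, ← c]; exact orderOf_dvd_natCard w))
    refine eq_bot_iff.2 fun w hw => (d w (k w hw)).resolve_right fun ⟨g, a, b⟩ => a (k _ (mul_mem hw ?_))
    rw [← inv_eq_of_mul_eq_one_right b]
    exact conj_mem (le_nrm_Opi _ _) (mem_top g) hw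
  obtain ⟨Q, -, hQ⟩ := exists_card_p (H := (⊤ : Subgroup (Matrix.SpecialLinearGroup (Fin 2) (ZMod 3)))) Nat.prime_three (by rw [card_top, c]; decide)
  refine ⟨isPConstrained_iff_top.2 (PLay_eq_bot_of_solv ?_), o, fun t ht => mem_center_iff.2 (z t (H1B.ord2'.1 ht).1),
    Q, hQ, fun l => by simp [o, le_bot_iff.1 (o ▸ l)] at hQ⟩
  haveI := H3.burnside_pq (a := 3) (b := 1) Nat.prime_two Nat.prime_three c.dvd
  infer_instance

end Cfsg.Agent.S1303
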