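import Cfsg.Statements.S1304
import Cfsg.Agent.H7.Comp

set_option autoImplicit false
open Cfsg

namespace Cfsg.Agent.S1304
open H7
open scoped commutatorElement

/-- Let X be a perfect group and α an automorphism of X with α(x) x⁻¹ central for every x. Then α is the identity. -/
theorem result {X : Type*} [Group X] (hperf : commutator X = ⊤) (α : X ≃* X) (h : ∀ x : X, α x * x⁻¹ ∈ Subgroup.center X) : ∀ x : X, α x = x := by
  open Subgroup in
  let φ : X →* X :=
    { toFun := fun x => α x * x⁻¹
      map_one' := by simp
      map_mul' := fun x y => by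
        have := mem_center_iff.1 (h y) x⁻¹
        rw [map_mul, mul_inv_rev]
        calc α x * α y * (y⁻¹ * x⁻¹) = α x * ((α y * y⁻¹) * x⁻¹) := by group
          _ = α x * (x⁻¹ * (α y * y⁻¹)) := by rw [this]
          _ = _ := by group }
  have h1 : (⊤ : Subgroup X).map φ ≤ center X := by rintro _ ⟨x, -, rfl⟩; exact h x
  have h2 : (⊤ : Subgroup X).map φ = ⊥ := by
    rw [← hperf, commutator_def, map_commutator, comm_eq_bot]
    exact h1.trans (center_le_centralizer _)
  intro x
  have : φ x ∈ (⊤ : Subgroup X).map φ := ⟨x, trivial, rfl⟩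
  rw [h2, mem_bot] at this
  exact mul_inv_eq_one.1 this

end Cfsg.Agent.S1304
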