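import Cfsg.Statements.S1305
import Cfsg.Agent.H7.Tk1

set_option autoImplicit false
open Cfsg

namespace Cfsg.Agent.S1305
open H7
open scoped commutatorElement

/-- Let G be a finite group of component type with the B-property and no nontrivial normal subgroup of odd order. Let a be an involution and K a component of C_G(a) such that (a) |K| is maximal among the orders of components of centralizers of involutions of G, (b) subject to (a) the 2-rank of the centralizer of K in C_G(a) is as large as possible, and (c) K has 2-rank at least 2. If B is an elementary abelian 2-subgroup of that centralizer of the largest possible order, then K is a component of C_G(b) for every non-identity b ∈ B. -/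
theorem result {G : Type*} [Group G] [Finite G] (hO : Cfsg.oddCore G = ⊥) (hB : Cfsg.HasBProperty G) (hct : Cfsg.IsComponentType G) (a : G) (ha : orderOf a = 2) (K : Subgroup G) (hKa : K ≤ Subgroup.centralizer ({a} : Set G)) (hK : Cfsg.IsComponent (K.subgroupOf (Subgroup.centralizer ({a} : Set G)))) (hmax : ∀ y : G, orderOf y = 2 → ∀ K' : Subgroup G, K' ≤ Subgroup.centralizer ({y} : Set G) → Cfsg.IsComponent (K'.subgroupOf (Subgroup.centralizer ({y} : Set G))) → Nat.card ↥K' ≤ Nat.card ↥K ∧ (Nat.card ↥K' = Nat.card ↥K → ∀ k : ℕ, Cfsg.PRankLE 2 k ↥(Subgroup.centralizer ({a} : Set G) ⊓ Subgroup.centralizer (K : Set G)) → Cfsg.PRankLE 2 k ↥(Subgroup.centralizer ({y} : Set G) ⊓ Subgroup.centralizer (K' : Set G)))) (hrk : ¬ Cfsg.PRankLE 2 1 ↥K) (B : Subgroup G) (hBle : B ≤ Subgroup.centralizer ({a} : Set G) ⊓ Subgroup.centralizer (K : Set G)) (hBel : Cfsg.IsElementaryAbelian 2 B) (hBmax : ∀ B' : Subgroup G, B' ≤ Subgroup.centralizer ({a} : Set G) ⊓ Subgroup.centralizer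 (K : Set G) → Cfsg.IsElementaryAbelian 2 B' → Nat.card ↥B' ≤ Nat.card ↥B) (b : G) (hb : b ∈ B) (hb1 : b ≠ 1) : K ≤ Subgroup.centralizer ({b} : Set G) ∧ Cfsg.IsComponent (K.subgroupOf (Subgroup.centralizer ({b} : Set G))) := by
  open Subgroup in
    have hK := (isComponent_subgroupOf hKa).1 hK
    rw [oddCore, pPrimeCore_eq] at hO
    have h2 := sq_of_ord2 ha
    have cB : B ≤ cen (zpowers a) := by rw [cen_zpowers]; exact hBle.trans inf_le_left
    have aB : a ∈ B := by
      have := hBmax (B ⊔ zpowers a) (sup_le hBle (zpowers_le.2 ⟨self_mem_cen1 a, le_cen1_iff.1 hKa⟩))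
        (EA.sup hBel (ea_zpowers (by rw [pow_two, h2])) cB)
      exact (eq_of_le_of_card_le le_sup_left this).ge (mem_sup_right (mem_zpowers a))
    have ob := EA.orderOf hBel hb hb1
    have Kb : K ≤ cen1 b := le_cen1_iff.2 (hBle hb).2
    have BH : B ≤ cen1 b := EA.le_cen1 hBel hb
    refine ⟨Kb, (isComponent_subgroupOf Kb).2 ?_⟩
    have n : a ∈ nrm (cen1 b) := le_nrm_self _ (BH aB)
    obtain ⟨D, hD, h⟩ := comp_trich n h2 ((hK.mono (le_inf Kb hKa) inf_le_right).lay_of_bal1 ha (BH aB)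
      (PLay_le_Lay (comm_eq_bot.1 (eq_bot_of_le (bprop hB ob) hO))))
    obtain ⟨h3, h4⟩ := hmax b ob D hD.le ((isComponent_subgroupOf hD.le).2 hD)
    rcases h with h | h | ⟨hne, h⟩
    · exact h ▸ hD
    · exact absurd (card_lt_of_lt h.1) h3.not_gt
    exfalso
    have k := hD.le_cen_cj n hne
    have c1 := card_im_mul (f := dgh a k) le_rfl
    rw [← Dg_eq k, ← h] at c1
    have hk : D ⊓ kr (dgh a k) = ⊥ := by
      rw [← card_le_one_iff_eq_bot]
      exact Nat.le_of_mul_le_mul_left (c1.le.trans (by rwa [mul_one])) (card_pos' K)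
    rw [hk, card_bot, mul_one] at c1
    obtain ⟨m, hm⟩ := card_pgroup (EA.isPGroup hBel)
    have r := pRankLE_iff.1 (h4 c1.symm m (pRankLE_iff.2 fun A h1 h2 => hm ▸ hBmax A h1 h2))
    obtain ⟨E, E1, E2, E3⟩ := not_rk_iff'.1 (mt pRankLE_iff.2 hrk)
    rw [h, Dg_eq k] at E1
    have hk' : pre (dgh a k) E ⊓ kr (dgh a k) = ⊥ := eq_bot_of_le (inf_le_inf_right _ (pre_le _ _)) hk
    have c2 := card_im_of_inf_eq_bot (pre_le _ E) hk'
    rw [im_pre_of_le E1, E3] at c2
    have e2 : EA 2 (pre (dgh a k) E) := by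
      have i : ∀ x ∈ pre (dgh a k) E, ∀ y ∈ pre (dgh a k) E, ev (dgh a k) x = ev (dgh a k) y → x = y :=
        fun x hx y hy e => inv_mul_eq_one.1 (mem_bot.1 (hk'.le (mem_inf.2 ⟨mul_mem (inv_mem hx) hy,
          (ev_eq_iff (pre_le _ _ hx) (pre_le _ _ hy)).1 e⟩)))
      refine ea_iff.2 ⟨le_cen_iff.2 fun x hx y hy => i _ (mul_mem hx hy) _ (mul_mem hy hx) ?_,
        fun x hx => i _ (pow_mem hx _) _ (one_mem _) ?_⟩
      · rw [ev_mul (pre_le _ _ hx) (pre_le _ _ hy), ev_mul (pre_le _ _ hy) (pre_le _ _ hx)]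
        exact E2.mul_comm (mem_pre.1 hx).2 (mem_pre.1 hy).2
      · rw [ev_pow (pre_le _ _ hx), ev_one]; exact E2.pow (mem_pre.1 hx).2
    set F := H2.cj a (pre (dgh a k) E)
    have F1 : F ≤ H2.cj a D := cj_mono a (pre_le _ _)
    have B0 : B ⊓ nrm D ≤ cen (D ⊔ H2.cj a D : Subgroup G) := fun x hx =>
      hD.cen_of_nrm_Dg n h2 hne (le_nrm_self _ (BH hx.1)) (h ▸ (hBle hx.1).2) hx.2
    have c3 : B ⊓ nrm D ≤ cen F := B0.trans (cen_anti (F1.trans le_sup_right))
    have i0 : (B ⊓ nrm D) ⊓ F = ⊥ := eq_bot_iff.2 fun x hx => by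
      have e : a * x * a⁻¹ = x := by rw [EA.mul_comm hBel aB hx.1.1]; simp
      have xD : x ∈ D := by
        have := conj_mem_cj (g := a) |>.2 (F1 hx.2)
        rwa [cj_cj_sq h2, e] at this
      exact hk.le ⟨xD, (mem_kr_dgh k).2 ⟨xD, by rw [e, ← pow_two, EA.pow hBel hx.1.1]⟩⟩
    have r2 := r (B ⊓ nrm D ⊔ F) (sup_le (le_inf (inf_le_left.trans BH) (B0.trans (cen_anti le_sup_left)))
      (F1.trans (le_inf (hD.cj_of_mem_nrm n).le (le_cen_symm k)))) (EA.sup (EA.of_le hBel inf_le_left) (e2.cj a) c3)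
    rw [card_sup_of_inf_eq_bot (le_nrm_of_le_cen c3) i0, card_cj, ← c2] at r2
    have l : B ≤ B ⊓ nrm D ⊔ zpowers a := fun x hx => by
      rcases hD.swap n hne (le_nrm_self _ (BH hx)) (cen_le_nrm _ (h ▸ (hBle hx).2)) with e | e
      · exact mem_sup_left ⟨hx, cj_eq_self_iff.1 e⟩
      · have : x * a ∈ nrm D := by
          rw [← cj_eq_self_iff, EA.mul_comm hBel hx aB, cj_mul, e, cj_cj_sq h2]
        have := mul_mem_sup (S := B ⊓ nrm D) (T := zpowers a) ⟨mul_mem hx aB, this⟩ (mem_zpowers a)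
        rwa [mul_assoc, h2, mul_one] at this
    have r3 := (card_le_of_le l).trans (Nat.le_of_dvd (Nat.mul_pos (card_pos' _) (card_pos' _))
      (card_sup_dvd (le_nrm_of_le_cen (inf_le_left.trans cB))))
    rw [card_zpowers_eq, ha, hm] at r3
    have := card_pos' (B ⊓ nrm D)
    omega

end Cfsg.Agent.S1305
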