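import Cfsg.Statements.S1306
import Cfsg.Agent.H7.Tk1

set_option autoImplicit false
open Cfsg

namespace Cfsg.Agent.S1306
open H7
open scoped commutatorElement

/-- Let G be finite, x an involution and L ≤ C_G(x) a component of C_G(x). Suppose L is a component of C_G(y) for every involution y ∈ C_G(L), and ⁅L, g L g⁻¹⁆ ≠ 1 whenever g L g⁻¹ ≠ L. Then L is a standard subgroup of G. -/
theorem result {G : Type*} [Group G] [Finite G] (x : G) (hx : orderOf x = 2) (L : Subgroup G) (hLx : L ≤ Subgroup.centralizer ({x} : Set G)) (hL : Cfsg.IsComponent (L.subgroupOf (Subgroup.centralizer ({x} : Set G)))) (hne : ∀ y : G, orderOf y = 2 → y ∈ Subgroup.centralizer (L : Set G) → L ≤ Subgroup.centralizer ({y} : Set G) ∧ Cfsg.IsComponent (L.subgroupOf (Subgroup.centralizer ({y} : Set G)))) (hnc : ∀ g : G, L.map (MulAut.conj g).toMonoidHom ≠ L → ⁅L, L.map (MulAut.conj g).toMonoidHom⁆ ≠ ⊥) : Cfsg.IsStandardSubgroup L := by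
  open Subgroup in
    have hL := (isComponent_subgroupOf hLx).1 hL
    have key : ∀ g y, orderOf y = 2 → y ∈ cen L ⊓ H2.cj g (cen L) → g ∈ nrm L := fun g y hy h => by
      have h1 := hne y hy h.1
      have h2 := hne (g⁻¹ * y * g) (by rw [oconj', hy]) (mem_cj.1 h.2)
      have c1 := (isComponent_subgroupOf h1.1).1 h1.2
      have c2 := ((isComponent_subgroupOf h2.1).1 h2.2).cj g
      rw [cj_cen1, show g * (g⁻¹ * y * g) * g⁻¹ = y by group] at c2
      by_contra hc
      have e : H2.cj g L ≠ L := fun e => hc (cj_eq_self_iff.1 e)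
      exact hnc g e (comm_eq_bot.2 (c1.cen_of_ne c2 e.symm))
    have m : x ∈ cen L := le_cen1_iff.1 hLx
    refine ⟨qs_iff.2 hL.qs, ⟨even_iff_two_dvd.2 (hx ▸ orderOf_dvd_card' m), fun g hg => ?_⟩, hnc,
      le_antisymm (nrm_cen le_rfl) fun g hg => key g x hx ⟨m, (cj_of_mem_nrm hg).ge m⟩⟩
    by_contra hc
    obtain ⟨y, h1, h2⟩ := exists_orderOf_eq Nat.prime_two (even_iff_two_dvd.1 (Nat.not_odd_iff_even.1 hc))
    exact hg (nrm_cen le_rfl (key g y h2 h1))

end Cfsg.Agent.S1306
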