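import Cfsg.Statements.S1307
import Cfsg.Agent.H7.Tk3
import Cfsg.Agent.H9.BS

set_option autoImplicit false
open Cfsg

namespace Cfsg.Agent.S1307
open H7
open scoped commutatorElement

/-- Let G be finite, x an involution and L ≤ C_G(x) a component of C_G(x) of even order and 2-rank 1, such that L is a component of C_G(y) for every involution y ∈ C_G(L). Then some involution of L is a classical involution of G. -/
theorem result {G : Type*} [Group G] [Finite G] (x : G) (hx : orderOf x = 2) (L : Subgroup G) (hLx : L ≤ Subgroup.centralizer ({x} : Set G)) (hL : Cfsg.IsComponent (L.subgroupOf (Subgroup.centralizer ({x} : Set G)))) (heven : Even (Nat.card ↥L)) (hrk : Cfsg.PRankLE 2 1 ↥L) (hne : ∀ y : G, orderOf y = 2 → y ∈ Subgroup.centralizer (L : Set G) → L ≤ Subgroup.centralizer ({y} : Set G) ∧ Cfsg.IsComponent (L.subgroupOf (Subgroup.centralizer ({y} : Set G)))) : ∃ t ∈ L, Cfsg.IsClassicalInvolution t := by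
  open Subgroup in
    have q := ((isComponent_subgroupOf hLx).1 hL).qs
    obtain ⟨t, ht, o⟩ := H1B.exists_inv heven
    have ui := ui_of_rk (pRankLE_iff.1 hrk)
    have d := even_iff_dvd.1 heven
    have c : t ∈ cen L := by
      refine zpowers_le.1 (le_cen_of_perfect q.perfect (comm_zpowers_le (nrm_cen (le_nrm_self L) ht) fun g hg => ?_))
      have := H9.brauer_suzuki (ui_top ui) (z := ⟨t, ht⟩) (Subtype.ext (by rw [← o]; exact pow_orderOf_eq_one t)) ⟨g, hg⟩
      rw [pPrimeCore_eq_subgroupOf] at this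
      exact q.Op'_le_cen d this
    obtain ⟨h1, h2⟩ := hne t o c
    obtain ⟨S, hS⟩ := H2.exists_isSylowIn 2 L
    refine ⟨t, ht, o, L, h1, ht, h2.1, hS.toSylow, ?_⟩
    rcases H1B.quat_of_ui hS.isPGroup (ui.mono hS.le) with h | ⟨n, ⟨e⟩⟩
    · have := (npc_iff.1 (H9.npc_of_isCyclic (syl_to_H1 hS))).eq
      rw [pRes_of_perfect q.perfect] at this
      exact absurd (this ▸ d) (not_dvd_Op' 2 L)
    · exact ⟨n, ⟨(subgroupOfEquivOfLe hS.le).trans e⟩⟩

end Cfsg.Agent.S1307
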