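import Cfsg.Statements.S1314
import Cfsg.Agent.H7.Comp

set_option autoImplicit false
open Cfsg

namespace Cfsg.Agent.S1314
open H7
open scoped commutatorElement

/-- Let x be an involution of a group G and L a perfect subgroup with ⁅L, x L x⁻¹⁆ = 1. Then l ↦ l (x l x⁻¹) is a group homomorphism π from L to G whose kernel is central in L and whose image lies in C_G(x); and the commutator subgroup of C_{L ⊔ xLx⁻¹}(x) equals the image of π. -/
theorem result {G : Type*} [Group G] [Finite G] (x : G) (hx : orderOf x = 2) (L : Subgroup G) (hperf : ⁅L, L⁆ = L) (hcomm : ⁅L, L.map (MulAut.conj x).toMonoidHom⁆ = ⊥) : ∃ π : ↥L →* G, (∀ l : ↥L, π l = (l : G) * (x * (l : G) * x⁻¹)) ∧ π.ker ≤ Subgroup.center ↥L ∧ π.range ≤ Subgroup.centralizer ({x} : Set G) ∧ ⁅(L ⊔ L.map (MulAut.conj x).toMonoidHom) ⊓ Subgroup.centralizer ({x} : Set G), (L ⊔ L.map (MulAut.conj x).toMonoidHom) ⊓ Subgroup.centralizer ({x} : Set G)⁆ = π.range := by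
  open Subgroup in
  have hc : L ≤ cen (cj x L) := comm_eq_bot.1 hcomm
  have hxx : x * x = 1 := by rw [← sq, ← hx, pow_orderOf_eq_one]
  have hxi : x⁻¹ = x := inv_eq_of_mul_eq_one_right hxx
  have hcm : ∀ a ∈ L, ∀ b ∈ L, a * (x * b * x⁻¹) = (x * b * x⁻¹) * a :=
    fun a ha b hb => comm_of_le_cen hc ha (conj_mem_cj.2 hb)
  let π : L →* G :=
    { toFun := fun l => l * (x * l * x⁻¹)
      map_one' := by simp
      map_mul' := fun a b => by
        have := hcm b b.2 a a.2
        simp only [coe_mul]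
        calc (a : G) * b * (x * (a * b) * x⁻¹) = a * (b * (x * a * x⁻¹)) * (x * b * x⁻¹) := by group
          _ = a * ((x * a * x⁻¹) * b) * (x * b * x⁻¹) := by rw [this]
          _ = _ := by group }
  have hr : π.range ≤ cen1 x := by
    rintro _ ⟨l, rfl⟩
    rw [mem_cen1]
    show (l : G) * (x * l * x⁻¹) * x = x * (l * (x * l * x⁻¹))
    conv_lhs => rw [hcm l l.2 l l.2]
    rw [hxi]
    calc x * l * x * l * x = x * (l * (x * l * x)) := by group
      _ = _ := rfl
  have hrl : π.range ≤ L ⊔ cj x L := by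
    rintro _ ⟨l, rfl⟩
    exact mul_mem (mem_sup_left l.2) (mem_sup_right (conj_mem_cj.2 l.2))
  have hrp : ⁅π.range, π.range⁆ = π.range := by
    rw [MonoidHom.range_eq_map, ← map_commutator, ← commutator_def,
      Group.isPerfect_def.1 (isPerfect_iff.2 hperf)]
  refine ⟨π, fun _ => rfl, fun l hl => ?_, hr, ?_⟩
  · rw [mem_center_iff]
    intro m
    have h1 : (l : G) * (x * l * x⁻¹) = 1 := hl
    have h2 := hcm m m.2 l l.2
    rw [eq_inv_of_mul_eq_one_right h1] at h2
    apply Subtype.ext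
    simp only [coe_mul]
    calc (m : G) * l = l * ((l : G)⁻¹ * m) * l := by group
      _ = l * (m * (l : G)⁻¹) * l := by rw [h2]
      _ = _ := by group
  · show ⁅(L ⊔ cj x L) ⊓ cen1 x, (L ⊔ cj x L) ⊓ cen1 x⁆ = _
    refine le_antisymm ?_ (hrp.ge.trans (commutator_mono (le_inf hrl hr) (le_inf hrl hr)))
    have key : (L ⊔ cj x L) ⊓ cen1 x ≤ π.range ⊔ cen (L ⊔ cj x L) := by
      rintro _ ⟨h1, h2⟩
      obtain ⟨a, ha, _, ⟨b, hb, rfl⟩, rfl⟩ := (mem_sup_nrm (le_nrm_of_le_cen hc)).1 h1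
      have h3 : a * (x * b * x⁻¹) * x = x * (a * (x * b * x⁻¹)) := mem_cen1.1 h2
      have e : a * (x * b * x⁻¹) = π ⟨a, ha⟩ * (x * (a⁻¹ * b) * x⁻¹) := by
        show _ = a * (x * a * x⁻¹) * _
        group
      show a * (x * b * x⁻¹) ∈ _
      rw [e]
      refine mul_mem (mem_sup_left ⟨_, rfl⟩) (mem_sup_right ?_)
      have hm : x * (a⁻¹ * b) * x⁻¹ ∈ cj x L := conj_mem_cj.2 (mul_mem (inv_mem ha) hb)
      have e4 : x * (a⁻¹ * b) * x⁻¹ = b * a⁻¹ := by
        have h5 := hcm a ha b hb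
        have hxx' : ∀ y, y * x * x = y := fun y => by rw [mul_assoc, hxx, mul_one]
        rw [hxi] at h5 h3 ⊢
        have h7 : x * a * x * b = a * (x * b * x) := by
          calc x * a * x * b = x * a * x * b * x * x := (hxx' _).symm
            _ = x * (a * (x * b * x)) * x := by simp only [mul_assoc]
            _ = a * (x * b * x) * x * x := by rw [h3]
            _ = _ := hxx' _
        have h8 : x * a⁻¹ * x = (x * a * x)⁻¹ := by simp [hxi, mul_assoc]
        calc x * (a⁻¹ * b) * x = (x * a⁻¹ * x * x) * b * x := by rw [hxx']; simp only [mul_assoc]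
          _ = (x * a⁻¹ * x) * (x * b * x * a * a⁻¹) := by simp only [mul_assoc, mul_inv_cancel, mul_one]
          _ = (x * a * x)⁻¹ * (x * a * x * b * a⁻¹) := by rw [h8, h7, h5]
          _ = _ := by group
      rw [cen_sup]
      refine ⟨le_cen_symm hc hm, ?_⟩
      rw [e4]
      exact hc (mul_mem hb (inv_mem ha))
    have hn : (L ⊔ cj x L) ⊓ cen1 x ≤ nrm π.range := by
      refine key.trans (sup_le (le_nrm_self _) (le_nrm_of_le_cen (cen_anti hrl)))
    refine (commutator_mono key le_rfl).trans (comm_sup_le (le_nrm_self _)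
      (le_nrm_of_le_cen (cen_anti hrl)) (comm_le_left hn) ?_)
    rw [comm_eq_bot.2 (cen_anti inf_le_left)]
    exact bot_le

end Cfsg.Agent.S1314
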