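import Cfsg.Statements.S1316
import Cfsg.Agent.H7.Comp

set_option autoImplicit false
open Cfsg

namespace Cfsg.Agent.S1316
open H7
open scoped commutatorElement

section
open Subgroup

theorem aux {G : Type*} [Group G] (H : Subgroup G) (n : ℕ) :
    (derivedSeries H (n + 1)).map H.subtype =
      ⁅(derivedSeries H n).map H.subtype, (derivedSeries H n).map H.subtype⁆ := by
  rw [derivedSeries_succ, map_commutator]
theorem aux0 {G : Type*} [Group G] (H : Subgroup G) : (derivedSeries H 0).map H.subtype = H := by
  rw [derivedSeries_zero, ← MonoidHom.range_eq_map, range_subtype]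

end

/-- For a finite group X, E(X) equals the intersection of the derived series of F*(X) (its last term). -/
theorem result {X : Type*} [Group X] [Finite X] : (⨅ n : ℕ, (derivedSeries ↥(Cfsg.generalizedFittingSubgroup X) n).map (Cfsg.generalizedFittingSubgroup X).subtype) = Cfsg.layer X := by
  open Subgroup in
  rw [gfit_eq, layer_eq]
  set F := Fst (⊤ : Subgroup X)
  set E := Lay (⊤ : Subgroup X)
  refine le_antisymm ?_ (le_iInf fun n => ?_)
  · have hn : F ≤ nrm E := le_top.trans (le_nrm_Lay ⊤)
    have hs : Group.IsSolvable (im (qm E) F) := by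
      have : im (qm E) F = im (qm E) (Fit ⊤) := by
        rw [show F = Fit ⊤ ⊔ kr (qm E) by rw [kr_qm, sup_comm]; rfl,
          im_sup_kr (le_top.trans (le_nrm_Lay ⊤))]
      rw [this]; exact solv_im _ (solv_of_nilp (nilp_Fit _))
    obtain ⟨n, h⟩ := hs
    refine (iInf_le _ n).trans ?_
    rintro _ ⟨x, hx, rfl⟩
    have := map_derivedSeries_le_derivedSeries (imHom (qm E) hn) n ⟨x, hx, rfl⟩
    rw [h, mem_bot, ← MonoidHom.mem_ker, imHom_ker, kr_qm] at this
    exact this
  · induction n with
    | zero => rw [aux0]; exact Lay_le_Fst ⊤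
    | succ n ih => rw [aux]; exact (Lay_perfect ⊤).ge.trans (commutator_mono ih ih)

end Cfsg.Agent.S1316
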