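import Cfsg.Statements.S1321
import Cfsg.Agent.H7.Comp

set_option autoImplicit false
open Cfsg

namespace Cfsg.Agent.S1321
open H7
open scoped commutatorElement

/-- Let X be finite and U ≤ X. Then E(X) is generated by C_{E(X)}(U) together with ⁅E(X), U⁆ (indeed it is their product, ⁅E(X), U⁆ being normal in E(X)). -/
theorem result {X : Type*} [Group X] [Finite X] (U : Subgroup X) : Cfsg.layer X = (Cfsg.layer X ⊓ Subgroup.centralizer (U : Set X)) ⊔ ⁅Cfsg.layer X, U⁆ ∧ ⁅Cfsg.layer X, U⁆ ≤ Cfsg.layer X := by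
  open Subgroup in
  rw [layer_eq]
  have h : ⁅Lay (⊤ : Subgroup X), U⁆ ≤ Lay ⊤ := comm_le_left (le_top.trans (le_nrm_Lay ⊤))
  refine ⟨le_antisymm (Lay_le_iff.2 fun K hK => ?_) (sup_le inf_le_left h), h⟩
  rcases hK.le_comm_or_cen (A := U) le_top with h' | h'
  · exact h'.trans ((commutator_mono hK.le_Lay le_rfl).trans le_sup_right)
  · exact (le_inf hK.le_Lay h').trans le_sup_left

end Cfsg.Agent.S1321
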