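import Cfsg.Statements.S1325
import Cfsg.Agent.H7.Comp

set_option autoImplicit false
open Cfsg

namespace Cfsg.Agent.S1325
open H7
open scoped commutatorElement

/-- Let X be finite and Y a normal subgroup containing F(X) with C_X(Y) ≤ Y. Then F*(X) ≤ Y. -/
theorem result {X : Type*} [Group X] [Finite X] (Y : Subgroup X) [Y.Normal] (hF : Cfsg.fittingSubgroup X ≤ Y) (hC : Subgroup.centralizer (Y : Set X) ≤ Y) : Cfsg.generalizedFittingSubgroup X ≤ Y := by
  open Subgroup in
  rw [gfit_eq]
  exact Fst_le_of_cen_le (.of_normal le_top (le_nrm_of_normal _ _)) (by rwa [← fitting_eq])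
    (inf_le_right.trans hC)

end Cfsg.Agent.S1325
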