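import Cfsg.Statements.S1326
import Cfsg.Agent.H7.Comp

set_option autoImplicit false
open Cfsg

namespace Cfsg.Agent.S1326
open H7
open scoped commutatorElement

/-- For a finite group X: the Fitting subgroup contains its centralizer if and only if the layer of X is trivial. -/
theorem result {X : Type*} [Group X] [Finite X] : Subgroup.centralizer (Cfsg.fittingSubgroup X : Set X) ≤ Cfsg.fittingSubgroup X ↔ Cfsg.layer X = ⊥ := by
  open Subgroup in
  rw [fitting_eq, layer_eq]
  exact ⟨fun h => Lay_eq_bot_of_cen_le (sn_Fit ⊤) (solv_of_nilp (nilp_Fit _)) (inf_le_right.trans h),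
    fun h => by simpa using cen_Fit_le_of_Lay h⟩

end Cfsg.Agent.S1326
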