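import Cfsg.Statements.S1328
import Cfsg.Agent.H7.Bal

set_option autoImplicit false
open Cfsg

namespace Cfsg.Agent.S1328
open H7
open scoped commutatorElement

/-- Let G be finite, H ≤ G with O(H) = 1, t an involution of G normalizing H, and Y a nontrivial subgroup of O(C_H(t)). Then some component E of H is normalized by t and by Y and centralized by neither t nor Y. -/
theorem result {G : Type*} [Group G] [Finite G] (H : Subgroup G) (hO : Cfsg.oddCore ↥H = ⊥) (t : G) (ht : orderOf t = 2) (htH : t ∈ Subgroup.normalizer (H : Set G)) (Y : Subgroup G) (hY1 : Y ≠ ⊥) (hY : Y ≤ (Cfsg.oddCore ↥(H ⊓ Subgroup.centralizer ({t} : Set G))).map (H ⊓ Subgroup.centralizer ({t} : Set G)).subtype) : ∃ E : Subgroup ↥H, Cfsg.IsComponent E ∧ (E.map H.subtype).map (MulAut.conj t).toMonoidHom = E.map H.subtype ∧ Y ≤ Subgroup.normalizer ((E.map H.subtype : Subgroup G) : Set G) ∧ ¬ (t ∈ Subgroup.centralizer ((E.map H.subtype : Subgroup G) : Set G)) ∧ ¬ (Y ≤ Subgroup.centralizer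 ((E.map H.subtype : Subgroup G) : Set G)) := by
  open Subgroup in
  rw [pPrimeCore_eq_bot_iff] at hO
  rw [pPrimeCore_map] at hY
  have hz := isPGroup_zpowers_of_orderOf ht
  have hn : zpowers t ≤ nrm H := zpowers_le.2 htH
  set X := zpowers t ⊔ H
  have hXH : X ≤ nrm H := sup_le hn (le_nrm_self H)
  have htX : t ∈ X := mem_sup_left (mem_zpowers t)
  have hidx : PiN {2}ᶜᶜ (H.relIndex X) := by
    rw [compl_compl, relIndex_sup_nrm hn]
    exact (piN_iff_isPGroup.2 hz).dvd (relIndex_dvd_card _ _)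
  have hO' : Op' 2 X = ⊥ := le_bot_iff.1 (hO ▸ Opi_le_Opi le_sup_right
    (le_of_piN_relIndex ((Opi_le _ _).trans hXH) (Opi_le _ _) le_sup_right (piN_Opi _ _) hidx))
  have hY' : Y ≤ Op' 2 (X ⊓ cen1 t) := hY.trans (Opi_le_of_normal _ (inf_le_inf_right _ le_sup_right)
    (nrm_inf (inf_le_left.trans hXH) (inf_le_right.trans (le_nrm_self _))))
  have : ∃ L, IsComp L X ∧ ¬ Y ≤ cen L := by
    by_contra! hc
    refine hY1 (eq_bot_of_cen_comps hO' (hY'.trans ((Opi_le _ _).trans inf_le_left))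
      (coprime_of_le hY' (coprime_Op' 2 _)) (hY'.trans ?_) hc)
    rw [← cen_zpowers]; exact Op'_cen_le_cen_Op hz (le_sup_left.trans (le_nrm_self X))
  obtain ⟨L, hL, hYL⟩ := this
  have h1 : ⁅L, zpowers t⁆ = L := by
    by_contra e; exact hYL (hY'.trans (le_cen_symm (hL.le_cen_Op'_cen1 hO' htX ht e)))
  have hLH : L ≤ H := by
    rw [← pRes_of_perfect (p := 2) hL.qs.perfect]
    exact (H2.pRes_mono hL.le).trans (pRes_le_of_piN hXH (by rwa [compl_compl] at hidx))
  refine ⟨L.subgroupOf H, (isComponent_subgroupOf hLH).2 (hL.mono hLH le_sup_right), ?_⟩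
  rw [subgroupOf_map hLH]
  refine ⟨cj_of_mem_nrm (zpowers_le.1 (le_nrm_of_comm_le h1.le)), hY'.trans ?_, fun e =>
    hL.qs.ne_bot (h1.symm.trans (comm_eq_bot'.2 (zpowers_le.2 e))), hYL⟩
  rw [← cen_zpowers]; exact hL.Op'_cen_le_nrm hO' hz le_sup_left

end Cfsg.Agent.S1328
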