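import Cfsg.Statements.S1335
import Cfsg.Agent.H7.Elem

set_option autoImplicit false
open Cfsg

namespace Cfsg.Agent.S1335
open H7
open scoped commutatorElement

/-- Let H be a subgroup of the finite group G, p a prime, k ≥ 1, P a Sylow p-subgroup of H of p-rank at least k, and suppose N_G(X) ≤ H for every subgroup X ≤ P of p-rank at least k. Then P is a Sylow p-subgroup of G. -/
theorem result {G : Type*} [Group G] [Finite G] {p : ℕ} [Fact p.Prime] (k : ℕ) (hk : 1 ≤ k) (H : Subgroup G) (P : Sylow p ↥H) (hP : ¬ Cfsg.PRankLE p (k - 1) ↥(P : Subgroup ↥H)) (hΓ : (∀ X : Subgroup G, X ≤ (P : Subgroup ↥H).map H.subtype → ¬ Cfsg.PRankLE p (k - 1) ↥X → Subgroup.normalizer (X : Set G) ≤ H)) : ∃ Q : Sylow p G, (Q : Subgroup G) = (P : Subgroup ↥H).map H.subtype := by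
  open Subgroup in
  have h1 := H2.isSylowIn_map_subtype P
  have h2 := hΓ _ le_rfl (by rwa [pRankLE_iff, rk_map_iff H.subtype_injective, ← pRankLE_iff])
  have h3 : IsSylowIn p ((P : Subgroup H).map H.subtype) ⊤ := by
    refine syl_of_nrm le_top ?_
    rw [top_inf_eq]
    exact h1.mono (le_nrm_self _) h2
  exact ⟨h3.toSylowTop, h3.coe_toSylowTop⟩

end Cfsg.Agent.S1335
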