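import Cfsg.Statements.S1336
import Cfsg.Agent.H7.Tk3
import Cfsg.Agent.H2.SPE

set_option autoImplicit false
open Cfsg

namespace Cfsg.Agent.S1336
open H7
open scoped commutatorElement

/-- Let G be finite and p prime. Then G has a proper subgroup H with p ∣ |H| and p ∤ |H ∩ gHg⁻¹| for every g ∉ H (a strongly p-embedded subgroup) if and only if G is not 1-connected for p. -/
theorem result {G : Type*} [Group G] [Finite G] (p : ℕ) [Fact p.Prime] : (∃ H : Subgroup G, H ≠ ⊤ ∧ p ∣ Nat.card ↥H ∧ ∀ g : G, g ∉ H → ¬ p ∣ Nat.card ↥(H ⊓ H.map (MulAut.conj g).toMonoidHom)) ↔ ¬ Cfsg.IsKConnected p 1 G := by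
  open Subgroup in
    have k : ∀ P : Sylow p G, p ∣ Nat.card G → (IsKConnected p 1 G ↔
        ∀ M : Subgroup G, (∀ Q ≤ (P : Subgroup G), Q ≠ ⊥ → nrm Q ≤ M) → M = ⊤) := fun P h => by
      have e : ∀ Q ≤ (P : Subgroup G), ¬ Rk p 0 Q ↔ Q ≠ ⊥ := fun Q l => by
        rw [← pRankLE_iff, H2.not_pRankLE_zero_iff (P.isPGroup'.to_le l)]
      rw [kconn_iff (H2.sylow_isSylowIn_top P) ((e _ le_rfl).2 (H2.sylow_ne_bot h P))
        fun A a B b a1 a2 b1 b2 => cc_one P.isPGroup' a b a1 a2 b1 b2]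
      exact forall_congr' fun M => imp_congr_left (forall₂_congr fun Q l => by rw [e Q l])
    refine ⟨fun ⟨H, h⟩ c => ?_, fun c => ?_⟩
    · obtain ⟨a, b, P, h⟩ := H2.isStronglyPEmbedded_iff.1 (H2.isStronglyPEmbedded_iff'.2 h)
      exact b ((k P a).1 c H h)
    by_cases d : p ∣ Nat.card G
    · obtain ⟨P⟩ : Nonempty (Sylow p G) := inferInstance
      rw [k P d] at c
      push Not at c
      obtain ⟨M, a, b⟩ := c
      exact ⟨M, H2.isStronglyPEmbedded_iff'.1 (H2.isStronglyPEmbedded_iff.2 ⟨d, b, P, a⟩)⟩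
    · exact absurd (fun A B a1 a2 _ _ => absurd ((dvd_card_of_isPGroup (EA.isPGroup a1)
        (ne_bot_of_pow_le a2)).trans (card_subgroup_dvd_card A)) d) c

end Cfsg.Agent.S1336
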