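import Cfsg.Statements.S1337
import Cfsg.Agent.H7.Tk3

set_option autoImplicit false
open Cfsg

namespace Cfsg.Agent.S1337
open H7
open scoped commutatorElement

/-- Let P be a finite p-group of p-rank greater than 2. Then P has a normal elementary abelian subgroup U of order p², and for every elementary abelian X ≤ P with |X| ≥ p²: X is joined to U by a chain of pairwise commuting elementary abelian subgroups of order ≥ p² if and only if C_P(X) has p-rank greater than 2. -/
theorem result {P : Type*} [Group P] [Finite P] (p : ℕ) [Fact p.Prime] (hP : IsPGroup p P) (hrk : ¬ Cfsg.PRankLE p 2 P) : ∃ U : Subgroup P, U.Normal ∧ Cfsg.IsElementaryAbelian p U ∧ Nat.card ↥U = p ^ 2 ∧ ∀ X : Subgroup P, Cfsg.IsElementaryAbelian p X → p ^ 2 ≤ Nat.card ↥X → (Relation.ReflTransGen (fun A B : Subgroup P => Cfsg.IsElementaryAbelian p A ∧ p ^ 2 ≤ Nat.card ↥A ∧ Cfsg.IsElementaryAbelian p B ∧ p ^ 2 ≤ Nat.card ↥B ∧ ∀ a ∈ A, ∀ b ∈ B, a * b = b * a) X U ↔ ¬ Cfsg.PRankLE p 2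 ↥(Subgroup.centralizer (X : Set P))) := by
  open Subgroup in
    have r := mt pRankLE_top.2 hrk
    obtain ⟨U, a, b, c, d⟩ := exists_normal_pp (hP.to_subgroup ⊤) r
    refine ⟨U, normal_iff_top_le_nrm.2 b, c, d, fun X h1 h2 => ?_⟩
    rw [pRankLE_iff, ← top_inf_eq (cen X)]
    exact ⟨fun h => not_rk_of_cc h (not_rk_cen_normal (hP.to_subgroup ⊤) a b c d r),
      cc_of_rk (hP.to_subgroup ⊤) a b c d h1 h2⟩

end Cfsg.Agent.S1337
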