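import Cfsg.Statements.S1341
import Cfsg.Agent.H7.Tk4

set_option autoImplicit false
open Cfsg

namespace Cfsg.Agent.S1341
open H7
open scoped commutatorElement

/-- Let X be finite and T a Sylow 2-subgroup of L_{2'}(X) O_{2',2}(X). Then L*_{2'}(X) = L_{2'}(X) ⊔ O(X) ⊔ O(C_X(T)). -/
theorem result {X : Type*} [Group X] [Finite X] (T : Sylow 2 ↥(Cfsg.pLayer 2 X ⊔ Cfsg.pPrimePCore 2 X)) : Cfsg.extendedTwoLayer X = Cfsg.pLayer 2 X ⊔ Cfsg.oddCore X ⊔ ((Cfsg.oddCore ↥(Subgroup.centralizer (((T : Subgroup ↥(Cfsg.pLayer 2 X ⊔ Cfsg.pPrimePCore 2 X)).map (Cfsg.pLayer 2 X ⊔ Cfsg.pPrimePCore 2 X).subtype : Subgroup X) : Set X))).map (Subgroup.centralizer (((T : Subgroup ↥(Cfsg.pLayer 2 X ⊔ Cfsg.pPrimePCore 2 X)).map (Cfsg.pLayer 2 X ⊔ Cfsg.pPrimePCore 2 X).subtype : Subgroup X) : Set X)).subtype) := by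
  open Subgroup in
  have e : pLayer 2 X ⊔ pPrimePCore 2 X = PLay 2 ⊤ ⊔ Opp 2 ⊤ := by rw [pLayer_eq, pPrimePCore_eq]
  have k : ∀ T : Sylow 2 ↥(pLayer 2 X ⊔ pPrimePCore 2 X), H2.IsSylowIn 2 ((T : Subgroup _).map (pLayer 2 X ⊔ pPrimePCore 2 X).subtype)
      (PLay 2 ⊤ ⊔ Opp 2 ⊤) := fun T => e ▸ H2.isSylowIn_map_subtype T
  refine le_antisymm (sup_le le_sup_left (iSup_le fun S => ?_)) (sup_le_sup_left (le_iSup (fun T : Sylow 2 ↥(pLayer 2 X ⊔ pPrimePCore 2 X) =>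
    ((oddCore ↥(centralizer (((T : Subgroup ↥(pLayer 2 X ⊔ pPrimePCore 2 X)).map
            (pLayer 2 X ⊔ pPrimePCore 2 X).subtype : Subgroup X) : Set X))).map
          (centralizer (((T : Subgroup ↥(pLayer 2 X ⊔ pPrimePCore 2 X)).map
            (pLayer 2 X ⊔ pPrimePCore 2 X).subtype : Subgroup X) : Set X)).subtype)) T) _)
  have := ext_layer_le (k T) (k S)
  rw [top_inf_eq, top_inf_eq] at this
  rw [pPrimeCore_map, pPrimeCore_map, oddCore, pPrimeCore_eq]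
  exact this.trans (sup_le_sup_right (sup_le_sup_right pLayer_eq.ge _) _)

end Cfsg.Agent.S1341
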