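import Cfsg.Statements.S1342
import Cfsg.Agent.H7.Tk4
import Cfsg.Agent.S1341

set_option autoImplicit false
open Cfsg

namespace Cfsg.Agent.S1342
open H7
open scoped commutatorElement

/-- For a finite group X, L*_{2'}(X) is normal in X. -/
theorem result {X : Type*} [Group X] [Finite X] : (Cfsg.extendedTwoLayer X).Normal := by
  open Subgroup in
  have e : pLayer 2 X ⊔ pPrimePCore 2 X = PLay 2 ⊤ ⊔ Opp 2 ⊤ := by rw [pLayer_eq, pPrimePCore_eq]
  obtain ⟨T⟩ : Nonempty (Sylow 2 ↥(pLayer 2 X ⊔ pPrimePCore 2 X)) := inferInstance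
  have k : H2.IsSylowIn 2 ((T : Subgroup _).map (pLayer 2 X ⊔ pPrimePCore 2 X).subtype)
      (PLay 2 ⊤ ⊔ Opp 2 ⊤) := e ▸ H2.isSylowIn_map_subtype T
  rw [S1341.result T, pPrimeCore_map, oddCore, pPrimeCore_eq]
  generalize (T : Subgroup _).map (pLayer 2 X ⊔ pPrimePCore 2 X).subtype = S at k
  rw [pLayer_eq]
  refine normal_iff_top_le_nrm.2 (le_nrm_of_cj_le fun g hg => ?_)
  have := ext_layer_le k (syl_cj_of_mem k (nrm_sup (le_nrm_PLay 2 ⊤) (le_nrm_Omod _ _ _) hg))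
  rw [top_inf_eq, top_inf_eq] at this
  rw [cj_sup, cj_of_mem_nrm (nrm_sup (le_nrm_PLay 2 ⊤) (le_nrm_Opi _ _) hg), cj_Opi, cj_cen]
  exact sup_le le_sup_left this

end Cfsg.Agent.S1342
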