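import Cfsg.Statements.S1343
import Cfsg.Agent.H7.Tk4
import Cfsg.Agent.S1341

set_option autoImplicit false
open Cfsg

namespace Cfsg.Agent.S1343
open H7
open scoped commutatorElement

/-- Let X be finite. Then L*_{2'}(X) = L_{2'}(X) ⊔ F for some subgroup F of odd order normalized by a Sylow 2-subgroup of X. -/
theorem result {X : Type*} [Group X] [Finite X] : ∃ F : Subgroup X, Odd (Nat.card ↥F) ∧ (∃ S : Sylow 2 X, (S : Subgroup X) ≤ Subgroup.normalizer (F : Set X)) ∧ Cfsg.extendedTwoLayer X = Cfsg.pLayer 2 X ⊔ F := by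
  open Subgroup in
  have e : pLayer 2 X ⊔ pPrimePCore 2 X = PLay 2 ⊤ ⊔ Opp 2 ⊤ := by rw [pLayer_eq, pPrimePCore_eq]
  obtain ⟨S⟩ : Nonempty (Sylow 2 X) := inferInstance
  have n : (S : Subgroup X) ≤ normalizer ((PLay 2 ⊤ ⊔ Opp 2 ⊤ : Subgroup X) : Set X) :=
    le_top.trans (nrm_sup (le_nrm_PLay 2 ⊤) (le_nrm_Omod _ _ _))
  have k := syl_inf (H2.sylow_isSylowIn_top S) le_top n
  have k' : H2.IsSylowIn 2 ((S : Subgroup X) ⊓ (PLay 2 ⊤ ⊔ Opp 2 ⊤)) (pLayer 2 X ⊔ pPrimePCore 2 X) := by rw [e]; exact k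
  have := S1341.result k'.toSylow
  rw [k'.map_toSylow, pPrimeCore_map, oddCore, pPrimeCore_eq, sup_assoc] at this
  refine ⟨_, odd_iff_coprime.2 (coprime_sup (nrm_Opi _ ?_) (coprime_Op' 2 _) (coprime_Op' 2 _)), ⟨S, ?_⟩,
    this.trans (congrArg _ (sup_comm _ _))⟩
  · exact le_top.trans (le_nrm_self ⊤)
  · exact nrm_sup (nrm_Opi _ (nrm_cen (nrm_inf (le_nrm_self _) n))) (le_top.trans (le_nrm_Opi _ ⊤))

end Cfsg.Agent.S1343
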