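import Cfsg.Statements.S1344
import Cfsg.Agent.H7.Tk4
import Cfsg.Agent.S1341

set_option autoImplicit false
open Cfsg

namespace Cfsg.Agent.S1344
open H7
open scoped commutatorElement

/-- Let K be a 2-component of the finite group X. Then K ≤ L*_{2'}(X) and K is normal in L*_{2'}(X). -/
theorem result {X : Type*} [Group X] [Finite X] (K : Subgroup X) (hK : Cfsg.IsPComponent 2 K) : K ≤ Cfsg.extendedTwoLayer X ∧ (K.subgroupOf (Cfsg.extendedTwoLayer X)).Normal := by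
  open Subgroup in
  have e : pLayer 2 X ⊔ pPrimePCore 2 X = PLay 2 ⊤ ⊔ Opp 2 ⊤ := by rw [pLayer_eq, pPrimePCore_eq]
  obtain ⟨T⟩ : Nonempty (Sylow 2 ↥(pLayer 2 X ⊔ pPrimePCore 2 X)) := inferInstance
  have k : H2.IsSylowIn 2 ((T : Subgroup _).map (pLayer 2 X ⊔ pPrimePCore 2 X).subtype)
      (PLay 2 ⊤ ⊔ Opp 2 ⊤) := e ▸ H2.isSylowIn_map_subtype T
  rw [S1341.result T, pPrimeCore_map, oddCore, pPrimeCore_eq]
  generalize (T : Subgroup _).map (pLayer 2 X ⊔ pPrimePCore 2 X).subtype = S at k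
  rw [pLayer_eq]
  replace hK := isPComponent_iff.1 hK
  refine ⟨hK.le_PLay.trans (le_sup_left.trans le_sup_left), normal_subgroupOf (sup_le (sup_le hK.PLay_le_nrm
    hK.Op'_le_nrm) ((Opi_le _ _).trans ((le_inf le_top le_rfl).trans (hK.cen_le_nrm k))))⟩

end Cfsg.Agent.S1344
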