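import Cfsg.Statements.S1347
import Cfsg.Agent.H7.Tk1

set_option autoImplicit false
open Cfsg

namespace Cfsg.Agent.S1347
open H7
open scoped commutatorElement

/-- Let A be a standard subgroup of the finite group G with O(G) = 1, and t an involution of C_G(A). Then (i) A is normal in G; or (ii) there is a non-abelian simple subgroup X ≅ A with X and tXt⁻¹ commuting, meeting trivially and generating E(G), and C_G(A) = ⟨t⟩; or (iii) A ≤ E(G) and E(G) is non-abelian simple. -/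
theorem result {G : Type*} [Group G] [Finite G] (A : Subgroup G) (hA : Cfsg.IsStandardSubgroup A) (hO : Cfsg.oddCore G = ⊥) (t : G) (ht : orderOf t = 2) (htA : t ∈ Subgroup.centralizer (A : Set G)) : A.Normal ∨ (∃ X : Subgroup G, IsSimpleGroup ↥X ∧ ¬ IsMulCommutative ↥X ∧ Nonempty (↥X ≃* ↥A) ∧ (∀ a ∈ X, ∀ b ∈ X.map (MulAut.conj t).toMonoidHom, a * b = b * a) ∧ X ⊓ X.map (MulAut.conj t).toMonoidHom = ⊥ ∧ X ⊔ X.map (MulAut.conj t).toMonoidHom = Cfsg.layer G ∧ Subgroup.centralizer (A : Set G) = Subgroup.zpowers t) ∨ (A ≤ Cfsg.layer G ∧ IsSimpleGroup ↥(Cfsg.layer G) ∧ ¬ IsMulCommutative ↥(Cfsg.layer G)) := by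
  open Subgroup in
    rw [oddCore, pPrimeCore_eq] at hO
    have h2 := sq_of_ord2 ht
    have q := qs_iff.1 hA.1
    have l : A ≤ cen1 t := le_cen1_iff.2 htA
    have hA' : IsComp A (⊤ ⊓ cen1 t) := by rw [top_inf_eq]; exact ⟨.of_normal l (std_nrm hA ht htA), q⟩
    have nt : ∀ g : G, g ∈ nrm (⊤ : Subgroup G) := fun g => le_nrm_self _ (mem_top g)
    obtain ⟨D, hD, h⟩ := comp_trich (nt t) h2 (hA'.lay_of_bal1 ht (mem_top t) (PLay_eq_Lay hO).le)
    rcases h with rfl | h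
    · refine .inl (normal_iff_top_le_nrm.2 fun g _ => cj_eq_self_iff.1 (by_contra fun e => ?_))
      exact hA.2.2.1 g e (comm_eq_bot.2 (hD.le_cen_cj (nt g) e))
    refine .inr ?_
    have hD' := hD.cj_of_mem_nrm (nt t)
    have lA : A ≤ D ⊔ H2.cj t D := h.elim (fun h => h.1.le.trans le_sup_left) fun h => h.2.le.trans (Dg_le t D)
    have odd : (ord (cen (D ⊔ H2.cj t D : Subgroup G))).Coprime 2 := coprime_iff_not_dvd.2 fun hd => by
      obtain ⟨u, h1, h3⟩ := exists_orderOf_eq Nat.prime_two hd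
      have n : D ≤ nrm A := (le_sup_left.trans (le_cen1_iff.2 h1)).trans (std_nrm hA h3 (cen_anti lA h1))
      rcases h with h | h
      · exact ((hD.qs.normal A h.1.le n).resolve_right h.1.ne |> fun c => q.not_le_cen (c.trans (cen_anti h.1.le)))
      · have k := hD.le_cen_cj (nt t) h.1
        have c : ¬ A ≤ cen D := h.2 ▸ hD.qs.Dg_not_le_cen k
        have e := hD.qs.comm_eq_of_nrm (lA.trans (sup_le (le_nrm_self D) (le_nrm_of_le_cen (le_cen_symm k)))) c
        have : D ≤ cen1 t := (e.ge.trans (comm_le_right n)).trans l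
        exact h.1 (cj_of_mem_nrm (cen_le_nrm _ (le_cen1_iff.1 this)))
    have lE : D ⊔ H2.cj t D ≤ Lay ⊤ := sup_le hD.le_Lay hD'.le_Lay
    have hE : D ⊔ H2.cj t D = Lay ⊤ := le_antisymm lE (Lay_le_iff.2 fun K hK =>
      (hK.le_or_cen (.trans (.of_normal lE (nrm_sup hD.Lay_le_nrm hD'.Lay_le_nrm)) (sn_Lay _))).resolve_right
        fun c => hK.qs.not_le_solv (solv_of_coprime_two odd) c)
    have hC : cen (D ⊔ H2.cj t D : Subgroup G) = ⊥ := by
      rw [hE] at odd ⊢
      exact eq_bot_of_le (le_Op' le_top (nrm_cen (le_nrm_Lay _)) odd) hO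
    rw [layer_eq, ← hE]
    rcases h with h | h
    · rw [h.2.1, sup_idem] at hC ⊢
      exact .inr ⟨h.1.le, hD.qs.simple (by rw [hC, inf_bot_eq]), hD.qs.not_comm⟩
    have k := hD.le_cen_cj (nt t) h.1
    have i : D ⊓ H2.cj t D = ⊥ := eq_bot_of_le (inf_cj_le_cen k) hC
    refine .inl ⟨D, hD.qs.simple (eq_bot_of_le (le_cen_sup inf_le_right (inf_le_left.trans k)) hC), hD.qs.not_comm,
      ⟨(imEquiv (dgh t k) le_rfl (eq_bot_of_le (inf_le_right.trans (kr_dgh_le k)) i)).trans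
        (MulEquiv.subgroupCongr (by rw [h.2, Dg_eq k]))⟩, le_cen_iff.1 k, i, rfl,
      le_antisymm (fun x hx => ?_) (zpowers_le.2 htA)⟩
    rw [h.2] at hx htA
    rcases hD.swap (nt t) h.1 (nt x) (cen_le_nrm _ hx) with e | e
    · rw [mem_bot.1 (hC.le (hD.cen_of_nrm_Dg (nt t) h2 h.1 (nt x) hx (cj_eq_self_iff.1 e)))]; exact one_mem _
    · have := mem_bot.1 (hC.le (hD.cen_of_nrm_Dg (nt t) h2 h.1 (nt (t * x)) (mul_mem htA hx)
        (by rw [← cj_eq_self_iff, cj_mul, e, cj_cj_sq h2])))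
      rw [eq_inv_of_mul_eq_one_right this]; exact inv_mem (mem_zpowers t)

end Cfsg.Agent.S1347
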