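import Cfsg.Statements.S1393
import Cfsg.Agent.H7.BG8

set_option autoImplicit false
open Cfsg

namespace Cfsg.Agent.S1393
open H7
open scoped commutatorElement

/-- Let G be a minimal simple group of odd order, A a subgroup satisfying the transitivity hypothesis whose centre has rank at least 3, K = O_{π(A)'}(C_G(A)), and q a prime not dividing the order of A. Then any two maximal A-invariant q-subgroups of G are conjugate by an element of K. -/
theorem result {G : Type*} [Group G] [Finite G] (hG : Cfsg.IsMinSimpleOddOrder G)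
    (A : Subgroup G) (hA : Cfsg.TransitivityHypothesis A) (hZ : ¬ Cfsg.RankLE 2 ↥(A ⊓ Subgroup.centralizer (A : Set G)))
    (q : ℕ) (hq : q.Prime) (hqA : ¬ q ∣ Nat.card A) :
    ∀ Q₁ ∈ Cfsg.maxInvSubgroups ⊤ A {q}, ∀ Q₂ ∈ Cfsg.maxInvSubgroups ⊤ A {q}, ∃ k ∈ Cfsg.piCoreOf (Cfsg.primesNotDvd (Nat.card A)) (Subgroup.centralizer (A : Set G)), Q₂ = Q₁.map (MulAut.conj k).toMonoidHom := by
  open Subgroup in
  haveI : FT G := ⟨hG⟩
  haveI := Fact.mk hq
  rw [piCoreOf_eq]
  exact fun Q₁ h₁ Q₂ h₂ => (th_iff.1 hA).trans_of_rank3 (rankLE_iff.not.1 hZ) hqA _ (mi_iff.1 h₁) _ (mi_iff.1 h₂)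

end Cfsg.Agent.S1393
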