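import Cfsg.Statements.S1396
import Cfsg.Agent.H7.BG8

set_option autoImplicit false
open Cfsg

namespace Cfsg.Agent.S1396
open H7
open scoped commutatorElement

/-- Let G be a minimal simple group of odd order, p a prime dividing the order of G and A an abelian p-subgroup. Suppose either (1) A consists exactly of the elements x of C_G(A) with x^p = 1, and every proper subgroup of G has p-length at most one, or (2) A is normal and self-centralizing in some Sylow p-subgroup of G and has rank at least 2. Then A satisfies the transitivity hypothesis. -/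
theorem result {G : Type*} [Group G] [Finite G] (hG : Cfsg.IsMinSimpleOddOrder G)
    (p : ℕ) [Fact p.Prime] (hp : p ∣ Nat.card G) (A : Subgroup G) (hAp : IsPGroup p A) (hAc : IsMulCommutative A)
    (h : (∀ x ∈ Subgroup.centralizer (A : Set G), x ^ p = 1 ↔ x ∈ A) ∧ (∀ H : Subgroup G, H ≠ ⊤ → Cfsg.PLengthLE p 1 H) ∨
      ∃ P : Sylow p G, Cfsg.IsSCN (P : Subgroup G) A ∧ ¬ Cfsg.PRankLE p 1 A) :
    Cfsg.TransitivityHypothesis A := by
  open Subgroup in
  haveI : FT G := ⟨hG⟩
  rw [th_iff]
  rcases h with ⟨h1, h2⟩ | ⟨P, h1, h2⟩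
  · have hm : Om p (cen A) ≤ A := Om_le_iff.2 fun x a b => (h1 x a).1 b
    refine th_of_pl1 ⟨hAc, fun a ha => (h1 a (isComm_iff.1 hAc ha)).2 ha⟩ ?_ hm
      fun H a => pLengthLE_one.1 (h2 H a)
    rintro rfl
    exact Om_ne_bot (H := ⊤) (by rwa [card_top]) (le_bot_iff.1 ((Om_mono (le_cen_bot _)).trans hm))
  · exact th_of_scn (H2.sylow_isSylowIn_top P) h1 (pRankLE_iff.not.1 h2)

end Cfsg.Agent.S1396
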