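import Cfsg.Statements.S1405
import Cfsg.Agent.H7.BG10a

set_option autoImplicit false
open Cfsg

namespace Cfsg.Agent.S1405
open H7
open scoped commutatorElement

/-- Let G be a minimal simple group of odd order and M a maximal subgroup, α(M) the set of primes p with M of p-rank at least 3, and M_α = O_{α(M)}(M). Then M_α is a Hall α(M)-subgroup of M and of G, M_α ≤ M_σ, the quotient M/M_α has no elementary abelian subgroup of order p ^ 3 for any prime p, and the image of M' in M/M_α is nilpotent. -/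
theorem result {G : Type*} [Group G] [Finite G] (hG : Cfsg.IsMinSimpleOddOrder G)
    (M : Subgroup G) (hM : IsCoatom M) :
    Cfsg.IsPiHallOf (Cfsg.alpha M) (Cfsg.alphaCore M) M ∧ Cfsg.IsPiHall (Cfsg.alpha M) (Cfsg.alphaCore M) ∧
      Cfsg.alphaCore M ≤ Cfsg.sigmaCore M ∧ Cfsg.RankLE 2 (↥M ⧸ Cfsg.piCore (Cfsg.alpha M) ↥M) ∧
      Group.IsNilpotent ↥((commutator ↥M).map (QuotientGroup.mk' (Cfsg.piCore (Cfsg.alpha M) ↥M))) := by
  open Subgroup in
  haveI : FT G := ⟨hG⟩
  have hM : Mx M := hM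
  rw [alphaCore_eq, sigmaCore_eq]
  have k : kr (QuotientGroup.mk' (piCore (alpha M) M)) = Ma M := by rw [kr_mk', piCore_map]
  refine ⟨hM.hall_Ma.h1, hall_top_iff.2 (hM.hall_top hM.hall_Ma hM.alpha_sub), hM.Ma_le, rankLE_top.2 fun p hp => ?_, ?_⟩
  · haveI := Fact.mk hp
    rw [← im_mk'_dom]
    by_cases e : p ∈ alpha M
    · refine rk_of_coprime ?_
      rw [card_im le_rfl, k]
      exact coprime_iff_not_dvd.2 (hM.hall_Ma.not_dvd hp e)
    · refine (rk_im le_rfl ?_).2 (rk_of_not_alpha e)
      rw [k]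
      exact ((piN_Opi _ _).of_le inf_le_right).coprime_prime e
  · have e : (commutator M).map M.subtype = ⁅M, M⁆ := by
      rw [commutator_def, map_commutator, map_subtype_top]
    rw [← im_map_subtype, e]
    exact hM.nilM_Ma.nilp_im (der_le M) (by rw [k])

end Cfsg.Agent.S1405
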