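import Cfsg.Statements.S1407
import Cfsg.Agent.H7.BG16b

set_option autoImplicit false
open Cfsg

namespace Cfsg.Agent.S1407
open H7
open scoped commutatorElement

/-- Let G be a minimal simple group of odd order, M a maximal subgroup with M_α ≠ 1, p a prime dividing the order of M but not in σ(M), and P a Sylow p-subgroup of M. Then there is an element x of order p in the centre of P such that M_α ∩ C_G(x) has all Sylow subgroups cyclic and M is not the unique maximal subgroup of G containing C_G(x). -/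
theorem result {G : Type*} [Group G] [Finite G] (hG : Cfsg.IsMinSimpleOddOrder G)
    (M : Subgroup G) (hM : IsCoatom M) (hMα : Cfsg.alphaCore M ≠ ⊥) (p : ℕ) [Fact p.Prime] (hpM : p ∣ Nat.card M) (hp : p ∉ Cfsg.sigma M) (P : Sylow p M) :
    ∃ x : G, x ∈ ((Subgroup.center ↥(P : Subgroup M)).map (P : Subgroup M).subtype).map M.subtype ∧ orderOf x = p ∧
        IsZGroup ↥(Cfsg.alphaCore M ⊓ Subgroup.centralizer ({x} : Set G)) ∧
        ¬ (Subgroup.centralizer ({x} : Set G) ≤ M ∧ ∀ L : Subgroup G, IsCoatom L → Subgroup.centralizer ({x} : Set G) ≤ L → L = M) := by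
  open Subgroup in
  haveI : FT G := ⟨hG⟩
  have hP := H2.isSylowIn_map_subtype P
  obtain ⟨x, a, b, c, d⟩ := Mx.exists_cen1 hM hp hP (syl_ne_bot hP hpM)
  refine ⟨x, ?_, b, ?_, fun e => c ⟨hM, e⟩⟩
  · obtain ⟨y, e, rfl⟩ := a.1
    rw [center_map_subtype]
    exact ⟨y, ⟨e, mem_cen.2 fun z f => Subtype.ext (mem_cen.1 a.2 z ⟨z, f, rfl⟩)⟩, rfl⟩
  · rw [alphaCore_eq]; exact (isZGroup_iff (odd_card _)).2 d

end Cfsg.Agent.S1407
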