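import Cfsg.Statements.S1409
import Cfsg.Agent.H7.BG16b

set_option autoImplicit false
open Cfsg

namespace Cfsg.Agent.S1409
open H7
open scoped commutatorElement

/-- Let G be a minimal simple group of odd order, M a maximal subgroup, p a prime not in σ(M), and X a subgroup of order p with N_G(X) ≤ M. Then M has p-rank exactly 2, p is not an ideal prime for G, and X is contained in some elementary abelian subgroup of G of order p ^ 2. -/
theorem result {G : Type*} [Group G] [Finite G] (hG : Cfsg.IsMinSimpleOddOrder G)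
    (M : Subgroup G) (hM : IsCoatom M) (p : ℕ) [Fact p.Prime] (hp : p ∉ Cfsg.sigma M) (X : Subgroup G) (hX : Nat.card X = p)
    (hNX : Subgroup.normalizer (X : Set G) ≤ M) :
    (Cfsg.PRankLE p 2 M ∧ ¬ Cfsg.PRankLE p 1 M) ∧ ¬ Cfsg.IsIdealPrime p G ∧
      ∃ A : Subgroup G, Cfsg.IsElementaryAbelian p A ∧ Nat.card A = p ^ 2 ∧ X ≤ A := by
  open Subgroup in
  haveI : FT G := ⟨hG⟩
  have pX := pgroup_of_card_p hX
  have a := not_rk1_of_nrm_le hp pX (ne_bot_of_card_p hX) hNX
  refine ⟨⟨pRankLE_iff.2 (Mx.rk2 hM hp), pRankLE_iff.not.2 a⟩, Mx.not_idl hM hp a, ?_⟩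
  obtain ⟨P, b, c⟩ := H2.exists_isSylowIn_ge pX ((le_nrm_self X).trans hNX)
  obtain ⟨A, d, -, e, f⟩ := exists_p2_ge b.isPGroup ((rk_syl b).not.2 a) c hX
  exact ⟨A, e, f, d⟩

end Cfsg.Agent.S1409
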