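import Cfsg.Statements.S1412
import Cfsg.Agent.H7.BG16b

set_option autoImplicit false
open Cfsg

namespace Cfsg.Agent.S1412
open H7
open scoped commutatorElement

/-- Let G be a minimal simple group of odd order, p a prime and P a Sylow p-subgroup of G with no elementary abelian subgroup of order p ^ 3. Then either P is abelian, or P is generated by two elementwise-commuting subgroups P₁, P₂ with P₁ nonabelian of order p ^ 3 and exponent p, P₂ cyclic, and the elements of P₂ of order dividing p generating exactly the centre of P₁. -/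
theorem result {G : Type*} [Group G] [Finite G] (hG : Cfsg.IsMinSimpleOddOrder G) (p : ℕ) [Fact p.Prime] (P : Sylow p G) (hr : Cfsg.PRankLE p 2 (P : Subgroup G)) :
    IsMulCommutative (P : Subgroup G) ∨ ∃ P₁ P₂ : Subgroup G, P₁ ⊔ P₂ = (P : Subgroup G) ∧ (∀ a ∈ P₁, ∀ b ∈ P₂, a * b = b * a) ∧
        ¬ IsMulCommutative P₁ ∧ Nat.card P₁ = p ^ 3 ∧ Monoid.exponent P₁ = p ∧ IsCyclic P₂ ∧
        Subgroup.closure {x : G | x ∈ P₂ ∧ x ^ p = 1} = P₁ ⊓ Subgroup.centralizer (P₁ : Set G) := by
  open Subgroup in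
  haveI : FT G := ⟨hG⟩
  refine or_iff_not_imp_left.2 fun a => ?_
  obtain ⟨S, b⟩ := exists_r2 (H2.sylow_isSylowIn_top P) (pRankLE_iff.1 hr) a
  refine ⟨S, _, b.sup, fun x c y d => (mem_cen.1 d.2 x (b.le c)), b.na, b.card, ?_, b.cyc, b.center.symm⟩
  refine (Nat.Prime.eq_one_or_self_of_dvd Fact.out _ (Monoid.exponent_dvd_of_forall_pow_eq_one
    fun x => Subtype.ext (b.exp x x.2))).resolve_left fun e => b.na ?_
  haveI := Monoid.exp_eq_one_iff.1 e
  infer_instance

end Cfsg.Agent.S1412
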