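import Cfsg.Statements.S1415
import Cfsg.Agent.H7.BG16b

set_option autoImplicit false
open Cfsg

namespace Cfsg.Agent.S1415
open H7
open scoped commutatorElement

/-- Let G be a minimal simple group of odd order, M a maximal subgroup and E a complement to M_σ in M. Then the derived subgroup E' is nilpotent; every Hall τ₁(M)-subgroup of E is cyclic; and every Hall τ₃(M)-subgroup E₃ of E is cyclic, contained in E' and normal in E. -/
theorem result {G : Type*} [Group G] [Finite G] (hG : Cfsg.IsMinSimpleOddOrder G)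
    (M : Subgroup G) (hM : IsCoatom M) (E : Subgroup G) (hE : Cfsg.IsComplIn E (Cfsg.sigmaCore M) M) :
    Group.IsNilpotent ↥⁅E, E⁆ ∧
      (∀ E₁ : Subgroup G, Cfsg.IsPiHallOf (Cfsg.tau1 M) E₁ E → IsCyclic E₁) ∧
      ∀ E₃ : Subgroup G, Cfsg.IsPiHallOf (Cfsg.tau3 M) E₃ E → IsCyclic E₃ ∧ E₃ ≤ ⁅E, E⁆ ∧ E ≤ Subgroup.normalizer (E₃ : Set G) := by
  open Subgroup in
  haveI : FT G := ⟨hG⟩
  have h := Mx.sc_of_compl hM hE
  exact ⟨h.nilp_der, fun E₁ a => Mx.cyc_t1 hM (a.1.trans h.le) a.2.1,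
    fun E₃ a => ⟨h.cyc3 a.1 a.2.1, h.t3_le_der a.1 a.2.1, h.nrm3 a.1 a.2.1⟩⟩

end Cfsg.Agent.S1415
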