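import Cfsg.Statements.S1421
import Cfsg.Agent.H7.BG16b

set_option autoImplicit false
open Cfsg

namespace Cfsg.Agent.S1421
open H7
open scoped commutatorElement

/-- Let G be a minimal simple group of odd order, M a maximal subgroup and E a complement to M_σ in M. Suppose that every non-identity element e of E all of whose order's prime divisors lie in τ₁(M) ∪ τ₃(M) has M_σ ∩ C_G(e) = 1. Then E has an abelian normal subgroup A₀ with E ∩ C_G(x) ≤ A₀ for every non-identity x ∈ M_σ, and E has a subgroup E₀ of the same exponent as E such that no non-identity element of E₀ centralizes a non-identity element of M_σ. -/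
theorem result {G : Type*} [Group G] [Finite G] (hG : Cfsg.IsMinSimpleOddOrder G)
    (M : Subgroup G) (hM : IsCoatom M) (E : Subgroup G) (hE : Cfsg.IsComplIn E (Cfsg.sigmaCore M) M)
    (h : ∀ e ∈ E, e ≠ 1 → (∀ p : ℕ, p.Prime → p ∣ orderOf e → p ∈ Cfsg.tau1 M ∪ Cfsg.tau3 M) →
      Cfsg.sigmaCore M ⊓ Subgroup.centralizer ({e} : Set G) = ⊥) :
    (∃ A₀ : Subgroup G, A₀ ≤ E ∧ E ≤ Subgroup.normalizer (A₀ : Set G) ∧ IsMulCommutative A₀ ∧
        ∀ x ∈ Cfsg.sigmaCore M, x ≠ 1 → E ⊓ Subgroup.centralizer ({x} : Set G) ≤ A₀) ∧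
      ∃ E₀ : Subgroup G, E₀ ≤ E ∧ Monoid.exponent E₀ = Monoid.exponent E ∧
        ∀ e ∈ E₀, e ≠ 1 → Cfsg.sigmaCore M ⊓ Subgroup.centralizer ({e} : Set G) = ⊥ := by
  open Subgroup in
  haveI : FT G := ⟨hG⟩
  have k := Mx.sc_of_compl hM hE
  rw [sigmaCore_eq] at h ⊢
  obtain ⟨a, V, b, c, d⟩ := k.typeF (π := Set.univ) (hall_self fun _ _ _ => trivial) (Set.subset_univ _) (le_nrm_self E)
    fun q hq t X i o => by
      haveI := Fact.mk hq
      obtain ⟨x, j, l⟩ := exists_ne_one (ne_bot_of_card_p o)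
      refine eq_bot_of_le (inf_le_inf_left _ (cen_le_cen1 j)) (h x (i j) l fun r hr m => ?_)
      obtain rfl := (Nat.prime_dvd_prime_iff_eq hr hq).1 (o ▸ m.trans (orderOf_dvd_card' j))
      exact (k.cases hr (dvd_of_card_p i o)).imp_right fun n => n.resolve_left t
  exact ⟨a, V, b, c.exponent_eq b, d⟩

end Cfsg.Agent.S1421
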