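import Cfsg.Statements.S1429
import Cfsg.Agent.H7.BG16b

set_option autoImplicit false
open Cfsg

namespace Cfsg.Agent.S1429
open H7
open scoped commutatorElement

/-- Let G be a minimal simple group of odd order and M a maximal subgroup such that κ(M) is not the whole of the primes of M outside σ(M) (M is not of type P₁). Let p divide the order of M with p ∉ σ(M) ∪ κ(M), S a Sylow p-subgroup of M, and A the subgroup generated by the elements of S of order dividing p. Then A has order at most p ^ 2, M_σ ∩ C_G(A) = 1, and M_σ is nilpotent. -/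
theorem result {G : Type*} [Group G] [Finite G] (hG : Cfsg.IsMinSimpleOddOrder G)
    (M : Subgroup G) (hM : IsCoatom M) (hP1 : ¬ (∀ q : ℕ, q.Prime → q ∣ Nat.card M → q ∉ Cfsg.sigma M → q ∈ Cfsg.kappa M))
    (p : ℕ) [Fact p.Prime] (hpM : p ∣ Nat.card M) (hp : p ∉ Cfsg.sigma M ∪ Cfsg.kappa M) (S : Sylow p M) :
    Nat.card ↥(Subgroup.closure {x : G | x ∈ (S : Subgroup M).map M.subtype ∧ x ^ p = 1}) ≤ p ^ 2 ∧
      Cfsg.sigmaCore M ⊓ Subgroup.centralizer ((Subgroup.closure {x : G | x ∈ (S : Subgroup M).map M.subtype ∧ x ^ p = 1} : Subgroup G) : Set G) = ⊥ ∧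
      Group.IsNilpotent (Cfsg.sigmaCore M) := by
  open Subgroup in
  haveI : FT G := ⟨hG⟩
  have hM : Mx M := hM
  have hS := H2.isSylowIn_map_subtype S
  have s : p ∉ sigma M := fun a => hp (Or.inl a)
  rw [sigmaCore_eq]
  exact ⟨(hM.rk2 s).card_le ((Om_le _ _).trans hS.le) (ea_Om (hM.comm_ns s hS.isPGroup hS.le)),
    hM.cen_Om_eq s (fun a => hp (Or.inr a)) hS (syl_ne_bot hS hpM), hM.nilp_of_not_P1 hP1⟩

end Cfsg.Agent.S1429
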