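import Cfsg.Statements.S1437
import Cfsg.Agent.H7.BG16b

set_option autoImplicit false
open Cfsg

namespace Cfsg.Agent.S1437
open H7
open scoped commutatorElement

/-- Let G be a minimal simple group of odd order and M a maximal subgroup with standard factorisation M = K U M_σ such that M_F ≠ M_σ; put K* = M_σ ∩ C_G(K), p = #K, q = #K*. Then U = 1 and M_σ = M'; p and q are prime, q divides #M_F and q ∈ β(M); M_σ has a Sylow q-subgroup Q normal in M and contained in M_F; every complement D of Q in M_σ is nilpotent, and Q₀ = Q ∩ C_G(D) is normal in M; Q₀ < Q with #Q = #Q₀ · q ^ p, every element of Q has its q-th power and all its commutators with Q in Q₀, and every subgroup strictly between Q₀ and Q fails to be normal in M. -/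
theorem result {G : Type*} [Group G] [Finite G] (hG : Cfsg.IsMinSimpleOddOrder G)
    (M : Subgroup G) (hM : IsCoatom M) (K U : Subgroup G) (hKU : Cfsg.IsSigmaDecomposition M K U) (hne : Cfsg.fittingHallOf M ≠ Cfsg.sigmaCore M) :
    U = ⊥ ∧ Cfsg.sigmaCore M = ⁅M, M⁆ ∧ (Nat.card K).Prime ∧ (Nat.card ↥(Cfsg.sigmaCore M ⊓ Subgroup.centralizer (K : Set G))).Prime ∧
      Nat.card ↥(Cfsg.sigmaCore M ⊓ Subgroup.centralizer (K : Set G)) ∣ Nat.card (Cfsg.fittingHallOf M) ∧ Nat.card ↥(Cfsg.sigmaCore M ⊓ Subgroup.centralizer (K : Set G)) ∈ Cfsg.beta M ∧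
      ∃ Q : Subgroup G, Q ≤ Cfsg.fittingHallOf M ∧ M ≤ Subgroup.normalizer (Q : Set G) ∧ IsPGroup (Nat.card ↥(Cfsg.sigmaCore M ⊓ Subgroup.centralizer (K : Set G))) Q ∧
        ¬ Nat.card ↥(Cfsg.sigmaCore M ⊓ Subgroup.centralizer (K : Set G)) ∣ Q.relIndex (Cfsg.sigmaCore M) ∧
        ∀ D : Subgroup G, Cfsg.IsComplIn Q D (Cfsg.sigmaCore M) →
          Group.IsNilpotent D ∧ M ≤ Subgroup.normalizer ((Q ⊓ Subgroup.centralizer (D : Set G) : Subgroup G) : Set G) ∧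
          Q ⊓ Subgroup.centralizer (D : Set G) < Q ∧
          Nat.card Q = Nat.card ↥(Q ⊓ Subgroup.centralizer (D : Set G)) * Nat.card ↥(Cfsg.sigmaCore M ⊓ Subgroup.centralizer (K : Set G)) ^ Nat.card K ∧
          (∀ a ∈ Q, ∀ b ∈ Q, a ^ Nat.card ↥(Cfsg.sigmaCore M ⊓ Subgroup.centralizer (K : Set G)) ∈ Q ⊓ Subgroup.centralizer (D : Set G) ∧
            a * b * a⁻¹ * b⁻¹ ∈ Q ⊓ Subgroup.centralizer (D : Set G)) ∧
          ∀ N : Subgroup G, Q ⊓ Subgroup.centralizer (D : Set G) < N → N < Q → ¬ M ≤ Subgroup.normalizer (N : Set G) := by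
  open Subgroup in
  haveI : FT G := ⟨hG⟩
  have k := Mx.kc hM hKU
  rw [fittingHallOf_eq, sigmaCore_eq] at hne ⊢
  have n := k.mx.MF_eq_iff.not.1 hne
  have c := k.U_eq.2 (k.mx.P1_of n)
  have d := k.pt fun e => k.U_ne e c
  have h : NN (ord (Kst M K)) M K := ⟨d, n, rfl⟩
  haveI := Fact.mk h.prime
  refine ⟨c, h.der.symm, h.prime_K, h.prime, card_dvd_of_le d.Kst_le_MF, h.beta, _, h.Q_le_MF, le_nrm_Opi _ _,
    isPGroup_Op _ _, (hall_single.1 h.hallQ).not_dvd, fun D a => ?_⟩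
  have s := H9F.sd_of_compl a (NN.nQ (a.2.1.trans (Opi_le _ _)))
  have hD : Hall {ord (Kst M K)}ᶜ D (Ms M) := ⟨s.le₂, s.relIndex ▸ h.hallQ.idx, by
    rw [s.relIndex', compl_compl]; exact h.hallQ.pi⟩
  obtain ⟨D', i, j⟩ := h.exists_D
  obtain ⟨g, l, rfl⟩ := i.conj hD (k.mx.solv_of_le (Opi_le _ _))
  have gM := Opi_le _ _ l
  have e : Op (ord (Kst M K)) M ⊓ cen (cj g D') = Op (ord (Kst M K)) M ⊓ cen D' := by
    rw [← cj_of_mem_nrm (h.nrm_Q0 i j gM), cj_inf, cj_cen, cj_of_mem_nrm (le_nrm_Opi _ _ gM)]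
  rw [e]
  refine ⟨h.nilp_D hD, h.nrm_Q0 i j, h.Q0_lt i, (h.frob i j).2.1, fun x m y o => ⟨h.Phi_le i j (pow_mem_Phi (isPGroup_Op _ _) m),
    h.Phi_le i j (comm_le_Phi (nilp_of_isPGroup (isPGroup_Op _ _)) (commutator_mem_commutator m o))⟩, fun N m o u => ?_⟩
  exact o.ne (h.eq_Q i j m o.le ((sup_le d.le (NN.D_le i)).trans u))

end Cfsg.Agent.S1437
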