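import Cfsg.Statements.S1441
import Cfsg.Agent.H7.Puig

set_option autoImplicit false
open Cfsg

namespace Cfsg.Agent.S1441
open H7
open scoped commutatorElement

/-- Let G be a finite group, H a solvable subgroup and A a subgroup normalizing H. Suppose there is a chain H = H₀ ≥ H₁ ≥ ⋯ ≥ H_n = 1 of subgroups normal in H and normalized by A such that A acts trivially on each factor H_{i-1}/H_i (that is, [H_{i-1}, A] ≤ H_i). Then every prime dividing the index of C_A(H) in A divides the order of H. -/
theorem result {G : Type*} [Group G] [Finite G] (H A : Subgroup G) (hH : Group.IsSolvable H) (hA : (A ≤ Subgroup.normalizer (H : Set G)))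
    (n : ℕ) (c : Fin (n + 1) → Subgroup G) (hc0 : c 0 = H) (hcn : c (Fin.last n) = ⊥) (hanti : Antitone c)
    (hcN : ∀ i, H ≤ Subgroup.normalizer ((c i : Subgroup G) : Set G)) (hcA : ∀ i, A ≤ Subgroup.normalizer ((c i : Subgroup G) : Set G))
    (htriv : ∀ i : Fin n, ⁅c i.castSucc, A⁆ ≤ c i.succ) :
    ∀ p : ℕ, p.Prime → p ∣ (A ⊓ Subgroup.centralizer (H : Set G)).relIndex A → p ∣ Nat.card H := by
  open Subgroup in
  intro p hp hd
  by_contra hn
  haveI := Fact.mk hp
  obtain ⟨S, hS⟩ := H2.exists_isSylowIn p A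
  refine hS.not_dvd (hd.trans (relIndex_dvd_of_le_left _ (le_inf hS.le ?_)))
  refine cen_of_iter (coprime_of_isPGroup hS.isPGroup (coprime_iff_not_dvd.2 hn)).symm (hS.le.trans hA)
    (fun i => if h : i < n + 1 then c ⟨i, h⟩ else ⊥) (by simpa using hc0) (fun i => ?_) (fun i => ?_)
    (n := n + 1) (by simp)
  · by_cases h : i < n
    · rw [dif_pos (by omega), dif_pos (by omega)]
      exact (commutator_mono le_rfl hS.le).trans (htriv ⟨i, h⟩)
    · by_cases h' : i = n
      · subst h'; rw [dif_pos (by omega), show c ⟨i, _⟩ = ⊥ from hcn]; simp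
      · rw [dif_neg (by omega)]; simp
  · split_ifs
    · exact hc0 ▸ hanti (Fin.zero_le _)
    · exact bot_le

end Cfsg.Agent.S1441
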