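import Cfsg.Statements.S1445
import Cfsg.Agent.H1.BG3c

set_option autoImplicit false
open Cfsg

namespace Cfsg.Agent.S1445

open H7 H1B

/-- Let G be a solvable group of odd order, K a normal subgroup and R a subgroup with G = KR and the orders of K and R coprime. Suppose K ∩ C_G(x) = K ∩ C_G(R) for every non-identity x ∈ R, and F(K) ∩ C_G(R) = 1. Then [K, R] is contained in the Fitting subgroup of K. -/
theorem result {G : Type*} [Group G] [Finite G] [Group.IsSolvable G] (hodd : Odd (Nat.card G)) (K R : Subgroup G) [K.Normal] (hKR : K ⊔ R = ⊤) (hcop : (Nat.card K).Coprime (Nat.card R))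
    (hprime : ∀ x ∈ R, x ≠ 1 → K ⊓ Subgroup.centralizer ({x} : Set G) = (K ⊓ Subgroup.centralizer (R : Set G)))
    (hF : Cfsg.fittingOf K ⊓ Subgroup.centralizer (R : Set G) = ⊥) :
    ⁅K, R⁆ ≤ Cfsg.fittingOf K := by
  rw [fittingOf_eq] at hF ⊢
  exact comm_le_Fit inferInstance (le_nrm_of_normal _ _) hcop.symm (coprime_of_le le_top (cop2_top hodd))
    hprime hF

end Cfsg.Agent.S1445
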