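import Cfsg.Statements.S1451
import Cfsg.Agent.H1.Top

set_option autoImplicit false
open Cfsg

namespace Cfsg.Agent.S1451

open H7 H1B

/-- Let G be a solvable group of odd order such that G, or its Fitting subgroup, has no elementary abelian subgroup of order q ^ 3 for any prime q. Then G' is nilpotent; for every Sylow subgroup S of G, every characteristic subgroup T of S with T ≤ [S, S] is normal in G; and for every prime p, G has a characteristic subgroup that is a Hall subgroup for the set of primes greater than p. -/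
theorem result {G : Type*} [Group G] [Finite G] [Group.IsSolvable G] (hodd : Odd (Nat.card G)) (hr : Cfsg.RankLE 2 G ∨ Cfsg.RankLE 2 (Cfsg.fittingSubgroup G)) :
    Group.IsNilpotent ↥(commutator G) ∧
      (∀ (q : ℕ) [Fact q.Prime] (S : Sylow q G) (T : Subgroup ↥(S : Subgroup G)), T.Characteristic → T.map (S : Subgroup G).subtype ≤ ⁅(S : Subgroup G), (S : Subgroup G)⁆ →
        (T.map (S : Subgroup G).subtype).Normal) ∧
      ∀ p : ℕ, ∃ N : Subgroup G, N.Characteristic ∧ Cfsg.IsPiHall {q | q.Prime ∧ p < q} N := by
  open Subgroup in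
  have h1 : Rnk 2 (Fit (⊤ : Subgroup G)) := hr.elim (fun h => (rankLE_top.1 h).of_le le_top)
    fun h => fitting_eq (G := G) ▸ rankLE_iff.1 h
  have h2 := der_le_Fit_rk2 inferInstance (cop2_top hodd) h1
  refine ⟨nilp_of_le h2 (nilp_Fit _), fun q _ S T hT h => normal_iff_top_le_nrm.2 (nrm_of_der_le_Fit h2
    (H2.sylow_isSylowIn_top S) (le_inf (map_subtype_le _) (h.trans ((commutator_mono le_top le_top).trans h2)))
    (inf_le_right.trans nrm_map_of_char)), fun p => ⟨_, char_Opi {q | p < q}, hall_top_iff.2
      ((hall_Opi_gt inferInstance (cop2_top hodd) h1 p).congr fun q hq _ => by simp [hq])⟩⟩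

end Cfsg.Agent.S1451
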