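import Cfsg.Statements.S1454
import Cfsg.Agent.H1.Top

set_option autoImplicit false
open Cfsg

namespace Cfsg.Agent.S1454

open H7 H1B

/-- Let G be a finite group, p an odd prime, R a narrow p-subgroup and A a solvable subgroup of odd order normalizing R with A ∩ C_G(R) = 1. Then [A, A] ≤ O_p(A) and the index of O_p(A) in A is coprime to p; if R has an elementary abelian subgroup of order p ^ 3 then the order of every element of A of order coprime to p divides p − 1; and if the order of A is a prime not dividing p(p − 1), then 2·#A divides p + 1, and if in addition [R, A] = R and R is non-abelian then #R = p ^ 3. -/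
theorem result {G : Type*} [Group G] [Finite G] (p : ℕ) [Fact p.Prime] (hp : p ≠ 2) (R A : Subgroup G) (hR : IsPGroup p R) (hRn : Cfsg.IsNarrow p R)
    (hA : (A ≤ Subgroup.normalizer (R : Set G))) (hAs : Group.IsSolvable A) (hAodd : Odd (Nat.card A)) (hfaith : A ⊓ Subgroup.centralizer (R : Set G) = ⊥) :
    (commutator ↥A ≤ Cfsg.pCore p ↥A ∧ ((Cfsg.pCore p ↥A).index).Coprime p) ∧
      (¬ Cfsg.PRankLE p 2 R → ∀ a ∈ A, (orderOf a).Coprime p → orderOf a ∣ p - 1) ∧
      ((Nat.card A).Prime → ¬ Nat.card A ∣ p * (p - 1) →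
        2 * Nat.card A ∣ p + 1 ∧ (⁅R, A⁆ = R → ¬ IsMulCommutative R → Nat.card R = p ^ 3)) := by
  open Subgroup in
  have h := (isNarrow_iff hp hR).1 hRn
  have ho := odd_iff_coprime.1 hAodd
  have h1 : IsPGroup p (⁅A, A⁆ : Subgroup G) := pRes_eq_bot_iff.1 (le_bot_iff.1 (hfaith ▸ le_inf
    ((H2.pRes_le _).trans (commutator_le_self A)) (h.pRes_der hp hR hA ho)))
  have h2 := le_Op (commutator_le_self A) (normalizer_commutator_ge_left A A) h1
  refine ⟨⟨?_, ?_⟩, fun hr a ha hc => orderOf_dvd_of_pow_eq_one (mem_bot.1 (hfaith.le ⟨pow_mem ha _,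
    h.pow_cen hp hR (mt pRankLE_iff.2 hr) (hA ha) hc⟩)), fun hq hd => ?_⟩
  · rwa [le_iff_map, der_map, pCore_map]
  · have hn := le_nrm_Opi {p} A
    have := nilp_relIndex_Opi (nilp_of_comm (isComm_iff.2 ((im_qm_le_cen hn hn).2 h2))) {p}
    rw [Opi_im_qm, relIndex_bot_left, card_im_qm hn] at this
    rw [← relIndex_map_subtype, pCore_map]
    exact piN_compl_iff.1 this
  · have := Fact.mk hq
    obtain ⟨h3, h4⟩ := h.rk_dvd hp hR (IsPGroup.of_card (pow_one _).symm) hd hA fun e =>
      hq.ne_one (by rw [← inf_eq_left.2 e, hfaith, card_bot])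
    exact ⟨h4, fun a b => (card_eq_of_comm hp hR h3 hA ((Nat.Prime.coprime_iff_not_dvd hq).2 hd) a b).1⟩

end Cfsg.Agent.S1454
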