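import Cfsg.Statements.S1457
import Cfsg.Agent.H7.Puig

set_option autoImplicit false
open Cfsg

namespace Cfsg.Agent.S1457
open H7
open scoped commutatorElement

/-- Let G be a solvable group of odd order, p a prime, S a Sylow p-subgroup of G and A an abelian subgroup of S normal in S. Then A ≤ O_{p',p}(G). -/
theorem result {G : Type*} [Group G] [Finite G] [Group.IsSolvable G] (hodd : Odd (Nat.card G)) (p : ℕ) [Fact p.Prime] (S : Sylow p G) (A : Subgroup G) (hA : A ≤ (S : Subgroup G)) (hAc : IsMulCommutative A)
    (hAn : (S : Subgroup G) ≤ Subgroup.normalizer (A : Set G)) :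
    A ≤ Cfsg.pPrimePCore p G := by
  open Subgroup in
  rw [pPrimePCore_eq]
  by_cases h2 : p = 2
  · subst h2
    rw [eq_bot_of_isPGroup_of_coprime (S.isPGroup'.to_le hA) (coprime_of_le le_top
      (by rw [card_top]; exact odd_iff_coprime.1 hodd))]
    exact bot_le
  exact comm_le_Opp' h2 inferInstance (by rw [card_top]; exact odd_iff_coprime.1 hodd)
    (H2.sylow_isSylowIn_top S) le_top hAc hAn

end Cfsg.Agent.S1457
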