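import Cfsg.Statements.S1458
import Cfsg.Agent.H7.FF4

set_option autoImplicit false
open Cfsg

namespace Cfsg.Agent.S1458
open H7
open scoped commutatorElement

/-- Let G be a solvable group of odd order, p a prime and S a Sylow p-subgroup of G. Then the subgroup generated by the centre of the Thompson subgroup of S and O_{p'}(G) is normal in G. -/
theorem result {G : Type*} [Group G] [Finite G] [Group.IsSolvable G] (hodd : Odd (Nat.card G)) (p : ℕ) [Fact p.Prime] (S : Sylow p G) :
    (Cfsg.centerThompsonOf p (S : Subgroup G) ⊔ Cfsg.pPrimeCore p G).Normal := by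
  open Subgroup in
  have hS := H2.sylow_isSylowIn_top S
  rw [pPrimeCore_eq]
  have o := H1B.cop2_top hodd
  by_cases h2 : p = 2
  · subst h2
    have : centerThompsonOf 2 (S : Subgroup G) = ⊥ :=
      eq_bot_of_le (H2.ZJ_le _) (eq_bot_of_isPGroup_of_coprime S.isPGroup' (coprime_of_le le_top o))
    rw [this, bot_sup_eq]; exact normal_iff_top_le_nrm.2 (le_nrm_Opi _ _)
  have D : (⊤ : Subgroup G) ≤ normalizer (Op' p (⊤ : Subgroup G) : Set G) := le_nrm_Opi _ _
  have s : Group.IsSolvable (im (qm (Op' p ⊤)) (⊤ : Subgroup G)) := solv_im _ inferInstance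
  have := H2.zj_normal h2 (Or.inr rfl) (syl_im hS D (qm _)) (fun B _ b2 b3 A a1 _ a3 =>
    pstable' h2 s (coprime_im _ o) b2 b3 a1 a3) (cen_Op_le s (Opi_im_qm _ _))
  have k : (S : Subgroup G) ⊓ kr (qm (Op' p ⊤)) = ⊥ := by
    rw [kr_qm]; exact inf_eq_bot_of_isPGroup S.isPGroup' (coprime_Op' p _)
  have l : thompsonSubgroupOf p (S : Subgroup G) ≤ S := map_subtype_le _
  rw [centerThompsonOf, ← im_J (le_top.trans D) k, ← im_center (le_top.trans D) (eq_bot_of_le (inf_le_inf_right _ l) k),
    ← im_qm_sup (A := _ ⊓ _) (le_top.trans D), im_le_nrm_iff D (le_top.trans D) ((kr_qm _).le.trans le_sup_right)] at this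
  exact normal_iff_top_le_nrm.2 this

end Cfsg.Agent.S1458
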