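import Cfsg.Statements.S1459
import Cfsg.Agent.H7.Puig

set_option autoImplicit false
open Cfsg

namespace Cfsg.Agent.S1459
open H7
open scoped commutatorElement

/-- Let G be a finite solvable group. (a) If H is a normal subgroup of order coprime to its index, K is a complement to H, and H ≤ G', then H = [H, K] and H ∩ C_G(K) ≤ [H, H]. (b) If G' is nilpotent and has prime index in G, then the order of G' is coprime to its index and G' = [G, K] (the subgroup generated by commutators of elements of G with elements of K) for every complement K of G'. -/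
theorem result {G : Type*} [Group G] [Finite G] [Group.IsSolvable G] :
    (∀ (H K : Subgroup G), H.Normal → (Nat.card H).Coprime H.index → Subgroup.IsComplement' H K → H ≤ commutator G →
        H = ⁅H, K⁆ ∧ H ⊓ Subgroup.centralizer (K : Set G) ≤ ⁅H, H⁆) ∧
      (Group.IsNilpotent ↥(commutator G) → (commutator G).index.Prime →
        (Nat.card ↥(commutator G)).Coprime (commutator G).index ∧
        ∀ K : Subgroup G, Subgroup.IsComplement' (commutator G) K → commutator G = ⁅(⊤ : Subgroup G), K⁆) := by
  open Subgroup in
  have key : ∀ (H K : Subgroup G), H.Normal → (Nat.card H).Coprime H.index → Subgroup.IsComplement' H K →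
      H ≤ _root_.commutator G → H = ⁅H, K⁆ ∧ H ⊓ cen K ≤ ⁅H, H⁆ := fun H K hn hc hK hd => by
    obtain ⟨h1, h2⟩ := H1.isComplement'_iff_sup_inf.1 hK
    have := comm_eq_of_le_der (H := H) inferInstance (le_nrm_of_normal K H) h2 (by rwa [h1])
    exact ⟨this.symm, cen_le_der_of_comm_eq ⟨le_nrm_of_normal K H, by
      rw [← hK.symm.index_eq_card]; exact hc.symm, Or.inl inferInstance⟩ this⟩
  refine ⟨key, fun h1 h2 => ?_⟩
  have h3 := coprime_der_of_prime (M := ⊤) h1 (by rwa [relIndex_top_right])
  rw [relIndex_top_right] at h3
  exact ⟨h3, fun K hK => le_antisymm ((key _ K inferInstance h3 hK le_rfl).1.le.trans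
    (commutator_mono le_top le_rfl)) (commutator_mono le_rfl le_top)⟩

end Cfsg.Agent.S1459
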