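import Cfsg.Statements.S1463
import Cfsg.Agent.H1.Top

set_option autoImplicit false
open scoped MatrixGroups
open Cfsg

namespace Cfsg.Agent.S1463

open H7 H1B

/-- Let F be a field of odd characteristic p and H a finite subgroup of odd order of GL(2, F) that leaves no 1-dimensional subspace of F² invariant. Then p does not divide the order of H. -/
theorem result {F : Type*} [Field F] (p : ℕ) [Fact p.Prime] [CharP F p] (hp : p ≠ 2)
    (H : Subgroup (GL (Fin 2) F)) [Finite H] (hodd : Odd (Nat.card H))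
    (hirr : ∀ v : Fin 2 → F, v ≠ 0 → ∃ g ∈ H, (g : Matrix (Fin 2) (Fin 2) F).mulVec v ∉ Submodule.span F {v}) :
    ¬ p ∣ Nat.card H := by
  open Subgroup in
  let ρ : H →* Matrix (Fin 2) (Fin 2) F := (Units.coeHom _).comp H.subtype
  have hρ : Function.Injective ρ := Units.val_injective.comp H.subtype_injective
  rcases comm_or_Op_ne_bot (H := ⊤) hρ (cop2_top hodd) with ⟨-, h⟩ | ⟨q, hq, h1, h2⟩
  · rwa [card_top, Ne, CharP.cast_eq_zero_iff F p] at h
  · obtain ⟨v, hv, h⟩ := exists_line_of_Op hρ hq h1 h2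
    obtain ⟨g, hg, h3⟩ := hirr v hv
    exact absurd (h ⟨g, hg⟩ (mem_top _)) h3

end Cfsg.Agent.S1463
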