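import Cfsg.Statements.S1466
import Cfsg.Agent.H7.Puig

set_option autoImplicit false
open Cfsg

namespace Cfsg.Agent.S1466
open H7
open scoped commutatorElement

/-- Let p be a prime and R a nontrivial finite p-group. Then for every i > 0, Z(R) ≤ C_R(L_i(R)) ≤ L_i(R); likewise Z(R) ≤ C_R(L_*(R)) ≤ L_*(R) and Z(R) ≤ C_R(L(R)) ≤ L(R); and L(R) ≠ 1, L_*(R) ≠ 1. -/
theorem result {R : Type*} [Group R] [Finite R] (p : ℕ) [Fact p.Prime] (hR : IsPGroup p R) [Nontrivial R] :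
    (∀ i : ℕ, 0 < i → Subgroup.center R ≤ Subgroup.centralizer ((Cfsg.puigSeq R i : Subgroup R) : Set R) ∧
        Subgroup.centralizer ((Cfsg.puigSeq R i : Subgroup R) : Set R) ≤ Cfsg.puigSeq R i) ∧
      (Subgroup.center R ≤ Subgroup.centralizer ((Cfsg.puigLower R : Subgroup R) : Set R) ∧ Subgroup.centralizer ((Cfsg.puigLower R : Subgroup R) : Set R) ≤ Cfsg.puigLower R) ∧
      (Subgroup.center R ≤ Subgroup.centralizer ((Cfsg.puigSubgroup R : Subgroup R) : Set R) ∧ Subgroup.centralizer ((Cfsg.puigSubgroup R : Subgroup R) : Set R) ≤ Cfsg.puigSubgroup R) ∧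
      Cfsg.puigSubgroup R ≠ ⊥ ∧ Cfsg.puigLower R ≠ ⊥ := by
  open Subgroup in
  have hn : Group.IsNilpotent (⊤ : Subgroup R) := nilp_of_isPGroup (hR.to_subgroup ⊤)
  simp only [puigSeq_eq, puig_eq, puigLower_eq, ← cen_top]
  have h1 := cen_PuL_le hn
  have h2 := cen_Pu_le hn
  rw [top_inf_eq] at h1 h2
  have h3 : PuL (⊤ : Subgroup R) ≠ ⊥ := fun e => by rw [e, cen_bot] at h1; exact absurd h1 (by simp)
  refine ⟨fun i hi => ⟨cen_anti le_top, ?_⟩, ⟨cen_anti le_top, h1⟩, ⟨cen_anti le_top, h2⟩,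
    fun e => h3 (le_bot_iff.1 (e ▸ PuL_le_Pu _)), h3⟩
  obtain ⟨j, rfl⟩ := Nat.exists_eq_add_of_le' hi
  simpa only [top_inf_eq] using cen_PuN_le hn j

end Cfsg.Agent.S1466
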