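import Cfsg.Statements.S1469
import Cfsg.Agent.H7.Puig

set_option autoImplicit false
open Cfsg

namespace Cfsg.Agent.S1469
open H7
open scoped commutatorElement

/-- Let p be an odd prime, G a solvable group of odd order and S a Sylow p-subgroup, and let Z be the centre of the Puig subgroup L(S), viewed inside G. Then G is generated by O_{p'}(G) and N_G(Z); and if O_{p'}(G) = 1 then Z is normal in G. -/
theorem result {G : Type*} [Group G] [Finite G] [Group.IsSolvable G] (hodd : Odd (Nat.card G)) (p : ℕ) [Fact p.Prime] (hp : p ≠ 2) (S : Sylow p G) :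
    Cfsg.pPrimeCore p G ⊔ Subgroup.normalizer ((((Subgroup.center ↥(Cfsg.puigSubgroup ↥(S : Subgroup G))).map (Cfsg.puigSubgroup ↥(S : Subgroup G)).subtype).map (S : Subgroup G).subtype : Subgroup G) : Set G) = ⊤ ∧
      (Cfsg.pPrimeCore p G = ⊥ → (((Subgroup.center ↥(Cfsg.puigSubgroup ↥(S : Subgroup G))).map (Cfsg.puigSubgroup ↥(S : Subgroup G)).subtype).map (S : Subgroup G).subtype).Normal) := by
  open Subgroup in
  have ho : (ord (⊤ : Subgroup G)).Coprime 2 := by rw [card_top]; exact odd_iff_coprime.1 hodd
  rw [center_map_subtype, Subgroup.map_inf _ _ _ (subtype_injective _), map_cen_subtype, puig_map,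
    ← inf_assoc, inf_eq_left.2 (Pu_le _), pPrimeCore_eq]
  exact ⟨by simpa only [top_inf_eq] using puig_factor hp inferInstance ho (H2.sylow_isSylowIn_top S),
    fun hO => normal_iff_top_le_nrm.2 (nrm_center_Pu hp inferInstance ho hO (H2.sylow_isSylowIn_top S))⟩

end Cfsg.Agent.S1469
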