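import Cfsg.Statements.S1473
import Cfsg.Agent.H7.CN

set_option autoImplicit false
open Cfsg

namespace Cfsg.Agent.S1473
open H7
open scoped commutatorElement

/-- Let G be a finite group in which the centralizer of every non-identity element is nilpotent, and H a solvable normal subgroup of G. Then in G/H the centralizer of every non-identity element is nilpotent. -/
theorem result {G : Type*} [Group G] [Finite G] (hCN : Cfsg.IsCNGroup G) (H : Subgroup G) [H.Normal] (hH : Group.IsSolvable H) :
    Cfsg.IsCNGroup (G ⧸ H) := by
  open Subgroup in
  exact cn_quot _ G (QuotientGroup.mk' H) rfl (QuotientGroup.mk'_surjective H) (by rwa [QuotientGroup.ker_mk']) hCN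

end Cfsg.Agent.S1473
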