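import Cfsg.Statements.S1474
import Cfsg.Agent.H7.CN

set_option autoImplicit false
open Cfsg

namespace Cfsg.Agent.S1474
open H7
open scoped commutatorElement

/-- Let G be a finite group in which every non-identity element has nilpotent centralizer, not itself nilpotent, and having a nontrivial normal Sylow p-subgroup for some prime p. Let H be the largest normal nilpotent Hall subgroup of G. Then H is a nontrivial proper normal subgroup with a complement E that is a Frobenius complement in G (no non-identity element of E centralizes a non-identity element of H), and G/H is nilpotent. -/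
theorem result {G : Type*} [Group G] [Finite G] (hCN : Cfsg.IsCNGroup G) (hnn : ¬ Group.IsNilpotent G) (p : ℕ) [Fact p.Prime] (P : Sylow p G)
    (hP1 : (P : Subgroup G) ≠ ⊥) (hPn : (P : Subgroup G).Normal) :
    Cfsg.fittingHall G ≠ ⊥ ∧ Cfsg.fittingHall G ≠ ⊤ ∧
      (∃ E : Subgroup G, Subgroup.IsComplement' (Cfsg.fittingHall G) E ∧ Cfsg.IsFrobeniusComplement E ∧
        ∀ e ∈ E, e ≠ 1 → Cfsg.fittingHall G ⊓ Subgroup.centralizer ({e} : Set G) = ⊥) ∧
      Group.IsNilpotent (G ⧸ Cfsg.fittingHall G) := by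
  open Subgroup in
  have h1 : MF (⊤ : Subgroup G) ≠ ⊥ := fun e => hP1 (eq_bot_of_le (le_MF le_top (le_nrm_of_normal _ _)
    (nilp_of_isPGroup P.isPGroup') (syl_coprime (H2.sylow_isSylowIn_top P))) e)
  obtain ⟨t, E, e1, e2, e3, e4⟩ := cn_frob hCN hnn h1
  rw [← fittingHall_top] at h1 t e1 e3
  refine ⟨h1, t, ⟨E, e1, e2, e3⟩, nilpotent_of_surjective ((QuotientGroup.mk' _).comp E.subtype) fun x => ?_⟩
  obtain ⟨g, rfl⟩ := QuotientGroup.mk'_surjective _ x
  obtain ⟨⟨a, b⟩, rfl⟩ := e1.2 g
  exact ⟨b, by simp [(QuotientGroup.eq_one_iff _).2 a.2]⟩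

end Cfsg.Agent.S1474
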