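import Cfsg.Statements.S1475
import Cfsg.Agent.H7.CN

set_option autoImplicit false
open Cfsg

namespace Cfsg.Agent.S1475
open H7
open scoped commutatorElement

/-- Let G be a finite solvable group such that the order of every element is a prime power (1 included). Then at most two distinct primes divide the order of G. -/
theorem result {G : Type*} [Group G] [Finite G] [Group.IsSolvable G] (h : ∀ g : G, IsPrimePow (orderOf g) ∨ g = 1) :
    (Nat.card G).primeFactors.card ≤ 2 := by
  open Subgroup in
  have k : ∀ x y : G, x * y = y * x → (orderOf x).Coprime (orderOf y) → x = 1 ∨ y = 1 := fun x y c d => by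
    have e := Commute.orderOf_mul_eq_mul_orderOf_of_coprime c d
    have := orderOf_pos x
    have := orderOf_pos y
    rcases h (x * y) with k | k
    · rw [e] at k
      rcases (d.isPrimePow_dvd_mul k).1 dvd_rfl with l | l
      · exact .inr (orderOf_eq_one_iff.1 (by have := Nat.le_of_dvd (by omega) l; nlinarith))
      · exact .inl (orderOf_eq_one_iff.1 (by have := Nat.le_of_dvd (by omega) l; nlinarith))
    · rw [k, orderOf_one] at e
      exact .inl (orderOf_eq_one_iff.1 (Nat.eq_one_of_mul_eq_one_right e.symm))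
  by_cases h1 : (⊤ : Subgroup G) = ⊥
  · rw [← card_top, h1, card_bot]; simp
  obtain ⟨p, hp, h2⟩ := exists_Op_ne_bot inferInstance h1
  haveI := Fact.mk hp
  obtain ⟨E, hE⟩ := exists_hall (M := (⊤ : Subgroup G)) {p}ᶜ inferInstance
  have cE := piN_compl_iff.1 hE.pi
  have r : Reg (Op p ⊤) E := fun a ha a1 => eq_bot_iff.2 fun x hx => ((k a x (mem_cen1.1 hx.2).symm
    ((coprime_of_isPGroup (isPGroup_Op p ⊤) (coprime_orderOf ha cE)).coprime_dvd_right (orderOf_dvd_card' hx.1))).resolve_left a1)
  obtain ⟨q, hq⟩ : ∃ q, ∀ r, r.Prime → r ∣ Nat.card E → r = q := by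
    by_cases e : E = ⊥
    · exact ⟨0, fun r hr d => absurd e (ne_bot_of_dvd hr d)⟩
    obtain ⟨q, hq, d⟩ := exists_prime_dvd (r.center_ne_bot (le_top.trans (le_nrm_Opi _ _)) h2 (nilp_of_isPGroup (isPGroup_Op p ⊤)) e)
    obtain ⟨z, hz, o⟩ := exists_orderOf_eq hq d
    refine ⟨q, fun r hr d => by_contra fun n => ?_⟩
    obtain ⟨y, hy, o'⟩ := exists_orderOf_eq hr d
    rcases k y z (mem_cen.1 hz.2 y hy) (by rw [o, o']; exact (Nat.coprime_primes hr hq).2 n) with rfl | rfl
    · exact hr.one_lt.ne (by rw [← o', orderOf_one])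
    · exact hq.one_lt.ne (by rw [← o, orderOf_one])
  refine (Finset.card_le_card (t := {p, q}) fun r hr => ?_).trans Finset.card_le_two
  have h3 := Nat.prime_of_mem_primeFactors hr
  by_cases e : r = p
  · simp [e]
  · simp [hq r h3 (hE.dvd_card h3 e (by rw [card_top]; exact Nat.dvd_of_mem_primeFactors hr))]

end Cfsg.Agent.S1475
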