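import Cfsg.Statements.S1476
import Cfsg.Agent.H7.CN

set_option autoImplicit false
open Cfsg

namespace Cfsg.Agent.S1476
open H7
open scoped commutatorElement

/-- Let G be a finite solvable group in which every non-identity element has nilpotent centralizer. Then either G is nilpotent; or G has a normal subgroup K with a Frobenius complement E (K E = G, K ∩ E = 1, E meets its conjugates by outside elements trivially) such that E is cyclic or E is generated by two elementwise-commuting subgroups, one cyclic of odd order and one isomorphic to a generalized quaternion group; or G is a three-step group with respect to some prime p. -/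
theorem result {G : Type*} [Group G] [Finite G] [Group.IsSolvable G] (hCN : Cfsg.IsCNGroup G) :
    Group.IsNilpotent G ∨
      (∃ K E : Subgroup G, K.Normal ∧ Subgroup.IsComplement' K E ∧ Cfsg.IsFrobeniusComplement E ∧
        (IsCyclic E ∨ ∃ C Q : Subgroup G, C ⊔ Q = E ∧ (∀ a ∈ C, ∀ b ∈ Q, a * b = b * a) ∧ IsCyclic C ∧ Odd (Nat.card C) ∧
          ∃ n : ℕ, Nonempty (↥Q ≃* QuaternionGroup (2 ^ n)))) ∨
      ∃ p : ℕ, p.Prime ∧ Cfsg.IsThreeStepGroup p G := by
  open Subgroup in
  refine or_iff_not_imp_left.2 fun hn => ?_
  by_cases h1 : MF (⊤ : Subgroup G) = ⊥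
  · obtain ⟨p, hp, h2⟩ := exists_Op_ne_bot (H := (⊤ : Subgroup G)) inferInstance fun e => hn (by
      have := nilp_bot (G := G)
      rw [← e] at this; exact (Group.isNilpotent_congr topEquiv).1 this)
    haveI := Fact.mk hp
    exact .inr ⟨p, hp, cn_three hCN inferInstance h2 h1⟩
  obtain ⟨t, E, e1, e2, e3, e4⟩ := cn_frob hCN hn h1
  exact .inl ⟨_, E, normal_iff_top_le_nrm.2 (le_nrm_MF ⊤), e1, e2, e3.nilp_struct (le_top.trans (le_nrm_MF ⊤)) h1 e4⟩

end Cfsg.Agent.S1476
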