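import Cfsg.Statements.S1477
import Cfsg.Agent.H7.CN
import Cfsg.Agent.H7.Bend

set_option autoImplicit false
open Cfsg

namespace Cfsg.Agent.S1477
open H7
open scoped commutatorElement

/-- Let G be a finite group in which every non-identity element has nilpotent centralizer, and H a nilpotent subgroup not properly contained in any nilpotent subgroup. Then the order of H is coprime to its index; if the order of H is not a prime power then H ∩ gHg⁻¹ = 1 whenever gHg⁻¹ ≠ H; and if H ∩ gHg⁻¹ = 1 whenever gHg⁻¹ ≠ H, then C_G(x) ≤ H for every non-identity x ∈ H. -/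
theorem result {G : Type*} [Group G] [Finite G] (hCN : Cfsg.IsCNGroup G) (H : Subgroup G) (hH : Group.IsNilpotent H)
    (hmax : ∀ L : Subgroup G, Group.IsNilpotent L → H ≤ L → L = H) :
    (Nat.card H).Coprime H.index ∧
      (¬ IsPrimePow (Nat.card H) → Nat.card H ≠ 1 → ∀ g : G, H.map (MulAut.conj g).toMonoidHom ≠ H → H ⊓ H.map (MulAut.conj g).toMonoidHom = ⊥) ∧
      ((∀ g : G, H.map (MulAut.conj g).toMonoidHom ≠ H → H ⊓ H.map (MulAut.conj g).toMonoidHom = ⊥) → ∀ x ∈ H, x ≠ 1 → Subgroup.centralizer ({x} : Set G) ≤ H) := by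
  open Subgroup in
  have s : ∀ p, p.Prime → p ∣ Nat.card H → H2.IsSylowIn p (Op p H) ⊤ := fun p hp d =>
    haveI := Fact.mk hp; cn_max_syl hCN hH hmax d
  have hH' : Hall {p | p.Prime ∧ p ∣ Nat.card H} H ⊤ := hall_of_sylow le_top (piN_primes _)
    fun p hp d _ => ⟨_, s p hp d.2, Opi_le _ _⟩
  refine ⟨by simpa using hH'.coprime, fun h1 h2 g hg => by_contra fun k => hg ?_, fun ti x hx x1 => ?_⟩
  · rw [← cj_def] at k ⊢
    obtain ⟨p, hp, X, l, o⟩ := exists_card_prime k
    haveI := Fact.mk hp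
    obtain ⟨q, hq, d, n⟩ : ∃ q, q.Prime ∧ q ∣ Nat.card H ∧ q ≠ p := by
      by_contra! e
      obtain ⟨k, e⟩ := (piN_single_iff (p := p) (card_pos' H).ne').1 fun q a b => e q a b
      exact h1 ((isPrimePow_nat_iff _).2 ⟨p, k, hp, Nat.pos_of_ne_zero fun z => h2 (by rw [e, z, pow_zero]), e.symm⟩)
    haveI := Fact.mk hq
    have X1 := ne_bot_of_card_p o
    have key : ∀ K : Subgroup G, X ≤ K → Group.IsNilpotent K → H2.IsSylowIn q (Op q K) ⊤ → Op q K = Op q (centralizer (X : Set G)) :=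
      fun K l n s => (s.eq_of_le (isPGroup_Op q _) (nilp_le_Op (cn_cen hCN X1) (nilp_cen_of_coprime n (Opi_le _ _) l
        (coprime_pgroups (isPGroup_Op q K) (pgroup_of_card_p o) ‹_›)) (isPGroup_Op q K)) le_top).symm
    have s1 := s q hq d
    have s2 := syl_cj s1 g
    rw [cj_top, cj_Opi] at s2
    have e := (key _ (l.trans inf_le_left) hH s1).trans (key _ (l.trans inf_le_right) (nilp_cj.2 hH) s2).symm
    have l1 : ∀ K : Subgroup G, Group.IsNilpotent K → K ≤ centralizer ((Op q K ⊓ centralizer (Op q K : Set G) : Subgroup G) : Set G) :=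
      fun K n => (nilp_Opi_sup n {q}).ge.trans (sup_le (le_cen_symm inf_le_right) (le_cen_mono (Op'_le_cen q K) le_rfl inf_le_left))
    have z := center_Op_ne_bot (syl_ne_bot (nilp_sylow_Op hH) d)
    have e2 := cn_max_cen hCN hmax z (l1 H hH)
    rw [e] at e2
    exact eq_of_le_of_card_le ((l1 _ (nilp_cj.2 hH)).trans e2.le) (card_cj g H).ge
  · have n : centralizer {x} ≤ normalizer (H : Set G) := fun c hc => cj_eq_self_iff.1 (by_contra fun k =>
      x1 (mem_bot.1 ((ti c k).le ⟨hx, mem_cj'.2 ⟨x, hx, by rw [mem_cen1.1 hc, mul_inv_cancel_right]⟩⟩)))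
    refine le_of_pgroups_le fun p hp P l pP => ?_
    haveI := Fact.mk hp
    by_cases d : p ∣ Nat.card H
    · exact hH'.le_of_le_nrm le_top (l.trans n) (piN_of_isPGroup (show p ∈ {p | p.Prime ∧ p ∣ Nat.card H} from ⟨hp, d⟩) pP)
    have z := nilp_inf_cen_ne_bot hH le_rfl (le_nrm_self H) fun e => x1 (mem_bot.1 (e.le hx))
    rw [← cn_max_cen hCN hmax z (le_cen_symm inf_le_right)]
    exact nilp_cen_of_coprime (hCN x x1) l (inf_le_right.trans (cen_le_cen1 hx))
      (coprime_of_isPGroup pP (coprime_of_le inf_le_left (coprime_iff_not_dvd.2 d))).symm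

end Cfsg.Agent.S1477
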