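import Cfsg.Statements.S1480
import Cfsg.Agent.H7.Sig2

set_option autoImplicit false
open Cfsg

namespace Cfsg.Agent.S1480
open H7
open scoped commutatorElement

/-- Let G be a finite group and p a prime such that the normalizer of every nontrivial p-subgroup of G is p-constrained; if p = 2 assume also that the Sylow 2-subgroups of G have nilpotency class at most 2. Let E be an abelian p-subgroup containing an elementary abelian subgroup of order p ^ 3 and containing every element of p-power order of C_G(E). Then for every prime q ≠ p, any two maximal E-invariant q-subgroups of G are conjugate by an element of O_{p'}(C_G(E)). -/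
theorem result {G : Type*} [Group G] [Finite G] (p : ℕ) [Fact p.Prime]
    (hloc : ∀ T : Subgroup G, IsPGroup p T → T ≠ ⊥ → Cfsg.IsPConstrained p ↥(Subgroup.normalizer (T : Set G)))
    (h2 : p = 2 → ∀ S : Sylow p G, Group.IsNilpotent (S : Subgroup G) ∧ Group.nilpotencyClass (S : Subgroup G) ≤ 2)
    (E : Subgroup G) (hEp : IsPGroup p E) (hEc : IsMulCommutative E) (hE3 : ¬ Cfsg.PRankLE p 2 E)
    (hEfull : ∀ x ∈ Subgroup.centralizer (E : Set G), IsPGroup p (Subgroup.zpowers x) → x ∈ E)
    (q : ℕ) [Fact q.Prime] (hqp : q ≠ p) :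
    ∀ Q₁ ∈ Cfsg.maxInvSubgroups ⊤ E {q}, ∀ Q₂ ∈ Cfsg.maxInvSubgroups ⊤ E {q},
        ∃ k ∈ Cfsg.piCoreOf (Cfsg.primesNotDvd p) (Subgroup.centralizer (E : Set G)), Q₂ = Q₁.map (MulAut.conj k).toMonoidHom := by
  open Subgroup in
    intro Q₁ h₁ Q₂ h₂
    obtain ⟨B, hB, eB, h3⟩ := not_rk_iff.1 (mt pRankLE_iff.2 hE3)
    have cE := isComm_iff.1 hEc
    have full : ∀ S ≤ cen E, IsPGroup p S → S ≤ E := fun S a b x hx =>
      hEfull x (a hx) (b.to_le (zpowers_le.2 hx))
    obtain ⟨c, hc, co, e⟩ := thompson_trans hqp hEp eB hB (cE.trans (cen_anti hB)) h3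
      (fun a ha h1 Y hY hc hn => by
        have pa : IsPGroup p (zpowers a) := hEp.to_le (zpowers_le.2 (hB ha))
        have pc := pcon_cen1 pa (isPConstrained_iff.1 (hloc _ pa (zpowers_ne_bot' h1)))
        have l : E ≤ cen1 a := cE.trans (cen_le_cen1 (hB ha))
        by_cases p2 : p = 2
        · refine cl2_le_Op' pc (fun S _ hS => ?_) hEp l (fun S a b => full S (a.trans inf_le_right) b) hY hc hn
          obtain ⟨T, hT⟩ := hS.exists_le_sylow
          obtain ⟨n, hn⟩ := h2 p2 T
          exact le_cen_mono (comm_le_cen_of_class hn) (commutator_mono hT hT) hT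
        · exact bender_le_Op' p2 pc hEp l (fun x hx e => hEfull x hx.2
            (isPGroup_zpowers (k := 1) (by simpa using e))) hY hc hn) (mi_iff.1 h₁) (mi_iff.1 h₂)
    refine ⟨c, ?_, e.symm⟩
    rw [piCoreOf_eq, Opi_pc_prime]
    exact (npc_burnside (H2.isSylowIn_of_maximal hEp cE fun Q a _ b => full Q b a) inf_le_left).mem hc co

end Cfsg.Agent.S1480
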