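import Cfsg.Statements.S1481
import Cfsg.Agent.H7.Tk6

set_option autoImplicit false
open Cfsg

namespace Cfsg.Agent.S1481
open H7
open scoped commutatorElement

/-- Let G be a finite group and H a local subgroup (the normalizer of a nontrivial subgroup of prime-power order) not properly contained in any local subgroup; let F = F(H), suppose at least two primes divide #F, put X = H ∩ C_G(F), let M ≤ F with F ∩ C_G(M) ≤ M, and let R be a solvable subgroup normalized by M and by X. Then for every prime q not dividing #F there is exactly one maximal M-invariant q-subgroup of R, and it is a Sylow q-subgroup of the largest normal subgroup of R of order coprime to #F. -/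
theorem result {G : Type*} [Group G] [Finite G] (H : Subgroup G) (hH : Cfsg.IsLocalSubgroup H) (hHmax : ∀ L : Subgroup G, Cfsg.IsLocalSubgroup L → H ≤ L → L = H)
    (hF2 : 2 ≤ (Nat.card (Cfsg.fittingOf H)).primeFactors.card)
    (M : Subgroup G) (hM : M ≤ Cfsg.fittingOf H) (hCM : Cfsg.fittingOf H ⊓ Subgroup.centralizer (M : Set G) ≤ M)
    (R : Subgroup G) (hR : Group.IsSolvable R) (hMR : M ≤ Subgroup.normalizer (R : Set G))
    (hXR : H ⊓ Subgroup.centralizer (Cfsg.fittingOf H : Set G) ≤ Subgroup.normalizer (R : Set G))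
    (q : ℕ) [Fact q.Prime] (hq : ¬ q ∣ Nat.card (Cfsg.fittingOf H)) :
    ∃! Q : Subgroup G, Q ∈ Cfsg.maxInvSubgroups R M {q} ∧
      (∀ Q' : Subgroup G, Q' ∈ Cfsg.maxInvSubgroups R M {q} →
        Q' ≤ Cfsg.piCoreOf (Cfsg.primesNotDvd (Nat.card (Cfsg.fittingOf H))) R ∧
        ¬ q ∣ Q'.relIndex (Cfsg.piCoreOf (Cfsg.primesNotDvd (Nat.card (Cfsg.fittingOf H))) R)) := by
  open Subgroup in
  rw [fittingOf_eq] at *
  rw [piCoreOf_eq]
  have nF := nilp_Fit H
  have lM := hM.trans (Fit_le H)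
  have pi : ∀ {m}, PiN (primesNotDvd (Nat.card (Fit H))) m ↔ m.Coprime (Nat.card (Fit H)) := fun {m} => by
    rw [← piN_compl_primes_iff]
    exact ⟨fun h => h.congr fun p a _ b c => b.2 c.2, fun h => h.congr fun p a _ b => ⟨a, fun c => b ⟨a, c⟩⟩⟩
  have piF : PiN (primesNotDvd (Nat.card (Fit H)))ᶜ (Nat.card (Fit H)) := fun p _ d h => h.2 d
  have qq : q ∈ primesNotDvd (Nat.card (Fit H)) := ⟨Fact.out, hq⟩
  have z : ∀ p, p.Prime → p ∣ Nat.card (Fit H) → ∃ Z ≤ M, IsPGroup p Z ∧ H ≤ normalizer (Z : Set G) ∧ M ≤ centralizer (Z : Set G) ∧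
      centralizer (Z : Set G) ≤ H ∧ Op p M ≠ ⊥ ∧ centralizer (Op p M : Set G) ≤ H := fun p hp d => by
    haveI := Fact.mk hp
    have a : Op p H ≠ ⊥ := Op_Fit p H ▸ syl_ne_bot (nilp_sylow_Op nF) d
    have b := center_Op_ne_bot a
    have c := center_Op_le_cen_Fit p H
    have n := nrm_center (le_nrm_Opi {p} H)
    have pZ := (isPGroup_Op p H).to_le (inf_le_left (b := centralizer (Op p H : Set G)))
    have l := (le_inf (inf_le_left.trans (Op_le_Fit p H)) (c.trans (cen_anti hM))).trans hCM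
    have e := (cen_le_nrm _).trans (hHmax _ ⟨p, _, hp, pZ, b, rfl⟩ n).le
    have l2 := nilp_le_Op (nilp_of_le hM nF) l pZ
    exact ⟨_, l, pZ, n, le_cen_symm (c.trans (cen_anti hM)), e, fun k => b (eq_bot_of_le l2 k), (cen_anti l2).trans e⟩
  have k0 : ∀ D ≤ R ⊓ H, M ≤ normalizer (D : Set G) → (Nat.card D).Coprime (Nat.card (Fit H)) → D = ⊥ := fun D l n c => by
    have a : D ≤ centralizer (M : Set G) := comm_eq_bot.1 (eq_bot_of_le (le_inf (comm_le_left n) (comm_le_of_le_nrm hM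
      ((l.trans inf_le_right).trans (le_nrm_Fit H)))) (eq_bot_of_coprime c))
    have b : D ≤ centralizer (Fit H : Set G) := cen_of_self_cen nF ((l.trans inf_le_right).trans (le_nrm_Fit H)) c
      (((inf_le_inf_left _ (cen_anti (le_inf hM (le_cen_symm a)))).trans hCM).trans (le_inf hM (le_cen_symm a)))
    have n2 : H ≤ normalizer ((H ⊓ centralizer (Fit H : Set G) : Subgroup G) : Set G) := nrm_inf (le_nrm_self H) (nrm_cen (le_nrm_Fit H))
    have := le_Fit_of_solv_of_cen ((Osol_le _).trans inf_le_left) (nrm_Osol n2) (solv_Osol _) ((Osol_le _).trans inf_le_right)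
    exact eq_bot_of_le (le_inf le_rfl ((le_inf (l.trans inf_le_left) (le_inf (l.trans inf_le_right) b)).trans ((le_Osol inf_le_right
      (nrm_inf hXR (le_nrm_self _)) (solv_of_le inf_le_left hR)).trans this))) (eq_bot_of_coprime c)
  have nK := le_nrm_Opi (primesNotDvd (Nat.card (Fit H))) R
  have nK' := nrm_Opi (primesNotDvd (Nat.card (Fit H))) hMR
  have lK := Opi_le (primesNotDvd (Nat.card (Fit H))) R
  have cK := piN_Opi (primesNotDvd (Nat.card (Fit H))) R
  have oK := Opi_im_qm (primesNotDvd (Nat.card (Fit H))) R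
  have k1 : ∀ Q ≤ R, IsPGroup q Q → M ≤ normalizer (Q : Set G) → Q ≤ Opi (primesNotDvd (Nat.card (Fit H))) R := fun Q l pQ n => by
    generalize Opi (primesNotDvd (Nat.card (Fit H))) R = K at *
    have lF : Fit (im (qm K) R) ≤ Opi (primesNotDvd (Nat.card (Fit H)))ᶜ (im (qm K) R) := Fit_le_Opi (by rwa [compl_compl])
    have cQ := pi.1 (piN_of_isPGroup qq pQ)
    rw [← im_qm_eq_bot (l.trans nK)]
    refine eq_bot_of_le (le_inf le_rfl (le_trans (le_trans (le_inf (im_mono _ l) (le_cen_symm (Fit_le_of_Op_le fun p hp d => ?_)))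
      (cen_Fit_le (solv_im _ hR))) lF)) (((piN_of_isPGroup qq pQ).im _).inf_eq_bot (piN_Opi _ _))
    haveI := Fact.mk hp
    have dp : p ∣ Nat.card (Fit H) := by_contra fun k => (piN_Opi _ _).of_le lF p hp d ⟨hp, k⟩
    obtain ⟨r, hr, ne⟩ := Finset.exists_mem_ne hF2 p
    have pr := Nat.prime_of_mem_primeFactors hr
    haveI := Fact.mk pr
    obtain ⟨Z, z1, z2, z3, z4, z5, -⟩ := z r pr (Nat.dvd_of_mem_primeFactors hr)
    obtain ⟨-, -, -, -, -, -, -, z6⟩ := z p hp dp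
    have lP := Opi_le {p} M
    have e : ⁅Q, Z⁆ = Q := (Cop.mk (z1.trans n) (cQ.symm.coprime_dvd_left (card_dvd_of_le (z1.trans hM))) (.inl (solv_of_isPGroup z2))).comm_eq
      (k0 _ (inf_le_inf l z5) (nrm_inf n (nrm_cen (le_nrm_of_le_cen z4))) (cQ.coprime_dvd_left (card_dvd_of_le inf_le_left)))
    have nV : ∀ X ≤ M, im (qm K) X ≤ normalizer (Op p (im (qm K) R) : Set _) := fun X l => nrm_Opi _ (im_le_nrm _ (l.trans hMR))
    have cZ := coprime_im (qm K) (coprime_pgroup z2 ne)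
    have := pxq (isPGroup_im (qm K) (isPGroup_Op p M)) cZ (im_le_cen _ (lP.trans z4)) (isPGroup_Op p _) (nV _ lP) (nV _ z1) (by
      refine comm_eq_bot.1 (eq_bot_of_le (le_inf (comm_le_left (nrm_inf (nV _ z1) (nrm_cen (im_le_nrm _ (z1.trans (le_nrm_Opi _ _)))))) (comm_le_right ?_))
        (inf_eq_bot_of_isPGroup ((isPGroup_Op p _).to_le inf_le_left) cZ))
      refine (inf_le_inf_right _ (Opi_le _ _)).trans ?_
      rw [Cop.im_cen (lP.trans nK') nK (lP.trans hMR) (cop_of_pgroup (isPGroup_Op p M) (by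
        rw [kr_qm]; exact ((pi.1 cK).coprime_dvd_right dp).coprime_dvd_left (card_dvd_of_le inf_le_right))
        (by rw [kr_qm]; exact nrm_inf (lP.trans hMR) (lP.trans nK')))]
      exact im_le_nrm _ ((inf_le_right.trans z6).trans z3))
    rw [← e, im_commutator (l.trans nK) (z1.trans nK')]
    exact le_cen_symm (comm_le_of_le_nrm this (nrm_cen ((im_mono _ l).trans (le_nrm_Opi _ _))))
  generalize Opi (primesNotDvd (Nat.card (Fit H))) R = K at *
  have co : Cop M K := ⟨nK', (pi.1 cK).symm.coprime_dvd_left (card_dvd_of_le hM), .inr (solv_of_le lK hR)⟩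
  have k2 : ∀ Q ∈ maxInvSubgroups R M {q}, H2.IsSylowIn q Q K ∧ M ≤ normalizer (Q : Set G) := fun Q ⟨⟨a, b, c⟩, d⟩ => by
    have pQ := piN_iff_isPGroup.1 b
    obtain ⟨P, h1, h2, h3⟩ := co.exists_syl_ge (k1 Q a pQ c) pQ c
    exact ⟨d P ⟨h1.le.trans lK, piN_iff_isPGroup.2 h1.isPGroup, h3⟩ h2 ▸ h1, c⟩
  obtain ⟨P, h1, h2⟩ := co.exists_syl q
  refine ⟨P, ⟨⟨⟨h1.le.trans lK, piN_iff_isPGroup.2 h1.isPGroup, h2⟩, fun Q ⟨a, b, c⟩ l => h1.eq_of_le (piN_iff_isPGroup.1 b) l
    (k1 Q a (piN_iff_isPGroup.1 b) c)⟩, fun Q h => ⟨(k2 Q h).1.le, (k2 Q h).1.not_dvd⟩⟩, fun Q ⟨h, _⟩ => ?_⟩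
  obtain ⟨c, hc, e⟩ := co.syl_conj h1 (k2 Q h).1 h2 (k2 Q h).2
  obtain ⟨r, hr, -⟩ := Finset.exists_mem_ne hF2 0
  obtain ⟨Z, z1, -, -, -, z5, -⟩ := z r (Nat.prime_of_mem_primeFactors hr) (Nat.dvd_of_mem_primeFactors hr)
  rw [k0 _ (inf_le_inf lK ((cen_anti z1).trans z5)) (nrm_inf nK' (nrm_cen (le_nrm_self M)))
    ((pi.1 cK).coprime_dvd_left (card_dvd_of_le inf_le_left)), mem_bot] at hc
  rw [← e, hc, cj_one]

end Cfsg.Agent.S1481
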