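import Cfsg.Statements.S1482
import Cfsg.Agent.H7.BG8

set_option autoImplicit false
open Cfsg

namespace Cfsg.Agent.S1482
open H7
open scoped commutatorElement

/-- Let G be a minimal simple group of odd order, H a maximal subgroup whose Fitting subgroup F has at least two prime divisors, and M a subgroup of F containing the centre of F such that the only M-invariant subgroup of G of order coprime to #F is the trivial one. Then H is the only maximal subgroup of G containing M. -/
theorem result {G : Type*} [Group G] [Finite G] (hG : Cfsg.IsMinSimpleOddOrder G) (H : Subgroup G) (hH : IsCoatom H) (hF2 : 2 ≤ (Nat.card (Cfsg.fittingOf H)).primeFactors.card)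
    (M : Subgroup G) (hM : M ≤ Cfsg.fittingOf H) (hZM : Cfsg.fittingOf H ⊓ Subgroup.centralizer (Cfsg.fittingOf H : Set G) ≤ M)
    (hinv : ∀ Y ∈ Cfsg.invSubgroups ⊤ M (Cfsg.primesNotDvd (Nat.card (Cfsg.fittingOf H))), Y = ⊥) :
    ∀ L : Subgroup G, IsCoatom L → M ≤ L → L = H := by
  open Subgroup in
  haveI : FT G := ⟨hG⟩
  rw [fittingOf_eq] at *
  refine (um_of_no_inv hH (hM.trans (Fit_le H)) hZM (fun q => ?_) fun q hq hd Q a b => ?_).2.2
  · by_contra e; push Not at e
    have : (ord (Fit H)).primeFactors ⊆ {q} := fun r hr => by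
      rw [Nat.mem_primeFactors] at hr; simpa using e r hr.1 hr.2.1
    have := Finset.card_le_card this
    simp at this; omega
  · haveI := Fact.mk hq
    exact hinv Q ⟨le_top, piN_of_isPGroup (π := primesNotDvd _) ⟨hq, hd⟩ a, b⟩

end Cfsg.Agent.S1482
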