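import Cfsg.Statements.S1488
import Cfsg.Agent.H3.Clifford

set_option autoImplicit false
open Cfsg

namespace Cfsg.Agent.S1488
open H3

/-- Let A be a normal subgroup of the finite group G contained in the subgroup H, let θ be a function on H and θ₁ a function on the image of H in G ⧸ A whose composite with the projection is θ. Then the function induced from θ₁ to G ⧸ A, composed with the projection G → G ⧸ A, equals the function induced from θ to G. -/
theorem result {G : Type*} [Group G] [Fintype G] (A H : Subgroup G) [A.Normal] (hAH : A ≤ H) [Fintype (G ⧸ A)] [Fintype ↥(H.map (QuotientGroup.mk' A))] (θ : H → ℂ) (θ₁ : ↥(H.map (QuotientGroup.mk' A)) → ℂ) (hθ : ∀ x : H, θ₁ ⟨QuotientGroup.mk' A x, Subgroup.mem_map_of_mem _ x.2⟩ = θ x) (g : G) : Cfsg.indFun (H.map (QuotientGroup.mk' A)) θ₁ (QuotientGroup.mk' A g) = Cfsg.indFun H θ g := by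
  have key : ∀ y : G, extendByZero (H.map (QuotientGroup.mk' A)) θ₁ (QuotientGroup.mk' A y) =
      extendByZero H θ y := by
    intro y
    by_cases hy : y ∈ H
    · rw [ext0_of_mem _ hy, ext0_of_mem _ (Subgroup.mem_map_of_mem _ hy), ← hθ]
    · rw [ext0_of_not_mem _ hy, ext0_of_not_mem]
      intro h
      rw [← Subgroup.mem_comap, Subgroup.comap_map_eq, QuotientGroup.ker_mk',
        sup_eq_left.2 hAH] at h
      exact hy h
  have h1 := sum_comp_surjective (QuotientGroup.mk' A) (QuotientGroup.mk'_surjective A)
    (fun x => extendByZero (H.map (QuotientGroup.mk' A)) θ₁ (x⁻¹ * QuotientGroup.mk' A g * x))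
  simp only [← map_inv, ← map_mul, key] at h1
  have h2 := card_eq_card_ker_mul ((QuotientGroup.mk' A).subgroupMap H)
    ((QuotientGroup.mk' A).subgroupMap_surjective H)
  have h3 : Nat.card ((QuotientGroup.mk' A).subgroupMap H).ker =
      Nat.card (QuotientGroup.mk' A).ker := by
    rw [Subgroup.ker_subgroupMap, QuotientGroup.ker_mk']
    exact Nat.card_congr (Subgroup.subgroupOfEquivOfLe hAH).toEquiv
  rw [indFun_apply, indFun_apply, h1, h2, h3]
  have := card_ne_zero (QuotientGroup.mk' A).ker
  push_cast
  field_simp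

end Cfsg.Agent.S1488
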