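import Cfsg.Statements.S1491
import Cfsg.Agent.H3.Down

set_option autoImplicit false
open Cfsg

namespace Cfsg.Agent.S1491
open H3
export H3 (inner_add_left inner_add_right inner_sub_left inner_sub_right inner_neg_left inner_neg_right
  inner_zero_left inner_zero_right inner_smul_left inner_smul_right inner_conj_symm inner_self_eq_zero
  inner_self_im)

/-- Let H be a normal subgroup of the finite group G and θ an irreducible character of H with inertia group T, where T/H is abelian (commutators of T lie in H) and the index of H in T is coprime to the order of H. Then the function induced from θ is the sum of a set of exactly [T:H] irreducible characters of G, each of degree [G:T] * θ(1). -/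
theorem result {G : Type*} [Group G] [Fintype G] (H T : Subgroup G) [hN : H.Normal] (θ : H → ℂ) (hθ : Cfsg.IsIrrCharacter H θ) (hT : ∀ g : G, g ∈ T ↔ ∀ h : H, θ ⟨g * h * g⁻¹, hN.conj_mem h h.2 g⟩ = θ h) (hab : ∀ x ∈ T, ∀ y ∈ T, x * y * x⁻¹ * y⁻¹ ∈ H) (hcop : Nat.Coprime (Nat.card H) (H.relIndex T)) : ∃ C : Finset (G → ℂ), (∀ χ ∈ C, Cfsg.IsIrrCharacter G χ) ∧ C.card = H.relIndex T ∧ Cfsg.indFun H θ = ∑ χ ∈ C, χ ∧ ∀ χ ∈ C, χ 1 = (T.index : ℂ) * θ 1 := by
  set_option maxSynthPendingDepth 3 in
  cases eq_inertia hT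
  have l := le_inertia hθ.isClassFunction
  obtain ⟨e, C, a, b, c, d, f, g⟩ := ind_ab' hθ (Subgroup.commutator_le.2 hab)
  obtain ⟨χ, k, -⟩ := exists_canExt_of_coprime (hθ.toSub l) (by rw [inertia_toSub _ _ l, Subgroup.subgroupOf_self])
    (by rw [H7.card_subgroupOf_of_le l]; exact hcop.symm)
  cases g ⟨χ, k.1, k.2⟩
  exact ⟨C, b, by simpa using c, by simpa using d, by simpa using f⟩

end Cfsg.Agent.S1491
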