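import Cfsg.Statements.S1494
import Cfsg.Agent.H3.Cong

set_option autoImplicit false
open Cfsg

namespace Cfsg.Agent.S1494
open H3
export H3 (inner_add_left inner_add_right inner_sub_left inner_sub_right inner_neg_left inner_neg_right
  inner_zero_left inner_zero_right inner_smul_left inner_smul_right inner_conj_symm inner_self_eq_zero
  inner_self_im)

/-- Let χ be a generalized character of the finite group G, p a prime, x an element of order p and y an element commuting with x. Then χ(x * y) − χ(y) = (1 − ε) * ω for some algebraic integer ω, where ε = exp(2πi/p). -/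
theorem result {G : Type*} [Group G] [Finite G] (χ : G → ℂ) (hχ : Cfsg.IsGeneralizedCharacter G χ) (p : ℕ) (hp : p.Prime) (x y : G) (hx : orderOf x = p) (hxy : x * y = y * x) : ∃ ω : ℂ, IsIntegral ℤ ω ∧ χ (x * y) - χ y = (1 - Complex.exp (2 * Real.pi * Complex.I / p)) * ω := by
  set ε := Complex.exp (2 * Real.pi * Complex.I / p)
  have hε : IsPrimitiveRoot ε p := Complex.isPrimitiveRoot_exp p hp.ne_zero
  have key : ∀ χ, Cfsg.IsCharacter G χ → ∃ ω : ℂ, IsIntegral ℤ ω ∧ χ (x * y) - χ y = (1 - ε) * ω := by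
    intro χ h
    obtain ⟨n, a, b, -, ha, hb, h1, h2, -⟩ := h.exists_sum_of_commute hxy
    haveI : NeZero p := ⟨hp.ne_zero⟩
    choose j _ hj using fun i => hε.eq_pow_of_pow_eq_one (hx ▸ ha i)
    refine ⟨∑ i, -(∑ k ∈ Finset.range (j i), ε ^ k) * b i, IsIntegral.sum _ (fun i _ => ?_), ?_⟩
    · exact (IsIntegral.sum _ (fun k _ => (isIntegral_of_pow_eq_one hp.ne_zero hε.pow_eq_one).pow k)).neg.mul
        (isIntegral_of_pow_eq_one (orderOf_pos y).ne' (hb i))
    · rw [h1, h2, ← Finset.sum_sub_distrib, Finset.mul_sum]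
      refine Finset.sum_congr rfl (fun i _ => ?_)
      rw [← hj i]
      linear_combination (b i) * (-mul_neg_geom_sum ε (j i) + 2 * mul_neg_geom_sum ε (j i))
  obtain ⟨a, b, ha, hb, rfl⟩ := hχ
  obtain ⟨u, hu, hu'⟩ := key a ha
  obtain ⟨v, hv, hv'⟩ := key b hb
  exact ⟨u - v, hu.sub hv, by simp only [Pi.sub_apply]; linear_combination hu' - hv'⟩

end Cfsg.Agent.S1494
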