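import Cfsg.Statements.S1495
import Cfsg.Agent.H3.Integral

set_option autoImplicit false
open Cfsg

namespace Cfsg.Agent.S1495
open H3

/-- Let p be a prime, ε = exp(2πi/p), and n an integer such that n = (1 − ε) * ω for some algebraic integer ω. Then p divides n. -/
theorem result (p : ℕ) (hp : p.Prime) (n : ℤ) (ω : ℂ) (hω : IsIntegral ℤ ω) (h : (n : ℂ) = (1 - Complex.exp (2 * Real.pi * Complex.I / p)) * ω) : (p : ℤ) ∣ n := by
  have key : ∀ k : ℕ, k ∈ Finset.Ico 1 p → ∃ ω' : ℂ, IsIntegral ℤ ω' ∧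
      (n : ℂ) = (1 - Complex.exp (2 * Real.pi * Complex.I / p) ^ k) * ω' := by
    intro k hk
    rw [Finset.mem_Ico] at hk
    obtain ⟨σ, hσ⟩ := exists_ringEquiv_pow hp.ne_zero
      (Nat.coprime_comm.1 (Nat.coprime_of_lt_prime (by omega) hk.2 hp) : k.Coprime p)
    refine ⟨σ ω, isIntegral_ringHom (σ : ℂ →+* ℂ) hω, ?_⟩
    have := congrArg σ h
    rwa [map_intCast, map_mul, map_sub, map_one,
      hσ _ (Complex.isPrimitiveRoot_exp p hp.ne_zero).pow_eq_one] at this
  choose! w hw1 hw2 using key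
  have h1 := Finset.prod_congr rfl hw2
  rw [Finset.prod_mul_distrib, Finset.prod_const] at h1
  obtain ⟨m, rfl⟩ : ∃ m, p = m + 1 := ⟨p - 1, by have := hp.pos; omega⟩
  have h2 := (Complex.isPrimitiveRoot_exp _ hp.ne_zero).prod_one_sub_pow_eq_order
  rw [Finset.prod_Ico_eq_prod_range] at h1
  simp only [add_tsub_cancel_right, add_comm 1] at h1
  rw [h2] at h1
  have h3 : ((m + 1 : ℕ) : ℤ) ∣ n ^ (Finset.Ico 1 (m + 1)).card :=
    int_dvd_of_eq_mul_isIntegral (IsIntegral.prod _ hw1) (by push_cast; exact h1)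
  exact (Nat.prime_iff_prime_int.1 hp).dvd_of_dvd_pow h3

end Cfsg.Agent.S1495
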