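import Cfsg.Statements.S1497
import Cfsg.Agent.H3.Dade

set_option autoImplicit false
open Cfsg

namespace Cfsg.Agent.S1497
open H3
export H3 (inner_add_left inner_add_right inner_sub_left inner_sub_right inner_neg_left inner_neg_right
  inner_zero_left inner_zero_right inner_smul_left inner_smul_right inner_conj_symm inner_self_eq_zero
  inner_self_im)

/-- Let A be a nonempty subset of the finite group G not containing 1 and L a subgroup. Then A is a TI-subset whose normaliser is L if and only if the Dade hypothesis holds for A, L and the constant choice H(a) = ⊥. -/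
theorem result {G : Type*} [Group G] [Finite G] (A : Set G) (hA : A.Nonempty) (h1 : (1 : G) ∉ A) (L : Subgroup G) : (Cfsg.IsTISubset A ∧ Subgroup.normalizer A = L) ↔ Cfsg.DadeHypothesis A L (fun _ => ⊥) := by
  have := Fintype.ofFinite G
  constructor
  · rintro ⟨hTI, rfl⟩
    have key : ∀ x, ∀ a ∈ A, x * a * x⁻¹ ∈ A → x ∈ Subgroup.normalizer A := by
      intro x a ha hx
      by_contra hn
      exact h1 (hTI x hn a ha hx ▸ ha)
    refine dadeHypothesis_of_TI h1 (fun a ha => key a a ha (by simpa using ha))
      (fun x hx a ha => (Subgroup.mem_set_normalizer_iff.1 hx a).1 ha) key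
  · intro hD
    have key : Subgroup.normalizer A = L := by
      apply le_antisymm
      · intro x hx
        obtain ⟨a, ha⟩ := hA
        exact hD.mem_of_bot ha rfl ((Subgroup.mem_set_normalizer_iff.1 hx a).1 ha)
      · intro x hx
        rw [Subgroup.mem_set_normalizer_iff]
        intro a
        refine ⟨hD.conj_mem x hx a, fun h => ?_⟩
        simpa [mul_assoc] using hD.conj_mem x⁻¹ (L.inv_mem hx) _ h
    refine ⟨fun g hg x hx hgx => absurd (hD.mem_of_bot hx rfl hgx) (key ▸ hg), key⟩

end Cfsg.Agent.S1497
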