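import Cfsg.Statements.S1499
import Cfsg.Agent.H3.Dade

set_option autoImplicit false
open Cfsg

namespace Cfsg.Agent.S1499
open H3
export H3 (inner_add_left inner_add_right inner_sub_left inner_sub_right inner_neg_left inner_neg_right
  inner_zero_left inner_zero_right inner_smul_left inner_smul_right inner_conj_symm inner_self_eq_zero
  inner_self_im)

/-- Under the Dade hypothesis for (A, L, H), let a, b ∈ A. If an element of the coset a·H(a) is conjugate in G to an element of b·H(b), then a and b are conjugate by an element of L. Moreover the set normaliser of the coset a·H(a) is the centraliser of a. -/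
theorem result {G : Type*} [Group G] [Finite G] (A : Set G) (L : Subgroup G) (H : G → Subgroup G) (hD : Cfsg.DadeHypothesis A L H) (a b : G) (ha : a ∈ A) (hb : b ∈ A) : ((∃ u ∈ H a, ∃ v ∈ H b, ∃ g : G, g * (a * u) * g⁻¹ = b * v) → ∃ x ∈ L, x * a * x⁻¹ = b) ∧ Subgroup.normalizer ((fun u : G => a * u) '' (H a : Set G)) = Subgroup.centralizer ({a} : Set G) := by
  refine ⟨fun ⟨u, hu, v, hv, g, e⟩ => hD.exists_conj ha hb hu hv e, ?_⟩
  ext x
  rw [Subgroup.mem_set_normalizer_iff, mem_cent]
  constructor
  · intro h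
    obtain ⟨v, hv, e⟩ := (h (a * 1)).1 ⟨1, (H a).one_mem, rfl⟩
    exact mul_inv_eq_iff_eq_mul.1 (hD.conj_eq_of_conj ha ha (H a).one_mem hv e.symm)
  · intro h y
    have key : ∀ x, x * a = a * x → ∀ y ∈ (fun u : G => a * u) '' (H a : Set G),
        x * y * x⁻¹ ∈ (fun u : G => a * u) '' (H a : Set G) := by
      rintro x hx _ ⟨u, hu, rfl⟩
      refine ⟨x * u * x⁻¹, hD.conj_mem_H a ha x (mem_cent.2 hx) u hu, ?_⟩
      simp only [← mul_assoc, hx]
    refine ⟨key x h y, fun h' => ?_⟩
    have := key x⁻¹ (by rw [inv_mul_eq_iff_eq_mul, ← mul_assoc, h]; group) _ h'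
    simpa [mul_assoc] using this

end Cfsg.Agent.S1499
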