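import Cfsg.Statements.S1504
import Cfsg.Agent.H3.CycTI

set_option autoImplicit false
open Cfsg

namespace Cfsg.Agent.S1504
open H3
export H3 (inner_add_left inner_add_right inner_sub_left inner_sub_right inner_neg_left inner_neg_right
  inner_zero_left inner_zero_right inner_smul_left inner_smul_right inner_conj_symm inner_self_eq_zero
  inner_self_im)

/-- Let W₁, W₂ be subgroups of a finite group with W₁ ⊓ W₂ = ⊥ whose elements commute, and W = W₁ ⊔ W₂. For linear characters φ, ψ of W with φ trivial on W₂ and ψ trivial on W₁, the function (1 − φ)(1 − ψ) vanishes on W₁ ∪ W₂; and the family of these functions, indexed by pairs (φ, ψ) with φ ≠ 1 ≠ ψ, is linearly independent over ℂ. -/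
theorem result {G : Type*} [Group G] [Finite G] (W₁ W₂ : Subgroup G) (hdisj : W₁ ⊓ W₂ = ⊥) (hcomm : ∀ a ∈ W₁, ∀ b ∈ W₂, a * b = b * a) : (∀ φ ψ : ↥(W₁ ⊔ W₂) →* ℂˣ, (∀ w : ↥(W₁ ⊔ W₂), (w : G) ∈ W₂ → φ w = 1) → (∀ w : ↥(W₁ ⊔ W₂), (w : G) ∈ W₁ → ψ w = 1) → ∀ w : ↥(W₁ ⊔ W₂), ((w : G) ∈ W₁ ∨ (w : G) ∈ W₂) → (1 - (φ w : ℂ) - (ψ w : ℂ) + (φ w : ℂ) * (ψ w : ℂ)) = 0) ∧ LinearIndependent ℂ (fun p : {p : (↥(W₁ ⊔ W₂) →* ℂˣ) × (↥(W₁ ⊔ W₂) →* ℂˣ) // p.1 ≠ 1 ∧ p.2 ≠ 1 ∧ (∀ w : ↥(W₁ ⊔ W₂), (w : G) ∈ W₂ → p.1 w = 1) ∧ (∀ w : ↥(W₁ ⊔ W₂), (w : G) ∈ W₁ → p.2 w = 1)} => fun w : ↥(W₁ ⊔ W₂) => 1 - (p.1.1 w : ℂ) - (p.1.2 w : ℂ) + (p.1.1 w : ℂ) * (p.1.2 w : ℂ)) := by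
  set_option maxSynthPendingDepth 3 in
  classical
  have := Fintype.ofFinite ↥(W₁ ⊔ W₂)
  have hs : W₁.subgroupOf (W₁ ⊔ W₂) ⊔ W₂.subgroupOf (W₁ ⊔ W₂) = ⊤ := by
    rw [← Subgroup.subgroupOf_sup le_sup_left le_sup_right, Subgroup.subgroupOf_self]
  refine ⟨fun φ ψ h1 h2 w hw => alpha_eq_zero (W₁ := W₁.subgroupOf _) (W₂ := W₂.subgroupOf _) h1 h2 hw,
    linearIndependent_iff'.2 fun s c hc p hp => ?_⟩
  have e : ∑ q ∈ s, c q • H3.alpha q.1.1 q.1.2 = 0 := hc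
  have := congrArg (fun θ => classInner θ (lf (p.1.1 * p.1.2))) e
  simp only [inner_sum_left, H3.inner_smul_left, H3.inner_zero_left] at this
  rw [Finset.sum_eq_single p] at this
  · have e1 : lf 1 = lf (1 * 1 : ↥(W₁ ⊔ W₂) →* ℂˣ) := by rw [mul_one]
    have e2 : lf p.1.1 = lf (p.1.1 * 1) := by rw [mul_one]
    have e3 : lf p.1.2 = lf (1 * p.1.2) := by rw [one_mul]
    rw [alpha_eq, e1, e2, e3] at this
    simp only [H3.inner_add_left, H3.inner_sub_left, inner_lf, triv_mul_inj hs (one_mem _) p.2.2.2.1 (one_mem _) p.2.2.2.2,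
      triv_mul_inj hs p.2.2.2.1 p.2.2.2.1 (one_mem _) p.2.2.2.2,
      triv_mul_inj hs (one_mem _) p.2.2.2.1 p.2.2.2.2 p.2.2.2.2] at this
    simpa [p.2.1.symm, p.2.2.1.symm] using this
  · intro q _ hq
    have e1 : lf 1 = lf (1 * 1 : ↥(W₁ ⊔ W₂) →* ℂˣ) := by rw [mul_one]
    have e2 : lf q.1.1 = lf (q.1.1 * 1) := by rw [mul_one]
    have e3 : lf q.1.2 = lf (1 * q.1.2) := by rw [one_mul]
    rw [alpha_eq, e1, e2, e3]
    simp only [H3.inner_add_left, H3.inner_sub_left, inner_lf, triv_mul_inj hs (one_mem _) p.2.2.2.1 (one_mem _) p.2.2.2.2,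
      triv_mul_inj hs q.2.2.2.1 p.2.2.2.1 (one_mem _) p.2.2.2.2,
      triv_mul_inj hs (one_mem _) p.2.2.2.1 q.2.2.2.2 p.2.2.2.2,
      triv_mul_inj hs q.2.2.2.1 p.2.2.2.1 q.2.2.2.2 p.2.2.2.2]
    have : ¬ (q.1.1 = p.1.1 ∧ q.1.2 = p.1.2) := fun h => hq (Subtype.ext (Prod.ext h.1 h.2))
    simp [p.2.1.symm, p.2.2.1.symm, this]
  · exact fun h => absurd hp h

end Cfsg.Agent.S1504
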