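import Cfsg.Statements.S1507
import Cfsg.Agent.H3.CycTI

set_option autoImplicit false
open Cfsg

namespace Cfsg.Agent.S1507
open H3
export H3 (inner_add_left inner_add_right inner_sub_left inner_sub_right inner_neg_left inner_neg_right
  inner_zero_left inner_zero_right inner_smul_left inner_smul_right inner_conj_symm inner_self_eq_zero
  inner_self_im)

open Classical in
/-- Let W₁, W₂ ≤ G form a self-normalising cyclic subgroup W = W₁ ⊔ W₂ of odd order with Nat.card W₁ < Nat.card W₂, and χ an orthonormal family of irreducible characters of G up to sign, indexed by the linear characters ω of W, with χ_1 = 1, χ_ω = ω on W outside W₁ ∪ W₂, and the induction identity for (1 − φ)(1 − ψ). Let θ be a class function of G vanishing on W outside W₁ ∪ W₂, and suppose fewer than 2 · Nat.card W₁ linear characters ω of W have ⟨θ, χ ω⟩ ≠ 0. Then one of: all ⟨θ, χ ω⟩ vanish; or there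 are ψ₀ and a with ⟨θ, χ ω⟩ = a when ω ψ₀⁻¹ is trivial on W₂ and 0 otherwise; or there are φ₀ and a with ⟨θ, χ ω⟩ = a when ω φ₀⁻¹ is trivial on W₁ and 0 otherwise. -/
theorem result {G : Type*} [Group G] [Fintype G] (W₁ W₂ : Subgroup G) (hW : Cfsg.IsSelfNormalizingCyclic W₁ W₂) (hodd : Odd (Nat.card ↥(W₁ ⊔ W₂))) (χ : (↥(W₁ ⊔ W₂) →* ℂˣ) → (G → ℂ)) (hχ : Cfsg.IsCyclicTIFamily W₁ W₂ χ) (hlt : Nat.card W₁ < Nat.card W₂) (θ : G → ℂ) (hθ : Cfsg.IsClassFunction G θ) (hθV : ∀ w : ↥(W₁ ⊔ W₂), (w : G) ∉ W₁ → (w : G) ∉ W₂ → θ w = 0) (hfew : Nat.card {ω : ↥(W₁ ⊔ W₂) →* ℂˣ // Cfsg.classInner θ (χ ω) ≠ 0} < 2 * Nat.card W₁) : (∀ ω, Cfsg.classInner θ (χ ω) = 0) ∨ (∃ (ψ₀ : ↥(W₁ ⊔ W₂) →* ℂˣ) (a : ℂ), ∀ ω, Cfsg.classInner θ (χ ω) = if (∀ w : ↥(W₁ ⊔ W₂), (w : G) ∈ W₂ → (ω * ψ₀⁻¹) w = 1) then a else 0) ∨ (∃ (φ₀ : ↥(W₁ ⊔ W₂) →* ℂˣ) (a : ℂ), ∀ ω, Cfsg.classInner θ (χ ω) = if (∀ w : ↥(W₁ ⊔ W₂),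 (w : G) ∈ W₁ → (ω * φ₀⁻¹) w = 1) then a else 0) := by
  set_option maxSynthPendingDepth 3 in
  have h := hW.cycTI
  have c1 : Nat.card (W₁.subgroupOf (W₁ ⊔ W₂)) = Nat.card W₁ :=
    Nat.card_congr (Subgroup.subgroupOfEquivOfLe le_sup_left).toEquiv
  have c2 : Nat.card (W₂.subgroupOf (W₁ ⊔ W₂)) = Nat.card W₂ :=
    Nat.card_congr (Subgroup.subgroupOfEquivOfLe le_sup_right).toEquiv
  obtain ⟨a, ha⟩ := odd_card_subgroup hodd (W₁.subgroupOf (W₁ ⊔ W₂))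
  obtain ⟨b, hb⟩ := odd_card_subgroup hodd (W₂.subgroupOf (W₁ ⊔ W₂))
  have hf : NC χ θ < 2 * Nat.card W₁ := hfew
  rcases (isCyclicTIFamily_iff.1 hχ).small_NC h hθ hθV (by omega) (by omega) (by omega) with
    e | ⟨j, hj, c, -, e⟩ | ⟨i, hi, c, -, e⟩
  · exact Or.inl e
  · refine Or.inr (Or.inl ⟨j, c, fun ω => ?_⟩)
    obtain ⟨i', hi', j', hj', rfl⟩ := h.exists_lin ω
    rw [e i' hi' j' hj']
    refine if_congr ⟨fun e => ?_, fun e => ?_⟩ rfl rfl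
    · subst e; rw [mul_inv_cancel_right]; exact hi'
    · have : i' * j' * j⁻¹ ∈ triv (W₂.subgroupOf (W₁ ⊔ W₂)) := e
      rw [mul_assoc] at this
      exact mul_inv_eq_one.1 (eq_one_of_triv h.sup (mul_mem hj' (inv_mem hj)) ((mul_mem_cancel_left hi').1 this))
  · refine Or.inr (Or.inr ⟨i, c, fun ω => ?_⟩)
    obtain ⟨i', hi', j', hj', rfl⟩ := h.exists_lin ω
    rw [e i' hi' j' hj']
    refine if_congr ⟨fun e => ?_, fun e => ?_⟩ rfl rfl
    · subst e; rw [mul_comm i' j', mul_inv_cancel_right]; exact hj'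
    · have : i' * j' * i⁻¹ ∈ triv (W₁.subgroupOf (W₁ ⊔ W₂)) := e
      rw [mul_comm i' j', mul_assoc] at this
      exact mul_inv_eq_one.1 (eq_one_of_triv h.sup ((mul_mem_cancel_left hj').1 this) (mul_mem hi' (inv_mem hi)))

end Cfsg.Agent.S1507
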