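import Cfsg.Statements.S1511
import Cfsg.Agent.H3.PrimeTI

set_option autoImplicit false
open Cfsg

namespace Cfsg.Agent.S1511
open H3
export H3 (inner_add_left inner_add_right inner_sub_left inner_sub_right inner_neg_left inner_neg_right
  inner_zero_left inner_zero_right inner_smul_left inner_smul_right inner_conj_symm inner_self_eq_zero
  inner_self_im)

/-- Let L be a finite group with K normal with complement W₁ ≠ 1 a cyclic Hall subgroup, and W₂ ≠ 1 a cyclic subgroup of K equal to C_K(x) for every non-identity x ∈ W₁, with W₁W₂ of odd order. Then there are a map μ from the linear characters of W = W₁ ⊔ W₂ to irreducible characters of L, injective, and a sign δ(ω) ∈ {1, −1} depending only on the values of ω on W₂, such that: for ω, ω' agreeing on W₂, the function induced to L from ω − ω' equals δ(ω) • (μ ω − μ ω'); μ ω x = δ(ω) ω x for x ∈ W outside W₂; every irreducible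 character of L not of the form μ ω vanishes on W outside W₂; and μ ω 1 − δ(ω) is an integer multiple of Nat.card W₁. -/
theorem result {L : Type*} [Group L] [Fintype L] (K W₁ W₂ : Subgroup L) [hK : K.Normal] (hKW₁ : K ⊓ W₁ = ⊥) (hKW₁' : K ⊔ W₁ = ⊤) (hW₁ : W₁ ≠ ⊥) (hW₁c : IsCyclic W₁) (hHall : Nat.Coprime (Nat.card W₁) W₁.index) (hW₂ : W₂ ≠ ⊥) (hW₂c : IsCyclic W₂) (hW₂K : W₂ ≤ K) (hC : ∀ x ∈ W₁, x ≠ 1 → K ⊓ Subgroup.centralizer ({x} : Set L) = W₂) (hodd : Odd (Nat.card ↥(W₁ ⊔ W₂))) : ∃ (μ : (↥(W₁ ⊔ W₂) →* ℂˣ) → (L → ℂ)) (δ : (↥(W₁ ⊔ W₂) →* ℂˣ) → ℂ), Function.Injective μ ∧ (∀ ω, Cfsg.IsIrrCharacter L (μ ω)) ∧ (∀ ω, δ ω = 1 ∨ δ ω = -1) ∧ (∀ ω ω' : ↥(W₁ ⊔ W₂) →* ℂˣ, (∀ w : ↥(W₁ ⊔ W₂), (w : L) ∈ W₂ → ω w = ω' w) → δ ω = δ ω' ∧ Cfsg.indFun (W₁ ⊔ W₂) (fun w => (ω w : ℂ) - (ω' w : ℂ)) = δ ω • (μ ω - μ ω')) ∧ (∀ ω, ∀ w : ↥(W₁ ⊔ W₂), (w : L) ∉ W₂ → μ ω w = δ ω * (ω w : ℂ)) ∧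 (∀ θ : L → ℂ, Cfsg.IsIrrCharacter L θ → (∀ ω, θ ≠ μ ω) → ∀ w : ↥(W₁ ⊔ W₂), (w : L) ∉ W₂ → θ w = 0) ∧ (∀ ω, ∃ n : ℤ, μ ω 1 - δ ω = n * (Nat.card W₁ : ℂ)) := by
  set_option maxSynthPendingDepth 3 in
  classical
  have h := pti_sup hKW₁ hKW₁' hW₁ hW₁c hHall hW₂ hW₂c hC hodd
  obtain ⟨σ, hσ, -, -⟩ := h.exists_fam
  refine ⟨fun ω => pos (σ ω), fun ω => sgn (σ ω), fun a b e => ?_, fun ω => (hσ.sirr ω).pos,
    fun ω => by rcases sgn_cases (σ ω) with e | e <;> simp [e], fun ω ω' hω => ?_, fun ω w hw => ?_,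
    fun θ hθ hn w hw => ?_, fun ω => ?_⟩
  · by_contra n
    have := (hσ.sirr b).pos.ip_self
    have e' : pos (σ a) = pos (σ b) := e
    nth_rewrite 1 [← e'] at this
    rw [ip_pos_eq_zero.2 (by rw [ip_comm, ip_pos_eq_zero]; exact hσ.orth _ _ (Ne.symm n))] at this
    norm_num at this
  · have hi : ω * ω'⁻¹ ∈ triv (W₂.subgroupOf (W₁ ⊔ W₂)) := fun w hw => by simp [hω w hw]
    have e1 := h.deg_mul hσ hi ω'
    have e2 := h.ind_sub hσ hi ω'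
    rw [inv_mul_cancel_right] at e1 e2
    have e3 := sgn_congr e1
    refine ⟨by simp only [e3], ?_⟩
    rw [smul_sub, Int.cast_smul_eq_zsmul, Int.cast_smul_eq_zsmul, sgn_smul_pos, e3, sgn_smul_pos, ← e2]
    rfl
  · simp only [pos_apply]; congr 1; exact h.eq_on hσ ω hw
  · refine h.eq_zero_of_orth hσ hθ.isClassFunction (fun ω => ?_) (fun hk => hw ((h.mem_K w).1 hk))
    rw [hθ.isGen.inner_eq_zero_iff (hσ.sirr ω).isGen, ← ip_pos_eq_zero]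
    exact hθ.ip_of_ne (hσ.sirr ω).pos (hn ω)
  · obtain ⟨n, hn⟩ := h.deg_cong hσ ω
    rw [card_subgroupOf le_sup_left] at hn
    exact ⟨sgn (σ ω) * n, by simp only [pos_apply, hn]; push_cast; ring⟩

end Cfsg.Agent.S1511
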