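import Cfsg.Statements.S1513
import Cfsg.Agent.H3.PrimeTI

set_option autoImplicit false
open Cfsg

namespace Cfsg.Agent.S1513
open H3
export H3 (inner_add_left inner_add_right inner_sub_left inner_sub_right inner_neg_left inner_neg_right
  inner_zero_left inner_zero_right inner_smul_left inner_smul_right inner_conj_symm inner_self_eq_zero
  inner_self_im)

/-- Let L be a finite group with K normal with complement W₁ ≠ 1 a cyclic Hall subgroup, and W₂ ≠ 1 a cyclic subgroup of K equal to C_K(x) for every non-identity x ∈ W₁, with W₁W₂ of odd order. For an irreducible character θ of K: if θ is not fixed under conjugation by some element of W₁, then the function induced from θ to L is an irreducible character of L; and the irreducible characters of K fixed by all of W₁ are exactly Nat.card W₂ in number, each inducing to the sum of Nat.card W₁ pairwise distinct irreducible characters of L. -/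
theorem result {L : Type*} [Group L] [Fintype L] (K W₁ W₂ : Subgroup L) [hK : K.Normal] (hKW₁ : K ⊓ W₁ = ⊥) (hKW₁' : K ⊔ W₁ = ⊤) (hW₁ : W₁ ≠ ⊥) (hW₁c : IsCyclic W₁) (hHall : Nat.Coprime (Nat.card W₁) W₁.index) (hW₂ : W₂ ≠ ⊥) (hW₂c : IsCyclic W₂) (hW₂K : W₂ ≤ K) (hC : ∀ x ∈ W₁, x ≠ 1 → K ⊓ Subgroup.centralizer ({x} : Set L) = W₂) (hodd : Odd (Nat.card ↥(W₁ ⊔ W₂))) : (∀ θ : K → ℂ, Cfsg.IsIrrCharacter K θ → (∃ x ∈ W₁, (fun k : K => θ ⟨x * k * x⁻¹, hK.conj_mem (k : L) k.2 x⟩) ≠ θ) → Cfsg.IsIrrCharacter L (Cfsg.indFun K θ)) ∧ Nat.card {θ : Cfsg.IrrCharacter K // ∀ x ∈ W₁, (fun k : K => (θ : K → ℂ) ⟨x * k * x⁻¹, hK.conj_mem (k : L) k.2 x⟩) = θ} = Nat.card W₂ ∧ (∀ θ : K → ℂ, Cfsg.IsIrrCharacter K θ → (∀ x ∈ W₁, (fun k : K => θ ⟨x * k * x⁻¹, hK.conj_mem (k : L) k.2 x⟩) = θ) → ∃ C : Finset (L → ℂ), C.card = Nat.card W₁ ∧ (∀ μ ∈ C, Cfsg.IsIrrCharacter L μ) ∧ Cfsg.indFun K θ = ∑ μ ∈ C, μ) := by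
  set_option maxSynthPendingDepth 3 in
  classical
  have h := pti_sup hKW₁ hKW₁' hW₁ hW₁c hHall hW₂ hW₂c hC hodd
  obtain ⟨σ, hσ, -, -⟩ := h.exists_fam
  obtain ⟨x, hx, hx1⟩ := (Subgroup.bot_or_exists_ne_one W₁).resolve_left hW₁
  have key : ∀ θ : K → ℂ, IsIrrCharacter K θ → (∀ x ∈ W₁, conjF θ x = θ) →
      ∃ j ∈ triv (W₁.subgroupOf (W₁ ⊔ W₂)), θ = fun k : K => pos (σ j) k := fun θ hθ hf =>
    h.exists_eq_of_fixed hσ hθ (w := ⟨x, Subgroup.mem_sup_left hx⟩) hx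
      (fun e => hx1 (congrArg Subtype.val e)) (hf x hx)
  refine ⟨fun θ hθ ⟨y, _, hy⟩ => ?_, ?_, fun θ hθ hf => ?_⟩
  · rcases h.cases_irr hσ hθ with ⟨j, -, rfl⟩ | e
    · exact absurd (conjF_res (hσ.sirr j).pos.isClassFunction y) hy
    · exact e.1
  · rw [← card_subgroupOf (le_sup_right : W₂ ≤ W₁ ⊔ W₂), ← h.card_triv₁]
    refine (Nat.card_eq_of_bijective (fun j : triv (W₁.subgroupOf (W₁ ⊔ W₂)) =>
      (⟨⟨fun k => pos (σ j) k, h.irr_res hσ j⟩, fun y _ => conjF_res (hσ.sirr j).pos.isClassFunction y⟩ :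
        {θ : IrrCharacter K // ∀ x ∈ W₁, conjF (θ : K → ℂ) x = θ})) ⟨fun a b hab => ?_, fun θ => ?_⟩).symm
    · refine Subtype.ext (h.pos_col_inj hσ a.2 b.2 ?_)
      rw [← h.ind_pos hσ, ← h.ind_pos hσ]
      exact congrArg (fun x => indFun K x.1.1) hab
    · obtain ⟨j, hj, e⟩ := key θ.1.1 θ.1.2 θ.2
      exact ⟨⟨j, hj⟩, Subtype.ext (Subtype.ext e.symm)⟩
  · obtain ⟨j, hj, rfl⟩ := key θ hθ hf
    have hinj : Function.Injective fun i : triv (W₂.subgroupOf (W₁ ⊔ W₂)) => sgn (σ j) • σ (i * j) :=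
      fun a b e => Subtype.ext (mul_right_cancel (hσ.injective (int_smul_cancel (sgn_ne_zero _) e)))
    refine ⟨Finset.univ.image fun i : triv (W₂.subgroupOf (W₁ ⊔ W₂)) => sgn (σ j) • σ (i * j), ?_, ?_, ?_⟩
    · rw [Finset.card_image_of_injective _ hinj, Finset.card_univ, ← Nat.card_eq_fintype_card,
        h.card_triv₂, card_subgroupOf le_sup_left]
    · intro μ hμ
      obtain ⟨i, -, rfl⟩ := Finset.mem_image.1 hμ
      rw [← sgn_congr (h.deg_mul hσ i.2 j)]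
      exact (hσ.sirr _).pos
    · rw [Finset.sum_image fun a _ b _ e => hinj e, h.ind_pos hσ, pos, h.sgn_col hσ, col, Finset.smul_sum]

end Cfsg.Agent.S1513
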