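import Cfsg.Statements.S1515
import Cfsg.Agent.H3.Coh2

set_option autoImplicit false
open Cfsg

namespace Cfsg.Agent.S1515
open H3
export H3 (inner_add_left inner_add_right inner_sub_left inner_sub_right inner_neg_left inner_neg_right
  inner_zero_left inner_zero_right inner_smul_left inner_smul_right inner_conj_symm inner_self_eq_zero
  inner_self_im)

/-- Let (S, τ, R) be a coherence system from L to G, χ ∈ S, and ψ an integer combination of S with ⟨χ, ψ⟩ = ⟨conj χ, ψ⟩ = 0. Let τ₁ be a linear isometry on the integer combinations of χ − ψ and χ − conj χ, with virtual-character values, agreeing with τ on integer multiples of χ − conj χ. Then the sum over α ∈ R χ of the squared absolute values of ⟨τ₁(χ − ψ), α⟩ is at least ⟨χ, χ⟩; and if ⟨τ₁(χ − ψ), τ₁(χ − ψ)⟩ minus that sum is at least ⟨ψ, ψ⟩, then the sum equals ⟨χ, χ⟩ and every ⟨τ₁(χ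 − ψ), α⟩ with α ∈ R χ is 0 or 1. -/
theorem result {L : Type*} [Group L] [Fintype L] {G : Type*} [Group G] [Fintype G] (S : Set (L → ℂ)) (τ : (L → ℂ) → (G → ℂ)) (R : (L → ℂ) → Finset (G → ℂ)) (hS : Cfsg.IsCoherenceSystem S τ R) (χ : L → ℂ) (hχ : χ ∈ S) (ψ : L → ℂ) (hψ : ψ ∈ Cfsg.zspan S) (h1 : Cfsg.classInner χ ψ = 0) (h2 : Cfsg.classInner (Cfsg.conjFun χ) ψ = 0) (τ₁ : (L → ℂ) → (G → ℂ)) (hτ₁ : Cfsg.IsLinearIsometryOn (Cfsg.zspan {χ - ψ, χ - Cfsg.conjFun χ}) τ₁) (hagree : ∀ n : ℤ, τ₁ (n • (χ - Cfsg.conjFun χ)) = τ (n • (χ - Cfsg.conjFun χ))) : (Cfsg.classInner χ χ).re ≤ ∑ α ∈ R χ, ‖Cfsg.classInner (τ₁ (χ - ψ)) α‖ ^ 2 ∧ ((Cfsg.classInner ψ ψ).re ≤ (Cfsg.classInner (τ₁ (χ - ψ)) (τ₁ (χ - ψ))).re - ∑ α ∈ R χ, ‖Cfsg.classInner (τ₁ (χ - ψ)) α‖ ^ 2 → (∑ α ∈ R χ, ‖Cfsg.classInner (τ₁ (χ - ψ)) α‖ ^ 2 = (Cfsg.classInner χ χ).re ∧ ∀ α ∈ R χ, Cfsg.classInner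 (τ₁ (χ - ψ)) α = 0 ∨ Cfsg.classInner (τ₁ (χ - ψ)) α = 1)) := by
  have m1 : χ - ψ ∈ Cfsg.zspan {χ - ψ, χ - Cfsg.conjFun χ} := mem_zspan (by simp)
  have m2 : χ - Cfsg.conjFun χ ∈ Cfsg.zspan {χ - ψ, χ - Cfsg.conjFun χ} := mem_zspan (by simp)
  have hX := hτ₁.isGen m1
  have e : ∑ α ∈ R χ, ‖Cfsg.classInner (τ₁ (χ - ψ)) α‖ ^ 2 = ∑ α ∈ R χ, ip (τ₁ (χ - ψ)) α ^ 2 :=
    Finset.sum_congr rfl fun α hα => by
      rw [hX.inner_eq_ip (hS.virtual χ hχ α hα)]; simp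
  have h1' := ip_of_inner_zero h1
  have h2' := ip_of_inner_zero h2
  have h3 : ip (τ₁ (χ - ψ)) (τ (χ - Cfsg.conjFun χ)) = ip χ χ := by
    have := hagree 1
    simp only [one_smul] at this
    rw [← this, hτ₁.ip m1 m2]
    simp only [ip_sub_left, ip_sub_right, ip_comm ψ, h1', h2', hS.ip_conj hχ]; ring
  have h4 := hS.le_sum_sq hχ hX h3
  rw [e]
  refine ⟨h4, fun h5 => ?_⟩
  have h6 : ip (τ₁ (χ - ψ)) (τ₁ (χ - ψ)) = ip χ χ + ip ψ ψ := by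
    rw [hτ₁.ip m1 m1]
    simp only [ip_sub_left, ip_sub_right, ip_comm ψ χ, h1']; ring
  change ip ψ ψ ≤ ip _ _ - _ at h5
  have h7 : ∑ α ∈ R χ, ip (τ₁ (χ - ψ)) α ^ 2 ≤ ip χ χ := by linarith
  refine ⟨le_antisymm h7 h4, fun α hα => ?_⟩
  rw [hX.inner_eq_ip (hS.virtual χ hχ α hα)]
  rcases hS.zero_or_one hχ hX h3 h7 α hα with h | h <;> simp [h]

end Cfsg.Agent.S1515
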