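import Cfsg.Statements.S1522
import Cfsg.Agent.H3.Sib

set_option autoImplicit false
open Cfsg

namespace Cfsg.Agent.S1522
open H3
export H3 (inner_add_left inner_add_right inner_sub_left inner_sub_right inner_neg_left inner_neg_right
  inner_zero_left inner_zero_right inner_smul_left inner_smul_right inner_conj_symm inner_self_eq_zero
  inner_self_im)

/-- Let K be a nilpotent normal subgroup of the finite group L of odd order with [K,K] < K < L and L/[K,K] a Frobenius group with kernel K/[K,K] (elements of K outside [K,K] are centralised modulo [K,K] only from inside K); let (S, τ, R) be a coherence system from L to G with S the functions induced from non-principal irreducible characters of K. Let Z be a nontrivial normal subgroup of L contained in the centre of K, and suppose every member of S outside S(Z) is an irreducible character of L. Then S minus S(Z) is the set of irreducible characters χ of L with χ z ≠ χ 1 for some z ∈ Z, and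 it is coherent. -/
theorem result {L : Type*} [Group L] [Fintype L] {G : Type*} [Group G] [Fintype G] (K : Subgroup L) [hK : K.Normal] (hsolv : Group.IsSolvable K) (τ : (L → ℂ) → (G → ℂ)) (R : (L → ℂ) → Finset (G → ℂ)) (hS : Cfsg.IsCoherenceSystem (Cfsg.inducedIrrAbove K ⊥) τ R) (hodd : Odd (Nat.card L)) (hnil : Group.IsNilpotent K) (hH₁K : ⁅K, K⁆ < K) (hKL : K < ⊤) (hfrob : ∀ k ∈ K, k ∉ ⁅K, K⁆ → ∀ x : L, x * k * x⁻¹ * k⁻¹ ∈ ⁅K, K⁆ → x ∈ K) (Z : Subgroup L) [Z.Normal] (hZ1 : Z ≠ ⊥) (hZK : Z ≤ K) (hZc : ∀ z ∈ Z, ∀ k ∈ K, z * k = k * z) (hirr : ∀ χ ∈ Cfsg.inducedIrrAbove K ⊥ \ Cfsg.inducedIrrAbove K Z, Cfsg.IsIrrCharacter L χ) : Cfsg.inducedIrrAbove K ⊥ \ Cfsg.inducedIrrAbove K Z = {χ | Cfsg.IsIrrCharacter L χ ∧ ∃ z ∈ Z, χ z ≠ χ 1} ∧ Cfsg.IsCoherent (Cfsg.inducedIrrAbove K ⊥ \ Cfsg.inducedIrrAbove K Z) {1}ᶜ τ := by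
  set_option maxSynthPendingDepth 3 in
  rw [inducedIrrAbove_eq bot_le] at hS
  rw [inducedIrrAbove_eq bot_le, inducedIrrAbove_eq hZK, seqInd_diff hZK] at *
  refine ⟨by simp only [seqInd_eq_irr hZK hirr, not_inKer], ?_⟩
  by_cases hc : Cfsg.IsCoherent (seqInd K K ⊥) {1}ᶜ τ
  · obtain ⟨z, hz, z1⟩ := (Subgroup.bot_or_exists_ne_one Z).resolve_left hZ1
    obtain ⟨χ, h1, -, h2⟩ := exists_irr_ker_not_mem (⊥ : Subgroup L) (g := z) (by simpa using z1)
    have : χ ∈ seqInd K Z ⊥ := by rw [seqInd_eq_irr hZK hirr]; exact ⟨h1, not_inKer.2 ⟨z, hz, h2⟩⟩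
    exact hc.mono (seqInd_mono_left hZK) (hS.exists_ne_zero (seqInd_mono_left hZK) this (conj_mem_seqInd this))
  obtain ⟨-, -, a3, p, m, hp, hm, -⟩ := hS.extP.cases65 hsolv hodd bot_le (nil_map_bot hnil)
    (by rwa [sup_bot_eq]) (by rwa [sup_bot_eq]) (by
      rw [sup_bot_eq]; exact hS.coh_der seqInd_subset_bot le_rfl hH₁K) hc
  rw [Subgroup.relIndex_bot_left] at hm
  have hpd : p ∣ (⁅K, K⁆ : Subgroup L).relIndex K := by
    obtain ⟨i, -, hi⟩ := (Nat.dvd_prime_pow hp).1 (hm ▸ H7.relIndex_dvd_card' ⁅K, K⁆ K)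
    exact hi ▸ dvd_pow_self p fun e => relIndex_ne_one hH₁K (by simpa [e] using hi)
  exact hS.coh66 hp (by
      rintro rfl
      exact Nat.not_even_iff_odd.2 (odd_relIndex hodd _ _) (even_iff_two_dvd.2 hpd)) (IsPGroup.of_card hm)
    (((Nat.coprime_self_sub_left (H7.relIndex_pos ⁅K, K⁆ K)).2 (Nat.coprime_one_left _)).coprime_dvd_left
      (FrobMod.dvd hfrob hH₁K.le le_rfl) |>.coprime_dvd_right hpd) hZ1 hZK (H7.le_cen_iff.2 hZc) hirr

end Cfsg.Agent.S1522
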