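import Cfsg.Statements.S1527
import Cfsg.Agent.H3.Cong

set_option autoImplicit false
open Cfsg

namespace Cfsg.Agent.S1527
open H3
export H3 (inner_add_left inner_add_right inner_sub_left inner_sub_right inner_neg_left inner_neg_right
  inner_zero_left inner_zero_right inner_smul_left inner_smul_right inner_conj_symm inner_self_eq_zero
  inner_self_im)

/-- Let G be a finite group and H i (i in a finite index type) subgroups of pairwise coprime orders, each of whose underlying sets is a TI-subset of G, such that every non-identity element of G is conjugate to an element of some H i. Then Nat.card G − 1 = Σ_i [G : N_G(H i)] · (Nat.card (H i) − 1). -/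
theorem result {G : Type*} [Group G] [Finite G] {ι : Type*} [Fintype ι] (H : ι → Subgroup G) (hcop : ∀ i j, i ≠ j → Nat.Coprime (Nat.card (H i)) (Nat.card (H j))) (hTI : ∀ i, Cfsg.IsTISubset (H i : Set G)) (hcover : ∀ g : G, g ≠ 1 → ∃ i, ∃ x : G, x * g * x⁻¹ ∈ H i) : Nat.card G - 1 = ∑ i, (Subgroup.normalizer (H i : Set G)).index * (Nat.card (H i) - 1) := by
  classical
  have h1 : ∀ i, Nat.card {g : G // ∃ x, x * g * x⁻¹ ∈ ((H i : Set G) \ {1} : Set G)} =
      (Subgroup.normalizer (H i : Set G)).index * (Nat.card (H i) - 1) := by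
    intro i
    rw [← card_sdiff_one]
    apply card_conjugates_of_TI
    · intro x hx a ha
      exact ⟨(hx a).1 ha.1, by simpa using ha.2⟩
    · intro x a ha h
      by_contra hx
      exact ha.2 (hTI i x hx a ha.1 h.1)
  simp only [← h1]
  rw [← Nat.card_sigma, ← Subgroup.card_top, ← card_sdiff_one]
  symm
  refine Nat.card_congr (Equiv.ofBijective (fun t => ⟨t.2.1, trivial, fun h => ?_⟩) ⟨?_, ?_⟩)
  · obtain ⟨x, hx⟩ := t.2.2
    exact hx.2 (by rw [h]; simp)
  · rintro ⟨i, g, x, hx⟩ ⟨j, g', y, hy⟩ h
    have h : g = g' := congrArg Subtype.val h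
    subst h
    have : i = j := by
      by_contra hij
      have h2 := (H i).orderOf_dvd_natCard hx.1
      have h3 := (H j).orderOf_dvd_natCard hy.1
      rw [show orderOf (x * g * x⁻¹) = orderOf g from (MulAut.conj x).orderOf_eq g] at h2
      rw [show orderOf (y * g * y⁻¹) = orderOf g from (MulAut.conj y).orderOf_eq g] at h3
      have := Nat.eq_one_of_dvd_coprimes (hcop i j hij) h2 h3
      rw [orderOf_eq_one_iff] at this
      exact hx.2 (by simp [this])
    subst this
    rfl
  · rintro ⟨g, -, hg⟩
    obtain ⟨i, x, hx⟩ := hcover g hg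
    exact ⟨⟨i, g, x, hx, by simpa using hg⟩, rfl⟩

end Cfsg.Agent.S1527
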