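import Cfsg.Statements.S1532
import Cfsg.Agent.H3.Exc

set_option autoImplicit false
open Cfsg

namespace Cfsg.Agent.S1532
open H3
export H3 (inner_add_left inner_add_right inner_sub_left inner_sub_right inner_neg_left inner_neg_right
  inner_zero_left inner_zero_right inner_smul_left inner_smul_right inner_conj_symm inner_self_eq_zero
  inner_self_im)

open H7

/-- Let G be a finite group, p an odd prime and P a Sylow p-subgroup that is non-abelian, whose underlying set is a TI-subset of G, with P properly contained in its set normaliser N and C_G(x) ≤ P for every non-identity x ∈ P. Let Z be a nontrivial subgroup of the centre of P normalised by N. Then the set of irreducible characters χ of N with χ z ≠ χ 1 for some z ∈ Z is coherent for the map induced by induction from N to G. -/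
theorem result {G : Type*} [Group G] [Fintype G] (p : ℕ) [Fact p.Prime] (hp : p ≠ 2) (P : Sylow p G) (hna : ¬ IsMulCommutative (P : Subgroup G)) (hTI : Cfsg.IsTISubset ((P : Subgroup G) : Set G)) (hlt : (P : Subgroup G) < Subgroup.normalizer ((P : Subgroup G) : Set G)) (hC : ∀ k ∈ (P : Subgroup G), k ≠ 1 → Subgroup.centralizer ({k} : Set G) ≤ (P : Subgroup G)) [Fintype ↥(Subgroup.normalizer ((P : Subgroup G) : Set G))] (Z : Subgroup G) (hZ1 : Z ≠ ⊥) (hZP : ∀ z ∈ Z, z ∈ (P : Subgroup G) ∧ ∀ y ∈ (P : Subgroup G), z * y = y * z) (hZn : ∀ x ∈ Subgroup.normalizer ((P : Subgroup G) : Set G), ∀ z ∈ Z, x * z * x⁻¹ ∈ Z) : Cfsg.IsCoherent {χ : ↥(Subgroup.normalizer ((P : Subgroup G) : Set G)) → ℂ | Cfsg.IsIrrCharacter ↥(Subgroup.normalizer ((P : Subgroup G) : Set G)) χ ∧ ∃ z : ↥(Subgroup.normalizer ((P : Subgroup G) : Set G)), (z : G) ∈ Z ∧ χ z ≠ χ 1} {1}ᶜ (fun α => Cfsg.indFun (Subgroup.normalizer ((P : Subgroup G) : Set G)) α) := by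
  set_option maxSynthPendingDepth 3 in
  let L := Subgroup.normalizer ((P : Subgroup G) : Set G)
  haveI : ((P : Subgroup G).subgroupOf L).Normal := Subgroup.normal_in_normalizer
  have hP1 : (P : Subgroup G) ≠ ⊥ := fun e => hna (by rw [e]; infer_instance)
  rcases ti_coherent hlt hP1 hTI hC with ⟨h1, h2, q, hq, h3, h4⟩ | ⟨h1, -⟩ | h
  · exact absurd h4.1 hna
  · exact absurd (disjoint_self.1 (IsPGroup.disjoint_of_ne p 2 hp _ _ P.isPGroup' h1)) hP1
  refine h.mono ?_ ?_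
  · exact fun χ hχ => ⟨hχ.1, hχ.2.imp fun z hz => ⟨(hZP z hz.1).1, hz.2⟩⟩
  have hf : FrobMod ((P : Subgroup G).subgroupOf L) ⊥ := frob_of hC
  have hodd : Odd (Nat.card L) := by
    rw [← ((P : Subgroup G).subgroupOf L).card_mul_index, H7.card_subgroupOf_of_le hlt.le]
    refine Odd.mul ?_ (hf.odd_index fun e => hna ⟨⟨fun a b => Subtype.ext ?_⟩⟩)
    · obtain ⟨k, hk⟩ := IsPGroup.iff_card.1 P.isPGroup'
      rw [hk]
      exact ((Fact.out : p.Prime).odd_of_ne_two hp).pow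
    · exact congrArg (fun x : L => (x : G)) (Subgroup.commutator_eq_bot_iff_le_centralizer.1 e
        (show (⟨b, hlt.le b.2⟩ : L) ∈ _ from b.2) ⟨a, hlt.le a.2⟩ a.2)
  obtain ⟨⟨z, hz⟩, hz1⟩ := Subgroup.ne_bot_iff_exists_ne_one.1 hZ1
  have hzL : z ∈ L := hlt.le (hZP z hz).1
  obtain ⟨χ, hχ, -, hχz⟩ := exists_irr_ker_not_mem (⊥ : Subgroup L) (g := ⟨z, hzL⟩)
    fun e => hz1 (Subtype.ext (congrArg (fun x : L => (x : G)) (Subgroup.mem_bot.1 e)))
  have hm : χ ∈ seqInd ((P : Subgroup G).subgroupOf L) ((P : Subgroup G).subgroupOf L) ⊥ := by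
    rw [hf.seqInd_eq le_rfl]; exact ⟨hχ, ⟨z, hzL⟩, (hZP z hz).1, hχz⟩
  obtain ⟨n, -, hn⟩ := hχ.exists_deg
  refine ⟨χ - conjFun χ, sub_mem_zspanOn ⟨hχ, ⟨z, hzL⟩, hz, hχz⟩ ⟨hχ.conj, ⟨z, hzL⟩, hz,
    fun e => hχz ((starRingEnd ℂ).injective e)⟩ (by rw [conjFun_apply, hn]; simp),
    sub_ne_zero.2 (conj_ne_of_seqInd hodd le_rfl hm).symm⟩

end Cfsg.Agent.S1532
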