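import Cfsg.Statements.S1534
import Cfsg.Agent.H3.Exc

set_option autoImplicit false
open Cfsg

namespace Cfsg.Agent.S1534
open H3
export H3 (inner_add_left inner_add_right inner_sub_left inner_sub_right inner_neg_left inner_neg_right
  inner_zero_left inner_zero_right inner_smul_left inner_smul_right inner_conj_symm inner_self_eq_zero
  inner_self_im)

open H7

/-- Let G be a finite group and K a nontrivial nilpotent subgroup whose underlying set is a TI-subset of G, properly contained in its set normaliser N, with C_G(k) ≤ K for every non-identity k ∈ K; let e be the index of K in N and S the set of irreducible characters χ of N with χ k ≠ χ 1 for some k ∈ K. Then one of: S has exactly one member, Nat.card K = e + 1 and K is an elementary abelian p-group for some prime p; or K is a Sylow 2-subgroup of G (Nat.card K is the largest power of 2 dividing Nat.card G) and [K : [K,K]] < 4e²; or (S, N minus 1, induction to G) is coherent. -/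
theorem result {G : Type*} [Group G] [Fintype G] (K : Subgroup G) (hK1 : K ≠ ⊥) (hnil : Group.IsNilpotent K) (hTI : Cfsg.IsTISubset (K : Set G)) (hlt : K < Subgroup.normalizer (K : Set G)) (hC : ∀ k ∈ K, k ≠ 1 → Subgroup.centralizer ({k} : Set G) ≤ K) [Fintype ↥(Subgroup.normalizer (K : Set G))] : (Nat.card {χ : ↥(Subgroup.normalizer (K : Set G)) → ℂ // Cfsg.IsIrrCharacter ↥(Subgroup.normalizer (K : Set G)) χ ∧ ∃ k : ↥(Subgroup.normalizer (K : Set G)), (k : G) ∈ K ∧ χ k ≠ χ 1} = 1 ∧ Nat.card K = (K.subgroupOf (Subgroup.normalizer (K : Set G))).index + 1 ∧ ∃ p : ℕ, p.Prime ∧ Cfsg.IsElementaryAbelian p K) ∨ (Nat.card K = 2 ^ (Nat.card G).factorization 2 ∧ (⁅K, K⁆.subgroupOf K).index < 4 * (K.subgroupOf (Subgroup.normalizer (K : Set G))).index ^ 2) ∨ Cfsg.IsCoherent {χ : ↥(Subgroup.normalizer (K : Set G)) → ℂ | Cfsg.IsIrrCharacter ↥(Subgroup.normalizer (K : Set G)) χ ∧ ∃ k : ↥(Subgroup.normalizer (K : Set G)), (k : G) ∈ K ∧ χ k ≠ χ 1} {1}ᶜ (fun α => Cfsg.indFun (Subgroup.normalizer (K : Set G))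 α) := by
  set_option maxSynthPendingDepth 3 in
  haveI : (K.subgroupOf (Subgroup.normalizer (K : Set G))).Normal := Subgroup.normal_in_normalizer
  rcases ti_coherent hlt hK1 hTI hC with ⟨h1, h2, q, hq, h3, h4⟩ | ⟨h1, h2, h3, h4⟩ | h
  · exact Or.inl ⟨h1, h2, q, hq, h4⟩
  · refine Or.inr (Or.inl ⟨?_, ?_⟩)
    · obtain ⟨P, hP⟩ := h1.exists_le_sylow
      obtain ⟨⟨k, hk⟩, hk1⟩ := Subgroup.ne_bot_iff_exists_ne_one.1 hK1
      have hP1 : (P : Subgroup G) ≠ ⊥ := fun e => hK1 (le_bot_iff.1 (e ▸ hP))
      haveI := P.isPGroup'.isNilpotent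
      obtain ⟨⟨z, hz⟩, hz1⟩ := Subgroup.ne_bot_iff_exists_ne_one.1
        (H1.inf_centralizer_ne_bot_of_isNilpotent (U := (P : Subgroup G)) le_rfl
          Subgroup.le_normalizer hP1)
      have hzK : z ∈ K := hC k hk (fun e => hk1 (Subtype.ext e))
        (Subgroup.mem_centralizer_singleton_iff.2 (hz.2 k (hP hk)).symm)
      have : K = P := hP.antisymm fun y hy => hC z hzK (fun e => hz1 (Subtype.ext e))
        (Subgroup.mem_centralizer_singleton_iff.2 (hz.2 y hy))
      rw [this]
      exact P.card_eq_multiplicity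
    · change (⁅K, K⁆ : Subgroup G).relIndex K < _
      obtain ⟨m, hm⟩ := h1.index ((⁅K, K⁆ : Subgroup G).subgroupOf K)
      have he : (K.subgroupOf (Subgroup.normalizer (K : Set G))).index ≠ 1 :=
        fun e => sub_ne_top hlt (Subgroup.index_eq_one.1 e)
      change (⁅K, K⁆ : Subgroup G).relIndex K = _ at hm
      rw [hm] at h4 ⊢
      generalize (K.subgroupOf (Subgroup.normalizer (K : Set G))).index = e at h3 h4 he
      have h0 : 0 < e := h3.pos
      by_contra hc
      rcases (by omega : 2 ^ m = 4 * e ^ 2 ∨ 2 ^ m = 4 * e ^ 2 + 1) with h | h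
      · have : e ∣ 2 ^ m := ⟨4 * e, by rw [h]; ring⟩
        exact he (Nat.Coprime.eq_one_of_dvd
          (Nat.Coprime.pow_right _ (Nat.coprime_two_right.2 h3)) this)
      · rcases m with _ | m
        · have : 0 < e ^ 2 := by positivity
          omega
        · rw [pow_succ] at h; omega
  · exact Or.inr (Or.inr h)

end Cfsg.Agent.S1534
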