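import Cfsg.Statements.S1546
import Mathlib

set_option autoImplicit false
open Cfsg

namespace Cfsg.Agent.S1546

/-- Let p and q be odd primes and N = (p ^ q − 1) / (p − 1) = 1 + p + ⋯ + p^(q−1). Then N is odd; if p ≡ 1 (mod q) then q ∣ N; and if p is not ≡ 1 (mod q) then N is coprime to p − 1 and every divisor of N is ≡ 1 (mod q). -/
theorem result (p q : ℕ) (hp : p.Prime) (hq : q.Prime) (hp2 : p ≠ 2) (hq2 : q ≠ 2) : Odd ((p ^ q - 1) / (p - 1)) ∧ (p % q = 1 → q ∣ (p ^ q - 1) / (p - 1)) ∧ (p % q ≠ 1 → Nat.Coprime ((p ^ q - 1) / (p - 1)) (p - 1) ∧ ∀ x : ℕ, x ∣ (p ^ q - 1) / (p - 1) → x % q = 1) := by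
  have h0 : (p ^ q - 1) / (p - 1) = ∑ i ∈ Finset.range q, p ^ i := (Nat.geomSum_eq hp.two_le q).symm
  rw [h0]
  have hmod : ∀ r, r ∣ p - 1 → ∑ i ∈ Finset.range q, p ^ i ≡ q [MOD r] := by
    intro r hr
    have h1 : p ≡ 1 [MOD r] := ((Nat.modEq_iff_dvd' hp.one_le).2 hr).symm
    have := Nat.ModEq.sum (s := Finset.range q) (f := fun i => p ^ i) (g := fun _ => 1)
      (fun i _ => by simpa using h1.pow i)
    simpa using this
  have hpo := hp.odd_of_ne_two hp2
  refine ⟨?_, fun h => ?_, fun h => ?_⟩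
  · have := hmod 2 (by obtain ⟨k, hk⟩ := hpo; omega)
    rw [Nat.odd_iff, this, ← Nat.odd_iff]
    exact hq.odd_of_ne_two hq2
  · have := hmod q ((Nat.modEq_iff_dvd' hp.one_le).1 (by
      rw [Nat.ModEq, h, Nat.mod_eq_of_lt hq.one_lt]))
    exact (Nat.modEq_zero_iff_dvd).1 (this.trans (Nat.modEq_zero_iff_dvd.2 dvd_rfl))
  · have h1 : ∀ r, r.Prime → r ∣ ∑ i ∈ Finset.range q, p ^ i → ¬ r ∣ p - 1 := by
      intro r hr h2 h3
      have h4 : r ∣ q := (Nat.modEq_zero_iff_dvd).1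
        ((hmod r h3).symm.trans (Nat.modEq_zero_iff_dvd.2 h2))
      rw [(Nat.prime_dvd_prime_iff_eq hr hq).1 h4] at h3
      apply h
      have := (Nat.modEq_iff_dvd' hp.one_le).2 h3
      rw [← this, Nat.mod_eq_of_lt hq.one_lt]
    refine ⟨Nat.coprime_of_dvd h1, fun x hx => ?_⟩
    induction x using Nat.recOnMul with
    | zero =>
      exfalso
      rw [zero_dvd_iff, Finset.sum_eq_zero_iff] at hx
      simpa using hx 0 (by simpa using hq.pos)
    | one => exact Nat.mod_eq_of_lt hq.one_lt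
    | prime r hr =>
      haveI := Fact.mk hr
      haveI := Fact.mk hq
      have h2 : (p : ZMod r) ^ q = 1 := by
        have := Nat.geomSum_eq hp.two_le q
        have h3 := mul_geom_sum (p : ZMod r) q
        have h4 : ((∑ i ∈ Finset.range q, p ^ i : ℕ) : ZMod r) = 0 := (ZMod.natCast_eq_zero_iff _ _).2 hx
        push_cast at h4
        rw [h4, mul_zero] at h3
        exact sub_eq_zero.1 h3.symm
      have h3 : (p : ZMod r) ≠ 1 := by
        intro h4
        apply h1 r hr hx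
        rw [← ZMod.natCast_eq_zero_iff, Nat.cast_sub hp.one_le, h4]; simp
      have h4 := orderOf_eq_prime h2 h3
      have h5 : (p : ZMod r) ≠ 0 := by
        intro h; rw [h, zero_pow hq.ne_zero] at h2; exact zero_ne_one h2
      have h6 := ZMod.orderOf_dvd_card_sub_one h5
      rw [h4] at h6
      have := (Nat.modEq_iff_dvd' hr.one_le).2 h6
      rw [← this, Nat.mod_eq_of_lt hq.one_lt]
    | mul a b iha ihb =>
      rw [Nat.mul_mod, iha (dvd_of_mul_right_dvd hx), ihb (dvd_of_mul_left_dvd hx), Nat.mod_eq_of_lt hq.one_lt]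

end Cfsg.Agent.S1546
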