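import Cfsg.Statements.S1551
import Cfsg.Agent.H6.ST

set_option autoImplicit false
open scoped Pointwise
open Cfsg

namespace Cfsg.Agent.S1551
open H6 Finset MulAction
open scoped Pointwise
set_option maxRecDepth 100000

/-- Structure of a sextet stabiliser: it induces every permutation of the six tetrads, the subgroup fixing each tetrad setwise has order 192, and there is a normal subgroup of order 64 consisting of elements squaring to the identity. -/
theorem result (S : Finset (Finset Cfsg.GolayPt)) (hS : S ∈ Cfsg.sextets) : (∀ e : Equiv.Perm ↥S, ∃ g ∈ MulAction.stabilizer Cfsg.M24 S, ∀ t : ↥S, (g : Equiv.Perm Cfsg.GolayPt) • (t : Finset Cfsg.GolayPt) = ((e t : ↥S) : Finset Cfsg.GolayPt)) ∧ Nat.card {g : ↥(MulAction.stabilizer Cfsg.M24 S) // ∀ t ∈ S, ((g : Cfsg.M24) : Equiv.Perm Cfsg.GolayPt) • t = t} = 192 ∧ ∃ N : Subgroup ↥(MulAction.stabilizer Cfsg.M24 S), N.Normal ∧ Nat.card N = 64 ∧ ∀ x ∈ N, x * x = 1 := by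
  obtain ⟨h0, h1, h2, h3⟩ := sext_ker hS
  have hs := resHom_surj (K := stabilizer M24 S) le_rfl h1 (by rw [hS.1, h0]; decide) (by decide)
  have hc : Nat.card ↥(stabilizer M24 S ⊓ fixingSubgroup M24 (S : Set (Finset GolayPt))) = 192 := by
    have := card_range_resHom (stabilizer M24 S) S le_rfl
    rw [h0, MonoidHom.range_eq_top.2 hs, Subgroup.card_top, Nat.card_perm, Nat.card_eq_fintype_card (α := S),
      Fintype.card_coe, hS.1] at this
    rw [show Nat.factorial 6 = 720 from rfl] at this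
    omega
  refine ⟨fun e => ?_, ?_, norm64 inf_le_left (fun h hh k hk => ?_) (by rw [hc]; decide) h2 h3⟩
  · obtain ⟨g, rfl⟩ := hs e
    exact ⟨g.1, g.2, fun t => rfl⟩
  · rw [← hc, ← card_ker_resHom _ S le_rfl]
    exact Nat.card_congr (Equiv.subtypeEquivRight fun g => (mem_ker_resHom (K := stabilizer M24 S) (h := le_rfl)).symm)
  · refine Subgroup.mem_inf.2 ⟨mul_mem (mul_mem hh (Subgroup.mem_inf.1 hk).1) (inv_mem hh), (mem_fixingSubgroup_iff M24).2 fun t ht => ?_⟩
    rw [mul_smul, mul_smul, (mem_fixingSubgroup_iff M24).1 hk.2 _ ((smul_mem_of_stab (inv_mem hh)).2 ht), smul_inv_smul]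

end Cfsg.Agent.S1551
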