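import Cfsg.Statements.S1552
import Cfsg.Agent.H6.Octad

set_option autoImplicit false
open scoped Pointwise
open Cfsg

namespace Cfsg.Agent.S1552
open H6 Finset MulAction
open scoped Pointwise
set_option maxRecDepth 100000

/-- A sextet stabiliser has four orbits on the 1771 sextets, of sizes 1, 90, 240, 1440; and the stabiliser is a maximal proper subgroup. -/
theorem result (S : Finset (Finset Cfsg.GolayPt)) (hS : S ∈ Cfsg.sextets) : ∃ X₁ ∈ Cfsg.sextets, ∃ X₂ ∈ Cfsg.sextets, ∃ X₃ ∈ Cfsg.sextets, (MulAction.orbit ↥(MulAction.stabilizer Cfsg.M24 S) X₁).ncard = 90 ∧ (MulAction.orbit ↥(MulAction.stabilizer Cfsg.M24 S) X₂).ncard = 240 ∧ (MulAction.orbit ↥(MulAction.stabilizer Cfsg.M24 S) X₃).ncard = 1440 ∧ Cfsg.sextets = {S} ∪ MulAction.orbit ↥(MulAction.stabilizer Cfsg.M24 S) X₁ ∪ MulAction.orbit ↥(MulAction.stabilizer Cfsg.M24 S) X₂ ∪ MulAction.orbit ↥(MulAction.stabilizer Cfsg.M24 S) X₃ ∧ IsCoatom (MulAction.stabilizer Cfsg.M24 S) := by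
  obtain ⟨g, rfl⟩ := tr_sextet hS
  have hc := ckF 6 mS0
  have hg : allL (fxF inM 6 mS0) [0x40d666a5f594ecc11c342020a2de2e, 0xa302348aab348105209699daf75cb1] = true := by decide +kernel
  have hx : ∀ x ∈ [mS0, 0x9300140c8081207002000b4000042840, 0x170014880c0220c12000228800104140, 0x332100480c0204808180405800122400], decF 6 x ∈ sextets := by
    intro x hx
    refine decF_mem_sextets ?_
    revert x; decide +kernel
  have hj := Cj.stab g S0
  have key : ∀ x n e ls, decF 6 x ∈ sextets → n ≤ orbF H6.hS 4099 6 513 [0x40d666a5f594ecc11c342020a2de2e, 0xa302348aab348105209699daf75cb1] 1500 x →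
      e ≤ chain ls (fxF (fxF inM 6 mS0) 6 x) → 138240 = n * e →
      (MulAction.orbit (stabilizer M24 (g • S0)) (g • decF 6 x)).ncard = n := fun x n e ls h0 h1 h2 h3 => by
    rw [← orb_eq_orbit, hj.ncard_orb]
    exact (ncard_orb_eq sextets_main.2 (h1.trans (hc.orbF_le hg _ _ _ _ h0.1)) (h2.trans ((hc.fxF 6 x).chain_le ls)) h3).1
  refine ⟨g • decF 6 0x9300140c8081207002000b4000042840, by simpa using hx _ (by simp), g • decF 6 0x170014880c0220c12000228800104140, by simpa using hx _ (by simp),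
    g • decF 6 0x332100480c0204808180405800122400, by simpa using hx _ (by simp),
    key _ _ 1536 [(0, [0x2894c99dd07c4920b468a02f532ec9, 0x15ab43b404606573152a72c7143e70]), (2, [0x33cb7abad46a62c9a9122416710c20]), (5, [0x93cb74c6965d5ca8310624da718820, 0x9c8cbbd90573d2ca29b13d60418820]), (4, [0xb99b28523343aaa4b16f258a718820])] (hx _ (by simp)) (by decide +kernel) (by decide +kernel) rfl,
    key _ _ 576 [(0, [0x8bec6926f56b96080674120a322987]), (5, [0x320b16dd3492dc79aa1563ec418440, 0x71a4d7d4a89de8c4a9703da2418820]), (1, [0xbc2954c9d6345ac41e6b53ca418440]), (6, [0x8bcd6925d5a5d674326d540a418820])] (hx _ (by simp)) (by decide +kernel) (by decide +kernel) rfl,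
    key _ _ 96 [(0, [0xb80d69a5d0795640b04838e2aac9b4, 0x2212b1998209ed77ba002cd519568d]), (4, [0x6526f340e9b29116deab7488510c20]), (6, [0xbd136819d37c56a6b2a83c8a410c20, 0x8da6fac2f2a390c59ccd524a410c20])] (hx _ (by simp)) (by decide +kernel) (by decide +kernel) rfl, ?_,
    hj.coatom (coatomF (n := 1771) S0_mem.1 (by rw [← sextets_main.1, ← orb_S0]; rfl) [0x40d666a5f594ecc11c342020a2de2e, 0xa302348aab348105209699daf75cb1]
      [0x2d827692e693c10a4d2b755111286c, 0xbbaab9bda595a2aa310939a0320820, 0x550f15cb3490f1850d268c2a5b996] H6.hS 4099 513 1800 600 (by decide +kernel) (by decide +kernel) (by decide +kernel))⟩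
  have cov := hc.coverF hg H6.hS 4099 513 1800 6 (A := sextets) (fun g _ b hb => by simpa) (fun b hb => hb.1) hx
    (by rw [sextets_main.1]; decide +kernel)
  simp only [← orb_eq_orbit, hj.orb_eq]
  ext b
  simp only [Set.mem_union, Set.mem_singleton_iff]
  constructor
  · intro hb
    obtain ⟨b, rfl⟩ := MulAction.surjective g b
    obtain ⟨x, hx, h⟩ := cov b (by simpa using hb)
    simp only [List.mem_cons, List.not_mem_nil, or_false] at hx
    rcases hx with rfl | rfl | rfl | rfl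
    · obtain ⟨k, hk, rfl⟩ := h
      exact Or.inl (Or.inl (Or.inl (congrArg (g • ·) hk)))
    · exact Or.inl (Or.inl (Or.inr ⟨b, h, rfl⟩))
    · exact Or.inl (Or.inr ⟨b, h, rfl⟩)
    · exact Or.inr ⟨b, h, rfl⟩
  · rintro (((rfl | ⟨_, ⟨k, _, rfl⟩, rfl⟩) | ⟨_, ⟨k, _, rfl⟩, rfl⟩) | ⟨_, ⟨k, _, rfl⟩, rfl⟩)
    · exact hS
    all_goals simpa using hx _ (by simp)

end Cfsg.Agent.S1552
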