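import Cfsg.Statements.S1553
import Cfsg.Agent.H6.More

set_option autoImplicit false
open scoped Pointwise
open Cfsg

namespace Cfsg.Agent.S1553
open H6 Finset MulAction
open scoped Pointwise
set_option maxRecDepth 100000

/-- The stabiliser of an octad in the group of the length-24 code induces on the octad exactly its alternating group. -/
theorem result (o : Finset Cfsg.GolayPt) (ho : o ∈ Cfsg.octads) : {e : Equiv.Perm ↥o | ∃ g : Equiv.Perm Cfsg.GolayPt, g ∈ Cfsg.M24 ∧ ∃ h : (∀ x, g x ∈ o ↔ x ∈ o), g.subtypePerm h = e} = (alternatingGroup ↥o : Set (Equiv.Perm ↥o)) := by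
  have h := resHom_alt (K := stabilizer M24 o) le_rfl (c := 16)
    (by rw [inf_eq_right.2 fun g hg => smul_eq_of_fix ((mem_fixingSubgroup_iff M24).1 hg), card_fix_octad ho])
    (by rw [card_stab_octad ho, ho.2]; decide)
  rw [← h]
  ext e
  constructor
  · rintro ⟨g, hg, h1, rfl⟩
    refine ⟨⟨⟨g, hg⟩, ?_⟩, rfl⟩
    rw [mem_stabilizer_iff]
    ext x
    rw [← Finset.inv_smul_mem_iff, ← h1]
    exact iff_of_eq (congrArg (· ∈ o) (g.apply_symm_apply x).symm) |>.symm.trans (by rfl) |>.symm.symm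
  · rintro ⟨g, rfl⟩
    exact ⟨g.1.1, g.1.2, fun x => smul_mem_of_stab g.2, rfl⟩

end Cfsg.Agent.S1553
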