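import Cfsg.Statements.S1554
import Cfsg.Agent.H6.More

set_option autoImplicit false
open scoped Pointwise
open Cfsg

namespace Cfsg.Agent.S1554
open H6 Finset MulAction
open scoped Pointwise
set_option maxRecDepth 100000

/-- An octad stabiliser is a split extension: the joint stabiliser of the octad and a point outside it is a complement to the pointwise stabiliser of the octad, and is isomorphic to the alternating group of degree 8. -/
theorem result (o : Finset Cfsg.GolayPt) (ho : o ∈ Cfsg.octads) (p : Cfsg.GolayPt) (hp : p ∉ o) : (Cfsg.M24 ⊓ fixingSubgroup (Equiv.Perm Cfsg.GolayPt) (o : Set Cfsg.GolayPt)) ⊓ (Cfsg.M24 ⊓ MulAction.stabilizer (Equiv.Perm Cfsg.GolayPt) o ⊓ MulAction.stabilizer (Equiv.Perm Cfsg.GolayPt) p) = ⊥ ∧ (Cfsg.M24 ⊓ fixingSubgroup (Equiv.Perm Cfsg.GolayPt) (o : Set Cfsg.GolayPt)) ⊔ (Cfsg.M24 ⊓ MulAction.stabilizer (Equiv.Perm Cfsg.GolayPt) o ⊓ MulAction.stabilizer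 (Equiv.Perm Cfsg.GolayPt) p) = (Cfsg.M24 ⊓ MulAction.stabilizer (Equiv.Perm Cfsg.GolayPt) o) ∧ Nonempty (↥(Cfsg.M24 ⊓ MulAction.stabilizer (Equiv.Perm Cfsg.GolayPt) o ⊓ MulAction.stabilizer (Equiv.Perm Cfsg.GolayPt) p) ≃* alternatingGroup (Fin 8)) := by
  have hF : fixingSubgroup M24 (o : Set GolayPt) ≤ stabilizer M24 o :=
    fun g hg => smul_eq_of_fix ((mem_fixingSubgroup_iff M24).1 hg)
  have h0 := fix_octad_pt ho hp
  have hmem : ∀ g : M24, g ∈ fixingSubgroup M24 (o : Set GolayPt) ↔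
      g.1 ∈ fixingSubgroup (Equiv.Perm GolayPt) (o : Set GolayPt) := fun g => by
    rw [mem_fixingSubgroup_iff, mem_fixingSubgroup_iff]; rfl
  have ho1 : orb (stabilizer M24 o) p = {q | q ∉ o} :=
    (orb_subset (A := {q | q ∉ o}) (fun g hg b hb h => hb ((smul_mem_of_stab hg).1 h)) hp).antisymm
      ((orb_fix_octad ho hp).ge.trans (orb_mono hF p))
  refine ⟨?_, ?_, ?_⟩
  · rw [eq_bot_iff]
    rintro g ⟨⟨h1, h2⟩, -, h3⟩
    have : (⟨g, h1⟩ : M24) ∈ fixingSubgroup M24 (o : Set GolayPt) ⊓ stabilizer M24 p := ⟨(hmem _).2 h2, h3⟩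
    rw [h0] at this
    exact congrArg Subtype.val (Subgroup.mem_bot.1 this)
  · refine le_antisymm (sup_le (fun g hg => ⟨hg.1, hF ((hmem ⟨g, hg.1⟩).2 hg.2)⟩) inf_le_left) ?_
    rintro g ⟨h1, h2⟩
    have h3 : (⟨g, h1⟩ : M24) • p ∈ orb (fixingSubgroup M24 (o : Set GolayPt)) p := by
      rw [orb_fix_octad ho hp, ← ho1]; exact ⟨_, h2, rfl⟩
    obtain ⟨k, hk, e⟩ := h3
    have h4 : k⁻¹ * ⟨g, h1⟩ ∈ stabilizer M24 o ⊓ stabilizer M24 p :=
      Subgroup.mem_inf.2 ⟨(stabilizer M24 o).mul_mem (inv_mem (hF hk)) h2, by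
        rw [mem_stabilizer_iff, mul_smul, ← e, inv_smul_smul]⟩
    have h5 : g = k.1 * (k⁻¹ * ⟨g, h1⟩ : M24).1 := by simp
    rw [h5]
    exact Subgroup.mul_mem_sup ⟨k.2, (hmem k).1 hk⟩ ⟨⟨Subtype.property _, h4.1⟩, h4.2⟩
  · obtain ⟨e⟩ := iso_sub (X := M24 ⊓ stabilizer (Equiv.Perm GolayPt) o ⊓ stabilizer (Equiv.Perm GolayPt) p)
      (K := stabilizer M24 o ⊓ stabilizer M24 p) (inf_le_left.trans inf_le_left)
      fun g => ⟨fun h => ⟨⟨g.2, h.1⟩, h.2⟩, fun h => ⟨h.1.2, h.2⟩⟩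
    obtain ⟨e'⟩ := equiv_alt_of_faithful (K := stabilizer M24 o ⊓ stabilizer M24 p) inf_le_left
      (fun g hg h => Subgroup.mem_bot.1 (h0 ▸ ⟨(mem_fixingSubgroup_iff M24).2 h, hg.2⟩)) ho.2
      (by rw [card_stab_eq (card_stab_octad ho) (d := 16) (e := 20160) (by rw [ho1, ncard_compl_pts, ho.2]) rfl
        (by decide)]; decide)
    exact ⟨e.trans e'⟩

end Cfsg.Agent.S1554
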