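import Cfsg.Statements.S1555
import Cfsg.Agent.H6.Octad

set_option autoImplicit false
open scoped Pointwise
open Cfsg

namespace Cfsg.Agent.S1555
open H6 Finset MulAction
open scoped Pointwise
set_option maxRecDepth 100000

/-- Bottom row of the Leech triangle: an octad is met in a prescribed pair of its points by exactly 16 octads and in a prescribed 4-subset by exactly 4 octads. -/
theorem result (o : Finset Cfsg.GolayPt) (ho : o ∈ Cfsg.octads) (s : Finset Cfsg.GolayPt) (hs : s ⊆ o) : (s.card = 2 → {o' : Finset Cfsg.GolayPt | o' ∈ Cfsg.octads ∧ o ∩ o' = s}.ncard = 16) ∧ (s.card = 4 → {o' : Finset Cfsg.GolayPt | o' ∈ Cfsg.octads ∧ o ∩ o' = s}.ncard = 4) := by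
  have key : ∀ m k n, m < 2 ^ 24 → dec m ⊆ O0 → pc m = k → k ≤ 5 →
      cntLt 4096 (fun n => Nat.beq (pc (cw n)) 8 && Nat.beq (Nat.land 0x149f (cw n)) m) = n → s.card = k →
      {o' : Finset GolayPt | o' ∈ octads ∧ o ∩ o' = s}.ncard = n := fun m k n hm h1 h2 h3 h4 h5 => by
    obtain ⟨g, rfl, rfl⟩ := tr_oct_set O0_mem ho h1 hs (by rw [card_dec, h2, h5]) (by rw [card_dec, h2]; exact h3)
    rw [ncard_transport g (A := {o' : Finset GolayPt | o' ∈ octads ∧ O0 ∩ o' = dec m})
      (fun x => by simp [← smul_finset_inter]), ← h4]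
    exact ncard_oct _ (fun x => Nat.beq (Nat.land 0x149f x) m) fun S => by
      rw [Set.mem_ofPred_eq, ← enc_inj.eq_iff, enc_inter, O0, enc_dec (by norm_num), enc_dec hm, Nat.beq_eq]; rfl
  exact ⟨key 3 2 16 (by norm_num) (by decide +kernel) (by decide +kernel) (by norm_num) (by decide +kernel),
    key 15 4 4 (by norm_num) (by decide +kernel) (by decide +kernel) (by norm_num) (by decide +kernel)⟩

end Cfsg.Agent.S1555
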