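import Cfsg.Statements.S1558
import Cfsg.Agent.H6.ST

set_option autoImplicit false
open scoped Pointwise
open Cfsg

namespace Cfsg.Agent.S1558
open H6 Finset MulAction
open scoped Pointwise
set_option maxRecDepth 100000
theorem aux {G G' H : Type*} [Group G] [Group G'] [Group H] [Finite G] [Finite H] (e : G ≃* G') (π : G →* H)
    (h0 : Nat.card G = 64512) (h1 : Nat.card π.ker ≤ 64) (h2 : Nat.card H = 1008) (h7 : ∀ x ∈ π.ker, x * x = 1) :
    ∃ (N : Subgroup G') (_ : N.Normal), Nat.card N = 64 ∧ (∀ x ∈ N, x * x = 1) ∧ Nonempty (G' ⧸ N ≃* H) := by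
  have h3 := π.ker.card_mul_index
  rw [Subgroup.index_ker, h0] at h3
  have h4 := Subgroup.card_le_card_group π.range
  rw [h2] at h4
  have h5 : Nat.card π.ker = 64 := by nlinarith
  have h6 : π.range = ⊤ := Subgroup.eq_top_of_le_card _ (by rw [h2]; rw [h5] at h3; omega)
  refine ⟨(π.comp e.symm.toMonoidHom).ker, inferInstance, ?_, fun x hx => ?_,
    ⟨QuotientGroup.quotientKerEquivOfSurjective _ ((MonoidHom.range_eq_top.1 h6).comp e.symm.surjective)⟩⟩
  · rw [← h5]
    exact Nat.card_congr (e.symm.toEquiv.subtypeEquiv fun x => Iff.rfl)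
  · apply e.symm.injective
    rw [map_mul, map_one]
    exact h7 _ hx

/-- Structure of a trio stabiliser: every permutation of the three octads is induced, and there is a normal subgroup of order 64 of elements squaring to the identity whose quotient is isomorphic to the product of GL(3, 2) with the symmetric group of degree 3. -/
theorem result (T : Finset (Finset Cfsg.GolayPt)) (hT : T ∈ Cfsg.trios) : (∀ e : Equiv.Perm ↥T, ∃ g ∈ MulAction.stabilizer Cfsg.M24 T, ∀ o : ↥T, (g : Equiv.Perm Cfsg.GolayPt) • (o : Finset Cfsg.GolayPt) = ((e o : ↥T) : Finset Cfsg.GolayPt)) ∧ ∃ (N : Subgroup ↥(MulAction.stabilizer Cfsg.M24 T)) (_ : N.Normal), Nat.card N = 64 ∧ (∀ x ∈ N, x * x = 1) ∧ Nonempty (↥(MulAction.stabilizer Cfsg.M24 T) ⧸ N ≃* GL (Fin 3) (ZMod 2) × Equiv.Perm (Fin 3)) := by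
  obtain ⟨g, rfl⟩ := tr_trio hT
  have c := Cj.stab g T0
  have h0 := c.card.trans trios_main.2
  constructor
  · intro e
    obtain ⟨k, rfl⟩ := resHom_surj (K := stabilizer M24 (g • T0)) le_rfl (c := 10752) (by
      rw [(c.inf (Cj.fixing g T0)).card]
      refine le_trans (Subgroup.card_le_of_le fun x hx => ?_) card_T01
      have h := (mem_fixingSubgroup_iff M24).1 hx.2
      exact ⟨⟨hx.1, h _ (mem_decF.2 ⟨0, by decide, rfl⟩)⟩, h _ (mem_decF.2 ⟨1, by decide, rfl⟩)⟩)
      (by rw [hT.1, h0]; decide) (by decide) e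
    exact ⟨k.1, k.2, fun t => rfl⟩
  · obtain ⟨π, hπ⟩ := trio_hom
    refine aux c.equiv π trios_main.2 ?_ ?_ fun x hx => Subtype.ext (K64_sq (hπ _ hx))
    · refine le_trans ?_ (card64.trans (by decide +kernel))
      rw [← Subgroup.card_subtype]
      exact Subgroup.card_le_of_le (by rintro _ ⟨x, hx, rfl⟩; exact hπ x hx)
    · rw [Nat.card_prod, Matrix.card_GL_field, Nat.card_perm]; simp [Fin.prod_univ_three, Nat.factorial]

end Cfsg.Agent.S1558
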