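import Cfsg.Statements.S1559
import Cfsg.Agent.H6.Trio

set_option autoImplicit false
open scoped Pointwise
open Cfsg

namespace Cfsg.Agent.S1559
open H6 Finset MulAction
open scoped Pointwise
set_option maxRecDepth 100000

/-- A trio stabiliser has five orbits on the 3795 trios, of sizes 1, 42, 56, 1008, 2688; and the stabiliser is a maximal proper subgroup. -/
theorem result (T : Finset (Finset Cfsg.GolayPt)) (hT : T ∈ Cfsg.trios) : ∃ X₁ ∈ Cfsg.trios, ∃ X₂ ∈ Cfsg.trios, ∃ X₃ ∈ Cfsg.trios, ∃ X₄ ∈ Cfsg.trios, (MulAction.orbit ↥(MulAction.stabilizer Cfsg.M24 T) X₁).ncard = 42 ∧ (MulAction.orbit ↥(MulAction.stabilizer Cfsg.M24 T) X₂).ncard = 56 ∧ (MulAction.orbit ↥(MulAction.stabilizer Cfsg.M24 T) X₃).ncard = 1008 ∧ (MulAction.orbit ↥(MulAction.stabilizer Cfsg.M24 T) X₄).ncard = 2688 ∧ Cfsg.trios = {T} ∪ MulAction.orbit ↥(MulAction.stabilizer Cfsg.M24 T) X₁ ∪ MulAction.orbit ↥(MulAction.stabilizer Cfsg.M24 T) X₂ ∪ MulAction.orbit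 ↥(MulAction.stabilizer Cfsg.M24 T) X₃ ∪ MulAction.orbit ↥(MulAction.stabilizer Cfsg.M24 T) X₄ ∧ IsCoatom (MulAction.stabilizer Cfsg.M24 T) := by
  obtain ⟨g, rfl⟩ := tr_trio hT
  have hc := ckF 3 mT0
  have hg : allL (fxF inM 3 mT0) [0x83573600e488d48155d2b84cf2d934, 0x99971180818298f151cdb9e4545536] = true := by decide +kernel
  have hx : ∀ x ∈ [mT0, 0x149f132b20ecc040, 0x160ce209631de0900, 0x293e131681ecc040, 0x293e0dc601f210c0], decF 3 x ∈ trios := by
    intro x hx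
    refine decF_mem_trios ?_
    revert x; decide +kernel
  have hj := Cj.stab g T0
  have key : ∀ x n e ls, decF 3 x ∈ trios → n ≤ orbF H6.hT 16384 3 2048 [0x83573600e488d48155d2b84cf2d934, 0x99971180818298f151cdb9e4545536] 2700 x →
      e ≤ chain ls (fxF (fxF inM 3 mT0) 3 x) → 64512 = n * e →
      (MulAction.orbit (stabilizer M24 (g • T0)) (g • decF 3 x)).ncard = n := fun x n e ls h0 h1 h2 h3 => by
    rw [← orb_eq_orbit, hj.ncard_orb]
    exact (ncard_orb_eq trios_main.2 (h1.trans (hc.orbF_le hg _ _ _ _ h0.1)) (h2.trans ((hc.fxF 3 x).chain_le ls)) h3).1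
  refine ⟨g • decF 3 0x149f132b20ecc040, by simpa using hx _ (by simp), g • decF 3 0x160ce209631de0900, by simpa using hx _ (by simp),
    g • decF 3 0x293e131681ecc040, by simpa using hx _ (by simp), g • decF 3 0x293e0dc601f210c0, by simpa using hx _ (by simp),
    key _ _ 1536 [(0, [0x5c5b3a22cf816a4b80d20a5cc10cea, 0x2a1358c0d3a35c3912f652de70082c]), (1, [0x349d1b55099be81289b03dd6a61060]), (2, [0x495165c5d3a364c31eb7541e219020, 0xb5de59ca11ab96c6890921a871a820]), (5, [0x71a4d7d4a89de8c4a9703da2418820, 0x33a70abd349590c2aa2d3dd6418820, 0x6c22e496b65d2ec7aa663a24418820, 0xabee5339abb4a2c829093ce8418820])] (hx _ (by simp)) (by decide +kernel) (by decide +kernel) rfl,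
    key _ _ 1152 [(0, [0x4bec5611474047202e9530af3741b1, 0x6c24e3882a9b0881dd6628236aa5f4]), (1, [0x45df49c56d2b8c493136142aa38c20, 0x459f79ae4e499aa892b40c0ac38860]), (2, [0xa5df68c96d4c1ca992a8198ac11c20]), (5, [0xa20b75c6464b5cc9a9f63c2a418820, 0xb5de894d6da9a0c8a8b43b92418820])] (hx _ (by simp)) (by decide +kernel) (by decide +kernel) rfl,
    key _ _ 64 [(0, [0xb3ee993a30a996a6828864ca310487, 0x748cb7d8a89dd22a0db00d620530e4]), (2, [0x71a51bd9349bd0c29e0b555a219020]), (5, [0x33a70abd349590c2aa2d3dd6418820, 0x94dd1b5e89354ac42a0b3bda418820])] (hx _ (by simp)) (by decide +kernel) (by decide +kernel) rfl,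
    key _ _ 24 [(0, [0x20823bd516651ed498e05955374251, 0x11061939b3040c88bd4c2acf6ad2e9]), (3, [0xa56d79c0d24b9a75a9e56450320820])] (hx _ (by simp)) (by decide +kernel) (by decide +kernel) rfl, ?_,
    hj.coatom (coatomF (n := 3795) T0_mem.1 (by rw [← trios_main.1, ← orb_T0]; rfl) [0x83573600e488d48155d2b84cf2d934, 0x99971180818298f151cdb9e4545536]
      [0x1a8224468d3c1265b9809948fb5e55, 0x3d250b44720e0b346ac4395494ed7, 0x18961b99f644eac928a4a39a04c607, 0x944d65e27250d3b3c688556a93809] H6.hT 16384 2048 3800 1300 (by decide +kernel) (by decide +kernel) (by decide +kernel))⟩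
  have cov := hc.coverF hg H6.hT 16384 2048 3800 3 (A := trios) (fun g _ b hb => by simpa) (fun b hb => hb.1) hx
    (by rw [trios_main.1]; decide +kernel)
  simp only [← orb_eq_orbit, hj.orb_eq]
  ext b
  simp only [Set.mem_union, Set.mem_singleton_iff]
  constructor
  · intro hb
    obtain ⟨b, rfl⟩ := MulAction.surjective g b
    obtain ⟨x, hx, h⟩ := cov b (by simpa using hb)
    simp only [List.mem_cons, List.not_mem_nil, or_false] at hx
    rcases hx with rfl | rfl | rfl | rfl | rfl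
    · obtain ⟨k, hk, rfl⟩ := h
      exact Or.inl (Or.inl (Or.inl (Or.inl (congrArg (g • ·) hk))))
    · exact Or.inl (Or.inl (Or.inl (Or.inr ⟨b, h, rfl⟩)))
    · exact Or.inl (Or.inl (Or.inr ⟨b, h, rfl⟩))
    · exact Or.inl (Or.inr ⟨b, h, rfl⟩)
    · exact Or.inr ⟨b, h, rfl⟩
  · rintro ((((rfl | ⟨_, ⟨k, _, rfl⟩, rfl⟩) | ⟨_, ⟨k, _, rfl⟩, rfl⟩) | ⟨_, ⟨k, _, rfl⟩, rfl⟩) | ⟨_, ⟨k, _, rfl⟩, rfl⟩)
    · exact hT
    all_goals simpa using hx _ (by simp)

end Cfsg.Agent.S1559
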