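import Cfsg.Statements.S1560
import Cfsg.Agent.H6.Octad

set_option autoImplicit false
open scoped Pointwise
open Cfsg

namespace Cfsg.Agent.S1560
open H6 Finset MulAction
open scoped Pointwise
set_option maxRecDepth 100000

/-- Intersection numbers of dodecads: a dodecad meets every other dodecad in 0, 4, 6 or 8 points, meeting 495 of them in 4 points, 1584 in 6 points and 495 in 8 points. -/
theorem result (d : Finset Cfsg.GolayPt) (hd : d ∈ Cfsg.dodecads) : (∀ d' ∈ Cfsg.dodecads, d' ≠ d → (d ∩ d').card = 0 ∨ (d ∩ d').card = 4 ∨ (d ∩ d').card = 6 ∨ (d ∩ d').card = 8) ∧ {d' : Finset Cfsg.GolayPt | d' ∈ Cfsg.dodecads ∧ (d ∩ d').card = 4}.ncard = 495 ∧ {d' : Finset Cfsg.GolayPt | d' ∈ Cfsg.dodecads ∧ (d ∩ d').card = 6}.ncard = 1584 ∧ {d' : Finset Cfsg.GolayPt | d' ∈ Cfsg.dodecads ∧ (d ∩ d').card = 8}.ncard = 495 := by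
  obtain ⟨g, rfl⟩ := tr_dodecad D0_mem hd
  have key : ∀ k, {o : Finset GolayPt | o ∈ dodecads ∧ (g • D0 ∩ o).card = k}.ncard =
      cntLt 4096 (fun n => Nat.beq (pc (cw n)) 12 && Nat.beq (pc (Nat.land 0x5335f (cw n))) k) := fun k => by
    rw [ncard_transport g (A := {o : Finset GolayPt | o ∈ dodecads ∧ (D0 ∩ o).card = k}) (fun x => by simp [H6.card_smul_inter])]
    exact ncard_dod _ (fun m => Nat.beq (pc (Nat.land 0x5335f m)) k) fun S => by
      rw [Set.mem_ofPred_eq, D0, card_dec_inter_eq]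
  rw [key, key, key]
  refine ⟨fun d' hd' hne => ?_, by decide +kernel⟩
  have h1 := CC_card (CC_symmDiff hd.1 hd'.1)
  have h2 := card_symmDiff_eq (g • D0) d'
  have h3 : (symmDiff (g • D0) d').card ≠ 0 := fun e => hne (symmDiff_eq_bot.1 (card_eq_zero.1 e)).symm
  rw [hd.2, hd'.2] at h2
  omega

end Cfsg.Agent.S1560
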