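import Cfsg.Statements.S1561
import Cfsg.Agent.H6.Octad

set_option autoImplicit false
open scoped Pointwise
open Cfsg

namespace Cfsg.Agent.S1561
open H6 Finset MulAction
open scoped Pointwise
set_option maxRecDepth 100000

/-- Two dodecads meeting a fixed dodecad in equally many points lie in one orbit of its stabiliser. -/
theorem result (d d' d'' : Finset Cfsg.GolayPt) (hd : d ∈ Cfsg.dodecads) (hd' : d' ∈ Cfsg.dodecads) (hd'' : d'' ∈ Cfsg.dodecads) (h : (d ∩ d').card = (d ∩ d'').card) : ∃ g : Equiv.Perm Cfsg.GolayPt, g ∈ Cfsg.M24 ∧ g • d = d ∧ g • d' = d'' := by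
  obtain ⟨g, rfl⟩ := tr_dodecad D0_mem hd
  have hx : ∀ x ∈ [0x5335f, 0xfacca0, 0x6fdd, 0xfccb8, 0xdfba], x < 2 ^ 24 ∧ (isCw x && Nat.beq (pc x) 12) = true := by
    decide +kernel
  obtain ⟨k, hk, e⟩ := (Cj.stab g D0).trans_of (x := d') (y := d'') (trans_of_cover ((ckS 0x5335f).coverS
    (gs := [0x75cb3a19443bd898da40a89616c068, 0x3b96a2b230a5468bd8049a5e19184d]) (by decide +kernel) hC 512 2600 (A := dodecads)
    (fun g _ b hb => (smul_mem_dodecads g b).2 hb) (xs := [0x5335f, 0xfacca0, 0x6fdd, 0xfccb8, 0xdfba])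
    (fun x h => ⟨(hx x h).1, dec_mem_dodecads (hx x h).2⟩) (by rw [ncard_dodecads]; decide +kernel)) (fun b => (D0 ∩ b).card)
    (fun g hg b => card_inter_of_stab hg b) (by simp only [D0, ← dec_and, card_dec]; decide +kernel)
    _ (by simpa) _ (by simpa) (by simpa only [card_inter_inv_smul] using h))
  exact ⟨k, k.2, hk, e⟩

end Cfsg.Agent.S1561
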