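import Cfsg.Statements.S1562
import Cfsg.Agent.H6.Octad

set_option autoImplicit false
open scoped Pointwise
open Cfsg

namespace Cfsg.Agent.S1562
open H6 Finset MulAction
open scoped Pointwise
set_option maxRecDepth 100000

/-- Orbits of a triad stabiliser on the triads disjoint from it: the 210 triads inside a common octad with it form one orbit and the remaining 1120 another. -/
theorem result (T : Finset Cfsg.GolayPt) (hT : T.card = 3) : {U : Finset Cfsg.GolayPt | U.card = 3 ∧ Disjoint T U ∧ (∃ o ∈ Cfsg.octads, T ∪ U ⊆ o)}.ncard = 210 ∧ {U : Finset Cfsg.GolayPt | U.card = 3 ∧ Disjoint T U ∧ ¬ (∃ o ∈ Cfsg.octads, T ∪ U ⊆ o)}.ncard = 1120 ∧ ∀ U U' : Finset Cfsg.GolayPt, U.card = 3 → U'.card = 3 → Disjoint T U → Disjoint T U' → ((∃ o ∈ Cfsg.octads, T ∪ U ⊆ o) ↔ (∃ o ∈ Cfsg.octads, T ∪ U' ⊆ o)) → ∃ g : Equiv.Perm Cfsg.GolayPt, g ∈ Cfsg.M24 ∧ g • T = T ∧ g • U = U' := by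
  obtain ⟨g, rfl⟩ := tr_set (s := dec 7) (t := T) (by rw [hT, card_dec]; decide +kernel) (by rw [card_dec]; decide +kernel)
  have hP : ∀ (g : M24) (T U : Finset GolayPt), (∃ o ∈ octads, g • T ∪ g • U ⊆ o) ↔ ∃ o ∈ octads, T ∪ U ⊆ o := by
    intro g T U
    rw [← smul_finset_union]
    constructor
    · rintro ⟨o, ho, h⟩; exact ⟨g⁻¹ • o, by simpa, by rwa [← smul_finset_subset_smul_finset_iff (a := g), smul_inv_smul]⟩
    · rintro ⟨o, ho, h⟩; exact ⟨g • o, by simpa, smul_finset_subset_smul_finset h⟩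
  have hD : ∀ (g : M24) (T U : Finset GolayPt), Disjoint (g • T) (g • U) ↔ Disjoint T U := fun g T U => by
    rw [disjoint_iff_inter_eq_empty, disjoint_iff_inter_eq_empty, ← smul_finset_inter, smul_finset_eq_empty]
  have hc := ckS 7
  have hg : allL (fxS inM 7) [0x25ce862576a3db2299d350eb088440, 0xa16e67cdab248ecb39114a870a8041] = true := by decide +kernel
  have inv : ∀ (Q : Prop → Prop), ∀ k ∈ stabilizer M24 (dec 7), ∀ b ∈ {U : Finset GolayPt | U.card = 3 ∧ Disjoint (dec 7) U ∧ Q (∃ o ∈ octads, dec 7 ∪ U ⊆ o)},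
      k • b ∈ {U : Finset GolayPt | U.card = 3 ∧ Disjoint (dec 7) U ∧ Q (∃ o ∈ octads, dec 7 ∪ U ⊆ o)} := by
    intro Q k hk b hb
    have := hP k (dec 7) b
    have h2 := hD k (dec 7) b
    rw [mem_stabilizer_iff.1 hk] at this h2
    simp only [Set.mem_ofPred_eq, card_smul_finset, this, h2]; exact hb
  obtain ⟨h1, h2, h3, h4⟩ := split_two (A₁ := {U : Finset GolayPt | U.card = 3 ∧ Disjoint (dec 7) U ∧ (∃ o ∈ octads, dec 7 ∪ U ⊆ o)})
    (A₂ := {U : Finset GolayPt | U.card = 3 ∧ Disjoint (dec 7) U ∧ ¬ (∃ o ∈ octads, dec 7 ∪ U ⊆ o)})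
    (T := {U : Finset GolayPt | U.card = 3 ∧ Disjoint (dec 7) U}) (n₁ := 210) (n₂ := 1120) (Set.toFinite _)
    (Set.disjoint_left.2 fun a h1 h2 => h2.2.2 h1.2.2) (fun a h => ⟨h.1, h.2.1⟩) (fun a h => ⟨h.1, h.2.1⟩)
    (by rw [ncard_subsets_disjoint, card_dec]; decide +kernel)
    (orb_subset (inv id) (a := dec 0x98) ⟨by decide +kernel, by decide +kernel, O0, O0_mem, by decide +kernel⟩)
    (orb_subset (inv Not) (a := dec 0x38) ⟨by decide +kernel, by decide +kernel, by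
      rintro ⟨o, ho, h⟩
      rw [← dec_or, show 7 ||| 0x38 = 63 from rfl, dec_subset_iff (by norm_num)] at h
      exact forall_CC (P := fun o => o.card = 8 → Nat.beq (Nat.land 63 (enc o)) 63 = true → False)
        (fun m => !(Nat.beq (pc m) 8 && Nat.beq (Nat.land 63 m) 63)) (by decide +kernel)
        (fun S h h1 h2 => by rw [← card_eq_pc, h1, h2] at h; simp at h) o ho.1 ho.2 h⟩)
    (le_trans (by decide +kernel) (hc.orbS_le hg hS 512 300 (by norm_num)))
    (le_trans (by decide +kernel) (hc.orbS_le hg hS 512 1200 (by norm_num)))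
  refine ⟨?_, ?_, fun U U' hU hU' hd hd' h => ?_⟩
  · rw [← h1]; exact ncard_transport g fun x => by simp only [Set.mem_ofPred_eq, card_smul_finset, hP, hD]
  · rw [← h2]; exact ncard_transport g fun x => by simp only [Set.mem_ofPred_eq, card_smul_finset, hP, hD]
  obtain ⟨U, rfl⟩ := MulAction.surjective g U
  obtain ⟨U', rfl⟩ := MulAction.surjective g U'
  simp only [card_smul_finset, hP, hD] at hU hU' hd hd' h
  have : ∃ k ∈ stabilizer M24 (dec 7), k • U = U' := by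
    by_cases h5 : ∃ o ∈ octads, dec 7 ∪ U ⊆ o
    · exact orb_trans (a := dec 0x98) (by rw [h3]; exact ⟨hU, hd, h5⟩) (by rw [h3]; exact ⟨hU', hd', h.1 h5⟩)
    · exact orb_trans (a := dec 0x38) (by rw [h4]; exact ⟨hU, hd, h5⟩) (by rw [h4]; exact ⟨hU', hd', mt h.2 h5⟩)
  obtain ⟨k, hk, e⟩ := (Cj.stab g (dec 7)).trans_of (x := g • U) (y := g • U') (by simpa using this)
  exact ⟨k, k.2, hk, e⟩

end Cfsg.Agent.S1562
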