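import Cfsg.Statements.S1563
import Cfsg.Agent.H6.Octad

set_option autoImplicit false
open scoped Pointwise
open Cfsg

namespace Cfsg.Agent.S1563
open H6 Finset MulAction
open scoped Pointwise
set_option maxRecDepth 100000

/-- The stabiliser of a pair of points (setwise) is a maximal proper subgroup of the group of the length-24 code. -/
theorem result (s : Finset Cfsg.GolayPt) (hs : s.card = 2) : IsCoatom (MulAction.stabilizer Cfsg.M24 s) := by
  obtain ⟨g, rfl⟩ := tr_set (s := dec 3) (t := s) (by rw [hs, card_dec]; decide +kernel) (by rw [card_dec]; decide +kernel)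
  refine (Cj.stab g _).coatom (coatomS (n := 276) (by norm_num) ?_ [0x3dc828986c7ae854caca84ead43801, 0x220ca9266f144b4ab0766ae1771c20]
    [0xbace589acc7cd0d75609a11411c840, 0xb8416ad2728c1ee6b16a4a0e629062] hS 512 300 300 (by decide +kernel) (by decide +kernel) (by decide +kernel))
  have h3 : (dec 3).card = 2 := by rw [card_dec]; decide +kernel
  rw [← show Nat.choose 24 2 = 276 from rfl, ← ncard_subsets]
  congr 1
  refine (orb_subset (A := {U : Finset GolayPt | U.card = _}) (fun g _ b hb => by simpa using hb) h3).antisymm fun t ht => ?_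
  obtain ⟨g, e⟩ := tr_set (s := dec 3) (t := t) (by rw [ht, h3]) (by omega)
  exact ⟨g, trivial, e⟩

end Cfsg.Agent.S1563
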