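import Cfsg.Statements.S1564
import Cfsg.Agent.H6.Octad

set_option autoImplicit false
open scoped Pointwise
open Cfsg

namespace Cfsg.Agent.S1564
open H6 Finset MulAction
open scoped Pointwise
set_option maxRecDepth 100000

/-- The stabiliser of a set of three points (setwise) is a maximal proper subgroup of the group of the length-24 code. -/
theorem result (s : Finset Cfsg.GolayPt) (hs : s.card = 3) : IsCoatom (MulAction.stabilizer Cfsg.M24 s) := by
  obtain ⟨g, rfl⟩ := tr_set (s := dec 7) (t := s) (by rw [hs, card_dec]; decide +kernel) (by rw [card_dec]; decide +kernel)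
  refine (Cj.stab g _).coatom (coatomS (n := 2024) (by norm_num) ?_ [0x510b4441ccbb4e68a5f2b566358440, 0xb262aa41e3ab8d7220ad64ceb90022]
    [0xbd9b4549cc246b04cd67418af10c20, 0xbcc2faac0563a12526886c4c2b0c87, 0xb9514142cc099af8cd6aaa5d238c04, 0xb8820b56939460f7358b5250731483] hS 512 2100 800 (by decide +kernel) (by decide +kernel) (by decide +kernel))
  have h3 : (dec 7).card = 3 := by rw [card_dec]; decide +kernel
  rw [← show Nat.choose 24 3 = 2024 from rfl, ← ncard_subsets]
  congr 1
  refine (orb_subset (A := {U : Finset GolayPt | U.card = _}) (fun g _ b hb => by simpa using hb) h3).antisymm fun t ht => ?_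
  obtain ⟨g, e⟩ := tr_set (s := dec 7) (t := t) (by rw [ht, h3]) (by omega)
  exact ⟨g, trivial, e⟩

end Cfsg.Agent.S1564
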