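import Cfsg.Statements.S1565
import Cfsg.Agent.H6.Octad

set_option autoImplicit false
open scoped Pointwise
open Cfsg

namespace Cfsg.Agent.S1565
open H6 Finset MulAction
open scoped Pointwise
set_option maxRecDepth 100000

/-- The stabiliser of an octad is a maximal proper subgroup of the group of the length-24 code. -/
theorem result (o : Finset Cfsg.GolayPt) (ho : o ∈ Cfsg.octads) : IsCoatom (MulAction.stabilizer Cfsg.M24 o) := by
  obtain ⟨g, rfl⟩ := tr_octad O0_mem ho
  exact (Cj.stab g _).coatom (coatomS (n := 759) (by norm_num) (by rw [← ncard_octads, ← orb_O0]; rfl)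
    [0xb40aeac52d91aec99df45216418022, 0x2be5645d315b662a81d451a0338584]
    [0x25c76a310249ead0482a9bcb15ba06, 0xb82d5a4e5183dcd62d4941cc520c41, 0xbd0702aa33a81ee1365659c884b026] hC 512 800 400 (by decide +kernel) (by decide +kernel) (by decide +kernel))

end Cfsg.Agent.S1565
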