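import Cfsg.Statements.S1566
import Cfsg.Agent.H6.Octad

set_option autoImplicit false
open scoped Pointwise
open Cfsg

namespace Cfsg.Agent.S1566
open H6 Finset MulAction
open scoped Pointwise
set_option maxRecDepth 100000

/-- The setwise stabiliser of a dodecad together with its complement is a maximal proper subgroup of the group of the length-24 code. -/
theorem result (d : Finset Cfsg.GolayPt) (hd : d ∈ Cfsg.dodecads) : IsCoatom (MulAction.stabilizer Cfsg.M24 ({d, dᶜ} : Finset (Finset Cfsg.GolayPt))) := by
  obtain ⟨g, rfl⟩ := tr_dodecad D0_mem hd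
  have e : decF 2 0xfacca005335f = {D0, D0ᶜ} := by decide +kernel
  have e2 : g • decF 2 0xfacca005335f = {g • D0, (g • D0)ᶜ} := by
    rw [e, smul_finset_insert, smul_finset_singleton, smul_compl]
  have hc : (decF 2 0xfacca005335f).card = 2 := card_decF (by decide +kernel)
  refine (Cj.stab' e2).coatom (coatomF (n := 1288) hc ?_
    [0x990261e4f042b348dd46d88a5de25, 0xa2ef6386697d5a8714668c94c80082]
    [0x21dae53c1230c355a23411537832d3, 0x59c8c5011073cd12a66d0d077a8ad2] (fun m => Nat.mul (bit m 0) (hC m)) 4096 512 1300 700 (by decide +kernel) (by decide +kernel) (by decide +kernel))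
  refine (ncard_orb_eq (e := 190080) card_top_M24 (le_trans (by decide +kernel)
    (ck_top.orbF_le gM_ok (fun m => Nat.mul (bit m 0) (hC m)) 4096 512 1300 hc)) ?_ rfl).1
  rw [card_orb _ D0, top_inf_eq]
  have h1 : stabilizer M24 (decF 2 0xfacca005335f) ⊓ stabilizer M24 D0 = stabilizer M24 D0 := by
    refine inf_eq_right.2 fun k hk => ?_
    rw [mem_stabilizer_iff, e, smul_finset_insert, smul_finset_singleton, smul_compl, mem_stabilizer_iff.1 hk]
  rw [h1, card_stab_dodecad D0_mem]
  have : 2 ≤ (orb (stabilizer M24 (decF 2 0xfacca005335f)) D0).ncard := le_trans (by decide +kernel)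
    ((ckF 2 0xfacca005335f).orbS_le (gs := [0x990261e4f042b348dd46d88a5de25, 0xa2ef6386697d5a8714668c94c80082])
      (by decide +kernel) hC 512 5 (m := 0x5335f) (by norm_num))
  omega

end Cfsg.Agent.S1566
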