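import Cfsg.Statements.S1567
import Cfsg.Agent.H6.LBasis

set_option autoImplicit false
open Cfsg

namespace Cfsg.Agent.S1567
open H6 Finset MulAction
open scoped Pointwise
set_option maxRecDepth 100000

/-- The rank-24 lattice is the additive subgroup generated by its 196560 minimal vectors. -/
theorem result : AddSubgroup.closure {x : Cfsg.GolayPt → ℤ | x ∈ Cfsg.leechLattice ∧ Cfsg.sqNorm x = 32} = Cfsg.leechLattice := by
  refine le_antisymm ((AddSubgroup.closure_le _).2 fun x hx => hx.1) fun x hx => ?_
  have hb : ∀ p, (bv p : Vec) ∈ AddSubgroup.closure {x : GolayPt → ℤ | x ∈ leechLattice ∧ sqNorm x = 32} := by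
    have h1 : ∀ j < 24, j ≠ 1 → sqNorm (bv (pt j) : Vec) = 32 := by
      intro j hj h
      have : allLt 24 (fun j => Nat.beq j 1 || Nat.beq (dN (row bT j) (row bT j)) 393248) = true := by decide +kernel
      have h2 := allLt_iff.1 this j hj
      simp only [Bool.or_eq_true, Nat.beq_eq, h, false_or] at h2
      have h3 := dN_eq (row bT j) (row bT j)
      rw [dot_self] at h3
      show sqNorm (vz (row bT (idx (pt j)))) = 32
      rw [idx_pt hj]; omega
    refine forall_pt fun j hj => ?_
    by_cases h : j = 1
    · subst h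
      have h2 : sqNorm ((bv (pt 1) + bv (pt 0) : LL) : Vec) = 32 := by
        rw [bv0, bv1]; decide +kernel
      have := sub_mem (AddSubgroup.subset_closure (k := {x : GolayPt → ℤ | x ∈ leechLattice ∧ sqNorm x = 32})
        ⟨(bv (pt 1) + bv (pt 0)).2, h2⟩) (AddSubgroup.subset_closure ⟨(bv (pt 0)).2, h1 0 (by decide) (by decide)⟩)
      simpa using this
    · exact AddSubgroup.subset_closure ⟨(bv _).2, h1 j hj h⟩
  have := congrArg Subtype.val (expand ⟨x, hx⟩)
  simp only [AddSubmonoidClass.coe_finsetSum, AddSubgroup.coe_zsmul] at this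
  rw [this]
  exact sum_mem fun p _ => AddSubgroup.zsmul_mem _ (hb p) _

end Cfsg.Agent.S1567
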