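import Cfsg.Statements.S1568
import Cfsg.Agent.H6.LCount

set_option autoImplicit false
open Cfsg

namespace Cfsg.Agent.S1568
open H6 Finset MulAction
open scoped Pointwise
set_option maxRecDepth 100000
theorem split (P : ℤ → Bool) (Q : GolayPt → Vec → Prop) (h : ∀ x i, Q i x ↔ P (x i) = false) :
    {x : Vec | x ∈ leechLattice ∧ sqNorm x = 48 ∧ ∃ i, Q i x}.ncard + totN P 48 = 16773120 := by
  rw [← count_leech P (by decide), ← ncard_48, ← Set.ncard_union_eq ?_ ((finite_sq 48).subset fun x hx => hx.2.1)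
    ((finite_sq 48).subset fun x hx => hx.2.1)]
  · congr 1
    ext x
    simp only [Set.mem_union, Set.mem_ofPred_eq, h, Nat.cast_ofNat]
    by_cases h1 : ∀ i, P (x i) = true
    · simp [h1]
    · have : ∃ i, P (x i) = false := by simpa using h1
      simp [h1, this]
  · refine Set.disjoint_left.2 ?_
    rintro x ⟨-, -, i, hi⟩ ⟨-, -, h2⟩
    rw [h, h2 i] at hi; cases hi
theorem three {x : Vec} (hx : x ∈ leechLattice) (hn : sqNorm x = 48) {i : GolayPt} (hi : |x i| = 3) :
    ∃ i j k, i ≠ j ∧ j ≠ k ∧ i ≠ k ∧ |x i| = 3 ∧ |x j| = 3 ∧ |x k| = 3 := by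
  obtain ⟨m, h1, -⟩ := mem_leech.1 hx
  have h2 : ∀ j, x j ^ 2 = 1 + 8 * ind (univ.filter fun j => |x j| = 3) j + 24 * ind (univ.filter fun j => |x j| = 5) j := by
    intro j
    have h3 := sq_le x j
    have h4 := h1 i
    have h5 := h1 j
    have h6 : -7 < x j ∧ x j < 7 := by constructor <;> nlinarith
    unfold Int.ModEq at h4 h5
    have h7 : x j = -5 ∨ x j = -3 ∨ x j = -1 ∨ x j = 1 ∨ x j = 3 ∨ x j = 5 := by
      rcases abs_eq (by decide : (0 : ℤ) ≤ 3) |>.1 hi with h | h <;> omega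
    simp only [ind, mem_filter, mem_univ, true_and]
    rcases h7 with h | h | h | h | h | h <;> rw [h] <;> decide
  unfold sqNorm at hn
  rw [sum_congr rfl fun j _ => h2 j, sum_add_distrib, sum_add_distrib, ← mul_sum, ← mul_sum, sum_ind, sum_ind,
    sum_const, card_univ, card_pt] at hn
  have h3 : 0 < (univ.filter fun j => |x j| = 3).card := card_pos.2 ⟨i, by simp [hi]⟩
  obtain ⟨a, ha, b, hb, c, hc, h4, h5, h6⟩ := (two_lt_card (s := univ.filter fun j => |x j| = 3)).1 (by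
    simp only [nsmul_eq_mul] at hn; omega)
  exact ⟨a, b, c, h4, h6, h5, (mem_filter.1 ha).2, (mem_filter.1 hb).2, (mem_filter.1 hc).2⟩

/-- Shape census of the lattice vectors of sum of squares 48 (customary norm 6): the four families (2^12, 0^12), (±3^3, ±1^21), (±4, ±2^8, 0^15) and (±5, ±1^23) have 5275648, 8290304, 3108864 and 98304 members. -/
theorem result : {x : Cfsg.GolayPt → ℤ | x ∈ Cfsg.leechLattice ∧ Cfsg.sqNorm x = 48 ∧ ∀ i, x i = 0 ∨ x i = 2 ∨ x i = -2}.ncard = 5275648 ∧ {x : Cfsg.GolayPt → ℤ | x ∈ Cfsg.leechLattice ∧ Cfsg.sqNorm x = 48 ∧ ∃ i j k, i ≠ j ∧ j ≠ k ∧ i ≠ k ∧ |x i| = 3 ∧ |x j| = 3 ∧ |x k| = 3}.ncard = 8290304 ∧ {x : Cfsg.GolayPt → ℤ | x ∈ Cfsg.leechLattice ∧ Cfsg.sqNorm x = 48 ∧ ∃ i, |x i| = 4}.ncard = 3108864 ∧ {x : Cfsg.GolayPt → ℤ | x ∈ Cfsg.leechLattice ∧ Cfsg.sqNorm x = 48 ∧ ∃ i, |x i| = 5}.ncard = 98304 := by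
  refine ⟨?_, ?_, ?_, ?_⟩
  · rw [← (by decide +kernel : totN (fun a => decide (a = 0 ∨ a = 2 ∨ a = -2)) 48 = 5275648),
      ← count_leech _ (by decide)]
    simp only [decide_eq_true_eq, Nat.cast_ofNat]
  · have := split (fun a => !decide (|a| = 3)) (fun i x => |x i| = 3) (by simp)
    rw [(by decide +kernel : totN (fun a => !decide (|a| = 3)) 48 = 8482816)] at this
    refine Eq.trans (congrArg Set.ncard (Set.ext fun x => ?_)) (Nat.add_right_cancel (k := 8290304) this)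
    exact and_congr_right fun hx => and_congr_right fun hn =>
      ⟨fun ⟨i, _, _, _, _, _, h, _⟩ => ⟨i, h⟩, fun ⟨i, h⟩ => three hx hn h⟩
  · have := split (fun a => !decide (|a| = 4)) (fun i x => |x i| = 4) (by simp)
    rw [(by decide +kernel : totN (fun a => !decide (|a| = 4)) 48 = 13664256)] at this
    exact Nat.add_right_cancel (k := 3108864) this
  · have := split (fun a => !decide (|a| = 5)) (fun i x => |x i| = 5) (by simp)
    rw [(by decide +kernel : totN (fun a => !decide (|a| = 5)) 48 = 16674816)] at this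
    exact Nat.add_right_cancel (k := 98304) this

end Cfsg.Agent.S1568
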