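import Cfsg.Statements.S1569
import Cfsg.Agent.H6.LFrame

set_option autoImplicit false
open scoped Pointwise
open Cfsg

namespace Cfsg.Agent.S1569
open H6 Finset MulAction
open scoped Pointwise
set_option maxRecDepth 100000

/-- The cross through a lattice vector of customary norm 8 has exactly 48 members. -/
theorem result (x : Cfsg.GolayPt → ℤ) (hx : x ∈ Cfsg.leechLattice) (hxn : Cfsg.sqNorm x = 64) : (Cfsg.cross x).ncard = 48 := by
  rw [← kap_main.2.2 ⟨x, hx⟩ hxn, ← Set.ncard_image_of_injective _ Subtype.val_injective]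
  congr 1
  ext y
  simp only [cross, Set.mem_image, Set.mem_ofPred_eq, kap_eq, hxn]
  constructor
  · rintro ⟨h1, h2, z, hz, h3⟩
    exact ⟨⟨y, h1⟩, ⟨h2, ⟨z, hz⟩, Subtype.ext (h3.trans (two_smul _ _))⟩, rfl⟩
  · rintro ⟨y, ⟨h2, z, h3⟩, rfl⟩
    exact ⟨y.2, h2, z, z.2, (congrArg Subtype.val h3).trans (two_smul _ _).symm⟩

end Cfsg.Agent.S1569
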