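import Cfsg.Statements.S1573
import Cfsg.Agent.H6.Co1

set_option autoImplicit false
open Cfsg

namespace Cfsg.Agent.S1573
open H6 Finset MulAction
open scoped Pointwise
set_option maxRecDepth 100000

/-- Census of minimal vectors by inner product with a fixed minimal vector: 4600 have customary inner product −2, 47104 have −1, and 93150 are orthogonal. -/
theorem result (v : Cfsg.GolayPt → ℤ) (hv : v ∈ Cfsg.leechLattice) (hvn : Cfsg.sqNorm v = 32) : {w : Cfsg.GolayPt → ℤ | w ∈ Cfsg.leechLattice ∧ Cfsg.sqNorm w = 32 ∧ Cfsg.dotInt v w = -16}.ncard = 4600 ∧ {w : Cfsg.GolayPt → ℤ | w ∈ Cfsg.leechLattice ∧ Cfsg.sqNorm w = 32 ∧ Cfsg.dotInt v w = -8}.ncard = 47104 ∧ {w : Cfsg.GolayPt → ℤ | w ∈ Cfsg.leechLattice ∧ Cfsg.sqNorm w = 32 ∧ Cfsg.dotInt v w = 0}.ncard = 93150 := by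
  have h := PM_min (v := ⟨v, hv⟩) hvn
  refine ⟨(ncard_LL fun w => sqNorm w = 32 ∧ dotInt v w = -16).symm.trans (h.1.2.2 _ (by decide) (by decide)),
    (ncard_LL fun w => sqNorm w = 32 ∧ dotInt v w = -8).symm.trans (h.2.1.2.2 _ (by decide) (by decide)),
    (ncard_LL fun w => sqNorm w = 32 ∧ dotInt v w = 0).symm.trans ?_⟩
  have := h.2.2.1
  simp only [abs_eq_zero] at this
  exact this

end Cfsg.Agent.S1573
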