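import Cfsg.Statements.S1578
import Cfsg.Agent.H6.Co1

set_option autoImplicit false
open Cfsg

namespace Cfsg.Agent.S1578
open H6 Finset MulAction
open scoped Pointwise
set_option maxRecDepth 100000

/-- A lattice vector of customary norm 6 is the sum of an unordered pair of minimal vectors in exactly 276 ways (552 ordered summands). -/
theorem result (u : ↥Cfsg.leechLattice) (hu : Cfsg.sqNorm (u : Cfsg.GolayPt → ℤ) = 48) : {v : ↥Cfsg.leechLattice | Cfsg.sqNorm (v : Cfsg.GolayPt → ℤ) = 32 ∧ Cfsg.sqNorm ((u - v) : Cfsg.GolayPt → ℤ) = 32}.ncard = 552 := by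
  rw [← (PM_48 hu).1.2.2 24 (by decide) (by decide)]
  congr 1; ext v
  refine and_congr_right fun h => ?_
  rw [sq_sub, hu, show sqNorm (v : Vec) = 32 from h]; omega

end Cfsg.Agent.S1578
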