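import Cfsg.Statements.S1581
import Cfsg.Agent.H6.LRb

set_option autoImplicit false
open Cfsg

namespace Cfsg.Agent.S1581
open H6 Finset MulAction
open scoped Pointwise
set_option maxRecDepth 100000

/-- The McLaughlin group acts with rank 3 and subdegrees 1, 112, 162 on its 275 points: the point stabiliser has two orbits on the remaining points, distinguished by customary inner product 1 or 2 with the fixed point. -/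
theorem result (u v x : ↥Cfsg.leechLattice) (hu : Cfsg.sqNorm (u : Cfsg.GolayPt → ℤ) = 48) (hv : Cfsg.sqNorm (v : Cfsg.GolayPt → ℤ) = 32 ∧ Cfsg.sqNorm ((u - v) : Cfsg.GolayPt → ℤ) = 32) (hx : x ∈ {x : ↥Cfsg.leechLattice | Cfsg.sqNorm (x : Cfsg.GolayPt → ℤ) = 32 ∧ Cfsg.sqNorm ((u - x) : Cfsg.GolayPt → ℤ) = 32 ∧ Cfsg.dotInt (v : Cfsg.GolayPt → ℤ) (x : Cfsg.GolayPt → ℤ) = 16}) : {y : ↥Cfsg.leechLattice | y ∈ {x : ↥Cfsg.leechLattice | Cfsg.sqNorm (x : Cfsg.GolayPt → ℤ) = 32 ∧ Cfsg.sqNorm ((u - x) : Cfsg.GolayPt → ℤ) = 32 ∧ Cfsg.dotInt (v : Cfsg.GolayPt → ℤ) (x : Cfsg.GolayPt → ℤ) = 16} ∧ Cfsg.dotInt (x : Cfsg.GolayPt → ℤ) (y : Cfsg.GolayPt → ℤ) = 8}.ncard = 112 ∧ {y : ↥Cfsg.leechLattice | y ∈ {x : ↥Cfsg.leechLattice | Cfsg.sqNorm (x : Cfsg.GolayPt → ℤ) = 32 ∧ Cfsg.sqNorm ((u - x) : Cfsg.GolayPt → ℤ) = 32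 ∧ Cfsg.dotInt (v : Cfsg.GolayPt → ℤ) (x : Cfsg.GolayPt → ℤ) = 16} ∧ y ≠ x ∧ Cfsg.dotInt (x : Cfsg.GolayPt → ℤ) (y : Cfsg.GolayPt → ℤ) = 16}.ncard = 162 ∧ ∀ y ∈ {x : ↥Cfsg.leechLattice | Cfsg.sqNorm (x : Cfsg.GolayPt → ℤ) = 32 ∧ Cfsg.sqNorm ((u - x) : Cfsg.GolayPt → ℤ) = 32 ∧ Cfsg.dotInt (v : Cfsg.GolayPt → ℤ) (x : Cfsg.GolayPt → ℤ) = 16}, ∀ y' ∈ {x : ↥Cfsg.leechLattice | Cfsg.sqNorm (x : Cfsg.GolayPt → ℤ) = 32 ∧ Cfsg.sqNorm ((u - x) : Cfsg.GolayPt → ℤ) = 32 ∧ Cfsg.dotInt (v : Cfsg.GolayPt → ℤ) (x : Cfsg.GolayPt → ℤ) = 16}, y ≠ x → y' ≠ x → Cfsg.dotInt (x : Cfsg.GolayPt → ℤ) (y : Cfsg.GolayPt → ℤ) = Cfsg.dotInt (x : Cfsg.GolayPt → ℤ) (y' : Cfsg.GolayPt → ℤ) → ∃ g : ↥Cfsg.Co0, g • u = u ∧ g • v = v ∧ g • x = x ∧ g • y = y' := by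
  rw [mclX v hu] at hx ⊢
  have c := ra.1.2.1.ext (cg_mcl hu hv) x0_mem hx
  have h1 := rb.1.2.1.of c
  have h2 := rb.1.2.2.of c
  have h3 := rb.2.of c
  refine ⟨?_, ?_, fun y hy y' hy' n1 n2 e => ?_⟩
  · rw [← h2.1]; congr 1; ext y; rw [mem_SD_cons]; rfl
  · rw [← h1.1]; congr 1; ext y; rw [mem_SD_cons]
    refine ⟨fun h => ⟨h.1, h.2.2⟩, fun h => ⟨h.1, fun e => ?_, h.2⟩⟩
    have := (dot32 hx.1 h.1.1).2 e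
    rw [h.2] at this; cases this
  · have h4 := h3 y hy
    have h5 := mt (dot32 hx.1 hy.1).1 n1
    simp only [List.mem_cons, List.not_mem_nil, or_false] at h4
    obtain ⟨g, hg, e⟩ : ∃ g ∈ FX [x, v, u], g • y = y' := by
      rcases h4 with h | h | h
      · exact absurd h h5
      · exact h1.tr (mem_SD_cons.2 ⟨hy, h⟩) (mem_SD_cons.2 ⟨hy', e ▸ h⟩)
      · exact h2.tr (mem_SD_cons.2 ⟨hy, h⟩) (mem_SD_cons.2 ⟨hy', e ▸ h⟩)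
    exact ⟨g, hg u (by simp), hg v (by simp), hg x (by simp), e⟩

end Cfsg.Agent.S1581
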