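import Cfsg.Statements.S1584
import Cfsg.Agent.H6.LRb

set_option autoImplicit false
open Cfsg

namespace Cfsg.Agent.S1584
open H6 Finset MulAction
open scoped Pointwise
set_option maxRecDepth 100000

/-- The Higman–Sims group acts with rank 3 and subdegrees 1, 22, 77 on its 100 points, the orbits of a point stabiliser being distinguished by customary inner product 1 with the fixed point. -/
theorem result (v w x : ↥Cfsg.leechLattice) (hv : Cfsg.sqNorm (v : Cfsg.GolayPt → ℤ) = 48) (hw : Cfsg.sqNorm (w : Cfsg.GolayPt → ℤ) = 48) (hvw : Cfsg.dotInt (v : Cfsg.GolayPt → ℤ) (w : Cfsg.GolayPt → ℤ) = -32) (hx : x ∈ {x : ↥Cfsg.leechLattice | Cfsg.sqNorm (x : Cfsg.GolayPt → ℤ) = 32 ∧ Cfsg.dotInt (v : Cfsg.GolayPt → ℤ) (x : Cfsg.GolayPt → ℤ) = 24 ∧ Cfsg.dotInt (w : Cfsg.GolayPt → ℤ) (x : Cfsg.GolayPt → ℤ) =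 -24}) : {y : ↥Cfsg.leechLattice | y ∈ {x : ↥Cfsg.leechLattice | Cfsg.sqNorm (x : Cfsg.GolayPt → ℤ) = 32 ∧ Cfsg.dotInt (v : Cfsg.GolayPt → ℤ) (x : Cfsg.GolayPt → ℤ) = 24 ∧ Cfsg.dotInt (w : Cfsg.GolayPt → ℤ) (x : Cfsg.GolayPt → ℤ) = -24} ∧ Cfsg.dotInt (x : Cfsg.GolayPt → ℤ) (y : Cfsg.GolayPt → ℤ) = 8}.ncard = 22 ∧ {y : ↥Cfsg.leechLattice | y ∈ {x : ↥Cfsg.leechLattice | Cfsg.sqNorm (x : Cfsg.GolayPt → ℤ) = 32 ∧ Cfsg.dotInt (v : Cfsg.GolayPt → ℤ) (x : Cfsg.GolayPt → ℤ) = 24 ∧ Cfsg.dotInt (w : Cfsg.GolayPt → ℤ) (x : Cfsg.GolayPt → ℤ) = -24} ∧ y ≠ x ∧ Cfsg.dotInt (x : Cfsg.GolayPt → ℤ) (y : Cfsg.GolayPt → ℤ) ≠ 8}.ncard = 77 ∧ ∀ y ∈ {x : ↥Cfsg.leechLattice | Cfsg.sqNorm (x : Cfsg.GolayPt → ℤ) = 32 ∧ Cfsg.dotInt (v : Cfsg.GolayPt → ℤ) (x : Cfsg.GolayPt → ℤ) = 24 ∧ Cfsg.dotInt (w : Cfsg.GolayPt → ℤ) (x :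 Cfsg.GolayPt → ℤ) = -24}, ∀ y' ∈ {x : ↥Cfsg.leechLattice | Cfsg.sqNorm (x : Cfsg.GolayPt → ℤ) = 32 ∧ Cfsg.dotInt (v : Cfsg.GolayPt → ℤ) (x : Cfsg.GolayPt → ℤ) = 24 ∧ Cfsg.dotInt (w : Cfsg.GolayPt → ℤ) (x : Cfsg.GolayPt → ℤ) = -24}, y ≠ x → y' ≠ x → (Cfsg.dotInt (x : Cfsg.GolayPt → ℤ) (y : Cfsg.GolayPt → ℤ) = 8 ↔ Cfsg.dotInt (x : Cfsg.GolayPt → ℤ) (y' : Cfsg.GolayPt → ℤ) = 8) → ∃ g : ↥Cfsg.Co0, g • v = v ∧ g • w = w ∧ g • x = x ∧ g • y = y' := by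
  rw [SD_two] at hx ⊢
  have c := rc.1.2.2.ext (cg_hs hv hw hvw) x1_mem hx
  have h1 := rd.1.2.1.of c
  have h2 := rd.1.2.2.of c
  have h3 := rd.2.of c
  have h6 : ∀ y ∈ SD [w, v] [-24, 24], y ≠ x → Cfsg.dotInt (x : Vec) (y : Vec) ≠ 8 → y ∈ SD [x, w, v] [16, -24, 24] := by
    intro y hy n1 n2
    have h4 := h3 y hy
    have h5 := mt (dot32 hx.1 hy.1).1 n1
    simp only [List.mem_cons, List.not_mem_nil, or_false] at h4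
    exact mem_SD_cons.2 ⟨hy, by omega⟩
  refine ⟨?_, ?_, fun y hy y' hy' n1 n2 e => ?_⟩
  · refine Eq.trans ?_ h2.1; congr 1; ext y; rw [mem_SD_cons]; rfl
  · rw [← h1.1]; congr 1; ext y
    refine ⟨fun h => h6 y h.1 h.2.1 h.2.2, fun h => ?_⟩
    rw [mem_SD_cons] at h
    refine ⟨h.1, fun e => ?_, by rw [h.2]; decide⟩
    have := (dot32 hx.1 h.1.1).2 e
    rw [h.2] at this; cases this
  · obtain ⟨g, hg, e⟩ : ∃ g ∈ FX [x, w, v], g • y = y' := by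
      by_cases h : Cfsg.dotInt (x : Vec) (y : Vec) = 8
      · exact h2.tr (mem_SD_cons.2 ⟨hy, h⟩) (mem_SD_cons.2 ⟨hy', e.1 h⟩)
      · exact h1.tr (h6 y hy n1 h) (h6 y' hy' n2 (mt e.2 h))
    exact ⟨g, hg v (by simp), hg w (by simp), hg x (by simp), e⟩

end Cfsg.Agent.S1584
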