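import Cfsg.Statements.S1586
import Cfsg.Agent.H0.Gr


set_option autoImplicit false
open Cfsg

namespace Cfsg.Agent.S1586

open H6 H0.St Finset MulAction
open scoped Pointwise
set_option maxRecDepth 100000

/-- The Higman–Sims graph built from an S(3, 6, 22) has exactly 88704000 automorphisms. -/
theorem result {α : Type*} [Fintype α] [DecidableEq α] (hα : Fintype.card α = 22) {B : Set (Finset α)} (hB : Cfsg.IsSteinerSystem 3 6 B) : Nat.card (Cfsg.pointBlockGraph B ≃g Cfsg.pointBlockGraph B) = 88704000 := by
  exact card_autH hα hB

end Cfsg.Agent.S1586
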