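import Cfsg.Statements.S1589
import Cfsg.Agent.H6.TLb

set_option autoImplicit false
open scoped Pointwise
open Cfsg

namespace Cfsg.Agent.S1589
open H6 Finset MulAction
open scoped Pointwise
set_option maxRecDepth 100000

/-- Subgroups of the group of the length-24 code of index 759, 276 and 1771 are exactly the octad, duad and sextet stabilisers, and no subgroup has index 253. -/
theorem result : (∀ H : Subgroup ↥Cfsg.M24, H.index = 759 → ∃ o ∈ Cfsg.octads, H = MulAction.stabilizer Cfsg.M24 o) ∧ (∀ H : Subgroup ↥Cfsg.M24, H.index = 276 → ∃ s : Finset Cfsg.GolayPt, s.card = 2 ∧ H = MulAction.stabilizer Cfsg.M24 s) ∧ (∀ H : Subgroup ↥Cfsg.M24, H.index = 1771 → ∃ S ∈ Cfsg.sextets, H = MulAction.stabilizer Cfsg.M24 S) ∧ ∀ H : Subgroup ↥Cfsg.M24, H.index ≠ 253 := by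
  have key : ∀ H : Subgroup M24, ∀ n b, H.index = b → 244823040 = n * b → ¬ 2 ∣ b → ¬ 11 ∣ n → ¬ 23 ∣ n → 138240 ≤ n →
      Nat.card H = n ∧ ((∃ o ∈ octads, H ≤ stabilizer M24 o) ∨ ∃ S ∈ sextets, H = stabilizer M24 S ∧ n = 138240) := by
    intro H n b h1 h2 h3 h4 h5 h6
    have h7 := H.card_mul_index
    rw [h1, card_M24, h2] at h7
    have h8 : Nat.card H = n := Nat.eq_of_mul_eq_mul_right (Nat.pos_of_ne_zero (by rintro rfl; omega)) h7
    obtain ⟨u, -, K, c, hS, -⟩ := conj_in (p := 2) (by norm_num) (M := ⊤) le_top le_top pGroup_Syl2 h8 (card_top_M24.trans h2) h3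
    have h9 : Nat.card K = n := c.card.symm.trans h8
    refine ⟨h8, (loc24 hS (h9 ▸ h4) (h9 ▸ h5) (h9 ▸ h6)).imp (fun h => ⟨u • O0, (smul_mem_octads _ _).2 O0_mem,
      fun x hx => (Cj.stab u O0 x).2 (h ((c x).1 hx))⟩) fun (h : K = stabilizer M24 Sx) => ⟨u • Sx, ?_, c.uniq (by rw [h]; exact Cj.stab u Sx), by rw [← h9, h, card_Sx]⟩⟩
    rw [← orb_S0]
    exact smul_mem_orb trivial (orb_S0 ▸ Sx_mem)
  refine ⟨fun H h => ?_, fun H h => ?_, fun H h => ?_, fun H h => ?_⟩
  · obtain ⟨h1, ⟨o, ho, h2⟩ | ⟨S, -, -, h2⟩⟩ := key H 322560 _ h (by norm_num) (by norm_num) (by norm_num) (by norm_num) (by norm_num)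
    · exact ⟨o, ho, eq_of_le_of_card_le h2 (by rw [h1, card_stab_octad ho])⟩
    · omega
  · have h7 := H.card_mul_index
    rw [h, card_M24] at h7
    obtain ⟨u, -, K, c, hS, -⟩ := conj_in (p := 11) (by norm_num) (M := ⊤) (H := H) le_top le_top
      (isPGroup_zpowers (oβ ▸ pow_orderOf_eq_one (E tβ))) (a := 887040) (b := 276) (by omega) (card_top_M24.trans (by norm_num)) (by norm_num)
    have := loc276 (hS (Subgroup.mem_zpowers _)) (by rw [← c.card]; omega)
    exact ⟨u • dec 0x800001, (card_smul_finset _ _).trans (by decide +kernel), c.uniq (by rw [this]; exact Cj.stab u _)⟩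
  · obtain ⟨h1, ⟨o, ho, h2⟩ | ⟨S, hS, h2, -⟩⟩ := key H 138240 _ h (by norm_num) (by norm_num) (by norm_num) (by norm_num) (by norm_num)
    · have := Subgroup.card_dvd_of_le h2
      rw [h1, card_stab_octad ho] at this
      exact absurd this (by norm_num)
    · exact ⟨S, hS, h2⟩
  · obtain ⟨h1, ⟨o, ho, h2⟩ | ⟨S, -, -, h2⟩⟩ := key H 967680 _ h (by norm_num) (by norm_num) (by norm_num) (by norm_num) (by norm_num)
    · have := Subgroup.card_le_of_le h2
      rw [h1, card_stab_octad ho] at this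
      omega
    · omega

end Cfsg.Agent.S1589
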