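import Cfsg.Statements.S1594
import Cfsg.Agent.H1.TG
import Cfsg.Agent.S0425

set_option autoImplicit false
open Cfsg

namespace Cfsg.Agent.S1594

open H1B H1B.TG

theorem le_aut : monoP ternaryGolayCode ≤ setSystemAut Hex := by
  rintro σ ⟨c, hc⟩
  rw [H0.St.mem_aut]
  rintro b ⟨x, hx, rfl, h6⟩
  refine ⟨_, hc x hx, ?_, by rw [Finset.card_image_of_injective _ σ.injective, h6]⟩
  ext p
  simp only [mem_supp, monomialMap, Finset.mem_image, ne_eq, mul_eq_zero, Units.ne_zero, false_or]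
  exact ⟨fun h => ⟨σ.symm p, h, by simp⟩, by rintro ⟨q, h, rfl⟩; simpa using h⟩

theorem eq_aut : monoP ternaryGolayCode = setSystemAut Hex := by
  refine le_antisymm le_aut fun g hg => ?_
  obtain ⟨h, hh, h1⟩ := chain_tr 5 pt (by decide) step g
  have h2 := (Cfsg.Agent.S0425.result (by decide) steiner).2.2
    ⟨fun j : Fin 5 => pt j, by decide⟩
  have h3 : (⟨h⁻¹ * g, mul_mem (inv_mem (le_aut hh)) hg⟩ : setSystemAut Hex) = 1 := by
    rw [← Subgroup.mem_bot, ← h2, MulAction.mem_stabilizer_iff]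
    ext1 j
    exact h1 j j.2
  have h4 : h⁻¹ * g = 1 := congrArg Subtype.val h3
  exact inv_mul_eq_one.1 h4 ▸ hh

/-- The monomial automorphism group of the length-12 ternary code has order 190080 and its permutation parts are exactly the automorphisms of its hexad system. -/
theorem result : Nat.card {f : Equiv.Perm Cfsg.ArrayPt × (Cfsg.ArrayPt → (ZMod 3)ˣ) // (∀ x ∈ Cfsg.ternaryGolayCode, Cfsg.monomialMap f.1 f.2 x ∈ Cfsg.ternaryGolayCode)} = 190080 ∧ {σ : Equiv.Perm Cfsg.ArrayPt | ∃ c : Cfsg.ArrayPt → (ZMod 3)ˣ, (∀ x ∈ Cfsg.ternaryGolayCode, Cfsg.monomialMap σ c x ∈ Cfsg.ternaryGolayCode)} = (Cfsg.setSystemAut {h : Finset Cfsg.ArrayPt | ∃ x ∈ Cfsg.ternaryGolayCode, Cfsg.ternarySupport x = h ∧ h.card = 6} : Set (Equiv.Perm Cfsg.ArrayPt)) := by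
  refine ⟨?_, congrArg SetLike.coe eq_aut⟩
  rw [card_mono, card_diag, eq_aut, (Cfsg.Agent.S0425.result (by decide) steiner).1.2]

end Cfsg.Agent.S1594
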