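import Cfsg.Statements.S1595
import Cfsg.Agent.H0.St12
import Cfsg.Agent.H0.Stein2


set_option autoImplicit false
open Cfsg

namespace Cfsg.Agent.S1595

open H6 H0.St Finset MulAction
open scoped Pointwise
set_option maxRecDepth 100000

/-- Leech triangle of S(5, 6, 12): blocks meet in 0, 2, 3 or 4 points, and a block is met exactly in a given 2-, 3- or 4-subset by 3, 2, 3 blocks respectively. -/
theorem result {α : Type*} [Fintype α] [DecidableEq α] (hα : Fintype.card α = 12) {B : Set (Finset α)} (hB : Cfsg.IsSteinerSystem 5 6 B) (b : Finset α) (hb : b ∈ B) : (∀ c ∈ B, c ≠ b → (b ∩ c).card = 0 ∨ (b ∩ c).card = 2 ∨ (b ∩ c).card = 3 ∨ (b ∩ c).card = 4) ∧ ∀ s ⊆ b, (s.card = 2 → {c : Finset α | c ∈ B ∧ b ∩ c = s}.ncard = 3) ∧ (s.card = 3 → {c : Finset α | c ∈ B ∧ b ∩ c = s}.ncard = 2) ∧ (s.card = 4 → {c : Finset α | c ∈ B ∧ b ∩ c = s}.ncard = 3) := by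
  obtain ⟨e, rfl⟩ := H0.St12.uniq hα hB
  obtain ⟨_, ⟨b, hb, rfl⟩, rfl⟩ := hb
  have hl := (ok_spec H0.St12.ok).2.1
  constructor
  · rintro _ ⟨_, ⟨c, hc, rfl⟩, rfl⟩ hbc
    rw [card_inter_im, inter_pc c (by decide) (hl b hb)]
    have := allL_iff.1 (allL_iff.1 (by decide +kernel : allL (fun b => allL (fun c => Nat.beq b c ||
      (Nat.beq (pc (Nat.land b c)) 0 || (Nat.beq (pc (Nat.land b c)) 2 || (Nat.beq (pc (Nat.land b c)) 3 ||
        Nat.beq (pc (Nat.land b c)) 4)))) H0.St12.S) H0.St12.S = true) b hb) c hc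
    simp only [Bool.or_eq_true, Nat.beq_eq] at this
    exact this.resolve_left fun h => hbc (h ▸ rfl)
  · intro s hs
    obtain ⟨s, rfl⟩ := exists_im e s
    obtain ⟨m, hm, rfl⟩ := exists_dc s
    rw [subset_im, ← inter_eq_right, ← dc_and] at hs
    have h1 := dc_inj (lt_of_le_of_lt Nat.and_le_right hm) hm hs
    rw [ncard_im e, card_im, card_pc (by decide) hm]
    simp only [im_mem, inter_im, (im_inj e).eq_iff]
    rw [ncard_fam H0.St12.ok _ (fun c => Nat.beq (Nat.land b c) m) fun c _ => by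
      rw [← dc_and, Nat.beq_eq]
      exact ⟨dc_inj (lt_of_le_of_lt Nat.and_le_left (hl b hb)) hm, fun h => by rw [h]⟩]
    have := allLt_iff.1 (allL_iff.1 (by decide +kernel : allL (fun b => allLt 4096 fun m => !Nat.beq (Nat.land b m) m ||
      H0.force (cnt (fun c => Nat.beq (Nat.land b c) m) H0.St12.S) fun n => (!Nat.beq (pc m) 2 || Nat.beq n 3) &&
        ((!Nat.beq (pc m) 3 || Nat.beq n 2) && (!Nat.beq (pc m) 4 || Nat.beq n 3))) H0.St12.S = true) b hb) m hm
    rw [show Nat.beq (Nat.land b m) m = true from Nat.beq_eq ▸ h1, H0.force_eq] at this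
    simp only [Bool.not_true, Bool.false_or, Bool.and_eq_true, Bool.or_eq_true, Bool.not_eq_true', Nat.beq_eq] at this
    exact ⟨fun h => this.1.resolve_left fun h' => Nat.ne_of_beq_eq_false h' h,
      fun h => this.2.1.resolve_left fun h' => Nat.ne_of_beq_eq_false h' h,
      fun h => this.2.2.resolve_left fun h' => Nat.ne_of_beq_eq_false h' h⟩

end Cfsg.Agent.S1595
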