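import Cfsg.Statements.S1596
import Cfsg.Agent.H1.Qt

set_option autoImplicit false
open scoped Pointwise
open Cfsg

namespace Cfsg.Agent.S1596

open H1B H1B.Qt H6 MulAction

/-- A quartet of a dodecad is determined by any two of its triples: two disjoint triples uniting to a hexad extend to exactly one quartet. -/
theorem result (d : Finset Cfsg.GolayPt) (hd : d ∈ Cfsg.dodecads) (t u : Finset Cfsg.GolayPt) (ht : t.card = 3) (hu : u.card = 3) (htu : Disjoint t u) (hh : t ∪ u ∈ Cfsg.hexadsOn d) : ∃! Q : Finset (Finset Cfsg.GolayPt), Q ∈ Cfsg.quartets d ∧ t ∈ Q ∧ u ∈ Q := by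
  obtain ⟨g, rfl, rfl, rfl⟩ := transport hd ht hu htu hh
  exact ⟨g • decF 4 mQ0, ⟨q_smul g Q0_mem, Finset.smul_mem_smul_finset t0_mem,
    Finset.smul_mem_smul_finset u0_mem⟩, fun Q hQ => (eq_smul hQ.1 hQ.2.1 hQ.2.2).symm⟩

end Cfsg.Agent.S1596
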