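import Cfsg.Statements.S1597
import Cfsg.Agent.H1.Qt

set_option autoImplicit false
open scoped Pointwise
open Cfsg

namespace Cfsg.Agent.S1597

open H1B H1B.Qt H6 MulAction

/-- A dodecad has 220 quartets and its stabiliser is transitive on them. -/
theorem result (d : Finset Cfsg.GolayPt) (hd : d ∈ Cfsg.dodecads) : (Cfsg.quartets d).ncard = 220 ∧ ∀ Q ∈ Cfsg.quartets d, ∀ Q' ∈ Cfsg.quartets d, ∃ g : Equiv.Perm Cfsg.GolayPt, g ∈ Cfsg.M24 ∧ g • d = d ∧ g • Q = Q' := by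
  refine ⟨?_, fun Q hQ Q' hQ' => ?_⟩
  · obtain ⟨g, rfl⟩ := tr_dodecad D0_mem hd
    exact (ncard_transport g fun x => q_smul_iff g).trans ncard0
  · obtain ⟨g, h1, rfl⟩ := std hd hQ
    obtain ⟨k, h2, rfl⟩ := std hd hQ'
    refine ⟨(k * g⁻¹ : M24), (k * g⁻¹).2, ?_, ?_⟩
    · rw [← smul_set_def, mul_smul, ← h1, inv_smul_smul, h2, h1]
    · rw [← smul_fam_def, mul_smul, inv_smul_smul]

end Cfsg.Agent.S1597
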