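import Cfsg.Statements.S1598
import Cfsg.Agent.H1.Qt2

set_option autoImplicit false
open scoped Pointwise
open Cfsg

namespace Cfsg.Agent.S1598

open H1B H1B.Qt H6 MulAction

/-- A quartet stabiliser inside the dodecad stabiliser has order 432, a normal subgroup of order 9 with quotient GL(2, 3), and is transitive on the dodecad. -/
theorem result (d : Finset Cfsg.GolayPt) (hd : d ∈ Cfsg.dodecads) (Q : Finset (Finset Cfsg.GolayPt)) (hQ : Q ∈ Cfsg.quartets d) : Nat.card ↥(MulAction.stabilizer Cfsg.M24 d ⊓ MulAction.stabilizer Cfsg.M24 Q) = 432 ∧ (∃ (N : Subgroup ↥(MulAction.stabilizer Cfsg.M24 d ⊓ MulAction.stabilizer Cfsg.M24 Q)) (_ : N.Normal), Nat.card N = 9 ∧ Nonempty (↥(MulAction.stabilizer Cfsg.M24 d ⊓ MulAction.stabilizer Cfsg.M24 Q) ⧸ N ≃* GL (Fin 2) (ZMod 3))) ∧ ∀ p ∈ d, ∀ q ∈ d, ∃ g ∈ (MulAction.stabilizer Cfsg.M24 d ⊓ MulAction.stabilizer Cfsg.M24 Q), ((g : ↥Cfsg.M24) : Equiv.Perm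 Cfsg.GolayPt) p = q := by
  obtain ⟨g, rfl, rfl⟩ := std hd hQ
  have hj := (Cj.stab g D0).inf (Cj.stab g (decF 4 mQ0))
  refine ⟨hj.card.trans quartet_main.2, aff_of hj.equiv, fun p hp q hq => ?_⟩
  refine hj.trans_of (x := p) (y := q) (orb_trans (a := pt 0) ?_ ?_)
  · rw [orb_pt0]; exact Finset.inv_smul_mem_iff.2 hp
  · rw [orb_pt0]; exact Finset.inv_smul_mem_iff.2 hq

end Cfsg.Agent.S1598
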