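import Cfsg.Statements.S1599
import Cfsg.Agent.H1.Qt

set_option autoImplicit false
open scoped Pointwise
open Cfsg

namespace Cfsg.Agent.S1599

open H1B H1B.Qt H6 MulAction

/-- A quartet stabiliser has five orbits on the quartets of its dodecad, of sizes 1, 12, 27, 72, 108. -/
theorem result (d : Finset Cfsg.GolayPt) (hd : d ∈ Cfsg.dodecads) (Q : Finset (Finset Cfsg.GolayPt)) (hQ : Q ∈ Cfsg.quartets d) : ∃ X₁ ∈ Cfsg.quartets d, ∃ X₂ ∈ Cfsg.quartets d, ∃ X₃ ∈ Cfsg.quartets d, ∃ X₄ ∈ Cfsg.quartets d, (MulAction.orbit ↥(MulAction.stabilizer Cfsg.M24 d ⊓ MulAction.stabilizer Cfsg.M24 Q) X₁).ncard = 12 ∧ (MulAction.orbit ↥(MulAction.stabilizer Cfsg.M24 d ⊓ MulAction.stabilizer Cfsg.M24 Q) X₂).ncard = 27 ∧ (MulAction.orbit ↥(MulAction.stabilizer Cfsg.M24 d ⊓ MulAction.stabilizer Cfsg.M24 Q) X₃).ncard = 72 ∧ (MulAction.orbit ↥(MulAction.stabilizer Cfsg.M24 d ⊓ MulAction.stabilizer Cfsg.M24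 Q) X₄).ncard = 108 ∧ Cfsg.quartets d = {Q} ∪ MulAction.orbit ↥(MulAction.stabilizer Cfsg.M24 d ⊓ MulAction.stabilizer Cfsg.M24 Q) X₁ ∪ MulAction.orbit ↥(MulAction.stabilizer Cfsg.M24 d ⊓ MulAction.stabilizer Cfsg.M24 Q) X₂ ∪ MulAction.orbit ↥(MulAction.stabilizer Cfsg.M24 d ⊓ MulAction.stabilizer Cfsg.M24 Q) X₃ ∪ MulAction.orbit ↥(MulAction.stabilizer Cfsg.M24 d ⊓ MulAction.stabilizer Cfsg.M24 Q) X₄ := by
  obtain ⟨g, rfl, rfl⟩ := std hd hQ
  have hne : ∀ {x n : ℕ}, (orb K0 (decF 4 x)).ncard = n → n ≠ 1 → decF 4 x ≠ decF 4 mQ0 := by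
    intro x n h hn e
    apply hn
    rw [← h, e, Set.ncard_eq_one]
    refine ⟨decF 4 mQ0, Set.eq_singleton_iff_unique_mem.2 ⟨self_mem_orb _ _, fun b hb => ?_⟩⟩
    obtain ⟨k, hk, h1⟩ := orb_trans (self_mem_orb K0 (decF 4 mQ0)) hb
    exact h1.symm.trans hk.2
  obtain ⟨X₁, h1, X₂, h2, X₃, h3, X₄, h4, c1, c2, c3, c4, e⟩ := part4
    ((Cj.stab g D0).inf (Cj.stab g (decF 4 mQ0))) (A := quartets D0 \ {decF 4 mQ0})
    (A' := quartets (g • D0) \ {g • decF 4 mQ0})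
    (fun b => by simp only [Set.mem_diff, q_smul_iff, Set.mem_singleton_iff, smul_left_cancel_iff])
    (fun k hk b hb => ⟨inv0 k hk.1 b hb.1, fun h => hb.2 (by
      have h2 : k • decF 4 mQ0 = decF 4 mQ0 := hk.2
      exact MulAction.injective k (h.trans h2.symm))⟩) (D := decF 4)
    (by
      simp only [List.forall_mem_cons, List.not_mem_nil, IsEmpty.forall_iff, implies_true, and_true]
      exact ⟨⟨xq_mem (by decide +kernel), hne o12 (by omega)⟩, ⟨xq_mem (by decide +kernel), hne o27 (by omega)⟩,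
        ⟨xq_mem (by decide +kernel), hne o72 (by omega)⟩, ⟨xq_mem (by decide +kernel), hne o108 (by omega)⟩⟩)
    (fun b hb => by
      obtain ⟨x, hx, h⟩ := cov b hb.1
      rcases List.mem_cons.1 hx with rfl | hx
      · obtain ⟨k, hk, h1⟩ := orb_trans (self_mem_orb K0 (decF 4 mQ0)) h
        exact absurd (h1.symm.trans hk.2) hb.2
      · exact ⟨x, hx, h⟩) o12 o27 o72 o108
  refine ⟨X₁, h1.1, X₂, h2.1, X₃, h3.1, X₄, h4.1, c1, c2, c3, c4, ?_⟩
  rw [Set.union_assoc, Set.union_assoc, Set.union_assoc, ← Set.union_assoc (orbit _ X₁), ← Set.union_assoc (_ ∪ orbit _ X₂), ← e,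
    Set.union_diff_cancel (Set.singleton_subset_iff.2 hQ)]

end Cfsg.Agent.S1599
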