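import Cfsg.Statements.S1600
import Cfsg.Agent.H6.Octad

set_option autoImplicit false
open scoped Pointwise
open Cfsg

namespace Cfsg.Agent.S1600
open H6 Finset MulAction
open scoped Pointwise
set_option maxRecDepth 100000

/-- The pointwise stabiliser of three points of a dodecad inside the dodecad stabiliser (order 72) is transitive on the complementary dodecad. -/
theorem result (d : Finset Cfsg.GolayPt) (hd : d ∈ Cfsg.dodecads) (p q r : Cfsg.GolayPt) (hp : p ∈ d) (hq : q ∈ d) (hr : r ∈ d) (hpq : p ≠ q) (hpr : p ≠ r) (hqr : q ≠ r) : Nat.card ↥(MulAction.stabilizer Cfsg.M24 d ⊓ MulAction.stabilizer Cfsg.M24 p ⊓ MulAction.stabilizer Cfsg.M24 q ⊓ MulAction.stabilizer Cfsg.M24 r) = 72 ∧ ∀ x ∉ d, ∀ y ∉ d, ∃ g ∈ (MulAction.stabilizer Cfsg.M24 d ⊓ MulAction.stabilizer Cfsg.M24 p ⊓ MulAction.stabilizer Cfsg.M24 q ⊓ MulAction.stabilizer Cfsg.M24 r), ((g : ↥Cfsg.M24) : Equiv.Perm Cfsg.GolayPt) x = y := by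
  obtain ⟨g, rfl⟩ := tr_dodecad D0_mem hd
  obtain ⟨k, hk, h1, h2, h3⟩ := trD3 hd (a := g • pt 0) (b := g • pt 1) (c := g • pt 2) (a' := p) (b' := q) (c' := r)
    (by simp; decide) (by simp [*]) (by simp; decide +kernel) (by simp [*])
  have h0 : (k * g) • D0 = g • D0 := by rw [mul_smul, mem_stabilizer_iff.1 hk]
  rw [← mul_smul] at h1 h2 h3
  have hc := (((Cj.stab' h0).inf (Cj.stab' h1)).inf (Cj.stab' h2)).inf (Cj.stab' h3)
  have m0 : pt 0 ∈ D0 := by decide +kernel
  have m1 : pt 1 ∈ D0 := by decide +kernel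
  refine ⟨hc.card.trans (card_stab_eq (card_M10 D0_mem m0 m1 (by decide)) (d := 10) ?_ rfl (by norm_num)), fun x hx y hy => ?_⟩
  · have : orb (stabilizer M24 D0 ⊓ stabilizer M24 (pt 0) ⊓ stabilizer M24 (pt 1)) (pt 2) = (D0.erase (pt 0)).erase (pt 1) := by
      ext z; rw [mem_coe, mem_erase, mem_erase]; constructor
      · rintro ⟨l, hl, rfl⟩
        exact ⟨mt (smul_eq_iff_of_stab hl.2).1 (by decide), mt (smul_eq_iff_of_stab hl.1.2).1 (by decide),
          (smul_mem_of_stab hl.1.1).2 (by decide +kernel)⟩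
      · rintro ⟨z1, z0, z2⟩
        obtain ⟨l, hl, e⟩ := trD3 D0_mem (a := pt 0) (b := pt 1) (c := pt 2) (a' := pt 0) (b' := pt 1) (c' := z)
          (by decide) (by simp [z1.symm, z0.symm]; decide) (by decide +kernel) (by simp [*])
        exact ⟨l, ⟨⟨hl, e.1⟩, e.2.1⟩, e.2.2⟩
    rw [this, Set.ncard_coe_finset]; decide +kernel
  · have h4 := orb_eq (K := stabilizer M24 D0 ⊓ stabilizer M24 (pt 0) ⊓ stabilizer M24 (pt 1) ⊓ stabilizer M24 (pt 2))
      (A := {z | z ∉ D0}) (a := pt 5) (Set.toFinite _) (fun g hg a ha => mt (smul_mem_of_stab hg.1.1.1).1 ha)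
      (by decide +kernel) (by
        rw [ncard_compl_pts, D0_mem.2]
        exact le_trans (by decide +kernel) (((((ckS 0x5335f).fxP 0).fxP 1).fxP 2).orbP_le
          (gs := [0x51cb3acaec73c868adb0b228348820, 0xa56cb899ed3dc64716089b15248820]) (by decide +kernel) (by norm_num)))
    rw [← h0] at hx hy
    exact hc.trans_of (orb_trans (a := pt 5) (by rw [h4]; exact fun h => hx (Finset.inv_smul_mem_iff.1 h))
      (by rw [h4]; exact fun h => hy (Finset.inv_smul_mem_iff.1 h)))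

end Cfsg.Agent.S1600
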