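import Cfsg.Statements.S1601
import Mathlib
import Cfsg.Agent.H8.MG
import Cfsg.Agent.S0498

set_option autoImplicit false
open scoped Pointwise
open Cfsg

namespace Cfsg.Agent.S1601

/-- In the 3-transitive action of the smallest Mathieu group on the complementary dodecad, a point stabiliser is isomorphic to PSL(2, 11). -/
theorem result (d : Finset Cfsg.GolayPt) (hd : d ∈ Cfsg.dodecads) (p q : Cfsg.GolayPt) (hp : p ∈ d) (hq : q ∉ d) : Nonempty (↥(MulAction.stabilizer Cfsg.M24 d ⊓ MulAction.stabilizer Cfsg.M24 p ⊓ MulAction.stabilizer Cfsg.M24 q) ≃* Matrix.ProjectiveSpecialLinearGroup (Fin 2) (ZMod 11)) := by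
  haveI := H6.simple_M11 hd hp
  haveI : Fact (Nat.Prime 11) := ⟨by norm_num⟩
  have c := H8.card_stab_compl hd hp hq
  haveI := H8.m11_660 (H6.card_M11 hd hp) c
  obtain ⟨e⟩ := Cfsg.Agent.S0498.result (G := MulAction.stabilizer
    ↥(MulAction.stabilizer Cfsg.M24 d ⊓ MulAction.stabilizer Cfsg.M24 p) q) 11 (.inl rfl)
    (by rw [c]; norm_num) (ZMod.card 11)
  exact ⟨(Subgroup.subgroupOfEquivOfLe inf_le_left).symm.trans ((MulEquiv.subgroupCongr
    (Subgroup.inf_subgroupOf_left _ _)).trans e)⟩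

end Cfsg.Agent.S1601
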