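import Cfsg.Statements.S1604
import Cfsg.Agent.H6.Octad

set_option autoImplicit false
open scoped Pointwise
open Cfsg

namespace Cfsg.Agent.S1604
open H6 Finset MulAction
open scoped Pointwise
set_option maxRecDepth 100000

/-- A hexad stabiliser in the two-point stabiliser has orbits of sizes 1, 16, 60 on the 77 hexads: the 16 hexads disjoint from it and the 60 meeting it in two points. -/
theorem result (p q : Cfsg.GolayPt) (hpq : p ≠ q) (o o' o'' : Finset Cfsg.GolayPt) (ho : o ∈ Cfsg.octads) (ho' : o' ∈ Cfsg.octads) (ho'' : o'' ∈ Cfsg.octads) (hp : p ∈ o ∧ p ∈ o' ∧ p ∈ o'') (hq : q ∈ o ∧ q ∈ o' ∧ q ∈ o'') (h : (o ∩ o').card = (o ∩ o'').card) : {x : Finset Cfsg.GolayPt | x ∈ Cfsg.octads ∧ p ∈ x ∧ q ∈ x ∧ (o ∩ x).card = 2}.ncard = 16 ∧ {x : Finset Cfsg.GolayPt | x ∈ Cfsg.octads ∧ p ∈ x ∧ q ∈ x ∧ (o ∩ x).card = 4}.ncard = 60 ∧ ∃ g : Equiv.Perm Cfsg.GolayPt, g ∈ Cfsg.M24 ∧ g p = p ∧ g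 q = q ∧ g • o = o ∧ g • o' = o'' := by
  obtain ⟨g, rfl, rfl, rfl⟩ := tr_oct_in2 ho hp.1 hq.1 hpq
  have key : ∀ k, {x : Finset GolayPt | x ∈ octads ∧ g • pt 0 ∈ x ∧ g • pt 1 ∈ x ∧ (g • O0 ∩ x).card = k}.ncard =
      cntLt 4096 (fun n => Nat.beq (pc (cw n)) 8 && (tb (cw n) 0 && tb (cw n) 1 && Nat.beq (pc (Nat.land 0x149f (cw n))) k)) := fun k => by
    rw [ncard_transport g (A := {x : Finset GolayPt | x ∈ octads ∧ pt 0 ∈ x ∧ pt 1 ∈ x ∧ (O0 ∩ x).card = k}) (fun x => by simp [H6.card_smul_inter])]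
    exact ncard_oct _ (fun m => tb m 0 && tb m 1 && Nat.beq (pc (Nat.land 0x149f m)) k) fun S => by
      rw [Set.mem_ofPred_eq, O0, card_dec_inter_eq, pt_mem_iff (by norm_num), pt_mem_iff (by norm_num)]; simp [and_assoc]
  rw [key, key]
  refine ⟨by decide +kernel, by decide +kernel, ?_⟩
  have hx : ∀ x ∈ [0x149f, 0x56123, 0x46e3], x < 2 ^ 24 ∧ (isCw x && Nat.beq (pc x) 8) = true ∧ pt 0 ∈ dec x ∧ pt 1 ∈ dec x := by
    decide +kernel
  obtain ⟨k, hk, e⟩ := (((Cj.stab g O0).inf (Cj.stab g (pt 0))).inf (Cj.stab g (pt 1))).trans_of (x := o') (y := o'') (trans_of_cover ((((ckS 0x149f).fxP 0).fxP 1).coverS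
    (gs := [0x2aed79d692721e480a263b52a60c20, 0xb15d784a685beac69e291d0c222820]) (by decide +kernel) hC 512 100 (A := {x | x ∈ octads ∧ pt 0 ∈ x ∧ pt 1 ∈ x})
    (fun g hg b hb => ⟨(smul_mem_octads g b).2 hb.1, (mem_smul_of_stab hg.1.2 b).2 hb.2.1, (mem_smul_of_stab hg.2 b).2 hb.2.2⟩) (xs := [0x149f, 0x56123, 0x46e3])
    (fun x h => ⟨(hx x h).1, dec_mem_octads (hx x h).2.1, (hx x h).2.2⟩) (by
      rw [ncard_oct _ (fun m => tb m 0 && tb m 1) fun S => by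
        rw [Set.mem_ofPred_eq, pt_mem_iff (by norm_num), pt_mem_iff (by norm_num)]; simp]
      decide +kernel)) (fun b => (O0 ∩ b).card)
    (fun g hg b => card_inter_of_stab hg.1.1 b) (by simp only [O0, ← dec_and, card_dec]; decide +kernel)
    _ (by simp [mem_inv_smul, *]) _ (by simp [mem_inv_smul, *]) (by simpa only [card_inter_inv_smul] using h))
  exact ⟨k, k.2, hk.1.2, hk.2, hk.1.1, e⟩

end Cfsg.Agent.S1604
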