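import Cfsg.Statements.S1605
import Cfsg.Agent.H6.Octad

set_option autoImplicit false
open scoped Pointwise
open Cfsg

namespace Cfsg.Agent.S1605
open H6 Finset MulAction
open scoped Pointwise
set_option maxRecDepth 100000

/-- The two-point stabiliser acts on the 176 octads through the first point avoiding the second with rank 3 and subdegrees 1, 70, 105 (intersections 8, 2, 4). -/
theorem result (p q : Cfsg.GolayPt) (hpq : p ≠ q) : {x : Finset Cfsg.GolayPt | (x ∈ Cfsg.octads ∧ p ∈ x ∧ q ∉ x)}.ncard = 176 ∧ (∀ o o' : Finset Cfsg.GolayPt, (o ∈ Cfsg.octads ∧ p ∈ o ∧ q ∉ o) → (o' ∈ Cfsg.octads ∧ p ∈ o' ∧ q ∉ o') → ∃ g : Equiv.Perm Cfsg.GolayPt, g ∈ Cfsg.M24 ∧ g p = p ∧ g q = q ∧ g • o = o') ∧ ∀ o : Finset Cfsg.GolayPt, (o ∈ Cfsg.octads ∧ p ∈ o ∧ q ∉ o) → {x : Finset Cfsg.GolayPt | (x ∈ Cfsg.octads ∧ p ∈ x ∧ q ∉ x) ∧ (o ∩ x).card = 2}.ncard = 70 ∧ {x : Finset Cfsg.GolayPt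 | (x ∈ Cfsg.octads ∧ p ∈ x ∧ q ∉ x) ∧ (o ∩ x).card = 4}.ncard = 105 ∧ ∀ o' o'' : Finset Cfsg.GolayPt, (o' ∈ Cfsg.octads ∧ p ∈ o' ∧ q ∉ o') → (o'' ∈ Cfsg.octads ∧ p ∈ o'' ∧ q ∉ o'') → (o ∩ o').card = (o ∩ o'').card → ∃ g : Equiv.Perm Cfsg.GolayPt, g ∈ Cfsg.M24 ∧ g p = p ∧ g q = q ∧ g • o = o ∧ g • o' = o'' := by
  have k0 : {x : Finset GolayPt | x ∈ octads ∧ pt 0 ∈ x ∧ pt 23 ∉ x}.ncard = 176 := by
    rw [ncard_oct _ (fun m => tb m 0 && !tb m 23) fun S => by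
        rw [Set.mem_ofPred_eq, pt_mem_iff (by norm_num), pt_mem_iff (by norm_num)]; simp]
    decide +kernel
  refine ⟨?_, fun o o' ho ho' => ?_, fun o ho => ?_⟩
  · obtain ⟨g, rfl, rfl⟩ := tr2 (a := pt 0) (b := pt 23) (by decide) hpq
    rw [ncard_transport g (A := {x : Finset GolayPt | x ∈ octads ∧ pt 0 ∈ x ∧ pt 23 ∉ x}) (fun x => by simp), k0]
  · obtain ⟨g, h1, h2, h3⟩ := tr_oct_cfg ho.1 ho'.1 (l := [p]) (l' := [p]) (by simp) (by simp) rfl (by simp)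
      (by simpa using ho.2.1) (by simpa using ho'.2.1) ho.2.2 ho'.2.2
    have h4 : g • p = p := by simpa using h2
    exact ⟨g, g.2, h4, h3, h1⟩
  obtain ⟨g, rfl, rfl, rfl⟩ := tr_oct_in_out ho.1 ho.2.1 ho.2.2
  have key : ∀ k, {x : Finset GolayPt | (x ∈ octads ∧ g • pt 0 ∈ x ∧ g • pt 23 ∉ x) ∧ (g • O0 ∩ x).card = k}.ncard =
      cntLt 4096 (fun n => Nat.beq (pc (cw n)) 8 && (tb (cw n) 0 && !tb (cw n) 23 && Nat.beq (pc (Nat.land 0x149f (cw n))) k)) := fun k => by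
    rw [ncard_transport g (A := {x : Finset GolayPt | (x ∈ octads ∧ pt 0 ∈ x ∧ pt 23 ∉ x) ∧ (O0 ∩ x).card = k}) (fun x => by simp [H6.card_smul_inter])]
    exact ncard_oct _ (fun m => tb m 0 && !tb m 23 && Nat.beq (pc (Nat.land 0x149f m)) k) fun S => by
      rw [Set.mem_ofPred_eq, O0, card_dec_inter_eq, pt_mem_iff (by norm_num), pt_mem_iff (by norm_num)]; simp [and_assoc]
  rw [key, key]
  refine ⟨by decide +kernel, by decide +kernel, fun o' o'' ho' ho'' h => ?_⟩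
  have hx : ∀ x ∈ [0x149f, 0xcb25, 0x3da1], x < 2 ^ 24 ∧ (isCw x && Nat.beq (pc x) 8) = true ∧ pt 0 ∈ dec x ∧ pt 23 ∉ dec x := by
    decide +kernel
  obtain ⟨k, hk, e⟩ := (((Cj.stab g O0).inf (Cj.stab g (pt 0))).inf (Cj.stab g (pt 23))).trans_of (x := o') (y := o'') (trans_of_cover ((((ckS 0x149f).fxP 0).fxP 23).coverS
    (gs := [0xbd250a96688b6c258de60b92c3a880, 0xba175b50ad94cc2791c93c60362820]) (by decide +kernel) hC 512 200 (A := {x | x ∈ octads ∧ pt 0 ∈ x ∧ pt 23 ∉ x})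
    (fun g hg b hb => ⟨(smul_mem_octads g b).2 hb.1, (mem_smul_of_stab hg.1.2 b).2 hb.2.1, mt (mem_smul_of_stab hg.2 b).1 hb.2.2⟩) (xs := [0x149f, 0xcb25, 0x3da1])
    (fun x h => ⟨(hx x h).1, dec_mem_octads (hx x h).2.1, (hx x h).2.2⟩) (by
      rw [k0]; decide +kernel)) (fun b => (O0 ∩ b).card)
    (fun g hg b => card_inter_of_stab hg.1.1 b) (by simp only [O0, ← dec_and, card_dec]; decide +kernel)
    _ (by simp [mem_inv_smul, *]) _ (by simp [mem_inv_smul, *]) (by simpa only [card_inter_inv_smul] using h))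
  exact ⟨k, k.2, hk.1.2, hk.2, hk.1.1, e⟩

end Cfsg.Agent.S1605
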