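import Cfsg.Statements.S1606
import Cfsg.Agent.H6.MX

set_option autoImplicit false
open scoped Pointwise
open Cfsg

namespace Cfsg.Agent.S1606
open H6 Finset MulAction
open scoped Pointwise
set_option maxRecDepth 100000
theorem aux {K : Subgroup M24} (hK : K ≤ stabilizer M24 (pt 23) ⊓ stabilizer M24 (pt 0)) (hb : E tβ ∈ K)
    (hc : Nat.card K = 7920) : False := by
  have cM := card_stab2 (p := pt 23) (q := pt 0) (by decide)
  have n1 := card_norm_in hb (a := 720) (by norm_num) oβ cβ hc (by norm_num)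
  have n2 := card_norm_in (hK hb) (a := 40320) (by norm_num) oβ cβ cM (by norm_num)
  have hd : E tδ ∈ K := ((eq_of_le_of_card_le (inf_le_inf_right _ hK) (by rw [n1, n2])).ge
    (Subgroup.mem_inf.2 ⟨(((ckP 23).fxP 0) tδ (by decide +kernel)).2, norm_of_conj (k := 3)
      ((gβ.conj gδ (gβ.pow 3).1 (by decide +kernel)).trans (gβ.pow 3).2)⟩)).1
  have ck : Ck (inL [tβ, tδ]) (K ⊓ stabilizer M24 D0) := ck_inL (by
    simp only [List.forall_mem_cons, List.not_mem_nil, false_imp_iff, implies_true, and_true]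
    exact ⟨⟨gβ, hb, (ckS 0x5335f _ (by decide +kernel)).2⟩, gδ, hd, (ckS 0x5335f _ (by decide +kernel)).2⟩)
  have h77 : {o | o ∈ octads ∧ pt 23 ∈ o ∧ pt 0 ∈ o}.ncard = 77 := by
    rw [ncard_CC _ (fun m => Nat.beq (pc m) 8 && tb m 23 && tb m 0)]
    · decide +kernel
    · intro S
      have e1 : (enc S).testBit 23 = decide (pt 23 ∈ S) := testBit_enc_idx S (pt 23)
      have e2 : (enc S).testBit 0 = decide (pt 0 ∈ S) := testBit_enc_idx S (pt 0)
      simp only [Set.mem_ofPred_eq, Bool.and_eq_true, Nat.beq_eq, ← card_eq_pc, tb_eq, and_assoc, e1, e2,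
        decide_eq_true_eq]
      exact ⟨fun h => ⟨h.1.1, h.1.2, h.2⟩, fun h => ⟨⟨h.1, h.2.1⟩, h.2.2⟩⟩
  have key : ∀ x ∈ K, orderOf x = 2 → ∃ n ∈ K ⊓ stabilizer M24 D0, n⁻¹ * x * n = E 0xbd94f3ca30a384c2d4c39a56143480 := by
    intro x hx h2
    obtain ⟨n, hn, g, hg, e, he, ge, h3⟩ := invA_enum ck (gs := [tβ, tδ]) (os := [0x89a93bcab24d161c4d57515283017, 0x192822a22a48b0ad96770eec9bda1, 0x19e70ab9283142d2300a7c57690a97, 0x64cb591d1748c915c026a2acf689c0, 0x5cc8509cf5902c80d27a9691b49b3, 0x2160c5490e3d96235121881b59bc77, 0xbace589acc7cd0d75609a11411c840, 0xb01282d44b1b8d4091ea848ec8cdb7, 0xdce958df06144d89148b1ab204dd4, 0x481672854cbb47274506156937c096, 0x19969bbc07552019b50515ab273091, 0x9386c49ab35be975411111ca0091b6, 0x3596995c713c1a14554c0088573e93, 0xbb6609516838c2c8452ab18822b9f5, 0x31e4e65150485a445963989e0ac4b7, 0x129c60227185c646568991d6d2d9e1, 0x4ad447228099cb7b35e3ac4500b246])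
      800 (by decide +kernel) h2 (fun h => by
        have := card_eq_zero.1 h
        rw [filter_eq_empty_iff] at this
        exact this (mem_univ (pt 0)) (hK hx).2)
    have hm : E (cjT g e) ∈ K := h3 ▸ mul_mem (mul_mem (K.inv_mem hn.1) hx) hn.1
    have h4 : allL (fun g => allL (fun e => sq (cjT g e) (!(Nat.beq (ap (cjT g e) 23) 23 && Nat.beq (ap (cjT g e) 0) 0) ||
        eqT (cjT g e) idT || Nat.beq (cjT g e) 0xbd94f3ca30a384c2d4c39a56143480 ||
        Nat.ble 77 (orbS hC 512 [tβ, tδ, cjT g e] 80 0xc75001))) (prods trE idT [])) [0x89a93bcab24d161c4d57515283017, 0x192822a22a48b0ad96770eec9bda1, 0x19e70ab9283142d2300a7c57690a97, 0x64cb591d1748c915c026a2acf689c0, 0x5cc8509cf5902c80d27a9691b49b3, 0x2160c5490e3d96235121881b59bc77, 0xbace589acc7cd0d75609a11411c840, 0xb01282d44b1b8d4091ea848ec8cdb7, 0xdce958df06144d89148b1ab204dd4, 0x481672854cbb47274506156937c096, 0x19969bbc07552019b50515ab273091, 0x9386c49ab35be975411111ca0091b6, 0x3596995c713c1a14554c0088573e93,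 0xbb6609516838c2c8452ab18822b9f5, 0x31e4e65150485a445963989e0ac4b7, 0x129c60227185c646568991d6d2d9e1, 0x4ad447228099cb7b35e3ac4500b246] = true := by
      decide +kernel
    have h5 := allL_iff.1 (allL_iff.1 h4 g hg) e he
    have f1 := ge.idx_smul (pt 23)
    have f2 := ge.idx_smul (pt 0)
    rw [show E (cjT g e) • pt 23 = pt 23 from (hK hm).1] at f1
    rw [show E (cjT g e) • pt 0 = pt 0 from (hK hm).2] at f2
    rw [sq_eq, show ap (cjT g e) 23 = 23 from f1.symm, show ap (cjT g e) 0 = 0 from f2.symm] at h5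
    simp only [Nat.beq_refl, Bool.and_self, Bool.not_true, Bool.false_or, Bool.or_eq_true, Nat.beq_eq, Nat.ble_eq] at h5
    rcases h5 with (h | h) | h
    · rw [(ge.E_eq_iff gd_idT).2 h, E_idT, mul_assoc, inv_mul_eq_one, eq_comm, mul_eq_right] at h3
      rw [h3] at h2; simp at h2
    · exact ⟨n, hn, h ▸ h3⟩
    · exfalso
      have h6 := h.trans ((ck_inL (K := K) (l := [tβ, tδ, cjT g e]) (by simp [gβ, gδ, hb, hd, ge, hm])).orbS_le
        (allL_iff.2 fun s hs => anyL_iff.2 ⟨s, hs, Nat.beq_refl _⟩) hC 512 80 (by norm_num))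
      have h7 := Set.ncard_le_ncard (orb_subset (K := K) (A := {o | o ∈ octads ∧ pt 23 ∈ o ∧ pt 0 ∈ o})
        (fun k hk o ho => ⟨(smul_mem_octads _ _).2 ho.1, by
          rw [← show k • pt 23 = pt 23 from (hK hk).1]; exact smul_mem_smul_finset ho.2.1, by
          rw [← show k • pt 0 = pt 0 from (hK hk).2]; exact smul_mem_smul_finset ho.2.2⟩) (a := dec 0xc75001)
        ⟨dec_mem_octads (by decide +kernel), by decide +kernel, by decide +kernel⟩)
      have h8 := card_orb K (dec 0xc75001)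
      rw [hc, show (orb K (dec 0xc75001)).ncard = 77 by omega] at h8
      omega
  have g1 : Gd 0xbd94f3ca30a384c2d4c39a56143480 := gd_of (by decide +kernel)
  obtain ⟨⟨x, hx⟩, h2⟩ := exists_prime_orderOf_dvd_card' (G := K) 2 (by rw [hc]; norm_num)
  obtain ⟨n, hn, e⟩ := key x hx ((Subgroup.orderOf_mk _ _).symm.trans h2)
  have t1 : E 0xbd94f3ca30a384c2d4c39a56143480 ∈ K := e ▸ mul_mem (mul_mem (K.inv_mem hn.1) hx) hn.1
  have o1 : orderOf (E 0xbd94f3ca30a384c2d4c39a56143480) = 2 :=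
    orderOf_eq_prime (g1.pow_eq_one (by decide +kernel)) (g1.ne_one_iff.2 (by decide +kernel))
  have f1 : E 0xbd94f3ca30a384c2d4c39a56143480 ∈ stabilizer M24 D0 := (ckS 0x5335f _ (by decide +kernel)).2
  have hD : K ≤ stabilizer M24 D0 := by
    intro k hk
    have inv : ∀ x ∈ K, orderOf x = 2 → x ∈ stabilizer M24 (k • D0) := fun x hx h2 => by
      obtain ⟨n, hn, e⟩ := key (k⁻¹ * x * k) (mul_mem (mul_mem (inv_mem hk) hx) hk)
        (by rw [← h2]; simpa using (MulAut.conj k⁻¹).orderOf_eq x)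
      refine (Cj.stab k D0 x).2 ?_
      rw [show k⁻¹ * x * k = n * (n⁻¹ * (k⁻¹ * x * k) * n) * n⁻¹ by group, e]
      exact mul_mem (mul_mem (Subgroup.mem_inf.1 hn).2 f1) (inv_mem (Subgroup.mem_inf.1 hn).2)
    have cj : ∀ i j, okInv (mulT (powT tβ i) (powT tδ j)) = true →
        Gd (cjT (mulT (powT tβ i) (powT tδ j)) 0xbd94f3ca30a384c2d4c39a56143480) ∧
        E (cjT (mulT (powT tβ i) (powT tδ j)) 0xbd94f3ca30a384c2d4c39a56143480) ∈ stabilizer M24 (k • D0) := by
      intro i j h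
      have h1 := ((gβ.pow i).1.mul (gδ.pow j).1).cjT h g1
      have h2 : E (mulT (powT tβ i) (powT tδ j)) ∈ K := by
        rw [(gβ.pow i).1.E_mul (gδ.pow j).1, (gβ.pow i).2, (gδ.pow j).2]; exact mul_mem (pow_mem hb _) (pow_mem hd _)
      refine ⟨h1.1, inv _ ?_ ?_⟩
      · rw [h1.2]; exact mul_mem (mul_mem h2 t1) (inv_mem h2)
      · rw [h1.2, ← o1]; exact (MulAut.conj _).orderOf_eq _
    have c1 := cj 5 1 (by decide +kernel)
    have c2 := cj 4 4 (by decide +kernel)
    have c3 := cj 6 3 (by decide +kernel)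
    have c4 := mul_mem (mul_mem c1.2 c2.2) c3.2
    rw [← c1.1.E_mul c2.1, ← (c1.1.mul c2.1).E_mul c3.1, (((c1.1.mul c2.1).mul c3.1).E_eq_iff gβ).2 (by decide +kernel)] at c4
    have hX := (smul_mem_dodecads k D0).2 D0_mem
    have h0 : pt 0 ∈ k • D0 := by
      rw [← show k • pt 0 = pt 0 from (hK hk).2]; exact smul_mem_smul_finset (by decide +kernel)
    refine forall_CC (P := fun S => S.card = 12 → E tβ • S = S → pt 0 ∈ S → S = D0)
      (fun m => !(Nat.beq (pc m) 12) || !(tb m 0) || !(Nat.beq (img tβ m) m) || Nat.beq m 0x5335f) (by decide +kernel)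
      (fun S h a1 a2 a3 => ?_) _ hX.1 hX.2 c4 h0
    rw [← card_eq_pc, a1, (gβ.smul_eq_iff S).1 a2, tb_eq, show (0 : ℕ) = idx (pt 0) from rfl, testBit_enc_idx] at h
    simp only [a3, Nat.beq_refl, decide_true, Bool.not_true, Bool.false_or, Nat.beq_eq] at h
    rw [← dec_enc S, h]; rfl
  have := eq_of_le_of_card_le (le_inf hD fun k hk => (hK hk).2) (by rw [hc, card_M11 D0_mem (by decide +kernel)])
  have h9 : E 0x3aed588aeda3c832ba089a54161a40 • pt 23 = pt 23 :=
    (hK (this.ge (((ckS 0x5335f).fxP 0).mono (inf_le_inf_right _ le_rfl) 0x3aed588aeda3c832ba089a54161a40 (by decide +kernel)).2)).1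
  rw [(gd_of (by decide +kernel)).smul_pt (by decide)] at h9
  exact absurd h9 (by decide +kernel)

/-- The stabiliser of two points in the group of the length-24 code has no subgroups of index 56 or 210. -/
theorem result (p q : Cfsg.GolayPt) (hpq : p ≠ q) (H : Subgroup ↥(MulAction.stabilizer Cfsg.M24 p ⊓ MulAction.stabilizer Cfsg.M24 q)) : H.index ≠ 56 ∧ H.index ≠ 210 := by
  obtain ⟨g, h1, h2⟩ := tr2 (a := pt 23) (b := pt 0) (by decide) hpq
  have c := (Cj.stab' h1).inf (Cj.stab' h2)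
  have cM := card_stab2 (p := pt 23) (q := pt 0) (by decide)
  have hb : E tβ ∈ stabilizer M24 (pt 23) ⊓ stabilizer M24 (pt 0) := (((ckP 23).fxP 0) tβ (by decide +kernel)).2
  have key : ¬ 11 ∣ H.index → ∃ K ≤ stabilizer M24 (pt 23) ⊓ stabilizer M24 (pt 0), E tβ ∈ K ∧
      Nat.card K * H.index = 443520 := fun h => by
    have i1 : (H.comap c.equiv.toMonoidHom).index = H.index := Subgroup.index_comap_of_surjective _ c.equiv.surjective
    obtain ⟨k, hk⟩ := exists_conj_le (p := 11) (by norm_num) (isPGroup_zpowers (x := ⟨_, hb⟩)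
      (Subtype.ext (oβ ▸ pow_orderOf_eq_one _))) (i1 ▸ h)
    have i2 : ((H.comap c.equiv.toMonoidHom).comap (MulAut.conj k⁻¹).toMonoidHom).index = H.index :=
      (Subgroup.index_comap_of_surjective _ (MulAut.conj k⁻¹).surjective).trans i1
    refine ⟨((H.comap c.equiv.toMonoidHom).comap (MulAut.conj k⁻¹).toMonoidHom).map (Subgroup.subtype _),
      Subgroup.map_subtype_le _, ⟨⟨_, hb⟩, by simpa using hk _ (Subgroup.mem_zpowers _), rfl⟩, ?_⟩
    rw [Subgroup.card_subtype, ← i2, Subgroup.card_mul_index, cM]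
  constructor <;> intro h <;> rw [h] at key <;> obtain ⟨K, h3, h4, h5⟩ := key (by norm_num)
  · exact aux h3 h4 (by omega)
  · have := (syl_con h3 h4 (a := 192) (b := 40320) (by norm_num) oβ cβ (by omega) cM (by norm_num)).2
    exact absurd this (by decide)

end Cfsg.Agent.S1606
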