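import Cfsg.Statements.S1607
import Cfsg.Agent.H6.Octad

set_option autoImplicit false
open scoped Pointwise
open Cfsg

namespace Cfsg.Agent.S1607
open H6 Finset MulAction
open scoped Pointwise
set_option maxRecDepth 100000

/-- The point stabiliser acts on the 253 heptads of its S(4, 7, 23) with rank 3 and subdegrees 1, 112, 140 (intersections 8, 2, 4). -/
theorem result (x : Cfsg.GolayPt) (o : Finset Cfsg.GolayPt) (ho : o ∈ Cfsg.octads) (hx : x ∈ o) : {o' : Finset Cfsg.GolayPt | o' ∈ Cfsg.octads ∧ x ∈ o' ∧ (o ∩ o').card = 2}.ncard = 112 ∧ {o' : Finset Cfsg.GolayPt | o' ∈ Cfsg.octads ∧ x ∈ o' ∧ (o ∩ o').card = 4}.ncard = 140 ∧ ∀ o' o'' : Finset Cfsg.GolayPt, o' ∈ Cfsg.octads → o'' ∈ Cfsg.octads → x ∈ o' → x ∈ o'' → (o ∩ o').card = (o ∩ o'').card → ∃ g : Equiv.Perm Cfsg.GolayPt, g ∈ Cfsg.M24 ∧ g x = x ∧ g • o = o ∧ g • o' = o'' := by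
  obtain ⟨g, rfl, rfl⟩ := tr_oct_in ho hx
  have key : ∀ k, {x : Finset GolayPt | x ∈ octads ∧ g • pt 0 ∈ x ∧ (g • O0 ∩ x).card = k}.ncard =
      cntLt 4096 (fun n => Nat.beq (pc (cw n)) 8 && (tb (cw n) 0 && Nat.beq (pc (Nat.land 0x149f (cw n))) k)) := fun k => by
    rw [ncard_transport g (A := {x : Finset GolayPt | x ∈ octads ∧ pt 0 ∈ x ∧ (O0 ∩ x).card = k}) (fun x => by simp [H6.card_smul_inter])]
    exact ncard_oct _ (fun m => tb m 0 && Nat.beq (pc (Nat.land 0x149f m)) k) fun S => by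
      rw [Set.mem_ofPred_eq, O0, card_dec_inter_eq, pt_mem_iff (by norm_num)]; simp
  rw [key, key]
  refine ⟨by decide +kernel, by decide +kernel, fun o' o'' ho' ho'' hx' hx'' h => ?_⟩
  have hx : ∀ x ∈ [0x149f, 0xcb25, 0x3da1], x < 2 ^ 24 ∧ (isCw x && Nat.beq (pc x) 8) = true ∧ pt 0 ∈ dec x := by
    decide +kernel
  obtain ⟨k, hk, e⟩ := ((Cj.stab g O0).inf (Cj.stab g (pt 0))).trans_of (x := o') (y := o'') (trans_of_cover (((ckS 0x149f).fxP 0).coverS
    (gs := [0x4d9a8a56f091a6a29dcf12e2309180, 0x8a6cba41b2755e441cc50cee353040]) (by decide +kernel) hC 512 300 (A := {x | x ∈ octads ∧ pt 0 ∈ x})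
    (fun g hg b hb => ⟨(smul_mem_octads g b).2 hb.1, (mem_smul_of_stab hg.2 b).2 hb.2⟩) (xs := [0x149f, 0xcb25, 0x3da1])
    (fun x h => ⟨(hx x h).1, dec_mem_octads (hx x h).2.1, (hx x h).2.2⟩) (by
      rw [ncard_oct _ (fun m => tb m 0) fun S => by
        rw [Set.mem_ofPred_eq, pt_mem_iff (by norm_num)]]
      decide +kernel)) (fun b => (O0 ∩ b).card)
    (fun g hg b => card_inter_of_stab hg.1 b) (by simp only [O0, ← dec_and, card_dec]; decide +kernel)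
    _ (by simp [mem_inv_smul, *]) _ (by simp [mem_inv_smul, *]) (by simpa only [card_inter_inv_smul] using h))
  exact ⟨k, k.2, hk.2, hk.1, e⟩

end Cfsg.Agent.S1607
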