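import Cfsg.Statements.S1608
import Cfsg.Agent.H6.Octad

set_option autoImplicit false
open scoped Pointwise
open Cfsg

namespace Cfsg.Agent.S1608
open H6 Finset MulAction
open scoped Pointwise
set_option maxRecDepth 100000

/-- The point stabiliser acts on the 506 octads avoiding the point with rank 4 and subdegrees 1, 15, 210, 280, the suborbits being given by intersection size with the fixed octad. -/
theorem result (x : Cfsg.GolayPt) (o : Finset Cfsg.GolayPt) (ho : o ∈ Cfsg.octads) (hx : x ∉ o) : {o' : Finset Cfsg.GolayPt | o' ∈ Cfsg.octads ∧ x ∉ o' ∧ (o ∩ o').card = 0}.ncard = 15 ∧ {o' : Finset Cfsg.GolayPt | o' ∈ Cfsg.octads ∧ x ∉ o' ∧ (o ∩ o').card = 4}.ncard = 210 ∧ {o' : Finset Cfsg.GolayPt | o' ∈ Cfsg.octads ∧ x ∉ o' ∧ (o ∩ o').card = 2}.ncard = 280 ∧ ∀ o' o'' : Finset Cfsg.GolayPt, o' ∈ Cfsg.octads → o'' ∈ Cfsg.octads → x ∉ o' → x ∉ o'' → (o ∩ o').card = (o ∩ o'').card → ∃ g : Equiv.Perm Cfsg.GolayPt, g ∈ Cfsg.M24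 ∧ g x = x ∧ g • o = o ∧ g • o' = o'' := by
  obtain ⟨g, rfl, rfl⟩ := tr_oct_out ho hx
  have key : ∀ k, {x : Finset GolayPt | x ∈ octads ∧ g • pt 23 ∉ x ∧ (g • O0 ∩ x).card = k}.ncard =
      cntLt 4096 (fun n => Nat.beq (pc (cw n)) 8 && (!tb (cw n) 23 && Nat.beq (pc (Nat.land 0x149f (cw n))) k)) := fun k => by
    rw [ncard_transport g (A := {x : Finset GolayPt | x ∈ octads ∧ pt 23 ∉ x ∧ (O0 ∩ x).card = k}) (fun x => by simp [H6.card_smul_inter])]
    exact ncard_oct _ (fun m => !tb m 23 && Nat.beq (pc (Nat.land 0x149f m)) k) fun S => by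
      rw [Set.mem_ofPred_eq, O0, card_dec_inter_eq, pt_mem_iff (by norm_num)]; simp
  rw [key, key, key]
  refine ⟨by decide +kernel, by decide +kernel, by decide +kernel, fun o' o'' ho' ho'' hx' hx'' h => ?_⟩
  have hx : ∀ x ∈ [0x149f, 0xf6840, 0x293e, 0x7b42], x < 2 ^ 24 ∧ (isCw x && Nat.beq (pc x) 8) = true ∧ pt 23 ∉ dec x := by
    decide +kernel
  obtain ⟨k, hk, e⟩ := ((Cj.stab g O0).inf (Cj.stab g (pt 23))).trans_of (x := o') (y := o'') (trans_of_cover (((ckS 0x149f).fxP 23).coverS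
    (gs := [0xbc4b449a0872e6a785b215aa3200ec, 0xb96d184d154ca81788ce6356021d43]) (by decide +kernel) hC 512 600 (A := {x | x ∈ octads ∧ pt 23 ∉ x})
    (fun g hg b hb => ⟨(smul_mem_octads g b).2 hb.1, mt (mem_smul_of_stab hg.2 b).1 hb.2⟩) (xs := [0x149f, 0xf6840, 0x293e, 0x7b42])
    (fun x h => ⟨(hx x h).1, dec_mem_octads (hx x h).2.1, (hx x h).2.2⟩) (by
      rw [ncard_oct _ (fun m => !tb m 23) fun S => by
        rw [Set.mem_ofPred_eq, pt_mem_iff (by norm_num)]; simp]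
      decide +kernel)) (fun b => (O0 ∩ b).card)
    (fun g hg b => card_inter_of_stab hg.1 b) (by simp only [O0, ← dec_and, card_dec]; decide +kernel)
    _ (by simp [mem_inv_smul, *]) _ (by simp [mem_inv_smul, *]) (by simpa only [card_inter_inv_smul] using h))
  exact ⟨k, k.2, hk.2, hk.1, e⟩

end Cfsg.Agent.S1608
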