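import Cfsg.Statements.S1609
import Cfsg.Agent.H6.TLb

set_option autoImplicit false
open scoped Pointwise
open Cfsg

namespace Cfsg.Agent.S1609
open H6 Finset MulAction
open scoped Pointwise
set_option maxRecDepth 100000

/-- Subgroups of index 253 in the Mathieu group of degree 23 are exactly the duad stabilisers and the heptad stabilisers. -/
theorem result (x : Cfsg.GolayPt) (H : Subgroup ↥(MulAction.stabilizer Cfsg.M24 x)) (hH : H.index = 253) : (∃ s : Finset Cfsg.GolayPt, s.card = 2 ∧ x ∉ s ∧ H = (MulAction.stabilizer Cfsg.M24 s).subgroupOf (MulAction.stabilizer Cfsg.M24 x)) ∨ ∃ o ∈ Cfsg.octads, x ∈ o ∧ H = (MulAction.stabilizer Cfsg.M24 o).subgroupOf (MulAction.stabilizer Cfsg.M24 x) := by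
  obtain ⟨g, rfl⟩ := tr1 (pt 0) x
  have h7 := H.card_mul_index
  rw [hH, card_stab1] at h7
  have c0 : Cj g ((H.map (Subgroup.subtype _)).comap (MulAut.conj g).toMonoidHom) (H.map (Subgroup.subtype _)) :=
    fun z => by simp only [Subgroup.mem_comap]; simp [mul_assoc]
  have h8 : Nat.card (H.map (Subgroup.subtype _)) = 40320 := by rw [Subgroup.card_subtype]; omega
  obtain ⟨u, hu, K, c, hS, hK⟩ := conj_in (p := 2) (by norm_num) (M := stabilizer M24 (pt 0))
    (fun y hy => by simpa [mul_assoc] using (Cj.stab g (pt 0) _).1 (Subgroup.map_subtype_le H hy)) inf_le_right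
    (pGroup_Syl2.to_le inf_le_left) (c0.card.symm.trans h8) (b := 253) (card_stab1 _) (by decide)
  have h9 : Nat.card K = 40320 := c.card.symm.trans (c0.card.symm.trans h8)
  have fin : ∀ s : Finset GolayPt, K ≤ stabilizer M24 s → Nat.card ↥(stabilizer M24 s ⊓ stabilizer M24 (pt 0)) ≤ 40320 →
      H = (stabilizer M24 (g • u • s)).subgroupOf (stabilizer M24 (g • pt 0)) := fun s h1 h2 => by
    have h3 := eq_of_le_of_card_le (le_inf h1 hK) (h9 ▸ h2)
    have h4 := c0.uniq ((c.uniq (h3 ▸ (Cj.stab u s).inf (Cj.stab' hu))) ▸ (Cj.stab g (u • s)).inf (Cj.stab g (pt 0)))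
    rw [← Subgroup.inf_subgroupOf_right, ← h4]
    exact (Subgroup.comap_map_eq_self_of_injective (Subgroup.subtype_injective _) H).symm
  have mem : ∀ s : Finset GolayPt, g • pt 0 ∈ g • u • s ↔ pt 0 ∈ s := fun s => by
    rw [smul_mem_smul_finset_iff, ← show u • pt 0 = pt 0 from hu, smul_mem_smul_finset_iff, show u • pt 0 = pt 0 from hu]
  rcases loc23 hK hS (by rw [h9]; decide) (by rw [h9]; decide) with h | h | h
  · refine Or.inr ⟨_, by simpa using O0_mem, (mem _).2 (by decide +kernel), fin _ h
      (card_le_of_orb (card_stab_octad O0_mem).le (d := 8) ?_ (by norm_num) (by norm_num))⟩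
    exact le_trans (by decide +kernel) ((ckS 0x149f).orbP_le gO_ok (by norm_num))
  · have h1 := card_le_of_orb (card_stab_set (s := dec 0x1411) (k := 4) (e := 23040) (by decide +kernel) (by norm_num)
      (by decide)).le (d := 4) (e := 5760) (le_trans (by decide +kernel) ((ckS 0x1411).orbP_le
      (gs := [0xa968f8ca66bb600592c90b90c188ea]) (by decide +kernel) (j := 0) (by norm_num))) (by norm_num) (by norm_num)
    have := Subgroup.card_le_of_le (le_inf h hK)
    omega
  · refine Or.inl ⟨g • u • dec 0x1400, by rw [card_smul_finset, card_smul_finset]; decide +kernel,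
      fun h' => absurd ((mem _).1 h') (by decide +kernel), fin _ (fun k hk => ?_)
      (card_le_of_orb (card_stab_set (k := 2) (e := 887040) (by decide +kernel) (by norm_num) (by decide)).le (d := 22)
      (le_trans (by decide +kernel) ((ckS 0x1400).orbP_le (gs := [0x95c05699147086a7b26b8a4f60c095, 0x1ac346d85195cec9a8d07b905a8124])
      (by decide +kernel) (by norm_num))) (by norm_num) (by norm_num))⟩
    have h2 : k • dec 0x1401 = dec 0x1401 := (orb_compl h).1 hk
    rw [show dec 0x1400 = (dec 0x1401).erase (pt 0) by decide +kernel]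
    show k • _ = _
    rw [smul_finset_def, image_erase (MulAction.injective k), ← smul_finset_def, h2, show k • pt 0 = pt 0 from hK hk]

end Cfsg.Agent.S1609
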