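import Cfsg.Statements.S1610
import Cfsg.Agent.H1.Hx

set_option autoImplicit false
open Cfsg

namespace Cfsg.Agent.S1610

open H1B H1B.Hx

/-- The hexacode has 64 words, minimum weight 4, and weight distribution 0^1 4^45 6^18. -/
theorem result (F : Type*) [Field F] [Fintype F] [DecidableEq F] (hF : Fintype.card F = 4) (ω : F) (hω : ω ^ 2 + ω + 1 = 0) : Nat.card ↥(Cfsg.hexacode F ω) = 64 ∧ (∀ x ∈ Cfsg.hexacode F ω, x ≠ 0 → (Finset.univ.filter fun i => x i ≠ 0).card = 4 ∨ (Finset.univ.filter fun i => x i ≠ 0).card = 6) ∧ {x : Fin 6 → F | x ∈ Cfsg.hexacode F ω ∧ (Finset.univ.filter fun i => x i ≠ 0).card = 4}.ncard = 45 ∧ {x : Fin 6 → F | x ∈ Cfsg.hexacode F ω ∧ (Finset.univ.filter fun i => x i ≠ 0).card = 6}.ncard = 18 := by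
  have hw : ∀ v, (Finset.univ.filter fun i => ph ω (enc v i) ≠ 0) = Finset.univ.filter fun i => enc v i ≠ 0 := by
    intro v
    simp only [ne_eq, ph_eq_zero hF hω]
  refine ⟨?_, ?_, ?_, ?_⟩
  · have := set_eq hF hω (fun _ => True) (fun _ => True) (fun _ => Iff.rfl)
    simp only [and_true, Finset.filter_true] at this
    rw [← SetLike.coe_sort_coe, Nat.card_coe_set_eq]
    exact this.trans (by decide +kernel)
  · intro x hx h0
    obtain ⟨v, rfl⟩ := (mem_iff hF hω).1 hx
    rw [hw]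
    refine (wt_chk v).resolve_left fun h => h0 (funext fun i => ?_)
    exact (ph_eq_zero hF hω).2 (h i)
  · exact (set_eq hF hω _ _ (fun v => by rw [hw])).trans c4
  · exact (set_eq hF hω _ _ (fun v => by rw [hw])).trans c6

end Cfsg.Agent.S1610
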