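import Cfsg.Statements.S1612
import Cfsg.Agent.H6.G3c

set_option autoImplicit false
open Cfsg

namespace Cfsg.Agent.S1612
set_option maxRecDepth 100000

/-- In a 3-transposition group (no solvable normal subgroup, perfect derived group), the normaliser of a commuting set of transpositions of maximum size contains a Sylow 2-subgroup and is doubly transitive on the set. -/
theorem result {G : Type*} [Group G] [Finite G] (hsol : ∀ N : Subgroup G, N.Normal → Group.IsSolvable ↥N → N = ⊥) (hperf : ⁅commutator G, commutator G⁆ = commutator G) {D : Set G} (hD : Cfsg.IsThreeTranspositionClass D) {E : Set G} (hE : E ⊆ D) (hc : ∀ a ∈ E, ∀ b ∈ E, Commute a b) (hmax : ∀ E' : Set G, E' ⊆ D → (∀ a ∈ E', ∀ b ∈ E', Commute a b) → E'.ncard ≤ E.ncard) : (∃ P : Sylow 2 G, (P : Subgroup G) ≤ Subgroup.normalizer E) ∧ ∀ a ∈ E, ∀ b ∈ E, ∀ c ∈ E, ∀ d ∈ E, a ≠ b → c ≠ d → ∃ g ∈ Subgroup.normalizer E, g * a * g⁻¹ = c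 ∧ g * b * g⁻¹ = d := by
  open H6 Subgroup in
  have h := TC.of hD
  have t : ∀ F ⊆ D, (∀ a ∈ F, ∀ b ∈ F, Commute a b) → IsPGroup 2 (closure F) := fun F a b =>
    evn2 (h.sub a fun x hx y hy => by rwa [(h.comm_iff (a hx) y).1 (b x hx y hy)]) b
  refine ⟨?_, fun a ha b hb c hc' d hd n1 n2 => ?_⟩
  · obtain ⟨P, hP⟩ := (t E hE hc).exists_le_sylow
    refine ⟨P, fun g hg => mem_normalizer_fintype fun x hx => ?_⟩
    rw [h.max2 hmax P.isPGroup' hE (fun y hy => hP (subset_closure hy)) rfl] at hx ⊢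
    exact ⟨h.cj g x hx.1, mul_mem (mul_mem hg hx.2) (inv_mem hg)⟩
  have w : W2 D := ⟨a, hE ha, b, hE hb, n1, hc a ha b hb⟩
  obtain ⟨g, rfl, rfl⟩ := h.r3' (h.fis hsol hperf w) w (hE ha) ⟨hE hb, n1.symm, hc a ha b hb⟩ (hE hc') ⟨hE hd, n2.symm, hc c hc' d hd⟩
  let C := centralizer {g * a * g⁻¹, g * b * g⁻¹}
  let F := (fun x => g * x * g⁻¹) '' E
  have F1 : F ⊆ D := by rintro _ ⟨x, hx, rfl⟩; exact h.cj g x (hE hx)
  have F2 : ∀ a ∈ F, ∀ b ∈ F, Commute a b := by rintro _ ⟨x, hx, rfl⟩ _ ⟨y, hy, rfl⟩; exact (hc x hx y hy).conj g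
  have c1 : closure E ≤ C := (closure_le _).2 fun x hx => by rintro _ (rfl | rfl); exacts [hc _ hc' x hx, hc _ hd x hx]
  have c2 : closure F ≤ C := (closure_le _).2 fun x hx => by rintro _ (rfl | rfl); exacts [F2 _ ⟨a, ha, rfl⟩ x hx, F2 _ ⟨b, hb, rfl⟩ x hx]
  obtain ⟨P, hP⟩ := ((t E hE hc).comap_subtype (K := C)).exists_le_sylow
  obtain ⟨Q, hQ⟩ := ((t F F1 F2).comap_subtype (K := C)).exists_le_sylow
  obtain ⟨u, rfl⟩ := MulAction.exists_smul_eq C Q P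
  have e := h.max2 hmax ((u • Q).isPGroup'.map C.subtype) hE (fun y hy => ⟨⟨y, c1 (subset_closure hy)⟩, hP (subset_closure hy), rfl⟩) rfl
  refine ⟨u * g, mem_normalizer_fintype fun x hx => ?_, ?_, ?_⟩
  · rw [e]
    have m : g * x * g⁻¹ ∈ closure F := subset_closure ⟨x, hx, rfl⟩
    exact ⟨h.cj _ x (hE hx), u * ⟨_, c2 m⟩ * u⁻¹, Subgroup.smul_mem_pointwise_smul _ (MulAut.conj u) _ (hQ m), by simp [mul_assoc]⟩
  · rw [← conj_eq_of_comm (g := u.1) (x := g * a * g⁻¹) (u.2 (g * a * g⁻¹) (by simp)).symm]; group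
  · rw [← conj_eq_of_comm (g := u.1) (x := g * b * g⁻¹) (u.2 (g * b * g⁻¹) (by simp)).symm]; group

end Cfsg.Agent.S1612
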