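import Cfsg.Statements.S1618
import Cfsg.Agent.H6.G3c

set_option autoImplicit false
open Cfsg

namespace Cfsg.Agent.S1618
set_option maxRecDepth 100000

/-- A group generated by a class of involutions whose pairwise products (of distinct members) have p-power order for a fixed odd prime p has nilpotent derived subgroup. -/
theorem result {G : Type*} [Group G] [Finite G] (p : ℕ) (hp : p.Prime) (hodd : p ≠ 2) {D : Set G} (hinv : ∀ d ∈ D, orderOf d = 2) (hconj : ∃ d ∈ D, D = conjugatesOf d) (hgen : Subgroup.closure D = ⊤) (hprod : ∀ x ∈ D, ∀ y ∈ D, x ≠ y → ∃ k : ℕ, orderOf (x * y) = p ^ k) : Group.IsNilpotent ↥(commutator G) := by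
  open H6 Subgroup in
  have := Fact.mk hp
  obtain ⟨d, hd, rfl⟩ := hconj
  have k := isoP' hp hodd (hinv d hd) fun a ha b hb => by
    by_cases e : a = b
    · exact ⟨0, by simp [e, sq_of_order (hinv b hb)]⟩
    · exact hprod a ha b hb e
  have e : zpowers d ⊔ pCore p G = ⊤ := eq_top_iff.2 (hgen ▸ (closure_le _).2 fun y hy => by
    simpa [← mul_assoc, sq_of_order (hinv d hd)] using mul_mem_sup (mem_zpowers d) (k d hd y hy))
  refine (H1.isPGroup_pCore.to_le (commutator_le.2 fun x _ y _ => (QuotientGroup.eq_one_iff _).1 ?_) : IsPGroup p (commutator G)).isNilpotent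
  obtain ⟨a, ha, n, hn, rfl⟩ := mem_sup_of_normal_right.1 (e.ge (mem_top x))
  obtain ⟨b, hb, m, hm, rfl⟩ := mem_sup_of_normal_right.1 (e.ge (mem_top y))
  rcases zp2 (sq_of_order (hinv d hd)) ha with rfl | rfl <;> rcases zp2 (sq_of_order (hinv _ hd)) hb with rfl | rfl <;>
    simp [commutatorElement_def, (QuotientGroup.eq_one_iff _).2 hn, (QuotientGroup.eq_one_iff _).2 hm]

end Cfsg.Agent.S1618
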