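import Cfsg.Statements.S1620
import Cfsg.Agent.H0.Ico5


set_option autoImplicit false
open Quaternion
open Cfsg

namespace Cfsg.Agent.S1620

/-- The Hall–Janko group is simple and non-abelian. -/
theorem result : IsSimpleGroup Cfsg.Spor.J2 ∧ ∃ a b : Cfsg.Spor.J2, a * b ≠ b * a := by
  obtain ⟨e⟩ := H0.Ico.iso
  have := H0.MJ2p.simple (H0.Pres.pg 12 H0.MJ2p.B)
  have := e.symm.isSimpleGroup
  refine ⟨this, by_contra fun h => ?_⟩
  push Not at h
  letI : CommGroup Cfsg.Spor.J2 := ⟨h⟩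
  exact absurd (((Nat.card_congr e.toEquiv).symm.trans (H0.MJ2p.card (H0.Pres.pg 12 H0.MJ2p.B))) ▸ IsSimpleGroup.prime_card (α := Cfsg.Spor.J2))
    (Nat.not_prime_of_dvd_of_lt (m := 2) (by decide) le_rfl (by decide))

end Cfsg.Agent.S1620
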