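import Cfsg.Statements.S1623
import Cfsg.Agent.H0.Ico5
import Cfsg.Agent.H0.Emb
import Cfsg.Agent.H0.EJ2Z.Main
-- import your own Cfsg.Agent.* helpers here

set_option autoImplicit false
open Quaternion
open Cfsg

namespace Cfsg.Agent.S1623

/-- A reflection centraliser in the Hall–Janko group is an extension of an extraspecial group of order 32 by the alternating group of degree 5. -/
theorem result (f : Equiv.Perm ↥Cfsg.Spor.icoLeech) (hf : Cfsg.Spor.IsIcoReflection f) (hfm : f ∈ Cfsg.Spor.twoJ2) : ∃ (Q : Subgroup ↥(Subgroup.centralizer {(QuotientGroup.mk ⟨f, hfm⟩ : Cfsg.Spor.J2)})) (_ : Q.Normal), Nat.card Q = 32 ∧ Cfsg.IsExtraspecial 2 Q ∧ Nonempty (↥(Subgroup.centralizer {(QuotientGroup.mk ⟨f, hfm⟩ : Cfsg.Spor.J2)}) ⧸ Q ≃* alternatingGroup (Fin 5)) := by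
  obtain ⟨e, he⟩ := H0.Ico.iso'
  obtain ⟨a, -, ha⟩ := H0.Ico.refl_conj hf
  let P := (H0.Pres.pg 12 H0.MJ2p.B).congr (e.trans (MulAut.conj (QuotientGroup.mk a : Cfsg.Spor.J2)))
  have := H0.MJ2p.fin P
  obtain ⟨t, ht, h, Q, K, h1, h2, h3, h4, h5⟩ := H0.EJ2Z.str (H0.MJ2p.m P) (H0.MJ2p.mR P) (H0.MJ2p.base P) (H0.MJ2p.card P)
  have ht' : (QuotientGroup.mk ⟨f, hfm⟩ : Cfsg.Spor.J2) = t := by
    rw [ht, H0.TC.ev_congr (g' := P.g) fun x hx => H0.MJ2p.g_eq P (of_decide_eq_true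
      (List.all_eq_true.1 (by decide : [0, 1, 0, 1, 1, 0, 1, 1, 0, 1, 1, 3, 3, 5, 6, 6, 8, 8, 10, 10].all (fun x => decide (x < 12)) = true) x hx))]
    have h6 := H0.map_ev (e.trans (MulAut.conj (QuotientGroup.mk a : Cfsg.Spor.J2))).toMonoidHom (H0.Pres.pg 12 H0.MJ2p.B).g [0, 1, 0, 1, 1, 0, 1, 1, 0, 1, 1, 3, 3, 5, 6, 6, 8, 8, 10, 10]
    refine Eq.trans ?_ h6
    show _ = MulAut.conj (QuotientGroup.mk a : Cfsg.Spor.J2) (e _)
    rw [he, MulAut.conj_apply, ← QuotientGroup.mk_inv, ← QuotientGroup.mk_mul, ← QuotientGroup.mk_mul]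
    exact congrArg _ (Subtype.ext ha)
  rw [ht']
  obtain ⟨_, x, b, -, d, -⟩ := H0.cent_str h1 h2 h3 h4 alternatingGroup.isSimpleGroup_five (by rw [nat_card_alternatingGroup]; simp [Nat.factorial])
  exact ⟨_, _, b.trans h5, x, d⟩

end Cfsg.Agent.S1623
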