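import Cfsg.Statements.S1624
import Cfsg.Agent.H0.EJ2U.Main
import Cfsg.Agent.H0.IU33
import Cfsg.Agent.H0.Ico5


set_option autoImplicit false
open Quaternion
open Cfsg

namespace Cfsg.Agent.S1624

/-- The Hall–Janko group contains PSU(3, 3) with index 100 and acts on the 100 cosets with rank 3 and subdegrees 1, 36, 63. -/
theorem result : ∃ H : Subgroup Cfsg.Spor.J2, H.index = 100 ∧ (∃ (F : Type) (_ : Field F) (_ : Fintype F), Fintype.card F = 9 ∧ Nonempty (↥H ≃* Cfsg.PSU 3 F 3)) ∧ ∃ c₁ c₂ : Cfsg.Spor.J2 ⧸ H, (MulAction.orbit ↥H c₁).ncard = 36 ∧ (MulAction.orbit ↥H c₂).ncard = 63 := by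
  obtain ⟨e⟩ := H0.Ico.iso
  let m := (H0.MJ2p.m (H0.Pres.pg _ _)).map e
  have hb := (H0.MJ2p.m (H0.Pres.pg _ _)).map_base e (H0.MJ2p.base (H0.Pres.pg _ _))
  have hc := (Nat.card_congr e.toEquiv).symm.trans (H0.MJ2p.card (H0.Pres.pg _ _))
  have := Nat.finite_of_card_ne_zero (hc.trans_ne (by decide))
  have ht := ((H0.MJ2p.m (H0.Pres.pg _ _)).map_orb e 0).trans (H0.MJ2p.trans (H0.Pres.pg _ _))
  obtain ⟨f⟩ := H0.IU33.iso
  obtain ⟨g⟩ := H0.EJ2U.U_iso m rfl hb hc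
  have h := H0.eq_of_card (H0.EJ2U.U_fix m rfl) ⟨g⟩ (H0.MU33.card (H0.Pres.pg _ _)) (m.card_stab ht hc (by decide)) (by decide)
  obtain ⟨a, ha⟩ := m.ex_pt (b := 1) ht (by decide)
  obtain ⟨b, hb⟩ := m.ex_pt (b := 37) ht (by decide)
  refine ⟨m.pst [0], m.index0 ht, ⟨H0.G9, inferInstance, inferInstance, H0.c9, ⟨(MulEquiv.subgroupCongr h.symm).trans (g.symm.trans f)⟩⟩, a, b, ?_, ?_⟩
  · rw [m.ncard_orbit, ha, ← h, H0.EJ2U.o1 m rfl, H0.Model.ncard_ico]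
  · rw [m.ncard_orbit, hb, ← h, H0.EJ2U.o2 m rfl, H0.Model.ncard_ico]

end Cfsg.Agent.S1624
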