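import Cfsg.Statements.S1631
import Cfsg.Agent.H5.RT6

set_option autoImplicit false
open scoped MatrixGroups
open Cfsg

namespace Cfsg.Agent.S1631

/-- The unitary transvections of SU(n, 2), n ≥ 4, form a generating conjugacy class of 3-transpositions. -/
theorem result (F : Type) [Field F] [Fintype F] [DecidableEq F] (hF : Fintype.card F = 4) (n : ℕ) (hn : 4 ≤ n) : Cfsg.IsThreeTranspositionClass {g : ↥(Cfsg.SU n F 2) | (((g : Matrix.SpecialLinearGroup (Fin n) F) : Matrix (Fin n) (Fin n) F) - 1).rank = 1} := by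
  have hF' : Fintype.card F = 2 ^ 2 := hF
  obtain ⟨L, _, _, _, hc, hL⟩ := H5.RT.exL hF'
  obtain ⟨ε, h0, hε⟩ := H4.exists_trace_zero hF'
  replace hε : H4.frobq hF' ε = -ε := eq_neg_of_add_eq_zero_right hε
  have h2 : Nat.card L = 2 := by rw [Nat.card_eq_fintype_card, hc]
  obtain ⟨m, rfl⟩ := Nat.exists_eq_add_of_le' (show 2 ≤ n by omega)
  have hT := H5.RT.famU (N := m + 2) hF' hL h0 hε
  refine hT.three h2 (H5.RT.degU hF' hL h0 hε) (H5.RT.neU hF' m) (fun α hα β hβ => hT.cls2 h2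
    (H5.RT.Fam.cls ((H5.RT.neU hF' m).image _) (hT.conn (H5.RT.connU hF' hL h0 hε))) hα hβ)
    (H5.RT.rankU hF' hL h0 hε h2) ?_
  rw [eq_top_iff, ← Cfsg.Agent.S0780.result hF' (m + 2) (by omega) (by omega), Subgroup.closure_le]
  rintro g ⟨w, c, -, h⟩
  by_cases hw : w = 0 ∨ c = 0
  · have : g = 1 := Subtype.ext (Subtype.ext (by rcases hw with hw | hw <;> simp [h, hw, unitaryTransvection]))
    rw [this]; exact one_mem _
  · rw [not_or] at hw
    refine Subgroup.subset_closure (H5.RT.rank_one.2 ⟨c • w, _, smul_ne_zero hw.2 hw.1, H5.RT.bar_ne hF' hw.1, ?_⟩)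
    rw [h, unitaryTransvection, Matrix.smul_vecMulVec, add_sub_cancel_left]

end Cfsg.Agent.S1631
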