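import Cfsg.Statements.S1636
import Cfsg.Agent.H0.Gol


set_option autoImplicit false
open Cfsg

namespace Cfsg.Agent.S1636

open H6 H0.St Finset MulAction
open scoped Pointwise
set_option maxRecDepth 100000

theorem nrm (w : GolayPt → ZMod 2) : hammingNorm w = hammingNorm (fun x => w (some x)) + if w none ≠ 0 then 1 else 0 := by
  simp only [hammingNorm, card_filter, Fintype.sum_option, add_comm]

theorem inj {w w' : GolayPt → ZMod 2} (hw : w ∈ golayCode) (hw' : w' ∈ golayCode)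
    (h : hammingDist (fun x => w (some x)) (fun x => w' (some x)) ≤ 6) : w = w' := by
  by_contra hn
  have h1 := golay_min _ (sub_mem hw hw') (sub_ne_zero.2 hn)
  have h2 : hammingNorm (fun x => (w - w') (some x)) ≤ 6 := by simpa [hammingNorm, hammingDist, sub_eq_zero] using h
  rw [nrm] at h1
  split_ifs at h1 <;> omega

/-- The punctured length-23 code has weight distribution 0^1 7^253 8^506 11^1288 12^1288 15^506 16^253 23^1. -/
theorem result : {u : ZMod 23 → ZMod 2 | ∃ w ∈ Cfsg.golayCode, ∀ x : ZMod 23, u x = w (some x)}.ncard = 4096 ∧ {u : ZMod 23 → ZMod 2 | u ∈ {u : ZMod 23 → ZMod 2 | ∃ w ∈ Cfsg.golayCode, ∀ x : ZMod 23, u x = w (some x)} ∧ hammingNorm u = 7}.ncard = 253 ∧ {u : ZMod 23 → ZMod 2 | u ∈ {u : ZMod 23 → ZMod 2 | ∃ w ∈ Cfsg.golayCode, ∀ x : ZMod 23, u x = w (some x)} ∧ hammingNorm u = 8}.ncard = 506 ∧ {u : ZMod 23 → ZMod 2 | u ∈ {u : ZMod 23 → ZMod 2 | ∃ w ∈ Cfsg.golayCode, ∀ x : ZMod 23, u x = w (some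 x)} ∧ hammingNorm u = 11}.ncard = 1288 ∧ {u : ZMod 23 → ZMod 2 | u ∈ {u : ZMod 23 → ZMod 2 | ∃ w ∈ Cfsg.golayCode, ∀ x : ZMod 23, u x = w (some x)} ∧ hammingNorm u = 12}.ncard = 1288 ∧ {u : ZMod 23 → ZMod 2 | u ∈ {u : ZMod 23 → ZMod 2 | ∃ w ∈ Cfsg.golayCode, ∀ x : ZMod 23, u x = w (some x)} ∧ hammingNorm u = 15}.ncard = 506 ∧ {u : ZMod 23 → ZMod 2 | u ∈ {u : ZMod 23 → ZMod 2 | ∃ w ∈ Cfsg.golayCode, ∀ x : ZMod 23, u x = w (some x)} ∧ hammingNorm u = 16}.ncard = 253 ∧ ∀ u ∈ {u : ZMod 23 → ZMod 2 | ∃ w ∈ Cfsg.golayCode, ∀ x : ZMod 23, u x = w (some x)}, u ≠ 0 → 7 ≤ hammingNorm u := by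
  have h1 : ∀ P : ℕ → Bool, {u : ZMod 23 → ZMod 2 | (∃ w ∈ golayCode, ∀ x : ZMod 23, u x = w (some x)) ∧
      P (hammingNorm u) = true}.ncard = cntLt 4096 fun n => P (pc (cw n) - bit (cw n) 23) := fun P => by
    rw [← ncard_CC (support₂ '' {w | w ∈ golayCode ∧ P (hammingNorm fun x => w (some x)) = true})
      (fun m => P (pc m - bit m 23)), Set.ncard_image_of_injective _ support₂_inj,
      ← Set.InjOn.ncard_image (f := fun (w : GolayPt → ZMod 2) x => w (some x)) fun w hw w' hw' h =>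
        inj hw.1 hw'.1 (by rw [show (fun x => w (some x)) = fun x => w' (some x) from h]; simp)]
    · congr 1; ext u
      exact ⟨fun ⟨⟨w, hw, h⟩, h'⟩ => ⟨w, ⟨hw, (funext h : u = _) ▸ h'⟩, (funext h).symm⟩,
        fun ⟨w, ⟨hw, h'⟩, h⟩ => ⟨⟨w, hw, fun x => (congrFun h x).symm⟩, h ▸ h'⟩⟩
    · intro S
      obtain ⟨w, rfl⟩ := exists_supp S
      have : hammingNorm (fun x => w (some x)) = pc (enc (support₂ w)) - bit (enc (support₂ w)) 23 := by
        rw [← card_eq_pc, ← norm_eq, nrm w, bit_eq, show (enc (support₂ w)).testBit 23 = _ from testBit_enc_idx _ none]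
        simp [mem_supp]
      rw [support₂_inj.mem_set_image, ← mem_code_iff_support, ← this]; rfl
  have h2 : ∀ k, {u : ZMod 23 → ZMod 2 | u ∈ {u : ZMod 23 → ZMod 2 | ∃ w ∈ golayCode, ∀ x : ZMod 23, u x = w (some x)} ∧
      hammingNorm u = k}.ncard = cntLt 4096 fun n => Nat.beq (pc (cw n) - bit (cw n) 23) k := fun k => by
    simpa using h1 (Nat.beq · k)
  have h3 := h1 fun _ => true
  simp only [and_true] at h3
  simp only [h2, h3]
  refine ⟨by decide +kernel, by decide +kernel, by decide +kernel, by decide +kernel, by decide +kernel,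
    by decide +kernel, by decide +kernel, ?_⟩
  rintro u ⟨w, hw, h⟩ hu
  obtain rfl : u = fun x => w (some x) := funext h
  by_contra hn
  exact hu (by rw [inj hw (zero_mem _) (Nat.le_of_lt_succ (not_le.1 hn))]; rfl)

end Cfsg.Agent.S1636
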