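import Cfsg.Statements.S1637
import Cfsg.Agent.H0.Gol


set_option autoImplicit false
open Cfsg

namespace Cfsg.Agent.S1637

open H6 H0.St Finset MulAction
open scoped Pointwise
set_option maxRecDepth 100000

theorem nrm (w : GolayPt → ZMod 2) : hammingNorm w = hammingNorm (fun x => w (some x)) + if w none ≠ 0 then 1 else 0 := by
  simp only [hammingNorm, card_filter, Fintype.sum_option, add_comm]

theorem inj {w w' : GolayPt → ZMod 2} (hw : w ∈ golayCode) (hw' : w' ∈ golayCode)
    (h : hammingDist (fun x => w (some x)) (fun x => w' (some x)) ≤ 6) : w = w' := by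
  by_contra hn
  have h1 := golay_min _ (sub_mem hw hw') (sub_ne_zero.2 hn)
  have h2 : hammingNorm (fun x => (w - w') (some x)) ≤ 6 := by simpa [hammingNorm, hammingDist, sub_eq_zero] using h
  rw [nrm] at h1
  split_ifs at h1 <;> omega

/-- The punctured length-23 code is a perfect 3-error-correcting code: each word of length 23 is within distance 3 of exactly one codeword. -/
theorem result (u : ZMod 23 → ZMod 2) : ∃! c : ZMod 23 → ZMod 2, c ∈ {u : ZMod 23 → ZMod 2 | ∃ w ∈ Cfsg.golayCode, ∀ x : ZMod 23, u x = w (some x)} ∧ hammingDist u c ≤ 3 := by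
  have h0 : ∃ w : GolayPt → ZMod 2, (fun x => w (some x)) = u ∧ hammingNorm w % 2 = 1 := by
    have h1 := nrm fun p => p.elim 0 u
    have h2 := nrm fun p => p.elim 1 u
    simp only [Option.elim_some, Option.elim_none, ne_eq, not_true, if_false, one_ne_zero, not_false_iff, if_true] at h1 h2
    by_cases h : hammingNorm u % 2 = 1
    · exact ⟨fun p => p.elim 0 u, rfl, h1 ▸ h⟩
    · exact ⟨fun p => p.elim 1 u, rfl, by rw [h2]; change (hammingNorm u + 1) % 2 = 1; omega⟩
  obtain ⟨w, rfl, h1⟩ := h0
  obtain ⟨v, h2, h3⟩ := coset_ne card_pt card_golay golay_min w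
  have h4 : w - v ∈ golayCode := by rwa [← neg_sub, neg_mem_iff]
  have h5 : hammingDist (fun x => w (some x)) (fun x => (w - v) (some x)) ≤ 3 := by
    have h5 := CC_card (mem_code_iff_support.1 h2)
    have h6 := card_symmDiff_eq (support₂ v) (support₂ w)
    have h7 := nrm v
    rw [supp_sub] at h5
    rw [show hammingDist (fun x => w (some x)) (fun x => (w - v) (some x)) = hammingNorm fun x => v (some x) by
      simp [hammingNorm, hammingDist, eq_comm (a := w _), sub_eq_self]]
    rw [norm_eq] at h1 h3 h7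
    omega
  refine ⟨_, ⟨⟨w - v, h4, fun _ => rfl⟩, h5⟩, ?_⟩
  rintro c ⟨⟨w', h6, h7⟩, h8⟩
  obtain rfl : c = fun x => w' (some x) := funext h7
  rw [inj h6 h4 (by
    refine (hammingDist_triangle _ (fun x => w (some x)) _).trans ?_
    rw [hammingDist_comm]; omega)]

end Cfsg.Agent.S1637
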