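import Cfsg.Statements.S1638
import Cfsg.Agent.H6.Octad

set_option autoImplicit false
open scoped Pointwise
open Cfsg

namespace Cfsg.Agent.S1638
open H6 Finset MulAction
open scoped Pointwise
set_option maxRecDepth 100000

/-- Fix two points p ≠ q and a pair s of two further points. Among the pairs avoiding p, q and disjoint from s, exactly 30 lie in an octad together with p, q and s and exactly 160 do not; and any two pairs other than s that meet s in equally many points and agree on that octad property are carried to one another by an element of the group of the length-24 code fixing p, q and s. -/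
theorem result (p q : Cfsg.GolayPt) (hpq : p ≠ q) (s : Finset Cfsg.GolayPt) (hs : (s.card = 2 ∧ p ∉ s ∧ q ∉ s)) : {t : Finset Cfsg.GolayPt | (t.card = 2 ∧ p ∉ t ∧ q ∉ t) ∧ Disjoint s t ∧ (∃ o ∈ Cfsg.octads, p ∈ o ∧ q ∈ o ∧ s ∪ t ⊆ o)}.ncard = 30 ∧ {t : Finset Cfsg.GolayPt | (t.card = 2 ∧ p ∉ t ∧ q ∉ t) ∧ Disjoint s t ∧ ¬ (∃ o ∈ Cfsg.octads, p ∈ o ∧ q ∈ o ∧ s ∪ t ⊆ o)}.ncard = 160 ∧ ∀ t t' : Finset Cfsg.GolayPt, (t.card = 2 ∧ p ∉ t ∧ q ∉ t) → (t'.card = 2 ∧ p ∉ t' ∧ q ∉ t') → t ≠ s → t' ≠ s → (s ∩ t).card = (s ∩ t').card → ((∃ o ∈ Cfsg.octads, p ∈ o ∧ q ∈ o ∧ s ∪ t ⊆ o) ↔ (∃ o ∈ Cfsg.octads, p ∈ o ∧ q ∈ o ∧ s ∪ t' ⊆ o)) → ∃ g : Equiv.Perm Cfsg.GolayPt, g ∈ Cfsg.M24 ∧ g p = p ∧ g q = q ∧ g • s = s ∧ g • t = t' := by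
  obtain ⟨a, b, hab, rfl⟩ := card_eq_two.1 hs.1
  have hs' := hs
  simp only [mem_insert, mem_singleton, not_or] at hs'
  obtain ⟨g, rfl, rfl, rfl, rfl⟩ := tr4 (a := pt 0) (b := pt 1) (c := pt 2) (d := pt 3) (a' := p) (b' := q) (c' := a) (d' := b)
    (by decide) (by simp [*])
  have e : ({g • pt 2, g • pt 3} : Finset GolayPt) = g • dec 12 := by
    rw [show dec 12 = {pt 2, pt 3} by decide +kernel, smul_finset_insert, smul_finset_singleton]
  rw [e]
  have hP : ∀ (g : M24) (p q : GolayPt) (T U : Finset GolayPt), (∃ o ∈ octads, g • p ∈ o ∧ g • q ∈ o ∧ g • T ∪ g • U ⊆ o) ↔ ∃ o ∈ octads, p ∈ o ∧ q ∈ o ∧ T ∪ U ⊆ o := by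
    intro g p q T U
    rw [← smul_finset_union]
    constructor
    · rintro ⟨o, ho, h⟩; exact ⟨g⁻¹ • o, by simpa, by simpa [mem_inv_smul] using h.1, by simpa [mem_inv_smul] using h.2.1, by rw [← smul_finset_subset_smul_finset_iff (a := g), smul_inv_smul]; exact h.2.2⟩
    · rintro ⟨o, ho, h⟩; exact ⟨g • o, by simpa, by simpa using h.1, by simpa using h.2.1, smul_finset_subset_smul_finset h.2.2⟩
  have hD : ∀ (g : M24) (T U : Finset GolayPt), Disjoint (g • T) (g • U) ↔ Disjoint T U := fun g T U => by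
    rw [disjoint_iff_inter_eq_empty, disjoint_iff_inter_eq_empty, ← smul_finset_inter, smul_finset_eq_empty]
  have hc := ((ckP 0).fxP 1).fxS 12
  have hg : allL (fxS (fxP (fxP inM 0) 1) 12) [0xa40e4332b65b54545e698be4e10c20, 0x831c5a5d0dabe2939892b2a6b10c20] = true := by decide +kernel
  set K := stabilizer M24 (pt 0) ⊓ stabilizer M24 (pt 1) ⊓ stabilizer M24 (dec 12)
  have hPK : ∀ k ∈ K, ∀ b, (∃ o ∈ octads, pt 0 ∈ o ∧ pt 1 ∈ o ∧ dec 12 ∪ k • b ⊆ o) ↔ ∃ o ∈ octads, pt 0 ∈ o ∧ pt 1 ∈ o ∧ dec 12 ∪ b ⊆ o := by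
    intro k hk b
    have := hP k (pt 0) (pt 1) (dec 12) b
    rwa [mem_stabilizer_iff.1 hk.1.1, mem_stabilizer_iff.1 hk.1.2, mem_stabilizer_iff.1 hk.2] at this
  have hno : ¬ ∃ o ∈ octads, pt 0 ∈ o ∧ pt 1 ∈ o ∧ dec 12 ∪ dec 0x30 ⊆ o := by
      rintro ⟨o, ho, h0, h1, h⟩
      rw [← dec_or, show 12 ||| 0x30 = 60 from rfl, dec_subset_iff (by norm_num)] at h
      rw [pt_mem_iff (by norm_num)] at h0 h1
      exact forall_CC (P := fun o => o.card = 8 → tb (enc o) 0 = true → tb (enc o) 1 = true → Nat.beq (Nat.land 60 (enc o)) 60 = true → False)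
        (fun m => !(Nat.beq (pc m) 8 && tb m 0 && tb m 1 && Nat.beq (Nat.land 60 m) 60)) (by decide +kernel)
        (fun S h h1 h2 h3 h4 => by rw [← card_eq_pc, h1, h2, h3, h4] at h; simp at h) o ho.1 ho.2 h0 h1 h
  have hyes : ∃ o ∈ octads, pt 0 ∈ o ∧ pt 1 ∈ o ∧ dec 12 ∪ dec 0x90 ⊆ o := ⟨O0, O0_mem, by decide +kernel⟩
  have inv : ∀ (Q : Prop → Prop), ∀ k ∈ K, ∀ b ∈ {t : Finset GolayPt | (t.card = 2 ∧ pt 0 ∉ t ∧ pt 1 ∉ t) ∧ Disjoint (dec 12) t ∧ Q (∃ o ∈ octads, pt 0 ∈ o ∧ pt 1 ∈ o ∧ dec 12 ∪ t ⊆ o)},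
      k • b ∈ {t : Finset GolayPt | (t.card = 2 ∧ pt 0 ∉ t ∧ pt 1 ∉ t) ∧ Disjoint (dec 12) t ∧ Q (∃ o ∈ octads, pt 0 ∈ o ∧ pt 1 ∈ o ∧ dec 12 ∪ t ⊆ o)} := by
    intro Q k hk b hb
    have h2 := hD k (dec 12) b
    rw [mem_stabilizer_iff.1 hk.2] at h2
    simp only [Set.mem_ofPred_eq, card_smul_finset, hPK k hk, h2, mem_smul_of_stab hk.1.1, mem_smul_of_stab hk.1.2]; exact hb
  have hsub : ∀ a : Finset GolayPt, (a.card = 2 ∧ pt 0 ∉ a ∧ pt 1 ∉ a) → Disjoint (dec 12) a → a.card = 2 ∧ Disjoint (dec 15) a := fun a h1 h2 => by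
    refine ⟨h1.1, ?_⟩
    rw [show dec 15 = insert (pt 0) (insert (pt 1) (dec 12)) by decide +kernel, disjoint_insert_left, disjoint_insert_left]
    exact ⟨h1.2.1, h1.2.2, h2⟩
  obtain ⟨h1, h2, -, -⟩ := split_two
    (T := {U : Finset GolayPt | U.card = 2 ∧ Disjoint (dec 15) U}) (n₁ := 30) (n₂ := 160) (Set.toFinite _)
    (Set.disjoint_left.2 fun a h1 h2 => h2.2.2 h1.2.2) (fun a h => hsub a h.1 h.2.1) (fun a h => hsub a h.1 h.2.1)
    (by rw [ncard_subsets_disjoint, card_dec]; decide +kernel)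
    (orb_subset (inv id) (a := dec 0x90) ⟨by decide +kernel, by decide +kernel, hyes⟩)
    (orb_subset (inv Not) (a := dec 0x30) ⟨by decide +kernel, by decide +kernel, hno⟩)
    (le_trans (by decide +kernel) (hc.orbS_le hg hS 512 300 (by norm_num)))
    (le_trans (by decide +kernel) (hc.orbS_le hg hS 512 300 (by norm_num)))
  refine ⟨?_, ?_, fun U U' hU hU' hd hd' h h' => ?_⟩
  · rw [← h1]; exact ncard_transport g fun x => by simp only [Set.mem_ofPred_eq, card_smul_finset, hP, hD, smul_mem_smul_finset_iff, id]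
  · rw [← h2]; exact ncard_transport g fun x => by simp only [Set.mem_ofPred_eq, card_smul_finset, hP, hD, smul_mem_smul_finset_iff]
  obtain ⟨U, rfl⟩ := MulAction.surjective g U
  obtain ⟨U', rfl⟩ := MulAction.surjective g U'
  simp only [card_smul_finset, hP, hD, smul_mem_smul_finset_iff, H6.card_smul_inter, ne_eq, smul_left_cancel_iff] at hU hU' hd hd' h h'
  have cov := hc.coverS hg hS 512 300 (A := {t : Finset GolayPt | t.card = 2 ∧ pt 0 ∉ t ∧ pt 1 ∉ t})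
    (fun k hk b hb => by simpa only [Set.mem_ofPred_eq, card_smul_finset, mem_smul_of_stab hk.1.1, mem_smul_of_stab hk.1.2] using hb)
    (xs := [0xc, 0x90, 0x14, 0x30]) (by simp only [Set.mem_ofPred_eq]; decide +kernel) (by
      have : {t : Finset GolayPt | t.card = 2 ∧ pt 0 ∉ t ∧ pt 1 ∉ t} = {t : Finset GolayPt | t.card = 2 ∧ Disjoint {pt 0, pt 1} t} := by
        ext t; simp
      rw [this, ncard_subsets_disjoint]; decide +kernel)
  have := trans_of_cover cov (fun b => ((dec 12 ∩ b).card, (dec 12 ∩ b).card = 0 ∧ ∃ o ∈ octads, pt 0 ∈ o ∧ pt 1 ∈ o ∧ dec 12 ∪ b ⊆ o))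
    (fun k hk b => by simp only [card_inter_of_stab hk.2, hPK k hk]) (by
      simp only [List.mem_cons, List.not_mem_nil, or_false, Prod.mk.injEq, ← dec_and, card_dec]
      rintro x (rfl | rfl | rfl | rfl) y (rfl | rfl | rfl | rfl) ⟨h1, h2⟩ <;>
        first | rfl | exact absurd h1 (by decide +kernel) | (simp only [hyes, hno] at h2; revert h2; decide +kernel))
    U hU U' hU' (by simp only [h, h'])
  obtain ⟨k, hk, e⟩ := (((Cj.stab g (pt 0)).inf (Cj.stab g (pt 1))).inf (Cj.stab g (dec 12))).trans_of (x := g • U) (y := g • U') (by simpa only [inv_smul_smul] using this)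
  exact ⟨k, k.2, hk.1.1, hk.1.2, hk.2, e⟩

end Cfsg.Agent.S1638
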