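import Cfsg.Statements.S1639
import Cfsg.Agent.H6.Octad

set_option autoImplicit false
open scoped Pointwise
open Cfsg

namespace Cfsg.Agent.S1639
open H6 Finset MulAction
open scoped Pointwise
set_option maxRecDepth 100000

/-- The point stabiliser acts on the 1288 dodecads through the point with rank 4 and subdegrees 1, 165, 330, 792, distinguished by intersection 4, 8, 6 with the fixed dodecad. -/
theorem result (x : Cfsg.GolayPt) (d : Finset Cfsg.GolayPt) (hd : d ∈ Cfsg.dodecads) (hx : x ∈ d) : {d' : Finset Cfsg.GolayPt | d' ∈ Cfsg.dodecads ∧ x ∈ d' ∧ (d ∩ d').card = 4}.ncard = 165 ∧ {d' : Finset Cfsg.GolayPt | d' ∈ Cfsg.dodecads ∧ x ∈ d' ∧ (d ∩ d').card = 8}.ncard = 330 ∧ {d' : Finset Cfsg.GolayPt | d' ∈ Cfsg.dodecads ∧ x ∈ d' ∧ (d ∩ d').card = 6}.ncard = 792 ∧ ∀ d' d'' : Finset Cfsg.GolayPt, d' ∈ Cfsg.dodecads → d'' ∈ Cfsg.dodecads → x ∈ d' → x ∈ d'' → (d ∩ d').card = (d ∩ d'').card → ∃ g : Equiv.Perm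 Cfsg.GolayPt, g ∈ Cfsg.M24 ∧ g x = x ∧ g • d = d ∧ g • d' = d'' := by
  obtain ⟨g, rfl, rfl⟩ := tr_dodecad_pt hd hx
  have key : ∀ k, {x : Finset GolayPt | x ∈ dodecads ∧ g • pt 0 ∈ x ∧ (g • D0 ∩ x).card = k}.ncard =
      cntLt 4096 (fun n => Nat.beq (pc (cw n)) 12 && (tb (cw n) 0 && Nat.beq (pc (Nat.land 0x5335f (cw n))) k)) := fun k => by
    rw [ncard_transport g (A := {x : Finset GolayPt | x ∈ dodecads ∧ pt 0 ∈ x ∧ (D0 ∩ x).card = k}) (fun x => by simp [H6.card_smul_inter])]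
    exact ncard_dod _ (fun m => tb m 0 && Nat.beq (pc (Nat.land 0x5335f m)) k) fun S => by
      rw [Set.mem_ofPred_eq, D0, card_dec_inter_eq, pt_mem_iff (by norm_num)]; simp
  rw [key, key, key]
  refine ⟨by decide +kernel, by decide +kernel, by decide +kernel, fun o' o'' ho' ho'' hx' hx'' h => ?_⟩
  have hx : ∀ x ∈ [0x5335f, 0x1a5cab, 0x6fdd, 0x2fc3d], x < 2 ^ 24 ∧ (isCw x && Nat.beq (pc x) 12) = true ∧ pt 0 ∈ dec x := by
    decide +kernel
  obtain ⟨k, hk, e⟩ := ((Cj.stab g D0).inf (Cj.stab g (pt 0))).trans_of (x := o') (y := o'') (trans_of_cover (((ckS 0x5335f).fxP 0).coverS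
    (gs := [0x8adf7b226151606a5452391c34b1a0, 0x8d565998e4b2a4873c23b8a8d64120]) (by decide +kernel) hC 512 1300 (A := {x | x ∈ dodecads ∧ pt 0 ∈ x})
    (fun g hg b hb => ⟨(smul_mem_dodecads g b).2 hb.1, (mem_smul_of_stab hg.2 b).2 hb.2⟩) (xs := [0x5335f, 0x1a5cab, 0x6fdd, 0x2fc3d])
    (fun x h => ⟨(hx x h).1, dec_mem_dodecads (hx x h).2.1, (hx x h).2.2⟩) (by
      rw [ncard_dod _ (fun m => tb m 0) fun S => by
        rw [Set.mem_ofPred_eq, pt_mem_iff (by norm_num)]]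
      decide +kernel)) (fun b => (D0 ∩ b).card)
    (fun g hg b => card_inter_of_stab hg.1 b) (by simp only [D0, ← dec_and, card_dec]; decide +kernel)
    _ (by simp [mem_inv_smul, *]) _ (by simp [mem_inv_smul, *]) (by simpa only [card_inter_inv_smul] using h))
  exact ⟨k, k.2, hk.2, hk.1, e⟩

end Cfsg.Agent.S1639
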