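import Cfsg.Statements.S1641
import Cfsg.Agent.H6.LRb

set_option autoImplicit false
open Cfsg

namespace Cfsg.Agent.S1641
open H6 Finset MulAction
open scoped Pointwise
set_option maxRecDepth 100000

/-- The third Conway group acts on the 11178 cosets of the Higman–Sims group with rank 5 and subdegrees 1, 352, 1100, 4125, 5600. -/
theorem result (u x : ↥Cfsg.leechLattice) (hu : Cfsg.sqNorm (u : Cfsg.GolayPt → ℤ) = 48) (hx : x ∈ {x : ↥Cfsg.leechLattice | Cfsg.sqNorm (x : Cfsg.GolayPt → ℤ) = 32 ∧ Cfsg.dotInt (u : Cfsg.GolayPt → ℤ) (x : Cfsg.GolayPt → ℤ) = -16}) : ∃ y₁ ∈ {x : ↥Cfsg.leechLattice | Cfsg.sqNorm (x : Cfsg.GolayPt → ℤ) = 32 ∧ Cfsg.dotInt (u : Cfsg.GolayPt → ℤ) (x : Cfsg.GolayPt → ℤ) = -16}, ∃ y₂ ∈ {x : ↥Cfsg.leechLattice | Cfsg.sqNorm (x : Cfsg.GolayPt → ℤ) = 32 ∧ Cfsg.dotInt (u : Cfsg.GolayPt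 → ℤ) (x : Cfsg.GolayPt → ℤ) = -16}, ∃ y₃ ∈ {x : ↥Cfsg.leechLattice | Cfsg.sqNorm (x : Cfsg.GolayPt → ℤ) = 32 ∧ Cfsg.dotInt (u : Cfsg.GolayPt → ℤ) (x : Cfsg.GolayPt → ℤ) = -16}, ∃ y₄ ∈ {x : ↥Cfsg.leechLattice | Cfsg.sqNorm (x : Cfsg.GolayPt → ℤ) = 32 ∧ Cfsg.dotInt (u : Cfsg.GolayPt → ℤ) (x : Cfsg.GolayPt → ℤ) = -16}, (MulAction.orbit ↥(MulAction.stabilizer ↥Cfsg.Co0 u ⊓ MulAction.stabilizer ↥Cfsg.Co0 x) y₁).ncard = 352 ∧ (MulAction.orbit ↥(MulAction.stabilizer ↥Cfsg.Co0 u ⊓ MulAction.stabilizer ↥Cfsg.Co0 x) y₂).ncard = 1100 ∧ (MulAction.orbit ↥(MulAction.stabilizer ↥Cfsg.Co0 u ⊓ MulAction.stabilizer ↥Cfsg.Co0 x) y₃).ncard = 4125 ∧ (MulAction.orbit ↥(MulAction.stabilizer ↥Cfsg.Co0 u ⊓ MulAction.stabilizer ↥Cfsg.Co0 x) y₄).ncard = 5600 ∧ {x : ↥Cfsg.leechLattice | Cfsg.sqNorm (x : Cfsg.GolayPt → ℤ) = 32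 ∧ Cfsg.dotInt (u : Cfsg.GolayPt → ℤ) (x : Cfsg.GolayPt → ℤ) = -16} = {x} ∪ MulAction.orbit ↥(MulAction.stabilizer ↥Cfsg.Co0 u ⊓ MulAction.stabilizer ↥Cfsg.Co0 x) y₁ ∪ MulAction.orbit ↥(MulAction.stabilizer ↥Cfsg.Co0 u ⊓ MulAction.stabilizer ↥Cfsg.Co0 x) y₂ ∪ MulAction.orbit ↥(MulAction.stabilizer ↥Cfsg.Co0 u ⊓ MulAction.stabilizer ↥Cfsg.Co0 x) y₃ ∪ MulAction.orbit ↥(MulAction.stabilizer ↥Cfsg.Co0 u ⊓ MulAction.stabilizer ↥Cfsg.Co0 x) y₄ := by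
  rw [SD_one'] at hx ⊢
  have c := cg_e hu hx
  obtain ⟨y1, a1, e1, b1⟩ := (re.1.2.2.2.2.of c).ex (by decide)
  obtain ⟨y2, a2, e2, b2⟩ := (re.1.2.1.of c).ex (by decide)
  obtain ⟨y3, a3, e3, b3⟩ := (re.1.2.2.2.1.of c).ex (by decide)
  obtain ⟨y4, a4, e4, b4⟩ := (re.1.2.2.1.of c).ex (by decide)
  rw [← FX2]
  refine ⟨y1, a1, y2, a2, y3, a3, y4, a4, b1, b2, b3, b4, ?_⟩
  rw [e1, e2, e3, e4]
  ext y
  simp only [Set.mem_union, Set.mem_singleton_iff]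
  constructor
  · intro hy
    have h4 := re.2.of c y hy
    simp only [List.mem_cons, List.not_mem_nil, or_false] at h4
    rcases h4 with h | h | h | h | h
    · exact Or.inl (Or.inl (Or.inl (Or.inl ((dot32 hx.1 hy.1).1 h))))
    · exact Or.inl (Or.inl (Or.inr (mem_SD_cons.2 ⟨hy, h⟩)))
    · exact Or.inr (mem_SD_cons.2 ⟨hy, h⟩)
    · exact Or.inl (Or.inr (mem_SD_cons.2 ⟨hy, h⟩))
    · exact Or.inl (Or.inl (Or.inl (Or.inr (mem_SD_cons.2 ⟨hy, h⟩))))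
  · rintro ((((rfl | h) | h) | h) | h)
    exacts [hx, (mem_SD_cons.1 h).1, (mem_SD_cons.1 h).1, (mem_SD_cons.1 h).1, (mem_SD_cons.1 h).1]

end Cfsg.Agent.S1641
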