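import Cfsg.Statements.S1642
import Cfsg.Agent.H6.LRb

set_option autoImplicit false
open Cfsg

namespace Cfsg.Agent.S1642
open H6 Finset MulAction
open scoped Pointwise
set_option maxRecDepth 100000

/-- Some involution of the Higman–Sims group acts without fixed points on its 100 points. -/
theorem result (v w : ↥Cfsg.leechLattice) (hv : Cfsg.sqNorm (v : Cfsg.GolayPt → ℤ) = 48) (hw : Cfsg.sqNorm (w : Cfsg.GolayPt → ℤ) = 48) (hvw : Cfsg.dotInt (v : Cfsg.GolayPt → ℤ) (w : Cfsg.GolayPt → ℤ) = -32) : ∃ g : ↥Cfsg.Co0, g • v = v ∧ g • w = w ∧ orderOf g = 2 ∧ ∀ x ∈ {x : ↥Cfsg.leechLattice | Cfsg.sqNorm (x : Cfsg.GolayPt → ℤ) = 32 ∧ Cfsg.dotInt (v : Cfsg.GolayPt → ℤ) (x : Cfsg.GolayPt → ℤ) = 24 ∧ Cfsg.dotInt (w : Cfsg.GolayPt → ℤ) (x : Cfsg.GolayPt → ℤ) = -24}, g • x ≠ x := by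
  obtain ⟨k, e⟩ := cg_hs hv hw hvw
  obtain ⟨g, h1, h2, h3⟩ := hs_fpf
  have h4 : k * g * k⁻¹ ∈ FX [w, v] := by
    rw [← e]; exact (cj_FX k _ _).2 (by simpa [mul_assoc] using h1)
  rw [SD_two]
  refine ⟨k * g * k⁻¹, h4 v (by simp), h4 w (by simp), ?_, fun x hx e' => ?_⟩
  · rw [← h2]; exact ((MulAut.conj k).orderOf_eq g)
  · rw [← e] at hx
    refine h3 (k⁻¹ • x) ((SD_smul k).1 (by rwa [smul_inv_smul])) ?_
    rw [mul_smul, mul_smul] at e'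
    exact eq_inv_smul_iff.2 e'

end Cfsg.Agent.S1642
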