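import Cfsg.Statements.S1643
import Cfsg.Agent.H6.MX
import Cfsg.Agent.S0371

set_option autoImplicit false
open scoped Pointwise
open Cfsg

namespace Cfsg.Agent.S1643
open H6 Finset MulAction
open scoped Pointwise
set_option maxRecDepth 100000

/-- PSL(2, 23) = ⟨t ↦ t+1, t ↦ u t (u square), t ↦ −1/t⟩ is maximal of order 6072 in the group of the length-24 code, and its point stabiliser 23:11 (order 253) is maximal in the Mathieu group of degree 23. -/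
theorem result : (Subgroup.closure ({Equiv.optionCongr (Equiv.addRight (1 : ZMod 23)), Cfsg.projInv} ∪ {g : Equiv.Perm Cfsg.GolayPt | ∃ u : (ZMod 23)ˣ, IsSquare u ∧ g = Equiv.optionCongr (Units.mulLeft u)}) ≤ Cfsg.M24 ∧ Nat.card ↥(Subgroup.closure ({Equiv.optionCongr (Equiv.addRight (1 : ZMod 23)), Cfsg.projInv} ∪ {g : Equiv.Perm Cfsg.GolayPt | ∃ u : (ZMod 23)ˣ, IsSquare u ∧ g = Equiv.optionCongr (Units.mulLeft u)})) = 6072 ∧ IsCoatom ((Subgroup.closure ({Equiv.optionCongr (Equiv.addRight (1 : ZMod 23)), Cfsg.projInv} ∪ {g : Equiv.Perm Cfsg.GolayPt | ∃ u : (ZMod 23)ˣ, IsSquare u ∧ g = Equiv.optionCongr (Units.mulLeft u)})).subgroupOf Cfsg.M24)) ∧ (Subgroup.closure ({Equiv.optionCongr (Equiv.addRight (1 : ZMod 23))} ∪ {g : Equiv.Perm Cfsg.GolayPt | ∃ u : (ZMod 23)ˣ, IsSquare u ∧ g = Equiv.optionCongr (Units.mulLeft u)}) ≤ Cfsg.M24 ⊓ MulAction.stabilizer (Equiv.Perm Cfsg.GolayPt) (none : Cfsg.GolayPt)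 ∧ Nat.card ↥(Subgroup.closure ({Equiv.optionCongr (Equiv.addRight (1 : ZMod 23))} ∪ {g : Equiv.Perm Cfsg.GolayPt | ∃ u : (ZMod 23)ˣ, IsSquare u ∧ g = Equiv.optionCongr (Units.mulLeft u)})) = 253 ∧ IsCoatom (((Subgroup.closure ({Equiv.optionCongr (Equiv.addRight (1 : ZMod 23))} ∪ {g : Equiv.Perm Cfsg.GolayPt | ∃ u : (ZMod 23)ˣ, IsSquare u ∧ g = Equiv.optionCongr (Units.mulLeft u)})).subgroupOf Cfsg.M24).subgroupOf (MulAction.stabilizer Cfsg.M24 (none : Cfsg.GolayPt)))) := by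
  have ha := (eq_P (t := tα) (σ := Equiv.optionCongr (Equiv.addRight (1 : ZMod 23))) (by decide +kernel)).2
  have hb := (eq_P (t := tβ) (σ := Equiv.optionCongr (Units.mulLeft (ZMod.unitOfCoprime 2 (by norm_num) : (ZMod 23)ˣ)))
    (by decide +kernel)).2
  have hc := (eq_P (t := tγ) (σ := projInv) (by decide +kernel)).2
  rw [← gα.coe] at ha
  rw [← gβ.coe] at hb
  rw [← gγ.coe] at hc
  have hu : ∀ (K : Subgroup (Equiv.Perm GolayPt)), (E tβ).1 ∈ K → ∀ g ∈ {g : Equiv.Perm GolayPt | ∃ u : (ZMod 23)ˣ,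
      IsSquare u ∧ g = Equiv.optionCongr (Units.mulLeft u)}, g ∈ K := by
    rintro K hK _ ⟨_, ⟨r, rfl⟩, rfl⟩
    have h3 : ∀ r : (ZMod 23)ˣ, ∃ k < 11, ∀ p, idx (Equiv.optionCongr (Units.mulLeft (r * r)) p) = ap (powT tβ k) (idx p) := by
      decide +kernel
    obtain ⟨k, -, e⟩ := h3 r
    rw [(eq_P e).2, ← (gβ.pow k).1.coe, (gβ.pow k).2]
    exact pow_mem hK k
  have hs : (E tβ).1 ∈ {g : Equiv.Perm GolayPt | ∃ u : (ZMod 23)ˣ, IsSquare u ∧ g = Equiv.optionCongr (Units.mulLeft u)} :=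
    ⟨_, ⟨ZMod.unitOfCoprime 5 (by norm_num), by decide +kernel⟩, hb.symm⟩
  rw [ha, hc]
  generalize {g : Equiv.Perm GolayPt | ∃ u : (ZMod 23)ˣ, IsSquare u ∧ g = Equiv.optionCongr (Units.mulLeft u)} = U at hu hs
  have cd : ∀ X : Subgroup (Equiv.Perm GolayPt), X ≤ M24 → Nat.card X = Nat.card (X.subgroupOf M24) := fun X h =>
    (Nat.card_congr (Subgroup.subgroupOfEquivOfLe h).toEquiv).symm
  have l1 : ∀ K : Subgroup M24, E tα ∈ K → E tβ ∈ K → E tγ ∈ K →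
      Subgroup.closure ({(E tα).1, (E tγ).1} ∪ U) ≤ K.map M24.subtype := fun K h1 h2 h3 => by
    rw [Subgroup.closure_le]
    rintro x ((rfl | rfl) | h)
    exacts [⟨_, h1, rfl⟩, ⟨_, h3, rfl⟩, hu (K.map M24.subtype) ⟨_, h2, rfl⟩ x h]
  have l2 : ∀ K : Subgroup M24, E tα ∈ K → E tβ ∈ K →
      Subgroup.closure ({(E tα).1} ∪ U) ≤ K.map M24.subtype := fun K h1 h2 => by
    rw [Subgroup.closure_le]
    rintro x (rfl | h)
    exacts [⟨_, h1, rfl⟩, hu (K.map M24.subtype) ⟨_, h2, rfl⟩ x h]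
  have sb : ∀ (X : Subgroup (Equiv.Perm GolayPt)) (K : Subgroup M24), X ≤ K.map M24.subtype → X.subgroupOf M24 ≤ K :=
    fun X K h x hx => (Subgroup.mem_map_iff_mem M24.subtype_injective).1 (h hx)
  have m1 := (l1 ⊤ trivial trivial trivial).trans (Subgroup.map_subtype_le _)
  have m2 := (l2 ⊤ trivial trivial).trans (Subgroup.map_subtype_le _)
  have a1 : E tα ∈ (Subgroup.closure ({(E tα).1, (E tγ).1} ∪ U)).subgroupOf M24 := Subgroup.subset_closure (by simp)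
  have a2 : E tβ ∈ (Subgroup.closure ({(E tα).1, (E tγ).1} ∪ U)).subgroupOf M24 := Subgroup.subset_closure (Or.inr hs)
  have a3 : E tγ ∈ (Subgroup.closure ({(E tα).1, (E tγ).1} ∪ U)).subgroupOf M24 := Subgroup.subset_closure (by simp)
  have b1 : E tα ∈ (Subgroup.closure ({(E tα).1} ∪ U)).subgroupOf M24 := Subgroup.subset_closure (by simp)
  have b2 : E tβ ∈ (Subgroup.closure ({(E tα).1} ∪ U)).subgroupOf M24 := Subgroup.subset_closure (Or.inr hs)
  have p1 := sb _ _ (l1 _ L_proper.1 L_proper.2.1 L_proper.2.2.1)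
  have n1 : (Subgroup.closure ({(E tα).1, (E tγ).1} ∪ U)).subgroupOf M24 ≠ ⊤ := fun h =>
    L_proper.2.2.2 (top_le_iff.1 (h.ge.trans p1))
  have c1 := (max_L a1 a2 a3).resolve_right n1
  have s1 : E tα ∈ stabilizer M24 (none : GolayPt) := (ckP 23 _ (by decide +kernel)).2
  have s2 : E tβ ∈ stabilizer M24 (none : GolayPt) := (ckP 23 _ (by decide +kernel)).2
  have p2 := sb _ _ (l2 _ s1 s2)
  have n2 : (Subgroup.closure ({(E tα).1} ∪ U)).subgroupOf M24 ≠ stabilizer M24 (none : GolayPt) := fun h => by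
    have h1 := Subgroup.card_le_of_le (h.ge.trans (sb _ _ (l2 _ a1 a2)))
    rw [card_stab1, c1] at h1; omega
  have c2 := (max_B b1 b2 p2).resolve_right n2
  refine ⟨⟨m1, (cd _ m1).trans c1, n1, fun K hK => (max_L (hK.le a1) (hK.le a2) (hK.le a3)).resolve_left fun h =>
    hK.ne (eq_of_le_of_card_le hK.le (by rw [h, c1]))⟩, le_inf m2 fun x hx => p2 (show (⟨x, m2 hx⟩ : M24) ∈ _ from hx),
    (cd _ m2).trans c2, coatom_subgroupOf p2 n2 fun K h1 h2 => (max_B (h1 b1) (h1 b2) h2).imp_left fun h =>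
      (eq_of_le_of_card_le h1 (by rw [h, c2])).symm⟩

end Cfsg.Agent.S1643
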