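import Cfsg.Statements.S1679
import Cfsg.Agent.H0.PSuz
import Cfsg.Agent.H0.ESuzG.Main
import Cfsg.Agent.H0.IG24


set_option autoImplicit false
open Cfsg

namespace Cfsg.Agent.S1679

/-- In the presented sporadic Suzuki group (generators a, …, g), the subgroup generated by the images of a, …, f is isomorphic to the adjoint Chevalley group of type G₂ over a field with four elements. -/
theorem result : ∃ (K : Type) (_ : Field K) (_ : Fintype K), Fintype.card K = 4 ∧ Nonempty ((((Subgroup.closure ({Cfsg.Spor.Suz.a, Cfsg.Spor.Suz.b, Cfsg.Spor.Suz.c, Cfsg.Spor.Suz.d, Cfsg.Spor.Suz.e, Cfsg.Spor.Suz.f} : Set (FreeGroup Cfsg.Spor.Suz.Gen))).map (PresentedGroup.mk (Cfsg.Spor.coxRelators Cfsg.Spor.Suz.edges ∪ {r | r ∈ Cfsg.Spor.Suz.extra})))) ≃* Cfsg.Lie.chevG2.group K) := by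
  refine ⟨H0.G4, inferInstance, inferInstance, H0.c4, ?_⟩
  rw [(H0.Pres.ofCox_gen (h1 := H0.PSuz.h1) (h := H0.PSuz.h2) [Cfsg.Spor.Suz.a, Cfsg.Spor.Suz.b, Cfsg.Spor.Suz.c, Cfsg.Spor.Suz.d, Cfsg.Spor.Suz.e, Cfsg.Spor.Suz.f] H0.MSuz.subs (by decide +kernel) _ (by simp)).trans
    (H0.MSuz.gsubs H0.PSuz.P).symm]
  haveI := H0.MSuz.fin H0.PSuz.P
  obtain ⟨e⟩ := H0.iso_of_le ((H0.ESuzG.G_fix (H0.MSuz.m H0.PSuz.P) (H0.MSuz.mR H0.PSuz.P)).trans (H0.MSuz.stab H0.PSuz.P).2.ge) (H0.ESuzG.G_iso (H0.MSuz.m H0.PSuz.P) (H0.MSuz.mR H0.PSuz.P) (H0.MSuz.base H0.PSuz.P) (H0.MSuz.card H0.PSuz.P))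
    (H0.MG24.card (H0.Pres.pg _ _)) (by rw [(H0.MSuz.stab H0.PSuz.P).2, H0.MSuz.card_stab H0.PSuz.P]) (by decide)
  obtain ⟨f⟩ := H0.IG24.iso
  exact ⟨e.symm.trans f⟩

end Cfsg.Agent.S1679
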