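import Cfsg.Statements.S1686
import Cfsg.Agent.H0.PFi22
import Cfsg.Agent.H0.XFi22O
import Cfsg.Agent.H0.EFi22.Main
import Cfsg.Agent.H0.IO73


set_option autoImplicit false
open Cfsg

namespace Cfsg.Agent.S1686

/-- In the presented Fischer group Fi₂₂, the subgroup generated by the images of b, …, i is isomorphic to PΩ(7, 3), the commutator subgroup of the isometry group of the quadratic form x₀² + x₁y₁ + x₂y₂ + x₃y₃ over the integers mod 3, modulo its centre. -/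
theorem result : Nonempty ((((Subgroup.closure ({Cfsg.Spor.Fi22.b, Cfsg.Spor.Fi22.c, Cfsg.Spor.Fi22.d, Cfsg.Spor.Fi22.e, Cfsg.Spor.Fi22.f, Cfsg.Spor.Fi22.g, Cfsg.Spor.Fi22.h, Cfsg.Spor.Fi22.i} : Set (FreeGroup Cfsg.Spor.Fi22.Gen))).map (PresentedGroup.mk (Cfsg.Spor.coxRelators Cfsg.Spor.Fi22.edges ∪ {r | r ∈ Cfsg.Spor.Fi22.extra})))) ≃* Cfsg.POmega (ZMod 3) (Cfsg.quadFormOdd 3 (ZMod 3))) := by
  rw [(H0.Pres.ofCox_gen (h1 := H0.PFi22.h1) (h := H0.PFi22.h2) [Cfsg.Spor.Fi22.b, Cfsg.Spor.Fi22.c, Cfsg.Spor.Fi22.d, Cfsg.Spor.Fi22.e, Cfsg.Spor.Fi22.f, Cfsg.Spor.Fi22.g, Cfsg.Spor.Fi22.h, Cfsg.Spor.Fi22.i] H0.XFi22O.subs (by decide +kernel) _ (by simp)).trans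
    (H0.XFi22O.gsubs H0.PFi22.P).symm]
  haveI := H0.MFi22.fin H0.PFi22.P
  obtain ⟨e⟩ := H0.EFi22.O_iso (H0.MFi22.m H0.PFi22.P) (H0.MFi22.mR H0.PFi22.P) (H0.MFi22.base H0.PFi22.P) (H0.MFi22.card H0.PFi22.P)
  obtain ⟨f⟩ := H0.IO73.iso
  have h := Subgroup.eq_of_le_of_card_ge (H0.EFi22.O_ge (H0.MFi22.m H0.PFi22.P) (H0.MFi22.mR H0.PFi22.P) (H0.MFi22.base H0.PFi22.P) (H0.MFi22.card H0.PFi22.P))
    (by rw [← Nat.card_congr e.toEquiv, H0.MO73.card (H0.Pres.pg _ _)]; exact (H0.XFi22O.index H0.PFi22.P).2.ge)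
  exact ⟨(MulEquiv.subgroupCongr h).trans (e.symm.trans f)⟩

end Cfsg.Agent.S1686
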