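import Cfsg.Statements.S1717
import Cfsg.Agent.H2.TvQ

set_option autoImplicit false
open Cfsg

namespace Cfsg.Agent.S1717

open Subgroup hiding upperCentralSeries
open H2 Cfsg.FusionSystem

open Subgroup H2 H7 H1B

/-- Let G be a finite group with an involution z whose centraliser C is isomorphic to the centraliser of a transvection of SL(5, 2). Then a Sylow 2-subgroup of C, viewed in G, is a Sylow 2-subgroup of G (its index in G is odd). -/
theorem result {G : Type*} [Group G] [Finite G] (s : Matrix.SpecialLinearGroup (Fin 5) (ZMod 2)) (hs : (s : Matrix (Fin 5) (Fin 5) (ZMod 2)) = Matrix.transvection 0 1 1) (z : G) (hz : orderOf z = 2) (e : (Subgroup.centralizer ({z} : Set G)) ≃* Subgroup.centralizer ({s} : Set (Matrix.SpecialLinearGroup (Fin 5) (ZMod 2)))) (T : Sylow 2 (Subgroup.centralizer ({z} : Set G))) : ¬ 2 ∣ ((T : Subgroup (Subgroup.centralizer ({z} : Set G))).map (Subgroup.subtype (Subgroup.centralizer ({z} : Set G)))).index := by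
  have h01 : (0 : Fin 5) ≠ 1 := by decide
  obtain rfl : s = tv h01 := Subtype.ext hs
  have l := lx_tv (k := 2) zmod_two h01 (by decide) (by decide)
  have t := isSylowIn_map_subtype T
  have k : ∀ x : cen1 z, (x : G) ∈ cen ((T : Subgroup (cen1 z)).map (cen1 z).subtype) →
      (e x).1 ∈ zpowers (tv h01) := fun x hx => l.cen_eq.le (mem_cen.2 fun q hq => by
    haveI : (comap e.toMonoidHom (comap (cen1 (tv h01)).subtype (kr (rho zmod_two h01)))).Normal :=
      (normal_subgroupOf l.nQ).comap _
    have m : e.symm ⟨q, l.le hq⟩ ∈ (T : Subgroup (cen1 z)) :=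
      (((l.pgroup.comap_subtype (K := cen1 _)).comap_of_injective e.toMonoidHom e.injective).le_sylow_of_normal T)
        (by simpa [mem_subgroupOf] using hq)
    have := congrArg e (Subtype.ext (mem_cen.1 hx _ (mem_map_of_mem _ m)) : e.symm ⟨q, l.le hq⟩ * x = x * _)
    rw [map_mul, map_mul, e.apply_symm_apply] at this
    exact congrArg Subtype.val this)
  have zc := le_cen1_iff.1 t.le
  have c : cen ((T : Subgroup (cen1 z)).map (cen1 z).subtype) = zpowers z :=
    le_antisymm (fun x hx => ?_) (zpowers_le.2 zc)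
  · have := (syl_of_nrm (H := ⊤) le_top (by
      rw [top_inf_eq]
      exact t.mono (le_nrm_self _) ((c ▸ nrm_cen le_rfl).trans (nrm_zp_two hz)))).not_dvd
    rwa [relIndex_top_right] at this
  have zT := t.le_of_normal (isPGroup_zpowers_of_orderOf hz) (zpowers_le.2 (self_mem_cen1 z))
    (t.le.trans ((cen_zpowers z).ge.trans (cen_le_nrm _)))
  have hx' := cen_le_cen1 (zT (mem_zpowers z)) hx
  have one : ∀ y : cen1 z, (e y).1 = 1 → (y : G) = 1 := fun y h =>
    congrArg Subtype.val (e.map_eq_one_iff.1 (Subtype.ext h))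
  rcases (mem_zp_two l.oz).1 (k ⟨x, hx'⟩ hx) with a | a
  · rw [show x = 1 from one _ a]; exact one_mem _
  rcases (mem_zp_two l.oz).1 (k ⟨z, self_mem_cen1 z⟩ zc) with b | b
  · exact absurd (one _ b) (ord2.1 hz).2
  · rw [← show z = x from congrArg Subtype.val (e.injective (Subtype.ext (b.trans a.symm)))]
    exact mem_zpowers z

end Cfsg.Agent.S1717
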