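import Cfsg.Statements.S1753
import Cfsg.Agent.H7.Elem

set_option autoImplicit false
universe u
open Cfsg

namespace Cfsg.Agent.S1753
open H7
open scoped commutatorElement

/-- Let K be any property of groups. (1) If G is a minimal counterexample relative to K — a finite non-abelian simple group not satisfying K such that every finite non-abelian simple group of smaller order satisfies K — then every proper subgroup of G is a K-group (all its non-abelian simple sections satisfy K), since such sections have smaller order than G. (2) Consequently (induction on the order), if every finite non-abelian simple group all of whose proper subgroups are K-groups satisfies K, then every finite non-abelian simple group satisfies K. -/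
theorem result (K : ∀ (X : Type u) [Group X], Prop) :
    (∀ (G : Type u) [Group G], Cfsg.IsMinCounterexampleWith K G → Cfsg.IsKProperWith K G) ∧
      ((∀ (X : Type u) [Group X] [Finite X], IsSimpleGroup X → ¬ IsMulCommutative X → Cfsg.IsKProperWith K X → K X) →
        ∀ (G : Type u) [Group G] [Finite G], IsSimpleGroup G → ¬ IsMulCommutative G → K G) := by
  open Subgroup in
    have key : ∀ (G : Type u) [Group G] [Finite G], (∀ (X : Type u) [Group X] [Finite X],
        IsSimpleGroup X → ¬ IsMulCommutative X → Nat.card X < Nat.card G → K X) → Cfsg.IsKProperWith K G :=
      fun G _ _ h H hH L N _ h1 h2 => h _ h1 h2 (by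
        have a : Nat.card (L ⧸ N) ≤ Nat.card L := Nat.card_le_card_of_surjective _ (QuotientGroup.mk'_surjective N)
        have b : Nat.card L ≤ Nat.card H := Nat.card_le_card_of_injective _ L.subtype_injective
        have c := card_lt_of_lt (lt_top_iff_ne_top.2 hH)
        rw [card_top] at c
        omega)
    refine ⟨fun G _ h => ?_, fun h G _ _ h1 h2 => ?_⟩
    · haveI := h.1
      exact key G h.2.2.2.2
    · induction' hn : Nat.card G using Nat.strong_induction_on with n ih generalizing G
      exact h G h1 h2 (key G fun X _ _ a b c => ih _ (hn ▸ c) X _ inferInstance a b rfl)

end Cfsg.Agent.S1753
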