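import Cfsg.Statements.S1754
import Cfsg.Agent.H7.Elem

set_option autoImplicit false
open Cfsg

namespace Cfsg.Agent.S1754
open H7
open scoped commutatorElement

/-- Let A be a standard subgroup of the finite group G (A quasisimple, C_G(A) tightly embedded of even order, A commuting elementwise with no other conjugate of itself, and N_G(A) = N_G(C_G(A))), and let t be an involution of G centralizing A. Then the centralizer of t lies in the normalizer of A; in particular A, viewed inside C_G(t), is a component of C_G(t). -/
theorem result {G : Type*} [Group G] [Finite G]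
    (A : Subgroup G) (hA : Cfsg.IsStandardSubgroup A) (t : G) (ht : orderOf t = 2) (htA : t ∈ Subgroup.centralizer (A : Set G)) :
    Subgroup.centralizer ({t} : Set G) ≤ Subgroup.normalizer (A : Set G) ∧
      Cfsg.IsComponent (A.subgroupOf (Subgroup.centralizer ({t} : Set G))) := by
  open Subgroup in
    obtain ⟨h1, ⟨-, h2⟩, -, h3⟩ := hA
    have n : cen1 t ≤ nrm A := fun g hg => by
      rw [h3]
      by_contra hc
      have := h2 g hc
      have m : t ∈ cen A ⊓ H2.cj g (cen A) := ⟨htA, mem_cj'.2 ⟨t, htA, by rw [mem_cen1.1 hg]; simp⟩⟩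
      exact (Nat.not_even_iff_odd.2 this) (even_iff_two_dvd.2 (ht ▸ orderOf_dvd_card' m))
    have l : A ≤ cen1 t := le_cen1_iff.2 htA
    exact ⟨n, (isComponent_subgroupOf l).2 ⟨.of_normal l n, qs_iff.1 h1⟩⟩

end Cfsg.Agent.S1754
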