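import Cfsg.Statements.S1755
import Cfsg.Agent.H7.Tk3

set_option autoImplicit false
open Cfsg

namespace Cfsg.Agent.S1755
open H7
open scoped commutatorElement

section
open Subgroup

theorem aux {G : Type*} [Group G] [Finite G] {z : G} (hz : orderOf z = 2) {C : Subgroup G} (hC : cen1 z = C)
    {Q : Subgroup C} [Q.Normal] (e : Q.map C.subtype = Fst C) (hQ : IsOfSymplecticType Q) (B : Subgroup Q)
    [hBc : B.Characteristic] (hBa : IsMulCommutative B) (g : G) :
    H2.cj g ((B.map Q.subtype).map C.subtype) = (B.map Q.subtype).map C.subtype ∨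
      H2.cj g ((B.map Q.subtype).map C.subtype) ⊓ (B.map Q.subtype).map C.subtype = ⊥ := by
  have zC : z ∈ C := hC ▸ self_mem_cen1 z
  have zQ : (⟨z, zC⟩ : C) ∈ Q := by
    have : z ∈ Q.map C.subtype := e ▸ Fit_le_Fst _ (center_le_Fit _ ⟨zC, le_cen1_iff.1 hC.ge⟩)
    obtain ⟨y, hy, e⟩ := this
    exact (Subtype.ext e : y = ⟨z, _⟩) ▸ hy
  have zc : (⟨_, zQ⟩ : Q) ∈ center Q := mem_center_iff.2 fun y =>
    Subtype.ext (Subtype.ext (mem_cen1.1 (hC.ge y.1.2)))
  have cy := hQ.2 _ (char_sup hBc centerCharacteristic)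
    (isComm_sup hBa inferInstance (le_cen_symm (center_le_centralizer _)))
  have k : ∀ t ∈ (B.map Q.subtype).map C.subtype, orderOf t = 2 → t = z := by
    rintro _ ⟨_, ⟨t, ht, rfl⟩, rfl⟩ o
    simp only [coe_subtype, orderOf_coe] at o
    have o' : orderOf (⟨_, zQ⟩ : Q) = 2 := by rw [← orderOf_coe, ← orderOf_coe]; exact hz
    rw [H1B.zp_inj o o' (eq_of_cyc cy (zpowers_le.2 (mem_sup_left ht)) (zpowers_le.2 (mem_sup_right zc))
      (by rw [card_zpowers_eq, card_zpowers_eq, o, o']))]
    rfl
  refine or_iff_not_imp_right.2 fun h => ?_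
  obtain ⟨t, ht, o⟩ := exists_orderOf_of_pgroup (((hQ.1.to_subgroup B).map _).map _).to_inf_right h
  have e := k _ (mem_cj.1 ht.1) (by rw [oconj', o])
  rw [k t ht.2 o] at e
  refine cj_of_mem_nrm (le_nrm_map_subtype _ (hC.le (mem_cen1.2 ?_)))
  nth_rw 1 [← e]; group

end

/-- Let G be a finite group and let z be an involution of G such that Q, the generalized Fitting subgroup of the centralizer C of z, is a 2-group of symplectic type (every characteristic abelian subgroup of Q is cyclic). Let B be a characteristic abelian subgroup of Q, viewed as a subgroup of G. Then for every g in G, the conjugate of B by g either equals B or meets B trivially. -/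
theorem result {G : Type*} [Group G] [Finite G] (z : G) (hz : orderOf z = 2) (hQ : Cfsg.IsOfSymplecticType ↥(Cfsg.generalizedFittingSubgroup ↥(Subgroup.centralizer ({z} : Set G))))
    (B : Subgroup ↥(Cfsg.generalizedFittingSubgroup ↥(Subgroup.centralizer ({z} : Set G)))) (hBc : B.Characteristic) (hBa : IsMulCommutative ↥B) (g : G) :
    ((B.map (Cfsg.generalizedFittingSubgroup ↥(Subgroup.centralizer ({z} : Set G))).subtype).map (Subgroup.centralizer ({z} : Set G)).subtype).map (MulAut.conj g).toMonoidHom =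
        (B.map (Cfsg.generalizedFittingSubgroup ↥(Subgroup.centralizer ({z} : Set G))).subtype).map (Subgroup.centralizer ({z} : Set G)).subtype ∨
      ((B.map (Cfsg.generalizedFittingSubgroup ↥(Subgroup.centralizer ({z} : Set G))).subtype).map (Subgroup.centralizer ({z} : Set G)).subtype).map (MulAut.conj g).toMonoidHom ⊓
        (B.map (Cfsg.generalizedFittingSubgroup ↥(Subgroup.centralizer ({z} : Set G))).subtype).map (Subgroup.centralizer ({z} : Set G)).subtype = ⊥ := by
  open Subgroup in
    have : (generalizedFittingSubgroup (cen1 z)).Normal := normal_iff_top_le_nrm.2 (gfit_eq (G := cen1 z) ▸ le_nrm_Fst ⊤)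
    exact aux hz rfl (gfit_map _) hQ B hBa g

end Cfsg.Agent.S1755
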