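import Cfsg.Statements.S1756
import Cfsg.Agent.H2.LX1

set_option autoImplicit false
open Cfsg

namespace Cfsg.Agent.S1756

open Subgroup hiding upperCentralSeries
open H2 Cfsg.FusionSystem

open Subgroup H2 H7 H1B
open scoped commutatorElement

/-- Let Q be an extraspecial 2-subgroup of the finite group G (special with centre of order 2) and t an involution of G normalizing Q such that the centralizer of t in Q has index at most 2 in Q. Then t lies in the product of Q with the centralizer of Q. -/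
theorem result {G : Type*} [Group G] [Finite G] (Q : Subgroup G)
    (hQ : Cfsg.IsExtraspecial 2 ↥Q) (t : G) (ht : orderOf t = 2) (htN : t ∈ Subgroup.normalizer (Q : Set G))
    (hi : (Subgroup.centralizer ({t} : Set G) ⊓ Q).relIndex Q ≤ 2) :
    t ∈ Q ⊔ Subgroup.centralizer (Q : Set G) := by
  obtain ⟨z, s, nc⟩ := xs_of hQ
  have tz : t ∈ cen1 z := nrm_zp_two s.oz (s.ctr ▸ nrm_inf (zpowers_le.2 htN)
    (nrm_cen (zpowers_le.2 htN)) (mem_zpowers t))
  have n := zpowers_le.2 htN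
  refine zpowers_le.1 (xs_inner s n (zpowers_le.2 tz) (comm_zpowers_le
    (cen_le_nrm _ (cen_zpowers z ▸ tz)) fun q hq => ?_))
  by_contra k
  have wQ := comm_le_right n (commutator_mem_commutator (mem_zpowers t) hq)
  have c : Q ⊓ cen1 t ≤ cen1 ⁅t, q⁆ := ((xs_perp_comm s n (zpowers_le.2 tz) inf_le_left).2
    ((comm_eq_bot'.2 (cen_zpowers t ▸ inf_le_right)).le.trans bot_le)).trans
      (cen_le_cen1 (cswap le_rfl (commutator_mem_commutator (mem_zpowers t) hq)))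
  obtain ⟨y, hy, e⟩ := s.exists_y wQ fun h => k (s.ctr.le ⟨wQ, h⟩)
  have e1 : Q ⊓ cen1 t = Q ⊓ cen1 ⁅t, q⁆ := by
    refine H7.eq_of_le_of_card_le (le_inf inf_le_left c) (Nat.le_of_mul_le_mul_left ?_ two_pos)
    have := relIndex_mul_card' (inf_le_left : Q ⊓ cen1 ⁅t, q⁆ ≤ Q)
    rw [s.rel2 wQ hy e] at this
    rw [this, ← relIndex_mul_card_inf (cen1 t) Q, inf_comm Q]
    exact Nat.mul_le_mul_right _ (by rwa [inf_relIndex_right] at hi)
  have h1 : t * ⁅t, q⁆ = ⁅t, q⁆ * t := (mem_cen1.1 (e1.ge ⟨wQ, self_mem_cen1 _⟩).2).symm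
  have t2 := (ord2.1 ht).1
  have h2 : ⁅t, q⁆ * ⁅t, q⁆ = 1 := by
    calc _ = t * ⁅t, q⁆ * t⁻¹ * ⁅t, q⁆ := by rw [h1, mul_inv_cancel_right]
      _ = (t * t) * q * t⁻¹ * t⁻¹ * q⁻¹ := by group
      _ = _ := by rw [t2, inv_eq_of_mul_eq_one_left t2, one_mul, mul_assoc q, t2]; group
  have h3 : q ∉ cen1 ⁅t, q⁆ := fun h => k (by
    rw [commutatorElement_eq_one_iff_mul_comm.2 (mem_cen1.1 (e1.ge ⟨hq, h⟩).2).symm]; exact one_mem _)
  refine h3 (mem_cen1.2 ?_)
  have h4 : ⁅t, q⁆ * q * (⁅t, q⁆ * q) = q * q := by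
    refine Eq.trans ?_ (conj_eq_of_mem_cen (cen_zpowers z ▸ tz) (sq q ▸ s.pow q hq))
    group
  rw [← mul_assoc, mul_left_inj] at h4
  calc _ = ⁅t, q⁆ * ⁅t, q⁆ * q * ⁅t, q⁆ := by rw [h2, one_mul]
    _ = ⁅t, q⁆ * (⁅t, q⁆ * q * ⁅t, q⁆) := by group
    _ = _ := by rw [h4]

end Cfsg.Agent.S1756
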