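import Cfsg.Statements.S1775
import Cfsg.Agent.H7.Tk6

set_option autoImplicit false
open Cfsg

namespace Cfsg.Agent.S1775
open H7
open scoped commutatorElement

/-- Let G be a finite group whose generalized Fitting subgroup is a non-abelian simple group and in which every proper section (every quotient H/N of a proper subgroup H, or of G by a nontrivial normal subgroup) has the B-property. Let x, y be commuting involutions, let D be the intersection of the 2-layer of C_G(x) with C_G(y), and let J be a 2-component of D. Write Q for the quotient of C_G(y) by its largest normal odd-order subgroup. Then (i) the image of J in Q is a component of the centralizer in Q of the image of x; and (ii) for every J-invariant subgroup E of odd order of C_G(x) ∩ C_G(y), the commutator subgroup [J, E] lies in the largest normal odd-order subgroup of C_G(y). -/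
theorem result {G : Type*} [Group G] [Finite G]
    (hF : IsSimpleGroup ↥(Cfsg.generalizedFittingSubgroup G)) (hF' : ¬ IsMulCommutative ↥(Cfsg.generalizedFittingSubgroup G))
    (hsec : ∀ (H : Subgroup G) (N : Subgroup ↥H) [N.Normal], (H ≠ ⊤ ∨ N ≠ ⊥) → Cfsg.HasBProperty (↥H ⧸ N))
    (x y : G) (hx : orderOf x = 2) (hy : orderOf y = 2) (hxy : x * y = y * x)
    (J : Subgroup ↥((Cfsg.pLayer 2 ↥(Subgroup.centralizer ({x} : Set G))).map (Subgroup.centralizer ({x} : Set G)).subtype ⊓ Subgroup.centralizer ({y} : Set G)))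
    (hJ : Cfsg.IsPComponent 2 J) :
    Cfsg.IsComponent
        ((((J.map (Subgroup.subtype _)).subgroupOf (Subgroup.centralizer ({y} : Set G))).map (QuotientGroup.mk' (Cfsg.oddCore ↥(Subgroup.centralizer ({y} : Set G))))).subgroupOf
          (Subgroup.centralizer ({(QuotientGroup.mk' (Cfsg.oddCore ↥(Subgroup.centralizer ({y} : Set G))) ⟨x, Subgroup.mem_centralizer_singleton_iff.mpr hxy⟩ : ↥(Subgroup.centralizer ({y} : Set G)) ⧸ Cfsg.oddCore ↥(Subgroup.centralizer ({y} : Set G)))} : Set _))) ∧
      ∀ E : Subgroup G, E ≤ Subgroup.centralizer ({x} : Set G) ⊓ Subgroup.centralizer ({y} : Set G) → Odd (Nat.card ↥E) →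
        (∀ j ∈ J.map (Subgroup.subtype _), ∀ e ∈ E, j * e * j⁻¹ ∈ E) →
          ⁅J.map (Subgroup.subtype _), E⁆ ≤ (Cfsg.oddCore ↥(Subgroup.centralizer ({y} : Set G))).map (Subgroup.centralizer ({y} : Set G)).subtype := by
  open Subgroup in
  have hK := (isPComponent_iff_map.1 hJ)
  generalize J.map (Subgroup.subtype _) = K at *
  clear hJ J
  rw [pLayer_map] at hK
  have xy : x ∈ centralizer {y} := mem_cen1.2 hxy
  have h1 : centralizer {y} ≠ ⊤ := fun e => hF' (by
    have c : zpowers y ≤ centralizer ((⊤ : Subgroup G) : Set G) := le_cen_symm (by rw [cen_zpowers, e])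
    have l : zpowers y ≤ generalizedFittingSubgroup G := gfit_eq (G := G) ▸ ((le_inf le_top c).trans (center_le_Fit ⊤)).trans (Fit_le_Fst ⊤)
    rcases (normal_subgroupOf (le_top.trans (le_nrm_of_le_cen (le_cen_symm c))) :
      ((zpowers y).subgroupOf (generalizedFittingSubgroup G)).Normal).eq_bot_or_eq_top with k | k
    · exact absurd (by rw [← subgroupOf_map l, k, Subgroup.map_bot]) (zpowers_ne_bot' (ne_one_of_orderOf hy))
    · exact isComm_of_le (isComm_zpowers y) (subgroupOf_eq_top.1 k))
  let f := QuotientGroup.mk' (oddCore (centralizer {y}))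
  have hk' : kr f = Op' 2 (centralizer {y}) := by rw [kr_mk', pPrimeCore_map]
  have ht : im f (centralizer {y}) = ⊤ := im_mk'_dom _
  have o : orderOf (ev f x) = 2 := orderOf_eq_prime (by rw [← ev_pow xy, (H1B.ord2'.1 hx).1, ev_one]) fun e =>
    not_dvd_Op' 2 _ (hx.symm.dvd.trans (orderOf_dvd_card' (hk'.le ((ev_eq_one_iff xy).1 e))))
  have k1 : IsPComp 2 K (centralizer {y} ⊓ centralizer {x}) := hK.of_sn (.of_normal (le_inf inf_le_right (inf_le_left.trans (PLay_le _ _)))
    (nrm_inf (inf_le_right.trans (le_nrm_PLay 2 _)) (inf_le_left.trans (le_nrm_self _))))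
  have c := coprime_Op' 2 (centralizer {y})
  have k2 := k1.im_of_coprime (f := f) inf_le_left (coprime_of_le inf_le_right (hk' ▸ c))
  have e := Cop.im_cen1 (f := f) xy le_rfl (le_nrm_self _ xy) (by
    rw [hk', inf_eq_right.2 (Opi_le _ _)]
    exact cop_of_pgroup (isPGroup_zpowers_of_orderOf hx) c (zpowers_le.2 (le_nrm_Opi _ _ xy)))
  rw [ht, top_inf_eq] at e
  rw [← e] at k2
  have b := bprop (hsec _ (oddCore (centralizer {y})) (.inl h1)) o
  rw [Op'_quot, le_bot_iff, comm_eq_bot] at b
  have k3 : IsComp (im f K) (centralizer {ev f x}) := ⟨k2.sn, k2.pqs.qs ((k2.le_PLay.trans b).trans (cen_anti (Opi_le_of_sn _ k2.sn)))⟩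
  refine ⟨by rw [ev_eq xy] at k3; exact (isComponent_subgroupOf k3.le).2 k3, fun E l od n => ?_⟩
  rw [pPrimeCore_map, ← hk', ← im_le_cen_iff (k1.le.trans inf_le_left) (l.trans inf_le_right)]
  exact (k3.le_or_cen_of_nrm (im_le_cen1 f xy (l.trans inf_le_left)) (im_le_nrm f (le_nrm_iff_conj.2 n))).resolve_left
    (k2.pqs.not_le (coprime_im f (odd_iff_coprime.1 od)))

end Cfsg.Agent.S1775
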