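import Cfsg.Statements.S1780
import Cfsg.Agent.H7.Tk4

set_option autoImplicit false
open Cfsg

namespace Cfsg.Agent.S1780
open H7
open scoped commutatorElement

/-- Let A be a finite abelian 2-group and t an automorphism of A whose order is a power of 2. If every element of A fixed by t² is fixed by t, then t fixes every element of A. -/
theorem result {A : Type*} [CommGroup A] [Finite A]
    (hA : IsPGroup 2 A) (t : MulAut A) (ht : ∃ k : ℕ, orderOf t = 2 ^ k) (hC : ∀ a : A, t (t a) = a → t a = a) :
    ∀ a : A, t a = a := by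
  open Subgroup in
  have h := cen_of_cen_sq (V := H1B.hL (⊤ : Subgroup A)) (t := SemidirectProduct.inr t) (H1B.pg_hL (H1B.pg_top hA))
    (H1B.hL_le_cen.2 (isComm_iff.1 inferInstance)) (H1B.hR_le_nrm ⊤ ⊤ ⟨t, trivial, rfl⟩) (by
      obtain ⟨k, hk⟩ := ht
      exact isPGroup_zpowers (k := k) (by rw [← map_pow, ← hk, pow_orderOf_eq_one, map_one])) (by
      rintro _ ⟨⟨a, -, rfl⟩, h⟩
      have h := mem_cen1.1 h
      refine mem_cen1.2 ?_
      have := congrArg SemidirectProduct.left h
      simp at this
      ext
      · simp [hC a this.symm]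
      · simp)
  intro a
  have := congrArg SemidirectProduct.left (mem_cen1.1 (h ⟨a, trivial, rfl⟩))
  simpa using this.symm

end Cfsg.Agent.S1780
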