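import Cfsg.Statements.S1781
import Cfsg.Agent.H7.Tk4

set_option autoImplicit false
open Cfsg

namespace Cfsg.Agent.S1781
open H7
open scoped commutatorElement

/-- Let A be an abelian 2-subgroup of the finite group G such that every conjugate of A equals A or meets A trivially, and let g ∈ G with g A g⁻¹ ≠ A. Then either the subgroup of those elements of A that normalize g A g⁻¹ is an elementary abelian 2-group, or A and g A g⁻¹ commute elementwise. -/
theorem result {G : Type*} [Group G] [Finite G] (A : Subgroup G)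
    (hA2 : IsPGroup 2 ↥A) (hAa : IsMulCommutative ↥A)
    (hti : ∀ h : G, A.map (MulAut.conj h).toMonoidHom = A ∨ A.map (MulAut.conj h).toMonoidHom ⊓ A = ⊥)
    (g : G) (hg : A.map (MulAut.conj g).toMonoidHom ≠ A) :
    Cfsg.IsElementaryAbelian 2 (A ⊓ Subgroup.normalizer ((A.map (MulAut.conj g).toMonoidHom : Subgroup G) : Set G)) ∨
      ⁅A, A.map (MulAut.conj g).toMonoidHom⁆ = ⊥ := by
  open Subgroup in
  rw [← cj_def] at hg ⊢
  have ti : ∀ x ∈ A, x ≠ 1 → centralizer {x} ≤ normalizer (A : Set G) := fun x hx h1 c hc =>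
    cj_eq_self_iff.1 ((hti c).resolve_right fun e => h1 (mem_bot.1 (e.le ⟨mem_cj'.2 ⟨x, hx, by
      rw [mem_cen1.1 hc, mul_inv_cancel_right]⟩, hx⟩)))
  have i : H2.cj g A ⊓ A = ⊥ := (hti g).resolve_left hg
  refine or_iff_not_imp_left.2 fun h => ?_
  obtain ⟨a, ha, h2⟩ : ∃ a ∈ A ⊓ normalizer (H2.cj g A : Set G), a ^ 2 ≠ 1 := by
    by_contra! k
    exact h (ea_iff.2 ⟨le_cen_of_comm hAa inf_le_left inf_le_left, k⟩)
  have a1 : a ≠ 1 := fun e => h2 (by rw [e, one_pow])
  have := cen_of_cen_sq (isPGroup_cj.2 hA2) (isComm_iff.1 (isComm_cj.2 hAa)) ha.2 (hA2.to_le (zpowers_le.2 ha.1)) (by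
    intro b hb
    have n := ti _ (pow_mem ha.1 2) h2 (sq a ▸ hb.2)
    have m : ⁅b, a⁆ ∈ H2.cj g A ⊓ A := mem_inf.2 ⟨by
        have := (H2.cj g A).mul_mem hb.1 (nconj_mem ha.2 (inv_mem hb.1))
        simpa only [commutatorElement_def, mul_assoc] using this,
      A.mul_mem (nconj_mem n ha.1) (inv_mem ha.1)⟩
    exact mem_cen1.2 (commutatorElement_eq_one_iff_mul_comm.1 (mem_bot.1 (i.le m))))
  refine comm_eq_bot.2 (ti_comm hA2 (isPGroup_cj.2 hA2) (fun x _ => ?_) (card_cj g A).ge (inf_comm _ A ▸ i)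
    (this.trans (ti a ha.1 a1)))
  rw [← cj_mul, show x * g = g * (g⁻¹ * x * g) by group, cj_mul, ← cj_inf, cj_inj, cj_eq_bot]
  exact hti _

end Cfsg.Agent.S1781
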