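import Cfsg.Statements.S1782
import Cfsg.Agent.H7.Tk4

set_option autoImplicit false
open Cfsg

namespace Cfsg.Agent.S1782
open H7
open scoped commutatorElement

/-- Let S be a finite 2-group and Δ a set of subgroups of S closed under conjugation by S, all of the same order, each with nontrivial Frattini subgroup, and such that two distinct members of Δ meet trivially. Then any two distinct members of Δ commute elementwise. -/
theorem result {S : Type*} [Group S] [Finite S] (hS : IsPGroup 2 S)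
    (Δ : Set (Subgroup S)) (hinv : ∀ s : S, ∀ R ∈ Δ, R.map (MulAut.conj s).toMonoidHom ∈ Δ)
    (hΦ : ∀ R ∈ Δ, frattini ↥R ≠ ⊥) (hord : ∀ R ∈ Δ, ∀ T ∈ Δ, Nat.card ↥R = Nat.card ↥T)
    (hti : ∀ R ∈ Δ, ∀ T ∈ Δ, R = T ∨ R ⊓ T = ⊥) :
    ∀ R ∈ Δ, ∀ T ∈ Δ, R ≠ T → ⁅R, T⁆ = ⊥ := by
  open Subgroup in
  refine fun R hR T hT h => comm_eq_bot.2 (ti_family (S := ⊤) (H1B.pg_top hS) (fun s _ => hinv s) (fun R hR => ?_) hord hti hR hT
    le_top le_top h)
  by_contra! k
  refine hΦ R hR ?_
  rw [← map_subtype_inj, Subgroup.map_bot, ← Phi_def, eq_bot_iff]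
  refine Phi_le_of_elem Nat.prime_two (commutator_le.2 fun a ha b hb => ?_) k
  have := k _ (mul_mem ha hb)
  have h1 := k a ha
  have h2 := k b hb
  rw [sq] at this h1 h2
  rw [mem_bot, commutatorElement_def, inv_eq_of_mul_eq_one_right h1, inv_eq_of_mul_eq_one_right h2, ← this]; group

end Cfsg.Agent.S1782
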