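import Cfsg.Statements.S1783
import Cfsg.Agent.H7.Tk4

set_option autoImplicit false
open Cfsg

namespace Cfsg.Agent.S1783
open H7
open scoped commutatorElement

/-- Let X be a finite group whose generalized Fitting subgroup equals its largest normal 2-subgroup Q, and let A be an abelian 2-subgroup of X such that every conjugate of A equals A or meets A trivially. Let B be the subgroup generated by the squares of the elements of A. Then B lies in Q, and if B is not an elementary abelian 2-group then the normal closure of B in X is commutative. -/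
theorem result {X : Type*} [Group X] [Finite X]
    (hX : Cfsg.generalizedFittingSubgroup X = Cfsg.pCore 2 X) (A : Subgroup X) (hA2 : IsPGroup 2 ↥A) (hAa : IsMulCommutative ↥A)
    (hti : ∀ h : X, A.map (MulAut.conj h).toMonoidHom = A ∨ A.map (MulAut.conj h).toMonoidHom ⊓ A = ⊥) :
    Subgroup.closure ((fun a : X => a ^ 2) '' (A : Set X)) ≤ Cfsg.pCore 2 X ∧
      (¬ Cfsg.IsElementaryAbelian 2 (Subgroup.closure ((fun a : X => a ^ 2) '' (A : Set X))) →
        IsMulCommutative ↥(Subgroup.normalClosure ((fun a : X => a ^ 2) '' (A : Set X)))) := by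
  open Subgroup in
  have F := gfit_eq_pCore_iff_top.1 hX
  rw [pCore_eq]
  have hB : ∀ x, x ∈ closure ((fun a : X => a ^ 2) '' (A : Set X)) ↔ ∃ a ∈ A, a ^ 2 = x := fun x => by
    refine ⟨fun h => ?_, fun ⟨a, ha, e⟩ => subset_closure ⟨a, ha, e⟩⟩
    induction h using closure_induction with
    | mem x h => exact h
    | one => exact ⟨1, one_mem _, one_pow _⟩
    | mul x y _ _ h1 h2 =>
      obtain ⟨a, ha, rfl⟩ := h1
      obtain ⟨b, hb, rfl⟩ := h2
      exact ⟨a * b, mul_mem ha hb, Commute.mul_pow (isComm_iff'.1 hAa a ha b hb) 2⟩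
    | inv x _ h =>
      obtain ⟨a, ha, rfl⟩ := h
      exact ⟨a⁻¹, inv_mem ha, inv_pow _ _⟩
  have ti : ∀ g h : X, H2.cj g A = H2.cj h A ∨ H2.cj g A ⊓ H2.cj h A = ⊥ := fun g h => by
    rw [show g = h * (h⁻¹ * g) by group, cj_mul, ← cj_inf, cj_inj, cj_eq_bot]; exact hti _
  have fam : ∀ B : Subgroup X, (∃ x ∈ B, x ^ 2 ≠ 1) → (∀ g h : X, H2.cj g B = H2.cj h B ∨ H2.cj g B ⊓ H2.cj h B = ⊥) →
      IsMulCommutative B → ∀ S : Subgroup X, IsPGroup 2 S → ∀ g h : X, H2.cj g B ≤ S → H2.cj h B ≤ S →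
      H2.cj g B ≤ centralizer (H2.cj h B : Set X) := fun B ⟨x, hx, h2⟩ t c S hS g h l1 l2 => by
    by_cases e : H2.cj g B = H2.cj h B
    · rw [e]; exact isComm_iff.1 (isComm_cj.2 c)
    refine ti_family (Δ := Set.range fun g => H2.cj g B) hS ?_ ?_ ?_ ?_ ⟨g, rfl⟩ ⟨h, rfl⟩ l1 l2 e
    · rintro s - _ ⟨g, rfl⟩; exact ⟨s * g, cj_mul _ _ _⟩
    · rintro _ ⟨g, rfl⟩; exact ⟨_, conj_mem_cj.2 hx, by rwa [conj_pow, Ne, conj_eq_one_iff]⟩
    · rintro _ ⟨g, rfl⟩ _ ⟨h, rfl⟩; simp only [card_cj]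
    · rintro _ ⟨g, rfl⟩ _ ⟨h, rfl⟩; exact t g h
  have n := le_nrm_Opi {2} (⊤ : Subgroup X)
  have l : closure ((fun a : X => a ^ 2) '' (A : Set X)) ≤ Op 2 ⊤ := fun x hx => by
    obtain ⟨a, ha, rfl⟩ := (hB x).1 hx
    by_cases h1 : a ^ 2 = 1
    · rw [h1]; exact one_mem _
    have p := isPGroup_sup (le_top.trans n) hA2 (isPGroup_Op 2 ⊤)
    refine zpowers_le.1 (le_Op_of_comm_le_Phi F le_top (comm_zpowers_le (nrm_Phi n trivial) fun c hc => ?_))
    have := fam A ⟨a, ha, h1⟩ ti hAa _ p 1 c (by rw [cj_one]; exact le_sup_left) (cj_le_of_mem (mem_sup_right hc) le_sup_left)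
    rw [cj_one] at this
    have c1 : Commute a (c * a⁻¹ * c⁻¹) := comm_of_le_cen this ha (conj_mem_cj.2 (inv_mem ha))
    have e : ⁅a ^ 2, c⁆ = ⁅a, c⁆ ^ 2 := by
      rw [show ⁅a, c⁆ = a * (c * a⁻¹ * c⁻¹) by group, c1.mul_pow, conj_pow]; group
    rw [e]
    refine pow_mem_Phi (isPGroup_Op 2 ⊤) ?_
    exact mul_mem (nconj_mem (n trivial) hc) (inv_mem hc)
  refine ⟨l, fun h => ?_⟩
  have lA : closure ((fun a : X => a ^ 2) '' (A : Set X)) ≤ A := fun x hx => by
    obtain ⟨a, ha, rfl⟩ := (hB x).1 hx; exact pow_mem ha 2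
  have c := isComm_of_le hAa lA
  have := fam (closure ((fun a : X => a ^ 2) '' (A : Set X))) (by
      by_contra! k; exact h (ea_iff.2 ⟨isComm_iff.1 c, k⟩)) (fun g h => by
      refine (ti g h).imp (fun e => ?_) fun e => eq_bot_of_le (inf_le_inf (cj_mono _ lA) (cj_mono _ lA)) e
      have k : ∀ g h : X, H2.cj g A = H2.cj h A → H2.cj g (closure ((fun a : X => a ^ 2) '' (A : Set X))) ≤
          H2.cj h (closure ((fun a : X => a ^ 2) '' (A : Set X))) := fun g h e x hx => by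
        obtain ⟨y, hy, rfl⟩ := mem_cj'.1 hx
        obtain ⟨a, ha, rfl⟩ := (hB y).1 hy
        obtain ⟨b, hb, e2⟩ := mem_cj'.1 (e.le (conj_mem_cj.2 ha))
        exact mem_cj'.2 ⟨b ^ 2, (hB _).2 ⟨b, hb, rfl⟩, by rw [← conj_pow, e2, conj_pow]⟩
      exact le_antisymm (k g h e) (k h g e.symm)) c _ (isPGroup_Op 2 ⊤)
  have k : ∀ y ∈ Group.conjugatesOfSet ((fun a : X => a ^ 2) '' (A : Set X)), ∃ g, y ∈ H2.cj g (closure ((fun a : X => a ^ 2) '' (A : Set X))) :=
    fun y hy => by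
      obtain ⟨a, ha, e⟩ := Group.mem_conjugatesOfSet_iff.1 hy
      obtain ⟨g, rfl⟩ := isConj_iff.1 e
      exact ⟨g, conj_mem_cj.2 (subset_closure ha)⟩
  refine isComm_iff.2 ((closure_le _).2 fun x hx => ?_)
  refine le_cen1_iff.1 ((closure_le _).2 fun y hy => ?_)
  obtain ⟨g, hg⟩ := k x hx
  obtain ⟨h, hh⟩ := k y hy
  exact mem_cen1.2 (comm_of_le_cen (this h g (cj_le_of_mem_nrm (n trivial) l) (cj_le_of_mem_nrm (n trivial) l)) hh hg)

end Cfsg.Agent.S1783
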