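import Cfsg.Statements.S1784
import Cfsg.Agent.H2.LX1

set_option autoImplicit false
open Cfsg

namespace Cfsg.Agent.S1784

open Subgroup hiding upperCentralSeries
open H2 Cfsg.FusionSystem

open Subgroup H2 H7 H1B
open scoped commutatorElement

/-- Let G be a finite group and let z be an involution of G such that Q, the generalized Fitting subgroup of the centralizer C of z, is a 2-group of symplectic type (every characteristic abelian subgroup of Q is cyclic); suppose Q is extraspecial, and view Q inside G. Let α be an involution of C that is not in Q, and let Q₀ be the subgroup of those q ∈ Q whose commutator with α lies in the subgroup generated by z. Then (a) the subgroup generated by the commutators α q α⁻¹ q⁻¹, q ∈ Q, equals the centre of Q₀; and (b) if Q₀ is not contained in the product of the centralizer of α in Q with the subgroup generated by z, then some element of Q conjugates α to α z. -/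
theorem result {G : Type*} [Group G] [Finite G] (z : G) (hz : orderOf z = 2) (hQ : Cfsg.IsOfSymplecticType ↥(Cfsg.generalizedFittingSubgroup ↥(Subgroup.centralizer ({z} : Set G)))) (hE : Cfsg.IsExtraspecial 2 ↥(Cfsg.generalizedFittingSubgroup ↥(Subgroup.centralizer ({z} : Set G))))
    (α : G) (hα : orderOf α = 2) (hαC : α ∈ Subgroup.centralizer ({z} : Set G)) (hαQ : α ∉ (Cfsg.generalizedFittingSubgroup ↥(Subgroup.centralizer ({z} : Set G))).map (Subgroup.centralizer ({z} : Set G)).subtype)
    (Q₀ : Subgroup G) (hQ₀ : ∀ q : G, q ∈ Q₀ ↔ (q ∈ (Cfsg.generalizedFittingSubgroup ↥(Subgroup.centralizer ({z} : Set G))).map (Subgroup.centralizer ({z} : Set G)).subtype ∧ α * q * α⁻¹ * q⁻¹ ∈ Subgroup.zpowers z)) :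
    Subgroup.closure ((fun q : G => α * q * α⁻¹ * q⁻¹) '' ((Cfsg.generalizedFittingSubgroup ↥(Subgroup.centralizer ({z} : Set G))).map (Subgroup.centralizer ({z} : Set G)).subtype : Set G)) = (Subgroup.center ↥Q₀).map Q₀.subtype ∧
      (¬ Q₀ ≤ ((Cfsg.generalizedFittingSubgroup ↥(Subgroup.centralizer ({z} : Set G))).map (Subgroup.centralizer ({z} : Set G)).subtype ⊓ Subgroup.centralizer ({α} : Set G)) ⊔ Subgroup.zpowers z →
        ∃ q ∈ (Cfsg.generalizedFittingSubgroup ↥(Subgroup.centralizer ({z} : Set G))).map (Subgroup.centralizer ({z} : Set G)).subtype, q * α * q⁻¹ = α * z) := by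
  have s := lx_of_Fst (es_map hE (subtype_injective _)) hz (gfit_map _).symm
  generalize (generalizedFittingSubgroup (cen1 z)).map (cen1 z).subtype = Q at *
  have n := zpowers_le.2 (s.nQ hαC)
  have c := zpowers_le.2 hαC
  have l : Q₀ ≤ Q := fun q hq => ((hQ₀ q).1 hq).1
  have nz := cen_le_nrm _ (cen_zpowers z ▸ hαC)
  have e0 : Q₀ = Q ⊓ cen ⁅Q, zpowers α⁆ := le_antisymm (le_inf l ((xs_perp_comm s.toXS n c l).2
    (comm_zpowers_le nz fun q hq => ((hQ₀ q).1 hq).2))) fun q hq => (hQ₀ q).2 ⟨hq.1,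
      (xs_perp_comm s.toXS n c inf_le_left).1 inf_le_right (commutator_mem_commutator (mem_zpowers α) hq)⟩
  have zm : z ∈ ⁅Q, zpowers α⁆ := xs_mem s.toXS (comm_le_left n) (normalizer_commutator_ge_left _ _) fun e =>
    hαQ (s.cQ (zpowers_le.1 (comm_eq_bot'.1 e)))
  have d := xs_dperp s.toXS (comm_le_left n) zm
  refine ⟨?_, fun h => ?_⟩
  · rw [← e0] at d
    have l' : ⁅Q, zpowers α⁆ ≤ Q₀ := fun y hy => (hQ₀ y).2 ⟨comm_le_left n hy,
      cswap (xs_quad s.toXS (s.nQ hαC) hα) (commutator_mem_commutator (mem_zpowers α) hy)⟩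
    rw [center_map_subtype, show Q₀ ⊓ cen Q₀ = ⁅Q, zpowers α⁆ from le_antisymm
      (d ▸ inf_le_inf_right _ l) (le_inf l' (d ▸ inf_le_right))]
    refine le_antisymm ((Subgroup.closure_le _).2 ?_) (commutator_le.2 fun q hq a ha => ?_)
    · rintro _ ⟨q, hq, rfl⟩
      exact cswap le_rfl (commutator_mem_commutator (mem_zpowers α) hq)
    · rcases (mem_zp_two hα).1 ha with rfl | rfl
      · simp
      · rw [← commutatorElement_inv]; exact inv_mem (Subgroup.subset_closure ⟨q, hq, rfl⟩)
  · obtain ⟨q, hq, hq'⟩ := SetLike.not_le_iff_exists.1 h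
    rcases (mem_zp_two hz).1 ((hQ₀ q).1 hq).2 with e | e
    · exact absurd (mem_sup_left (mem_inf.2 ⟨l hq, mem_cen1.2
        (commutatorElement_eq_one_iff_mul_comm.1 e).symm⟩)) hq'
    refine ⟨q, l hq, ?_⟩
    have a2 := inv_eq_of_mul_eq_one_left (ord2.1 hα).1
    rw [← e, a2, ← mul_assoc, ← mul_assoc, ← mul_assoc, (ord2.1 hα).1, one_mul]

end Cfsg.Agent.S1784
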