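import Cfsg.Statements.S1785
import Cfsg.Agent.H7.Tk3

set_option autoImplicit false
open Cfsg

namespace Cfsg.Agent.S1785
open H7
open scoped commutatorElement

/-- Let X be a finite 2-group having a normal elementary abelian subgroup of order at least 32. Then (a) for any two elementary abelian subgroups A, B of X of order 8 there is a chain A = A₁, A₂, …, Aₙ = B of elementary abelian subgroups of order 8 in which consecutive members commute elementwise; and (b) every elementary abelian subgroup of X of order 4 is contained in an elementary abelian subgroup of order 8. -/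
theorem result {X : Type*} [Group X] [Finite X]
    (hX : IsPGroup 2 X) (E : Subgroup X) [E.Normal] (hE : Cfsg.IsElementaryAbelian 2 E) (hE32 : 32 ≤ Nat.card ↥E) :
    (∀ A B : Subgroup X, Cfsg.IsElementaryAbelian 2 A → Nat.card ↥A = 8 → Cfsg.IsElementaryAbelian 2 B → Nat.card ↥B = 8 →
        Relation.ReflTransGen
          (fun C D : Subgroup X => Cfsg.IsElementaryAbelian 2 C ∧ Nat.card ↥C = 8 ∧ Cfsg.IsElementaryAbelian 2 D ∧ Nat.card ↥D = 8 ∧ ⁅C, D⁆ = ⊥)
          A B) ∧
      (∀ V : Subgroup X, Cfsg.IsElementaryAbelian 2 V → Nat.card ↥V = 4 →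
        ∃ A : Subgroup X, V ≤ A ∧ Cfsg.IsElementaryAbelian 2 A ∧ Nat.card ↥A = 8) := by
  open Subgroup in
    have k : ∀ A : Subgroup X, EA 2 A → Nat.card A = 8 → CC 2 3 A E := fun A a b =>
      cc_three_of_32 (hX.to_subgroup ⊤) le_top (le_nrm_of_normal _ _) hE hE32 le_top a b.ge
    refine ⟨fun A B a1 a2 b1 b2 => cc_exact ((k A a1 a2).trans (k B b1 b2).symm) a1 le_rfl a2 B le_rfl b2,
      fun V v1 v2 => ?_⟩
    have c := card_cen_four hE hE32 (le_nrm_of_normal _ _) v1 bot_le bot_le (by rw [card_bot, v2])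
    have e := EA.sup v1 (EA.of_le hE (inf_le_left (b := cen V))) (le_cen_symm inf_le_right)
    have l : V < V ⊔ E ⊓ cen V := left_lt_sup.2 fun l => by
      have := eq_of_le_of_card_le l (v2.le.trans c)
      have := card_le_of_le ((le_inf le_rfl (le_cen_mono (EA.le_cen hE) le_rfl (this.ge.trans inf_le_left))).trans l)
      omega
    obtain ⟨A, a, b, d⟩ := exists_card_eq_pow (n := 3) e.isPGroup le_sup_left (by omega)
      (pow_succ_le_of_lt e.isPGroup (v2.ge.trans_lt (card_lt_of_lt l)))
    exact ⟨A, a, e.of_le b, d⟩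

end Cfsg.Agent.S1785
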