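import Cfsg.Statements.S1850
import Cfsg.Agent.H7.Tk3

set_option autoImplicit false
open Cfsg

namespace Cfsg.Agent.S1850
open H7
open scoped commutatorElement

/-- Let G be a non-abelian finite simple QTKE-group and T a Sylow 2-subgroup of G. If U is a nontrivial 2-subgroup of G with U ∩ Z(T) ≠ 1, then F*(N_G(U)) = O₂(N_G(U)). -/
theorem result {G : Type*} [Group G] [Finite G] [IsSimpleGroup G]
    (hG : ¬ IsMulCommutative G) (hQ : Cfsg.IsQTKE G) (T : Sylow 2 G) (U : Subgroup G)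
    (hU : IsPGroup 2 ↥U) (hZ : U ⊓ ((T : Subgroup G) ⊓ Subgroup.centralizer ((T : Subgroup G) : Set G)) ≠ ⊥) :
    Subgroup.normalizer (U : Set G) ∈ Cfsg.calHe G := by
  open Subgroup in
    obtain ⟨z, hz, o⟩ := exists_orderOf_of_pgroup hU.to_inf_left hZ
    refine gfit_eq_pCore_iff.2 (Fst_nrm_of_mem hU hz.1 (Fst_cen1_of_nrm o (char2_iff.1 (hQ.2.2 _
      ⟨_, isPGroup_zpowers_of_orderOf o, zpowers_ne_bot' (ne_one_of_orderOf o), rfl⟩ ⟨T, ?_⟩))))
    exact le_nrm_of_le_cen (le_cen_symm (zpowers_le.2 hz.2.2))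

end Cfsg.Agent.S1850
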