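import Cfsg.Statements.S1957
import Cfsg.Agent.H7.Tk3

set_option autoImplicit false
open Cfsg

namespace Cfsg.Agent.S1957
open H7
open scoped commutatorElement

/-- Let `G` be a finite non-abelian simple group in which every local subgroup is solvable and which is of characteristic 2 type. Let `P` be a Sylow 2-subgroup of `G` and `U` a normal subgroup of `P` that is a four-group, with `U` central in `P` if the centre of `P` is not cyclic. Then `U` centralizes every subgroup of odd order of `G` that it normalizes. -/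
theorem result {G : Type*} [Group G] [Finite G]
    [IsSimpleGroup G] (hna : ¬ IsMulCommutative G) (hN : Cfsg.IsNGroup G) (h2 : Cfsg.IsCharacteristicTwoType G)
    (P : Sylow 2 G) (U : Subgroup G) (hUP : U ≤ (P : Subgroup G)) (hUn : (P : Subgroup G) ≤ Subgroup.normalizer (U : Set G))
    (hU4 : IsKleinFour ↥U)
    (hUZ : ¬ IsCyclic ↥((P : Subgroup G) ⊓ Subgroup.centralizer ((P : Subgroup G) : Set G)) →
      U ≤ Subgroup.centralizer ((P : Subgroup G) : Set G))
    (K : Subgroup G) (hK : Odd (Nat.card K)) (hUK : U ≤ Subgroup.normalizer (K : Set G)) :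
    U ≤ Subgroup.centralizer (K : Set G) := by
  open Subgroup in
    have s := H2.sylow_isSylowIn_top P
    obtain ⟨eU, oU⟩ := klein_iff.1 hU4
    have c := cop_of_pgroup eU.isPGroup (odd_iff_coprime.1 hK) hUK
    refine le_cen_symm (c.le_of_cen1 eU.comm (eU.not_cyc oU.ge) fun u hu h1 => ?_)
    have o := eU.orderOf hu h1
    have z := isPGroup_zpowers_of_orderOf o
    have F := Fst_cen1_of_nrm o (char2_iff.1 (h2.2 _ z (zpowers_ne_bot' h1)))
    have l : U ≤ (P : Subgroup G) ⊓ cen U := le_inf hUP eU.le_cen
    obtain ⟨R, hR, l2⟩ := H2.exists_isSylowIn_ge (s.isPGroup.to_inf_left (K := cen U))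
      (inf_le_right.trans (cen_le_cen1 hu))
    have k : U ≤ Op 2 (cen1 u) := by
      by_cases h : R ≤ cen U
      · exact (le_inf (l.trans l2) (le_cen_symm h)).trans (center_syl_le_Op F hR)
      have b := relIndex_mul_card_inf (cen U) P
      have c := s.card_le hR.isPGroup le_top
      have d := relIndex_cen_le s.isPGroup eU.isPGroup hUn oU.le
      rw [inf_comm] at b
      have d2 := b.ge.trans (Nat.mul_le_mul_right _ d)
      have d3 := mul_card_le_of_lt hR.isPGroup (lt_of_le_of_ne l2 fun e => h (e.ge.trans inf_le_right))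
      obtain ⟨g, -, e⟩ := s.exists_cj_eq (H2.isSylowIn_of_card_le s hR.isPGroup le_top (d2.trans d3))
      have cy : IsCyclic (R ⊓ cen R : Subgroup G) := by
        rw [← e, ← cj_cen, ← cj_inf, cyc_cj]
        exact by_contra fun n => h ((eq_of_le_of_card_le l2 (c.trans (card_le_of_le
          (le_inf le_rfl (le_cen_symm (hUZ n)))))).ge.trans inf_le_right)
      have e2 := eq_Om_of_cyc cy (zpowers_le.2 ⟨l2 (l hu), le_cen1_iff.1 hR.le⟩) ((card_zpowers_eq u).trans o)
      refine le_Op_of_stab F (le_nrm_of_le_cen (cen_zpowers u).ge) z (eU.le_cen1 hu) ?_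
        ((eU.le_cen1 hu).trans (cen_zpowers u).ge)
      rw [e2]
      exact (commutator_mono le_rfl (Op_le_of_sylow hR)).trans (comm_le_Om_center hR.isPGroup l2 (c.trans d2) eU
        (le_inf l (le_cen_symm inf_le_right)))
    refine comm_eq_bot.1 (eq_bot_of_le (le_inf ?_ (comm_le_left hUK |>.trans' (commutator_mono inf_le_left le_rfl)))
      (inf_eq_bot_of_isPGroup (isPGroup_Op 2 (cen1 u)) (odd_iff_coprime.1 hK)))
    exact comm_le_of_le_nrm k (inf_le_right.trans (le_nrm_Opi _ _))

end Cfsg.Agent.S1957
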