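import Cfsg.Statements.S1958
import Cfsg.Agent.H7.CF

set_option autoImplicit false
open Cfsg

namespace Cfsg.Agent.S1958
open H7
open scoped commutatorElement

/-- Let `G` be a finite group, `p` a prime, and `x, y` commuting elements of order `p` whose centralizers `C_G(x)` and `C_G(y)` are both solvable. Then `O_{p'}(C_G(x)) ∩ C_G(y) = O_{p'}(C_G(y)) ∩ C_G(x)` (balance). -/
theorem result {G : Type*} [Group G] [Finite G]
    (p : ℕ) [Fact p.Prime] (x y : G) (hx : orderOf x = p) (hy : orderOf y = p) (hxy : x * y = y * x)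
    (hCx : Group.IsSolvable ↥(Subgroup.centralizer ({x} : Set G))) (hCy : Group.IsSolvable ↥(Subgroup.centralizer ({y} : Set G))) :
    Cfsg.centralizerPPrimeCore p x ⊓ Subgroup.centralizer {y} = Cfsg.centralizerPPrimeCore p y ⊓ Subgroup.centralizer {x} := by
  open Subgroup in
  have key : ∀ x y : G, orderOf x = p → x * y = y * x → Group.IsSolvable (centralizer ({y} : Set G)) →
      Op' p (centralizer {x}) ⊓ centralizer {y} ≤ Op' p (centralizer ({y} : Set G)) ⊓ centralizer {x} := fun x y hx c s => by
    have := (pcon_cen (PLay_eq_bot_of_solv s) (H2.isPGroup_zpowers (p := p) (k := 1) (x := x) (by rw [pow_one, ← hx, pow_orderOf_eq_one]))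
      ((zpowers_le.2 (mem_cen1.2 c)).trans (le_nrm_self _))).2
    rw [cen_zpowers] at this
    refine le_inf (le_trans ?_ this) (inf_le_left.trans (Opi_le _ _))
    exact (le_inf inf_le_left (le_inf inf_le_right (inf_le_left.trans (Opi_le _ _)))).trans (inf_le_Opi _ inf_le_right)
  simp only [centralizerPPrimeCore, pPrimeCore_map]
  exact le_antisymm (key x y hx hxy hCy) (key y x hy hxy.symm hCx)

end Cfsg.Agent.S1958
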