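import Cfsg.Statements.S1962
import Cfsg.Agent.H2.FS14

set_option autoImplicit false
open Cfsg

namespace Cfsg.Agent.S1962

open Subgroup H2 Cfsg.FusionSystem


/-- Local-to-global control of transfer through well-placed subgroups. Let p be a prime, G a finite group with Sylow p-subgroup S, and W a conjugacy functor for p on G. If W controls transfer in N_G(T) for every nonidentity subgroup T of S that is well placed in S with respect to W, then W controls transfer in G: S ∩ G' = S ∩ (N_G(W(S)))'. -/
theorem result {G : Type*} [Group G] [Finite G] {p : ℕ} [Fact p.Prime] (S : Sylow p G) (W : Subgroup G → Subgroup G) (hW : Cfsg.IsConjugacyFunctor p W) (hloc : ∀ T : Subgroup G, T ≠ ⊥ → Cfsg.IsWellPlaced p W (S : Subgroup G) T → Cfsg.ControlsTransferIn p W (Subgroup.normalizer ((T : Subgroup G) : Set G))) : Cfsg.ControlsTransferIn p W ⊤ := by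
  have hS := sylow_isSylowIn_top S
  rw [transfer_iff hW hS]
  refine tCtl_of_local hS (W := fun _ : Unit => W) (fun _ => hW)
    (IsWellPlaced p W S) (fun _ h => ⟨h.1, wellPlaced_syl S.2 h⟩)
    (fun P hP => exists_wellPlaced hS hW hP) fun U hU h0 => ?_
  have h := wellPlaced_syl S.2 hU
  rw [top_inf_eq] at h
  exact (transfer_iff hW h).1 (hloc U h0 hU)

end Cfsg.Agent.S1962
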