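import Cfsg.Statements.S1964
import Cfsg.Agent.H7.CF

set_option autoImplicit false
open Cfsg

namespace Cfsg.Agent.S1964
open H7
open scoped commutatorElement

/-- Let p be a prime, G a finite group with Sylow p-subgroup S and W a conjugacy functor for p on G. Then the subgroups of S that are well placed in S with respect to W form a conjugation family for S in G. -/
theorem result {G : Type*} [Group G] [Finite G] {p : ℕ} [Fact p.Prime] (S : Sylow p G) (W : Subgroup G → Subgroup G) (hW : Cfsg.IsConjugacyFunctor p W) : Cfsg.IsConjugationFamily {T : Subgroup G | Cfsg.IsWellPlaced p W (S : Subgroup G) T} (S : Subgroup G) := by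
  open Subgroup in
  have hS := H2.sylow_isSylowIn_top S
  refine cf_of_ch (fun T h => h.1) fun Q a g b => ch_of_fam hS (fun T c => ?_) a b
  obtain ⟨g, k⟩ := H2.exists_wellPlaced hS hW c
  exact ⟨_, k, g, rfl, inf_le_right, hS.isPGroup.to_le inf_le_left, k.2 0⟩

end Cfsg.Agent.S1964
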