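import Cfsg.Statements.S1966
import Cfsg.Agent.H7.CF

set_option autoImplicit false
open Cfsg

namespace Cfsg.Agent.S1966
open H7
open scoped commutatorElement

/-- Let p be a prime, G a finite group with Sylow p-subgroup S and 𝓕 a conjugation family for S in G. Then the members of 𝓕 containing O_p(G) still form a conjugation family for S in G. -/
theorem result {G : Type*} [Group G] [Finite G] {p : ℕ} [Fact p.Prime] (S : Sylow p G) (𝓕 : Set (Subgroup G)) (h : Cfsg.IsConjugationFamily 𝓕 (S : Subgroup G)) : Cfsg.IsConjugationFamily {T : Subgroup G | T ∈ 𝓕 ∧ Cfsg.pCore p G ≤ T} (S : Subgroup G) := by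
  open Subgroup in
  have hS := H2.sylow_isSylowIn_top S
  have n : ∀ g : G, H2.cj g (pCore p G) = pCore p G := fun g => cj_of_mem_nrm (normal_iff_top_le_nrm.1 inferInstance (mem_top g))
  have key : ∀ {Q : Subgroup G} {g : G}, Ch (· ∈ 𝓕) Q g → pCore p G ≤ Q → Ch (· ∈ {T | T ∈ 𝓕 ∧ pCore p G ≤ T}) Q g := fun k => by
    induction k with
    | nil => exact fun _ => .nil _
    | cons a b c _ ih => exact fun l => .cons ⟨a, l.trans b⟩ b c (ih ((n _).ge.trans (cj_mono _ l)))
  have l : pCore p G ≤ S := by rw [pCore_eq]; exact Op_le_of_sylow hS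
  refine cf_of_ch (fun T k => h.1 T k.1) fun Q a g b => (key (ch_of_cf h (sup_le a l) ?_) le_sup_right).mono le_sup_left
  rw [cj_sup, n]; exact sup_le b l

end Cfsg.Agent.S1966
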