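import Cfsg.Statements.S1967
import Cfsg.Agent.H2.FS14

set_option autoImplicit false
open Cfsg

namespace Cfsg.Agent.S1967

open Subgroup H2 Cfsg.FusionSystem


/-- Let p be a prime, G a finite group with Sylow p-subgroup S and W a conjugacy functor for p on G. Then W controls strong fusion in G if and only if, whenever T ≤ S and g ∈ G satisfy gTg⁻¹ ≤ S, one can write g = n c with n ∈ N_G(W(S)) and c ∈ C_G(T). -/
theorem result {G : Type*} [Group G] [Finite G] {p : ℕ} [Fact p.Prime] (S : Sylow p G) (W : Subgroup G → Subgroup G) (hW : Cfsg.IsConjugacyFunctor p W) : Cfsg.ControlsStrongFusionIn p W ⊤ ↔ ∀ (T : Subgroup G) (g : G), T ≤ (S : Subgroup G) → T.map (MulAut.conj g).toMonoidHom ≤ (S : Subgroup G) → ∃ n ∈ Subgroup.normalizer ((W (S : Subgroup G) : Subgroup G) : Set G), ∃ c ∈ Subgroup.centralizer (T : Set G), g = n * c := by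
  rw [controls_iff hW (sylow_isSylowIn_top S)]
  constructor
  · intro h T g hT hg
    obtain ⟨x, hx, e⟩ := famCtl_single.1 h T g (mem_top _) hT (by
      rintro _ ⟨a, ha, rfl⟩; exact hg (conj_mem_cj ha))
    refine ⟨x, hx.2, x⁻¹ * g, mem_centralizer_iff.2 fun a ha => ?_, by group⟩
    calc a * (x⁻¹ * g) = x⁻¹ * (x * a * x⁻¹) * g := by group
      _ = _ := by rw [e a ha]; group
  · intro h
    refine famCtl_of_subgroups fun P hP g _ hg => ?_
    obtain ⟨n, hn, c, hc, rfl⟩ := h P g hP hg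
    have e : ∀ a ∈ P, n * a * n⁻¹ = n * c * a * (n * c)⁻¹ := fun a ha => by
      rw [mul_assoc n c, ← mem_centralizer_iff.1 hc a ha]; group
    exact ⟨n, chainG_single () ⟨mem_top _, hn⟩ fun a ha => e a ha ▸ hg (conj_mem_cj ha), e⟩

end Cfsg.Agent.S1967
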