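import Cfsg.Statements.S1968
import Cfsg.Agent.H2.FS16

set_option autoImplicit false
open Cfsg

namespace Cfsg.Agent.S1968

open Subgroup H2 Cfsg.FusionSystem


/-- Let p be a prime, G a finite group with Sylow p-subgroup S and W a conjugacy functor for p on G with Z(P) ≤ W(P) for every p-subgroup P. Let A be a subgroup of Z(S) normalized by N_G(W(S)) that is not weakly closed in S with respect to G. Then there is a subgroup T of S, well placed in S with respect to W, such that: A ≤ T; N_G(W(N_S(T))) normalizes A; N_S(T) is a Sylow p-subgroup of N_G(T); A ≤ Z(N_S(T)); and A is not weakly closed in N_S(T) with respect to N_G(T), that is, some N_G(T)-conjugate of A other than A lies in N_S(T). -/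
theorem result {G : Type*} [Group G] [Finite G] {p : ℕ} [Fact p.Prime] (S : Sylow p G) (W : Subgroup G → Subgroup G) (hW : Cfsg.IsConjugacyFunctor p W) (hWZ : ∀ P : Subgroup G, IsPGroup p ↥P → P ⊓ Subgroup.centralizer (P : Set G) ≤ W P) (A : Subgroup G) (hAZ : A ≤ (S : Subgroup G) ⊓ Subgroup.centralizer ((S : Subgroup G) : Set G)) (hAN : Subgroup.normalizer ((W (S : Subgroup G) : Subgroup G) : Set G) ≤ Subgroup.normalizer ((A : Subgroup G) : Set G)) (hnwc : ¬ Cfsg.IsWeaklyClosed A (S : Subgroup G)) : ∃ T : Subgroup G, Cfsg.IsWellPlaced p W (S : Subgroup G) T ∧ A ≤ T ∧ Subgroup.normalizer ((W ((S : Subgroup G) ⊓ Subgroup.normalizer ((T : Subgroup G) : Set G)) : Subgroup G) : Set G) ≤ Subgroup.normalizer ((A : Subgroup G) : Set G) ∧ ¬ p ∣ ((S : Subgroup G) ⊓ Subgroup.normalizer ((T : Subgroup G) : Set G)).relIndex (Subgroup.normalizer ((T : Subgroup G) : Set G)) ∧ A ≤ Subgroup.centralizer (((S : Subgroup G) ⊓ Subgroup.normalizer ((T : Subgroup G) : Set G) : Subgroup G) : Set G)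 ∧ ∃ g ∈ Subgroup.normalizer ((T : Subgroup G) : Set G), A.map (MulAut.conj g).toMonoidHom ≤ (S : Subgroup G) ⊓ Subgroup.normalizer ((T : Subgroup G) : Set G) ∧ A.map (MulAut.conj g).toMonoidHom ≠ A := by
  have hS := sylow_isSylowIn_top S
  have hF := isGF_group (S : Subgroup G)
  have hAS := hAZ.trans inf_le_left
  by_contra hne
  obtain ⟨E, hE⟩ := exists_nrmSystem (groupFusionSystem (S : Subgroup G)) hAS
    ((H7.le_cen_symm (hAZ.trans inf_le_right)).trans (H7.cen_le_nrm A))
  have hE' := hF.isNK_top hAS hE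
  refine hnwc (wc_group_iff.1 (normal_wc (hE.normal_of_sub hAS (wc_induction hS.isPGroup
    (hF.saturated hS) le_rfl W (IsWellPlaced p W S) (fun U hU => ?_) (fun P hP => ?_)
    (fun R hR => ?_) (hF.nle_of_le (hW _ hS.isPGroup).1 hE'
      (inf_le_inf_left _ hAN) inf_le_left) fun U hU h1 h2 => ?_))))
  · exact (hF.fullyNormalized_iff hS (wellPlaced_iff.1 hU).1).2 (wellPlaced_syl hS.isPGroup hU)
  · obtain ⟨g, hg⟩ := exists_wellPlaced hS hW hP
    exact ⟨_, hg, hF.isConj_iff.2 ⟨hP, (wellPlaced_iff.1 hg).1, g, trivial, rfl⟩⟩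
  · have := hS.isPGroup.to_le hR
    exact ⟨hWZ R this, (hW R this).1, inf_le_right.trans (conjFunctor_nrm hW this)⟩
  obtain ⟨u1, u2, -⟩ := wellPlaced_iff.1 hU
  have hR : IsPGroup p (normalizerIn (S : Subgroup G) U) := hS.isPGroup.to_le normalizerIn_le
  have k1 : A ≤ Subgroup.centralizer (normalizerIn (S : Subgroup G) U : Set G) :=
    hAZ.trans (inf_le_right.trans (H7.cen_anti normalizerIn_le))
  have k2 : A ≤ W (normalizerIn S U) :=
    (le_inf ((hAZ.trans h1).trans (le_normalizerIn u1)) k1).trans (hWZ _ hR)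
  have k3 := (hW _ hR).1.trans normalizerIn_le
  refine hF.nle_of_le u1 hE' (inf_le_inf_left _ fun g hg => ?_) inf_le_left
  by_contra hg'
  refine hne ⟨U, hU, hAZ.trans h1, fun y hy => ?_, u2, k1, g, hg, ?_,
    fun e => hg' (mem_normalizer_iff_cj.2 e)⟩
  · have m := h2.mor (hF.conj k3 (mem_top y) ((cj_eq_of_mem_normalizer hy).le.trans k3)) le_rfl
      le_normalizer ((img_conj _ _).trans (cj_eq_of_mem_normalizer hy))
    exact mem_normalizer_iff_cj.2 ((img_conj _ _).symm.trans
      (wc_img (normal_wc (hE.normal hAS)) m k2))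
  · exact (cj_mono g (hAZ.trans h1)).trans ((cj_eq_of_mem_normalizer hg).le.trans
      (le_normalizerIn u1))

end Cfsg.Agent.S1968
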