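import Cfsg.Statements.S1970
import Cfsg.Agent.H2.TrR

set_option autoImplicit false
universe u
open Cfsg

namespace Cfsg.Agent.S1970

open Subgroup H2 Cfsg.FusionSystem


/-- Let p be a prime, G a finite group and W an isomorphism-invariant p-group functor (W assigns to every group Q a subgroup W(Q), nontrivial whenever Q is a nontrivial finite p-group, and every isomorphism from a finite p-group Q onto a group R carries W(Q) onto W(R)). Suppose that for every section G* = K/R of G with C_{G*}(O_p(G*)) ≤ O_p(G*) and every Sylow p-subgroup S* of G*, one has O_p(G*) ∩ (G*)' = O_p(G*) ∩ (N_{G*}(W(S*)))'. Then W controls transfer in every section G* of G: S* ∩ (G*)' = S* ∩ (N_{G*}(W(S*)))' for a Sylow p-subgroup S* of G*. -/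
theorem result {G : Type u} [Group G] [Finite G] {p : ℕ} [Fact p.Prime] (W : ∀ (Q : Type u) [Group Q], Subgroup Q) (hW : Cfsg.IsCharPFunctor.{u} p W) (hloc : ∀ (K R : Subgroup G) [hR : (R.subgroupOf K).Normal], Subgroup.centralizer ((Cfsg.pCore p (↥K ⧸ R.subgroupOf K) : Subgroup (↥K ⧸ R.subgroupOf K)) : Set (↥K ⧸ R.subgroupOf K)) ≤ Cfsg.pCore p (↥K ⧸ R.subgroupOf K) → ∀ T : Sylow p (↥K ⧸ R.subgroupOf K), Cfsg.pCore p (↥K ⧸ R.subgroupOf K) ⊓ commutator (↥K ⧸ R.subgroupOf K) = Cfsg.pCore p (↥K ⧸ R.subgroupOf K) ⊓ ⁅Subgroup.normalizer ((Cfsg.inducedFunctor (G := (↥K ⧸ R.subgroupOf K)) W ((T : Subgroup (↥K ⧸ R.subgroupOf K))) : Subgroup (↥K ⧸ R.subgroupOf K)) : Set (↥K ⧸ R.subgroupOf K)), Subgroup.normalizer ((Cfsg.inducedFunctor (G := (↥K ⧸ R.subgroupOf K)) W ((T : Subgroup (↥K ⧸ R.subgroupOf K))) : Subgroup (↥K ⧸ R.subgroupOf K)) : Set (↥K ⧸ R.subgroupOf K))⁆) : ∀ (K R : Subgroup G) [hR : (R.subgroupOf K).Normal], Cfsg.ControlsTransferIn p (Cfsg.inducedFunctor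 (G := (↥K ⧸ R.subgroupOf K)) W) ⊤ := by
  intro K R _
  refine TC.controls (W := fun P => inducedFunctor W P) (pf_induced hW) fun S hS => tc_of_models
    (W := fun _ : Unit => fun P => inducedFunctor W P) (fun _ => pf_induced hW) (secCl_inv G)
    (upto_sec fun K R _ _ T X h1 h2 _ _ h5 => ?_) hS.isPGroup ((isGF_group S).saturated hS)
    ((group_loc (isGF_group _) hS).mono fun L _ _ h => inv_trans h (inv_quot K R))
  have := hloc K R (chP_top.1 h2) h1.toSylowTop
  rw [H7.pCore_eq] at this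
  refine this.le.trans (le_trans (inf_le_inf (h1.le_of_normal (H7.isPGroup_Op p ⊤) le_top
    (le_top.trans (H7.le_nrm_Opi _ _))) ?_) (h5 ()))
  rw [top_inf_eq]; exact le_rfl

end Cfsg.Agent.S1970
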