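import Cfsg.Statements.S1971
import Cfsg.Agent.H2.TrR

set_option autoImplicit false
universe u
open Cfsg

namespace Cfsg.Agent.S1971

open Subgroup H2 Cfsg.FusionSystem


/-- Let p be a prime, G a finite group with nontrivial Sylow p-subgroup S, and W an isomorphism-invariant p-group functor (W assigns to every group Q a subgroup W(Q), nontrivial whenever Q is a nontrivial finite p-group, and every isomorphism from a finite p-group Q onto a group R carries W(Q) onto W(R)) that controls transfer in every section of G. If N_G(S)/C_G(S) is a p-group (every element of N_G(S) of order prime to p centralizes S), then G has a normal subgroup of index p. -/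
theorem result {G : Type u} [Group G] [Finite G] {p : ℕ} [Fact p.Prime] (W : ∀ (Q : Type u) [Group Q], Subgroup Q) (hW : Cfsg.IsCharPFunctor.{u} p W) (hctl : ∀ (K R : Subgroup G) [hR : (R.subgroupOf K).Normal], Cfsg.ControlsTransferIn p (Cfsg.inducedFunctor (G := (↥K ⧸ R.subgroupOf K)) W) ⊤) (S : Sylow p G) (hS : (S : Subgroup G) ≠ ⊥) (hN : ∀ g ∈ Subgroup.normalizer (((S : Subgroup G) : Subgroup G) : Set G), (orderOf g).Coprime p → g ∈ Subgroup.centralizer ((S : Subgroup G) : Set G)) : ∃ N : Subgroup G, N.Normal ∧ N.index = p := by
  have hG := isGF_group (S : Subgroup G)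
  have hW' := pf_induced hW
  have := pResidual_ne_top_of_focal S (focal_lt_of_tc hW' (secCl_inv G) (fun F h1 h2 h3 =>
    tc_of_models (W := fun _ : Unit => fun P => inducedFunctor W P) (fun _ => hW') (secCl_inv G)
      (upto_sec fun K R _ _ T X k1 _ k2 _ k3 => le_trans (inf_le_inf_right _ (k1.le_of_normal
        (H7.isPGroup_Op p ⊤) le_top (le_top.trans (H7.le_nrm_Opi _ _))))
        (((transfer_iff hW'.isConjugacyFunctor k1).1 (hctl K R)).tg X k2 k3)) h1 h2 h3)
    S.2 (group_saturated S) (group_loc hG (sylow_isSylowIn_top S)) hS (by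
    rw [hG.autGroup le_rfl]
    exact isPGroup_autInd fun g _ => hN g))
  simpa [pResidual_eq_top_iff] using this

end Cfsg.Agent.S1971
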