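import Cfsg.Statements.S1981
import Cfsg.Agent.H2.KI

set_option autoImplicit false
open Cfsg

namespace Cfsg.Agent.S1981

open Subgroup H2 Cfsg.FusionSystem


/-- Let P be a finite p-group generated by its abelian normal subgroups. Then both K-infinity subgroups of P equal P. -/
theorem result {P : Type*} [Group P] [Finite P] {p : ℕ} [Fact p.Prime] (hP : IsPGroup p P) (hgen : ⨆ A ∈ {A : Subgroup P | A.Normal ∧ IsMulCommutative ↥A}, A = ⊤) : Cfsg.kInfLower P = ⊤ ∧ Cfsg.kInfUpper P = ⊤ := by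
  rw [← kLo_top, ← kUp_top, eq_top_iff, eq_top_iff]
  constructor <;> refine hgen.ge.trans (iSup₂_le fun A hA => ?_)
  · exact abelian_le_kLo le_top (H7.isComm_iff.1 hA.2) (H7.normal_iff_top_le_nrm.1 hA.1)
  · exact abelian_le_kUp le_top (H7.isComm_iff.1 hA.2) (H7.normal_iff_top_le_nrm.1 hA.1)

end Cfsg.Agent.S1981
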