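import Cfsg.Statements.S1989
import Cfsg.Agent.H2.KI
import Cfsg.Agent.S1987

set_option autoImplicit false
universe u
open Cfsg

namespace Cfsg.Agent.S1989

open Subgroup H2 Cfsg.FusionSystem


/-- Let p be an odd prime and G a finite group. Then Qd(p) (the natural semidirect product of an elementary abelian group of order p² by SL₂(p)) is not involved in G if and only if, in every section K/R of G and for every Sylow p-subgroup T of K/R, the lower K-infinity subgroup of T controls strong fusion in K/R. -/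
theorem result {G : Type u} [Group G] [Finite G] {p : ℕ} [Fact p.Prime] (hp : p ≠ 2) : ¬ Cfsg.Involves ↥(Cfsg.qd p) G ↔ ∀ (K R : Subgroup G) [hR : (R.subgroupOf K).Normal], ∀ T : Sylow p (↥K ⧸ R.subgroupOf K), Cfsg.ControlsStrongFusion p (Cfsg.inducedFunctor (G := (↥K ⧸ R.subgroupOf K)) Cfsg.kInfLower (T : Subgroup (↥K ⧸ R.subgroupOf K))) := by
  refine ⟨fun h K R _ T => S1987.result hp (fun K' R' _ => nst_iff.2 (nst_of_qdfree hp fun k =>
    h (inv_trans (inv_trans (inv_trans k (inv_subgroup _)) (inv_quot K' R')) (inv_quot K R)))) T,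
    fun h ⟨K, R, _, ⟨e⟩⟩ => ?_⟩
  rw [qd_eq] at e
  obtain ⟨T⟩ : Nonempty (Sylow p (K ⧸ R.subgroupOf K)) := inferInstance
  obtain ⟨T', hT⟩ := normal_of_controlsStrongFusion (h K R T)
  rw [induced_kLo] at hT
  exact pf_kLo.not_normal e (sylow_isSylowIn_top T)
    (H7.normal_iff_top_le_nrm.2 ((isGF_group _).le_nrm_of_normal (sylow_isSylowIn_top T')
      (chP_of_equiv_qd e) hT))

end Cfsg.Agent.S1989
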