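import Cfsg.Statements.S1992
import Cfsg.Agent.H7.PP
import Cfsg.Agent.H3.Integral
import Cfsg.Agent.S1991

set_option autoImplicit false
open Cfsg

namespace Cfsg.Agent.S1992
open H7
open scoped commutatorElement

/-- Let G be a finite group in which, for every prime q dividing the order of G, every Sylow q-subgroup is its own normalizer. Then the order of G is a power of a single prime (G is a q-group for some prime q; for G trivial any prime works). -/
theorem result {G : Type*} [Group G] [Finite G] (h : ∀ q : ℕ, q.Prime → q ∣ Nat.card G → ∀ Q : Sylow q G, Subgroup.normalizer ((Q : Subgroup G) : Set G) = Q) : ∃ q : ℕ, q.Prime ∧ IsPGroup q G := by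
  open Subgroup in
  obtain ⟨p, hp, N, hN, hi⟩ : ∃ p : ℕ, p.Prime ∧ ∃ N : Subgroup G, N.Normal ∧ N.index ∣ p ∧ (N = ⊤ → Subsingleton G) := by
    by_cases c : ∃ p, p.Prime ∧ 5 ≤ p ∧ p ∣ Nat.card G
    · obtain ⟨p, hp, h5, d⟩ := c
      haveI := Fact.mk hp
      obtain ⟨S⟩ : Nonempty (Sylow p G) := inferInstance
      obtain ⟨N, a, b⟩ := S1991.result h5 S (syl_ne_bot (H2.sylow_isSylowIn_top S) (by rwa [card_top])) fun g hg k => by
        rw [h p hp d S] at hg
        have := eq_bot_of_isPGroup_of_coprime (S.2.to_le (zpowers_le.2 hg)) (by rwa [card_zpowers_eq])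
        rw [zpowers_eq_bot.1 this]; exact one_mem _
      exact ⟨p, hp, N, a, b.dvd, fun e => absurd (b.symm.trans (e ▸ index_top)) hp.ne_one⟩
    have s : Group.IsSolvable G := H3.burnside_pq (a := Nat.card G) (b := Nat.card G) Nat.prime_two Nat.prime_three (by
      refine (Nat.dvd_iff_prime_pow_dvd_dvd _ _).2 fun q k hq d => ?_
      rcases k with _ | k
      · simp
      have d1 : q ∣ Nat.card G := (dvd_pow_self q k.succ_ne_zero).trans d
      have l : k + 1 ≤ Nat.card G := (Nat.lt_pow_self hq.one_lt).le.trans (Nat.le_of_dvd Nat.card_pos d)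
      have : q < 5 := not_le.1 fun j => c ⟨q, hq, j, d1⟩
      have := hq.two_le
      interval_cases q
      · exact (pow_dvd_pow 2 l).mul_right _
      · exact (pow_dvd_pow 3 l).mul_left _
      exact absurd hq (by decide))
    rcases subsingleton_or_nontrivial G with c | c
    · exact ⟨2, Nat.prime_two, ⊤, inferInstance, by simp, fun _ => c⟩
    obtain ⟨M, hM, l⟩ := (eq_top_or_exists_le_coatom (commutator G)).resolve_left (IsSolvable.commutator_lt_top_of_nontrivial G).ne
    haveI : M.Normal := Subgroup.Normal.of_commutator_le G l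
    exact ⟨_, H1.index_eq_prime_of_isCoatom_of_normal hM, M, inferInstance, dvd_rfl, fun e => absurd e hM.1⟩
  haveI := Fact.mk hp
  refine ⟨p, hp, (piN_iff_isPGroup.1 fun q hq d => by_contra fun c => ?_ : IsPGroup p (⊤ : Subgroup G)).of_equiv topEquiv⟩
  haveI := Fact.mk hq
  rw [card_top] at d
  obtain ⟨Q⟩ : Nonempty (Sylow q G) := inferInstance
  have l : (Q : Subgroup G) ≤ N := H1.le_of_coprime_index (Nat.Coprime.coprime_dvd_right hi.1
    (coprime_of_isPGroup Q.2 ((Nat.coprime_primes hp hq).2 fun e => c e.symm)).symm)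
  have := syl_frattini ((H2.sylow_isSylowIn_top Q).mono l le_top) le_top (normal_iff_top_le_nrm.1 hN)
  rw [top_inf_eq, show nrm (Q : Subgroup G) = Q from h q hq d Q, sup_eq_right.2 l] at this
  haveI := hi.2 this
  exact hq.one_lt.ne' (Nat.dvd_one.1 (Nat.card_unique (α := G) ▸ d))

end Cfsg.Agent.S1992
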