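import Cfsg.Statements.S1993
import Cfsg.Agent.H2.TrR

set_option autoImplicit false
universe u
open Cfsg

namespace Cfsg.Agent.S1993

open Subgroup H2 Cfsg.FusionSystem


/-- Let p be a prime, G a finite group with Sylow p-subgroup S, and K the upper K-infinity subgroup of S. If p ≥ 5 then S ∩ G' = S ∩ (N_G(K))'; and if p is odd and every section of G is p-stable in the normalizer form, then K controls strong fusion in G. -/
theorem result {G : Type u} [Group G] [Finite G] {p : ℕ} [Fact p.Prime] (S : Sylow p G) : (5 ≤ p → (S : Subgroup G) ⊓ commutator G = (S : Subgroup G) ⊓ ⁅Subgroup.normalizer ((Cfsg.inducedFunctor Cfsg.kInfUpper (S : Subgroup G) : Subgroup G) : Set G), Subgroup.normalizer ((Cfsg.inducedFunctor Cfsg.kInfUpper (S : Subgroup G) : Subgroup G) : Set G)⁆) ∧ (p ≠ 2 → (∀ (K R : Subgroup G) [hR : (R.subgroupOf K).Normal], Cfsg.IsNormalizerPStable p (↥K ⧸ R.subgroupOf K)) → Cfsg.ControlsStrongFusion p (Cfsg.inducedFunctor Cfsg.kInfUpper (S : Subgroup G))) := by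
  have hS := sylow_isSylowIn_top S
  have hG := isGF_group (S : Subgroup G)
  rw [induced_kUp]
  refine ⟨fun hp => ?_, fun hp hst => controlsStrongFusion_of_normal S (normal_k_fs (secCl_inv G)
    (fun L _ _ => nst_of_secs hst) hS.isPGroup (hG.saturated hS) (group_loc hG hS)).2⟩
  have := (tCtl_iff_eq fun _ => le_top).1
    ((tc_k hp hS.isPGroup (hG.saturated hS)).2.transfer pf_kUp hS hG)
  simpa only [top_inf_eq, iSup_const, commutator_def] using this

end Cfsg.Agent.S1993
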