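import Cfsg.Statements.S1994
import Cfsg.Agent.H2.FS14

set_option autoImplicit false
universe u
open Cfsg

namespace Cfsg.Agent.S1994

open Subgroup H2 Cfsg.FusionSystem


/-- Let p be a prime, G a finite group and 𝓦 a set of isomorphism-invariant p-group functors (each assigns to every group Q a subgroup W(Q), nontrivial whenever Q is a nontrivial finite p-group, with every isomorphism from a finite p-group Q onto a group R carrying W(Q) onto W(R)). If the conjugacy functors induced by 𝓦 control strong fusion in every section G* = K/R of G with C_{G*}(O_p(G*)) ≤ O_p(G*), then they control strong fusion in G. -/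
theorem result {G : Type u} [Group G] [Finite G] {p : ℕ} [Fact p.Prime] (𝓦 : Set (∀ (Q : Type u) [Group Q], Subgroup Q)) (h𝓦 : ∀ W ∈ 𝓦, Cfsg.IsCharPFunctor.{u} p W) (hloc : ∀ (K R : Subgroup G) [hR : (R.subgroupOf K).Normal], Subgroup.centralizer ((Cfsg.pCore p (↥K ⧸ R.subgroupOf K) : Subgroup (↥K ⧸ R.subgroupOf K)) : Set (↥K ⧸ R.subgroupOf K)) ≤ Cfsg.pCore p (↥K ⧸ R.subgroupOf K) → Cfsg.FamilyControlsStrongFusionIn p ((fun W => Cfsg.inducedFunctor (G := (↥K ⧸ R.subgroupOf K)) W) '' 𝓦) ⊤) : Cfsg.FamilyControlsStrongFusionIn p ((fun W => Cfsg.inducedFunctor (G := G) W) '' 𝓦) ⊤ := by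
  have key : ∀ {L : Type u} [Group L] [Finite L] {T : Subgroup L}, IsSylowIn p T ⊤ →
      (FamilyControlsStrongFusionIn p ((fun W => inducedFunctor (G := L) W) '' 𝓦) ⊤ ↔
      FamCtl (fun W : 𝓦 => ⊤ ⊓ normalizer (inducedFunctor W.1 T : Set L)) ⊤ T) := by
    intro L _ _ T hT
    rw [familyControls_iff (by
      rintro _ ⟨W, hW, rfl⟩; exact (pf_induced (h𝓦 W hW)).isConjugacyFunctor) hT]
    refine ⟨fun h A g h1 h2 h3 => ?_, fun h A g h1 h2 h3 => ?_⟩ <;>
      obtain ⟨c, hc, e⟩ := h A g h1 h2 h3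
    · exact ⟨c, hc.mono fun ⟨_, W, hW, e⟩ => ⟨⟨W, hW⟩, by subst e; exact le_rfl⟩, e⟩
    · exact ⟨c, hc.mono fun W => ⟨⟨_, W.1, W.2, rfl⟩, le_rfl⟩, e⟩
  obtain ⟨S, hS⟩ := exists_isSylowIn p (⊤ : Subgroup G)
  rw [key hS]
  have hF := isGF_group S
  have hW := fun W : 𝓦 => pf_induced (h𝓦 W.1 W.2)
  have hU : Upto (fun L _ => Involves L G) fun L _ => ∀ [Finite L] (T : Subgroup L),
      IsSylowIn p T ⊤ → ChP p (⊤ : Subgroup L) →
      FamCtl (fun W : 𝓦 => ⊤ ⊓ normalizer (inducedFunctor W.1 T : Set L)) ⊤ T :=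
    upto_sec fun K R _ _ T hT hc => (key hT).1 (hloc K R (chP_top.1 hc))
  have hc := fam_of_models (W := fun (W : 𝓦) => fun P => inducedFunctor W.1 P) hW (secCl_inv G)
    hU hS.isPGroup (hF.saturated hS) (group_loc hF hS)
  refine hF.fam_of_ctl (fun W => ⟨(hW W).le _, (hW W).nrm_le hS.isPGroup le_normalizer⟩) ?_
    fun E h => hc S E False.elim le_rfl h
  refine (isEmpty_or_nonempty 𝓦).symm.imp_right fun he => ?_
  obtain ⟨M, _, e, hM⟩ := hU S (inv_subgroup S)
  have := Finite.of_equiv _ e.toEquiv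
  have hp : IsPGroup p (⊤ : Subgroup M) := (hS.isPGroup.of_equiv e).to_subgroup _
  have h1 := hM ⊤ ⟨le_rfl, hp, by
    rw [relIndex_self]; exact (Fact.out : p.Prime).not_dvd_one⟩
    (chP_of hp le_rfl le_normalizer inf_le_left)
  intro x hx
  refine mem_centralizer_iff.2 fun y hy => ?_
  obtain ⟨c, h2, h3⟩ := h1 {e ⟨y, hy⟩} (e ⟨x, hx⟩) trivial (fun _ _ => trivial) fun _ _ => trivial
  have h4 : c = 1 := by
    cases h2 with
    | base => rfl
    | step i => exact he.elim i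
  have h5 := h3 _ rfl
  rw [h4, one_mul, inv_one, mul_one, eq_mul_inv_iff_mul_eq, ← map_mul, ← map_mul] at h5
  exact congrArg Subtype.val (e.injective h5)

end Cfsg.Agent.S1994
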