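import Cfsg.Statements.S1995
import Cfsg.Agent.H2.TrR

set_option autoImplicit false
universe u
open Cfsg

namespace Cfsg.Agent.S1995

open Subgroup H2 Cfsg.FusionSystem


/-- Let p be a prime, G a finite group and 𝓦 a set of isomorphism-invariant p-group functors (W assigns to every group Q a subgroup W(Q), nontrivial whenever Q is a nontrivial finite p-group, and every isomorphism from a finite p-group Q onto a group R carries W(Q) onto W(R)). If the conjugacy functors induced by 𝓦 control transfer in every section G* = K/R of G with C_{G*}(O_p(G*)) ≤ O_p(G*), then they control transfer in G: S ∩ G' is generated by the subgroups S ∩ (N_G(W(S)))', W ∈ 𝓦, for a Sylow p-subgroup S. -/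
theorem result {G : Type u} [Group G] [Finite G] {p : ℕ} [Fact p.Prime] (𝓦 : Set (∀ (Q : Type u) [Group Q], Subgroup Q)) (h𝓦 : ∀ W ∈ 𝓦, Cfsg.IsCharPFunctor.{u} p W) (hloc : ∀ (K R : Subgroup G) [hR : (R.subgroupOf K).Normal], Subgroup.centralizer ((Cfsg.pCore p (↥K ⧸ R.subgroupOf K) : Subgroup (↥K ⧸ R.subgroupOf K)) : Set (↥K ⧸ R.subgroupOf K)) ≤ Cfsg.pCore p (↥K ⧸ R.subgroupOf K) → Cfsg.FamilyControlsTransferIn p ((fun W => Cfsg.inducedFunctor (G := (↥K ⧸ R.subgroupOf K)) W) '' 𝓦) ⊤) : Cfsg.FamilyControlsTransferIn p ((fun W => Cfsg.inducedFunctor (G := G) W) '' 𝓦) ⊤ := by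
  have key : ∀ {L : Type u} [Group L] [Finite L] {T : Subgroup L}, IsSylowIn p T ⊤ →
      (FamilyControlsTransferIn p ((fun W => inducedFunctor (G := L) W) '' 𝓦) ⊤ ↔
      TCtl (fun W : 𝓦 => ⊤ ⊓ normalizer (inducedFunctor W.1 T : Set L)) ⊤ T) := by
    intro L _ _ T hT
    rw [familyTransfer_iff (by
      rintro _ ⟨W, hW, rfl⟩; exact (pf_induced (h𝓦 W hW)).isConjugacyFunctor) hT]
    refine ⟨fun h => h.trans (iSup_le ?_), fun h => h.trans (iSup_le fun W => ?_)⟩
    · rintro ⟨_, W, hW, rfl⟩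
      exact le_iSup_of_le ⟨W, hW⟩ le_rfl
    · exact le_iSup_of_le ⟨_, W.1, W.2, rfl⟩ le_rfl
  obtain ⟨S, hS⟩ := exists_isSylowIn p (⊤ : Subgroup G)
  rw [key hS]
  have hF := isGF_group S
  have hW := fun W : 𝓦 => pf_induced (h𝓦 W.1 W.2)
  have hU : Upto (fun L _ => Involves L G) fun L _ => ∀ [Finite L] (T : Subgroup L),
      IsSylowIn p T ⊤ → ChP p (⊤ : Subgroup L) →
      TCtl (fun W : 𝓦 => ⊤ ⊓ normalizer (inducedFunctor W.1 T : Set L)) ⊤ T :=
    upto_sec fun K R _ _ T hT hc => (key hT).1 (hloc K R (chP_top.1 hc))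
  have hc := tc_of_models (W := fun (W : 𝓦) => fun P => inducedFunctor W.1 P) hW (secCl_inv G)
    (fun L _ _ hL => by
      obtain ⟨M, _, e, hM⟩ := hU L hL
      exact ⟨M, _, e, fun T X k1 k0 k2 _ k3 => le_trans (inf_le_inf_right _ (k1.le_of_normal
        (H7.isPGroup_Op p ⊤) le_top (le_top.trans (H7.le_nrm_Opi _ _)))) ((hM T k1 k0).tg X k2 k3)⟩)
    hS.isPGroup (hF.saturated hS) (group_loc hF hS)
  have hn := fun W : 𝓦 => (hW W).nrm_le hS.isPGroup (le_normalizer (H := S))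
  have h1 := (hF.tc_iff hS fun W => ⟨(hW W).le _, hn W⟩).1 hc
  rcases isEmpty_or_nonempty 𝓦 with he | ⟨⟨i⟩⟩
  swap
  · exact h1.tctl i (le_inf le_top (hn i))
  refine h1.tctl' (le_trans ?_ bot_le)
  obtain ⟨M, _, e, hM⟩ := hU S (inv_subgroup S)
  have := Finite.of_equiv _ e.toEquiv
  have hp : IsPGroup p (⊤ : Subgroup M) := (hS.isPGroup.of_equiv e).to_subgroup _
  have h2 := hM ⊤ ⟨le_rfl, hp, by
    rw [relIndex_self]; exact (Fact.out : p.Prime).not_dvd_one⟩
    (chP_of hp le_rfl le_normalizer inf_le_left)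
  rw [TCtl, iSup_of_empty, top_inf_eq] at h2
  refine commutator_le.2 fun x hx y hy => ?_
  have h3 := mem_bot.1 (h2 (commutator_mem_commutator (mem_top (e ⟨x, hx⟩)) (mem_top (e ⟨y, hy⟩))))
  rw [← map_commutatorElement, map_eq_one_iff _ e.injective] at h3
  exact congrArg Subtype.val h3

end Cfsg.Agent.S1995
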