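import Cfsg.Statements.S1996
import Cfsg.Agent.H2.FS14
import Cfsg.Agent.S1994

set_option autoImplicit false
universe u
open Cfsg

namespace Cfsg.Agent.S1996

open Subgroup H2 Cfsg.FusionSystem

theorem fac {G : Type*} [Group G] [Finite G] {p : ℕ} [Fact p.Prime] {T : Subgroup G}
    (hT : H2.IsSylowIn p T ⊤) {I : Type*} {N : I → Subgroup G} (i j : I) (h1 : T ≤ N i) (h2 : T ≤ N j)
    (h : ∀ x, ∃ a ∈ N i, ∃ b ∈ N j, x = a * b) : FamCtl N ⊤ T := by
  refine famCtl_of_subgroups fun P hP g _ hg => ?_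
  obtain ⟨a, ha, b, hb, rfl⟩ := h g
  obtain ⟨c, hc, e⟩ := (hT.mono (le_inf h1 h2) le_top).exists_cj_le
    (isPGroup_cj b (hT.isPGroup.to_le hP)) (le_inf (cj_le_iff.2 fun x hx => by
      have := Subgroup.mul_mem _ (Subgroup.mul_mem _ (Subgroup.inv_mem _ ha)
        (h1 (cj_le_iff.1 hg x hx))) ha
      simpa [mul_assoc] using this) (cj_le_iff.2 fun x hx =>
        Subgroup.mul_mem _ (Subgroup.mul_mem _ hb (h2 (hP hx))) (Subgroup.inv_mem _ hb)))
  rw [cj_cj] at e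
  have e' : a * c⁻¹ * (c * b) = a * b := by group
  refine ⟨a * b, ?_, fun _ _ => rfl⟩
  rw [← e']
  exact (chainG_single j (Subgroup.mul_mem _ hc.2 hb) (cj_le_iff.1 e)).step i
    (Subgroup.mul_mem _ ha (Subgroup.inv_mem _ hc.1)) (e' ▸ cj_le_iff.1 hg)

/-- Let p be a prime, G a finite group and W₁, W₂ two isomorphism-invariant p-group functors (W assigns to every group Q a subgroup W(Q), nontrivial whenever Q is a nontrivial finite p-group, and every isomorphism from a finite p-group Q onto a group R carries W(Q) onto W(R)). Suppose that G* = N_{G*}(W₁(S*)) N_{G*}(W₂(S*)) whenever G* = K/R is a section of G with C_{G*}(O_p(G*)) ≤ O_p(G*) and S* is a Sylow p-subgroup of G*. Then the pair {W₁, W₂} controls strong fusion in G. -/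
theorem result {G : Type u} [Group G] [Finite G] {p : ℕ} [Fact p.Prime] (W₁ W₂ : ∀ (Q : Type u) [Group Q], Subgroup Q) (hW₁ : Cfsg.IsCharPFunctor.{u} p W₁) (hW₂ : Cfsg.IsCharPFunctor.{u} p W₂) (hfac : ∀ (K R : Subgroup G) [hR : (R.subgroupOf K).Normal], Subgroup.centralizer ((Cfsg.pCore p (↥K ⧸ R.subgroupOf K) : Subgroup (↥K ⧸ R.subgroupOf K)) : Set (↥K ⧸ R.subgroupOf K)) ≤ Cfsg.pCore p (↥K ⧸ R.subgroupOf K) → ∀ T : Sylow p (↥K ⧸ R.subgroupOf K), ∀ x : (↥K ⧸ R.subgroupOf K), ∃ a ∈ Subgroup.normalizer ((Cfsg.inducedFunctor (G := (↥K ⧸ R.subgroupOf K)) W₁ (T : Subgroup (↥K ⧸ R.subgroupOf K)) : Subgroup (↥K ⧸ R.subgroupOf K)) : Set (↥K ⧸ R.subgroupOf K)), ∃ b ∈ Subgroup.normalizer ((Cfsg.inducedFunctor (G := (↥K ⧸ R.subgroupOf K)) W₂ (T : Subgroup (↥K ⧸ R.subgroupOf K)) : Subgroup (↥K ⧸ R.subgroupOf K)) : Set (↥K ⧸ R.subgroupOf K)), x = a * b) : Cfsg.FamilyControlsStrongFusionIn p {Cfsg.inducedFunctor (G := G)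 W₁, Cfsg.inducedFunctor (G := G) W₂} ⊤ := by
  have h := S1994.result (G := G) (p := p) {W₁, W₂} (by rintro _ (rfl | rfl) <;> assumption)
    fun K R _ hc => by
      obtain ⟨T, hT⟩ := exists_isSylowIn p (⊤ : Subgroup (K ⧸ R.subgroupOf K))
      have h1 := pf_induced hW₁
      have h2 := pf_induced hW₂
      rw [familyControls_iff (by
        rintro _ ⟨W, rfl | rfl, rfl⟩
        exacts [h1.isConjugacyFunctor, h2.isConjugacyFunctor]) hT]
      refine fac hT ⟨_, W₁, Or.inl rfl, rfl⟩ ⟨_, W₂, Or.inr rfl, rfl⟩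
        (le_inf le_top (h1.nrm_le hT.isPGroup le_normalizer))
        (le_inf le_top (h2.nrm_le hT.isPGroup le_normalizer)) fun x => ?_
      obtain ⟨a, ha, b, hb, e⟩ := hfac K R hc hT.toSylowTop x
      exact ⟨a, ⟨trivial, ha⟩, b, ⟨trivial, hb⟩, e⟩
  rwa [Set.image_pair] at h

end Cfsg.Agent.S1996
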