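import Cfsg.Statements.S1998
import Cfsg.Agent.H2.TrS

set_option autoImplicit false
universe u
open Cfsg

namespace Cfsg.Agent.S1998

open Subgroup H2 Cfsg.FusionSystem


/-- Let p be a prime, G a finite group with Sylow p-subgroup S, and 𝓦 a nonempty set of isomorphism-invariant p-group functors (W assigns to every group Q a subgroup W(Q), nontrivial whenever Q is a nontrivial finite p-group, and every isomorphism from a finite p-group Q onto a group R carries W(Q) onto W(R)). Suppose the induced conjugacy functors control transfer in every section of G other than G itself, but not in G. Let T be the subgroup generated by the S ∩ (N_G(W(S)))', W ∈ 𝓦, and M = N_G(T ∩ O_p(G)). Then: C_G(O_p(G)) ≤ O_p(G); M is a proper subgroup of G containing every proper subgroup of G that contains S (the unique maximal subgroup over S); [O_p(G), M] ≤ O_p(G) ∩ M' ≤ O_p(G) ∩ T; and every element u of S outside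 O_p(G) satisfies [X, u, …, u] ≰ Y with p − 1 entries u, for some chief factor X/Y of G with X ≤ O_p(G). -/
theorem result {G : Type u} [Group G] [Finite G] {p : ℕ} [Fact p.Prime] (S : Sylow p G) (𝓦 : Set (∀ (Q : Type u) [Group Q], Subgroup Q)) (h𝓦 : ∀ W ∈ 𝓦, Cfsg.IsCharPFunctor.{u} p W) (hne : 𝓦.Nonempty) (hsec : ∀ (K R : Subgroup G) [hR : (R.subgroupOf K).Normal], (K = ⊤ → R ≠ ⊥) → Cfsg.FamilyControlsTransferIn p ((fun W => Cfsg.inducedFunctor (G := (↥K ⧸ R.subgroupOf K)) W) '' 𝓦) ⊤) (hG : ¬ Cfsg.FamilyControlsTransferIn p ((fun W => Cfsg.inducedFunctor (G := G) W) '' 𝓦) ⊤) (T M : Subgroup G) (hT : T = (⨆ W ∈ 𝓦, (S : Subgroup G) ⊓ ⁅Subgroup.normalizer ((Cfsg.inducedFunctor (G := G) W (S : Subgroup G) : Subgroup G) : Set G), Subgroup.normalizer ((Cfsg.inducedFunctor (G := G) W (S : Subgroup G) : Subgroup G) : Set G)⁆)) (hM : M = Subgroup.normalizer ((T ⊓ Cfsg.pCore p G : Subgroup G) : Set G))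 : Subgroup.centralizer ((Cfsg.pCore p G : Subgroup G) : Set G) ≤ Cfsg.pCore p G ∧ (M ≠ ⊤ ∧ ∀ H : Subgroup G, (S : Subgroup G) ≤ H → H ≠ ⊤ → H ≤ M) ∧ (⁅Cfsg.pCore p G, M⁆ ≤ Cfsg.pCore p G ⊓ ⁅M, M⁆ ∧ Cfsg.pCore p G ⊓ ⁅M, M⁆ ≤ Cfsg.pCore p G ⊓ T) ∧ ∀ u : G, u ∈ (S : Subgroup G) → u ∉ Cfsg.pCore p G → ∃ U V : Subgroup G, Cfsg.IsChiefFactor U V ∧ U ≤ Cfsg.pCore p G ∧ ¬ Cfsg.iterCommutator U (Subgroup.zpowers u) (p - 1) ≤ V := by
  have key : ∀ {L : Type u} [Group L] [Finite L] {T : Subgroup L}, IsSylowIn p T ⊤ →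
      (FamilyControlsTransferIn p ((fun W => inducedFunctor (G := L) W) '' 𝓦) ⊤ ↔
      TCtl (fun W : 𝓦 => ⊤ ⊓ normalizer (inducedFunctor W.1 T : Set L)) ⊤ T) := by
    intro L _ _ T hT
    rw [familyTransfer_iff (by
      rintro _ ⟨W, hW, rfl⟩; exact (pf_induced (h𝓦 W hW)).isConjugacyFunctor) hT]
    refine ⟨fun h => h.trans (iSup_le ?_), fun h => h.trans (iSup_le fun W => ?_)⟩
    · rintro ⟨_, W, hW, rfl⟩
      exact le_iSup_of_le ⟨W, hW⟩ le_rfl
    · exact le_iSup_of_le ⟨_, W.1, W.2, rfl⟩ le_rfl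
  have hS := sylow_isSylowIn_top S
  have hW := fun W : 𝓦 => pf_induced (h𝓦 W.1 W.2)
  have hT' : T = ⨆ W : 𝓦, (S : Subgroup G) ⊓ ⁅⊤ ⊓ normalizer (inducedFunctor W.1 (S : Subgroup G) : Set G),
      ⊤ ⊓ normalizer (inducedFunctor W.1 (S : Subgroup G) : Set G)⁆ := by
    simp only [hT, top_inf_eq, iSup_subtype]
  have h0 : ∀ W : 𝓦, (S : Subgroup G) ⊓ ⁅⊤ ⊓ normalizer (inducedFunctor W.1 (S : Subgroup G) : Set G),
      ⊤ ⊓ normalizer (inducedFunctor W.1 (S : Subgroup G) : Set G)⁆ ≤ T := fun W => hT' ▸ le_iSup_of_le W le_rfl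
  obtain ⟨W0, hW0⟩ := hne
  have hN : ∀ A : Subgroup G, A ≤ normalizer (S : Set G) → (S : Subgroup G) ⊓ ⁅A, A⁆ ≤ T := fun A hA => by
    have := le_inf le_top ((hW ⟨W0, hW0⟩).nrm_le S.2 hA)
    exact le_trans (inf_le_inf_left _ (commutator_mono this this)) (h0 ⟨W0, hW0⟩)
  have hX : ⁅(S : Subgroup G), (S : Subgroup G)⁆ ≤ T :=
    le_trans (le_inf (H7.comm_le_of_le le_rfl le_rfl) le_rfl) (hN _ le_normalizer)
  obtain ⟨k1, k2, k3⟩ := min_transfer hS (W := fun (W : 𝓦) => fun P => inducedFunctor W.1 P) hW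
    (fun F => tc_of_models hW (secCl_psec G) (upto_psec fun K R _ h _ T X k1 k0 k2 _ k3 =>
      le_trans (inf_le_inf_right _ (k1.le_of_normal (H7.isPGroup_Op p ⊤) le_top
        (le_top.trans (H7.le_nrm_Opi _ _)))) (((key k1).1 (hsec K R h)).tg X k2 k3))) hX h0
    (fun h => hG ((key hS).2 (h.trans hT'.le)))
  rw [H7.pCore_eq] at hM ⊢
  have nQ : ⊤ ≤ normalizer (H7.Opi {p} (⊤ : Subgroup G) : Set G) := H7.le_nrm_Opi _ _
  have hQ : H7.Opi {p} ⊤ ≤ (S : Subgroup G) := hS.le_of_normal (H7.isPGroup_Op p ⊤) le_top (le_top.trans nQ)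
  have k4 : ∀ A : Subgroup G, H7.Opi {p} ⊤ ≤ A → (S : Subgroup G) ⊓ ⁅A, A⁆ ≤ T →
      ⁅H7.Opi {p} ⊤, A⁆ ≤ T ⊓ H7.Opi {p} ⊤ := fun A h1 h2 =>
    have := H7.comm_le_left (le_top.trans nQ : A ≤ _)
    le_inf (le_trans (le_inf (this.trans hQ) (commutator_mono h1 le_rfl)) h2) this
  have k5 : ∀ A : Subgroup G, ⁅H7.Opi {p} ⊤, A⁆ ≤ T ⊓ H7.Opi {p} ⊤ → A ≤ M := fun A h =>
    hM ▸ H7.le_nrm_of_comm_le ((commutator_mono inf_le_right le_rfl).trans h)
  have hSM : (S : Subgroup G) ≤ M := k5 _ (k4 _ hQ (hN _ le_normalizer))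
  have k6 : M ≠ ⊤ := fun e => by
    have n1 : ⊤ ≤ normalizer ((T ⊓ H7.Opi {p} ⊤ : Subgroup G) : Set G) := hM ▸ e.ge
    have := H7.normal_iff_top_le_nrm.2 n1
    have := H7.normal_iff_top_le_nrm.2 nQ
    let φ := QuotientGroup.mk' (T ⊓ H7.Opi {p} (⊤ : Subgroup G))
    have c1 : ∀ A : Subgroup G, ⁅H7.Opi {p} ⊤, A⁆ ≤ T ⊓ H7.Opi {p} ⊤ ↔
        A ≤ (centralizer ((H7.Opi {p} (⊤ : Subgroup G)).map φ : Set _)).comap φ := fun A => by
      rw [← map_le_iff_le_comap, ← commutator_eq_bot_iff_le_centralizer, commutator_comm,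
        ← Subgroup.map_commutator, Subgroup.map_eq_bot_iff, QuotientGroup.ker_mk']
    have := Subgroup.Normal.map (inferInstance : (H7.Opi {p} (⊤ : Subgroup G)).Normal) φ
      (QuotientGroup.mk'_surjective _)
    have c2 : ⁅H7.Opi {p} ⊤, (⊤ : Subgroup G)⁆ ≤ T ⊓ H7.Opi {p} ⊤ := (c1 _).2 fun g _ => by
      have c3 := (c1 _).1 (k4 _ hQ (hN _ le_normalizer))
      obtain ⟨n, n1, n2⟩ := (hS.mono c3 le_top).frattini (g := g) (by
        rw [normalizer_eq_top]; trivial)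
      have c4 := (c1 _).1 (k4 _ (hQ.trans le_normalizer) (hN _ le_rfl)) n2
      simpa using Subgroup.mul_mem _ (Subgroup.inv_mem _ n1) c4
    have hF := isGF_group (S : Subgroup G)
    refine k3 (le_trans ?_ (focal_inf_le (U := H7.Opi {p} ⊤) S.2 (group_saturated S) hX
      fun P f hf x hx hx' => ?_))
    · rw [hF.focal_eq hS]
      exact le_inf (inf_le_inf_right _ hQ) inf_le_left
    · obtain ⟨g, -, e⟩ := hF.exists_conj hf
      rw [e x hx]
      exact (c2 (inv_mul_conj_mem_commutator hx' trivial)).1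
  refine ⟨by rw [← H7.pCore_eq]; exact chP_top.1 k2, ⟨k6, fun H h1 h2 =>
    k5 _ (k4 _ (hQ.trans h1) (k1 H h1 (lt_top_iff_ne_top.2 h2)))⟩,
    ⟨le_inf (H7.comm_le_left (le_top.trans nQ)) (commutator_mono (hQ.trans hSM) le_rfl),
    le_inf inf_le_left (le_trans (inf_le_inf_right _ hQ) (k1 M hSM (lt_top_iff_ne_top.2 k6)))⟩,
    fun u h1 h2 => ?_⟩
  by_contra hc
  push Not at hc
  exact k3 (tr_core hS hX k1 h1 h2 fun U V h => hc U V (chF_top.1 h))

end Cfsg.Agent.S1998
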