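import Cfsg.Statements.S2005
import Cfsg.Agent.H2.FS20

set_option autoImplicit false
universe u
open Cfsg

namespace Cfsg.Agent.S2005

open Subgroup H2 Cfsg.FusionSystem


/-- Thompson's normal p-complement criterion in functor form. Let p be a prime, G a finite group with Sylow p-subgroup S, and W an isomorphism-invariant p-group functor (W assigns to every group Q a subgroup W(Q), nontrivial whenever Q is a nontrivial finite p-group, and every isomorphism from a finite p-group Q onto a group R carries W(Q) onto W(R)). Suppose N_G(W(S)) has a normal p-complement, and that W(S*) is normal in G* whenever G* = K/R is a section of G with C_{G*}(O_p(G*)) ≤ O_p(G*) such that G*/O_p(G*) has a normal p-complement, and S* is a Sylow p-subgroup of G* that is a maximal subgroup of G*. Then G has a normal p-complement. -/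
theorem result {G : Type u} [Group G] [Finite G] {p : ℕ} [Fact p.Prime] (W : ∀ (Q : Type u) [Group Q], Subgroup Q) (hW : Cfsg.IsCharPFunctor.{u} p W) (S : Sylow p G) (hN : Cfsg.HasNormalPComplement p ↥(Subgroup.normalizer ((Cfsg.inducedFunctor (G := G) W (S : Subgroup G) : Subgroup G) : Set G))) (hloc : ∀ (K R : Subgroup G) [hR : (R.subgroupOf K).Normal], Subgroup.centralizer ((Cfsg.pCore p (↥K ⧸ R.subgroupOf K) : Subgroup (↥K ⧸ R.subgroupOf K)) : Set (↥K ⧸ R.subgroupOf K)) ≤ Cfsg.pCore p (↥K ⧸ R.subgroupOf K) → Cfsg.HasNormalPComplement p ((↥K ⧸ R.subgroupOf K) ⧸ Cfsg.pCore p (↥K ⧸ R.subgroupOf K)) → ∀ T : Sylow p (↥K ⧸ R.subgroupOf K), IsCoatom (T : Subgroup (↥K ⧸ R.subgroupOf K)) → (Cfsg.inducedFunctor (G := (↥K ⧸ R.subgroupOf K)) W ((T : Subgroup (↥K ⧸ R.subgroupOf K)))).Normal) : Cfsg.HasNormalPComplement p G := by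
  refine npc_top.1 ((pf_induced hW).npc (secCl_inv G) (upto_sec fun K R _ _ P Q h1 h2 => ?_)
    (sylow_isSylowIn_top S) (inv_subgroup _) (by rwa [top_inf_eq]))
  by_cases hP : P = ⊤
  · exact npc_of_pgroup (hP ▸ h1.syl.isPGroup)
  have := hloc K R (chP_top.1 h1.cenO) (hasNPC_iff_mem.2 fun x hx => ?_) h1.syl.toSylowTop
    ⟨hP, fun L hL => (h1.max L hL.le le_top).resolve_left hL.ne'⟩
  · exact h2.of_le (le_inf le_rfl (H7.normal_iff_top_le_nrm.1 this))
  rw [← map_pResidual_of_surjective _ (QuotientGroup.mk'_surjective _), ← pRes_top] at hx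
  have h3 := map_mono (f := QuotientGroup.mk' (pCore p (K ⧸ R.subgroupOf K)))
    (H7.pRes_le_of_piN h1.nrmQ h1.piN) hx
  rw [Subgroup.map_sup, ← H7.pCore_eq, (Subgroup.map_eq_bot_iff _).2 (QuotientGroup.ker_mk' _).ge,
    bot_sup_eq] at h3
  exact coprime_card_subgroup_iff.1 (Nat.Coprime.coprime_dvd_left (card_map_dvd _ _) h1.cop) x h3

end Cfsg.Agent.S2005
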