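import Cfsg.Statements.S2006
import Cfsg.Agent.H7.PP
import Cfsg.Agent.H7.PLen
import Cfsg.Agent.H2.FS20
import Cfsg.Agent.H2.WC

set_option autoImplicit false
universe u
open Cfsg

namespace Cfsg.Agent.S2006
open H7
open scoped commutatorElement

section
open Subgroup

open scoped H2 commutatorElement in
theorem hh_iter {G : Type*} [Group G] [Finite G] {p : ℕ} [Fact p.Prime] {V Q : Subgroup G} {x : G} (eV : EA p V)
    (cQ : IsMulCommutative Q) (oQ : (Nat.card Q).Coprime p) (nQ : Q ≤ nrm V) (h1 : x ∈ nrm V) (h2 : x ∈ nrm Q) (hx : x ^ p = 1)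
    (h : iterCommutator V (zpowers x) (p - 1) = ⊥) : ⁅Q, zpowers x⁆ ≤ cen V := by
  have := hh_ab (n := 0) eV.comm eV.isPGroup cQ oQ nQ h1 h2 fun v hv => by
    letI : CommGroup V := (haveI := eV.comm; open scoped IsMulCommutative in inferInstance)
    have k := H2.geom_prod (p := p) eV.comm h1 (H2.homOn_fn (MonoidHom.id V)) (fun u hu => by
      rw [H2.fn_mem _ hu]; exact Subtype.ext (eV.pow hu)) (fun u hu => by
        rw [h, mem_bot] at hu; rw [hu]; exact (H2.homOn_fn _).one) hv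
    have : ∀ n, ((∏ i ∈ Finset.range n, H2.fn (MonoidHom.id V) (x ^ i * v * (x ^ i)⁻¹) : V) : G) * x ^ n = (v * x) ^ n := fun n => by
      induction n with
      | zero => simp
      | succ n ih =>
        rw [Finset.prod_range_succ, coe_mul, H2.fn_mem _ (conj_mem le_rfl (pow_mem h1 n) hv), pow_succ (v * x), ← ih]
        simp only [MonoidHom.id_apply]; group
    rw [zero_add, pow_one, ← this, k, hx]; simp
  simpa using this
open scoped H2 commutatorElement in
theorem im_iter {G G' : Type*} [Group G] [Group G'] {D U A : Subgroup G} (f : D →* G') (hU : U ≤ D) (hA : A ≤ D) (n : ℕ) :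
    iterCommutator U A n ≤ D ∧ im f (iterCommutator U A n) = iterCommutator (im f U) (im f A) n := by
  induction n with
  | zero => exact ⟨hU, rfl⟩
  | succ n ih => exact ⟨comm_le_of_le ih.1 hA, by rw [H2.iterComm_succ, H2.iterComm_succ, im_commutator ih.1 hA, ih.2]⟩
open scoped H2 commutatorElement in
theorem fth_iter {G G' : Type*} [Group G] [Group G'] {V A : Subgroup G} {ι : V →* G'} {φ : ↥(nrm V) →* G'} (F : Fth V ι φ)
    (hA : A ≤ nrm V) (n : ℕ) : im ι (iterCommutator V A n) = iterCommutator (im ι V) (im φ A) n := by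
  induction n with
  | zero => rfl
  | succ n ih => rw [H2.iterComm_succ, H2.iterComm_succ, F.comm (H2.iterComm_le hA le_rfl n) hA, ih]
open scoped H2 commutatorElement in
theorem key {G : Type*} [Group G] [Finite G] {p : ℕ} [Fact p.Prime] {P Q U V : Subgroup G} {g : G} (h : H2.MinCfg p ⊤ P Q)
    (hg : g ∈ P) (c : H2.ChF ⊤ U V) (hU : U ≤ Op p ⊤) (hi : iterCommutator U (zpowers g) (p - 1) ≤ V) : ⁅U, zpowers g⁆ ≤ V := by
  have pU := (isPGroup_Op p _).to_le hU
  have tp : ∀ K : Subgroup G, K ≤ nrm V := fun K => le_top.trans c.n2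
  have nC : ⊤ ≤ nrm (cmod V U) := nrm_cmod c.n2 c.n1
  have oC : Op p ⊤ ≤ cmod V U := le_cmod.2 ⟨tp _, (commutator_comm _ _).le.trans
    (c.comm_le pU (isPGroup_Op p _) le_top (le_nrm_Opi _ _))⟩
  rcases h.le_Op_or le_top nC with k | ⟨k, -⟩
  swap
  · have n1 : P ≤ nrm U := le_top.trans c.n1
    have lt := pgroup_comm_lt (isPGroup_im (qm V) h.syl.isPGroup) (isPGroup_im _ pU) (im_le_nrm _ n1)
      fun e => c.lt.not_ge ((im_qm_eq_bot (tp _)).1 e)
    have l : V ⊔ ⁅U, P⁆ ≤ U := sup_le c.lt.le (comm_le_left n1)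
    rcases c.max _ le_sup_left l (k.ge.trans (sup_le (le_nrm_of_comm_le' l ((commutator_comm _ _).le.trans
      ((le_cmod.1 le_rfl).2.trans le_sup_left))) (nrm_sup (tp _) (H1B.nrm_comm_right _ _)))) with e | e
    · exact (commutator_mono le_rfl (zpowers_le.2 hg)).trans (le_sup_right.trans e.le)
    rw [← im_commutator (tp _) (tp _)] at lt
    exact (lt.not_ge ((im_qm_le (tp _) (tp _)).2 (e.ge.trans (sup_comm _ _).le))).elim
  have eU := ea_im_of_Phi_le (f := qm V) pU (tp _) (by rw [kr_qm]; exact c.Phi_le)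
  obtain ⟨ι, φ, F⟩ := exists_fth (im (qm V) U)
  have nU : ∀ K : Subgroup G, im (qm V) K ≤ nrm (im (qm V) U) := fun K => im_le_nrm _ (le_top.trans c.n1)
  have kk : ∀ K : Subgroup G, im φ (im (qm V) K) = ⊥ ↔ K ≤ Op p ⊤ := fun K => by
    rw [im_eq_bot_iff (nU K), F.ker, im_qm_le_cen (tp _) (tp _)]
    exact ⟨fun j => (le_cmod.2 ⟨tp _, j⟩).trans k, fun j => (le_cmod.1 (j.trans oC)).2⟩
  have sp : ∀ K L : Subgroup G, im φ (im (qm V) (K ⊔ L)) = im φ (im (qm V) K) ⊔ im φ (im (qm V) L) := fun K L => by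
    rw [im_sup (tp _) (tp _), im_sup (nU _) (nU _)]
  have nQ : im φ (im (qm V) ⊤) ≤ nrm (im φ (im (qm V) Q)) := by
    have := im_le_nrm φ (im_le_nrm (qm V) h.nrmQ)
    rwa [sp, (kk _).2 le_rfl, bot_sup_eq] at this
  refine (commutator_comm _ _).le.trans (le_cmod.1 ((zpowers_le.2 (by_contra fun j => ?_)).trans oC)).2
  obtain ⟨n, n1, n2⟩ : ∃ n, g ^ p ^ n ∉ Op p ⊤ ∧ g ^ p ^ (n + 1) ∈ Op p (⊤ : Subgroup G) := by
    obtain ⟨m, hm⟩ := h.syl.isPGroup ⟨g, hg⟩
    have : ∃ m, g ^ p ^ m ∈ Op p (⊤ : Subgroup G) := ⟨m, by rw [show g ^ p ^ m = 1 from congrArg Subtype.val hm]; exact one_mem _⟩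
    classical
    have a := Nat.find_spec this
    have b : Nat.find this ≠ 0 := fun e => j (by simpa [e] using a)
    obtain ⟨n, e⟩ := Nat.exists_eq_succ_of_ne_zero b
    exact ⟨n, Nat.find_min this (by omega), by rwa [e] at a⟩
  have xP : g ^ p ^ n ∈ P := pow_mem hg _
  have hi' := (H2.iterComm_mono le_rfl (zpowers_le.2 (pow_mem (mem_zpowers g) (p ^ n))) _).trans hi
  rw [pow_succ, pow_mul] at n2
  generalize g ^ p ^ n = x at n1 n2 xP hi'
  have x1 := tp ⊤ (mem_top x)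
  have x2 := nU ⊤ (ev_mem_im (mem_top x))
  have ez : im φ (im (qm V) (zpowers x)) = zpowers (ev φ (ev (qm V) x)) := by rw [im_zpowers x1, im_zpowers x2]
  have nV : ∀ K : Subgroup G, im φ (im (qm V) K) ≤ nrm (im ι (im (qm V) U)) := fun K => (F.le_nrm le_rfl (nU K)).2 (nU K)
  have t := hh_iter (eU.im ι) (isComm_im φ (isComm_im _ h.comm)) (h.cop.coprime_dvd_left ((card_im_dvd _ _).trans (card_im_dvd _ _))) (nV Q)
    (nV ⊤ (ev_mem_im (ev_mem_im (mem_top x)))) (nQ (ev_mem_im (ev_mem_im (mem_top x)))) (by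
      rw [← ev_pow x2, ← ev_pow x1]; exact mem_bot.1 (((kk _).2 le_rfl).le (ev_mem_im (ev_mem_im n2)))) (by
      rw [← ez, ← fth_iter F (nU _), ← (im_iter _ (tp _) (tp _) _).2, (im_qm_eq_bot (tp _)).2 hi', im_bot])
  rw [← ez, ← im_commutator (nU _) (nU _), ← im_commutator (tp _) (tp _)] at t
  have t2 := (kk _).1 (le_bot_iff.1 ((le_inf le_rfl t).trans (F.faithful (nU _)).le))
  have nX : ⊤ ≤ nrm (P ⊓ cmod (Op p ⊤) Q) := by
    have oP := Op_le_of_sylow h.syl
    have e : cmod (Op p ⊤) Q = cmod (Op p ⊤) (Op p ⊤ ⊔ Q : Subgroup G) := le_antisymm (le_cmod.2 ⟨(le_cmod.1 le_rfl).1,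
      comm_sup_le' (le_nrm_self _) (le_top.trans (le_nrm_Opi _ _)) (comm_le_right (le_cmod.1 le_rfl).1) (le_cmod.1 le_rfl).2⟩)
      (le_cmod.2 ⟨(le_cmod.1 le_rfl).1, (commutator_mono le_rfl le_sup_right).trans (le_cmod.1 le_rfl).2⟩)
    refine h.sup.ge.trans (sup_le (le_nrm_of_comm_le ((le_cmod.1 inf_le_right).2.trans (le_inf oP (le_cmod.2
      ⟨le_nrm_self _, comm_le_left (le_top.trans (le_nrm_Opi _ _))⟩)))) (nrm_inf (le_nrm_self _) ?_))
    rw [e]; exact le_top.trans (nrm_cmod (le_nrm_Opi _ _) h.nrmQ)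
  exact n1 (le_Op le_top nX h.syl.isPGroup.to_inf_left ⟨xP, zpowers_le.1 (le_cmod.2 ⟨le_top.trans (le_nrm_Opi _ _),
    (commutator_comm _ _).le.trans t2⟩)⟩)

end

/-- Let p be a prime, G a finite group with Sylow p-subgroup S, and W an isomorphism-invariant p-group functor (W assigns to every group Q a subgroup W(Q), nontrivial whenever Q is a nontrivial finite p-group, and every isomorphism from a finite p-group Q onto a group R carries W(Q) onto W(R)). Suppose N_G(W(S)) has a normal p-complement, and that whenever G* = K/R is a section of G with C_{G*}(O_p(G*)) ≤ O_p(G*) and S* is a Sylow p-subgroup of G* with W(S*) not normal in G*, there are an element g of S* outside O_p(G*) and a chief factor X/Y of G* with X ≤ O_p(G*) such that [X, g, …, g] ≤ Y with p − 1 entries g but [X, g] ≰ Y. Then G has a normal p-complement. -/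
theorem result {G : Type u} [Group G] [Finite G] {p : ℕ} [Fact p.Prime] (W : ∀ (Q : Type u) [Group Q], Subgroup Q) (hW : Cfsg.IsCharPFunctor.{u} p W) (S : Sylow p G) (hN : Cfsg.HasNormalPComplement p ↥(Subgroup.normalizer ((Cfsg.inducedFunctor (G := G) W (S : Subgroup G) : Subgroup G) : Set G))) (hloc : ∀ (K R : Subgroup G) [hR : (R.subgroupOf K).Normal], Subgroup.centralizer ((Cfsg.pCore p (↥K ⧸ R.subgroupOf K) : Subgroup (↥K ⧸ R.subgroupOf K)) : Set (↥K ⧸ R.subgroupOf K)) ≤ Cfsg.pCore p (↥K ⧸ R.subgroupOf K) → ∀ T : Sylow p (↥K ⧸ R.subgroupOf K), ¬ (Cfsg.inducedFunctor (G := (↥K ⧸ R.subgroupOf K)) W ((T : Subgroup (↥K ⧸ R.subgroupOf K)))).Normal → ∃ g : (↥K ⧸ R.subgroupOf K), g ∈ (T : Subgroup (↥K ⧸ R.subgroupOf K)) ∧ g ∉ Cfsg.pCore p (↥K ⧸ R.subgroupOf K) ∧ ∃ U V : Subgroup (↥K ⧸ R.subgroupOf K), Cfsg.IsChiefFactor U V ∧ U ≤ Cfsg.pCore p (↥K ⧸ R.subgroupOf K) ∧ Cfsg.iterCommutator U (Subgroup.zpowers g) (p - 1) ≤ V ∧ ¬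 ⁅U, Subgroup.zpowers g⁆ ≤ V) : Cfsg.HasNormalPComplement p G := by
  open Subgroup in
  refine H2.npc_top.1 ((H2.pf_induced hW).npc (H2.secCl_inv G) (H2.upto_sec fun K R _ _ P Q h1 h2 => ?_)
    (H2.sylow_isSylowIn_top S) (H2.inv_subgroup _) (by rwa [top_inf_eq]))
  refine h2.of_le (le_inf le_rfl (normal_iff_top_le_nrm.1 (by_contra fun c => ?_)))
  obtain ⟨g, g1, -, U, V, c1, c2, c3, c4⟩ := hloc K R (H2.chP_top.1 h1.cenO) h1.syl.toSylowTop c
  exact c4 (key h1 g1 ⟨c1.1, le_top, normal_iff_top_le_nrm.1 c1.2.1, normal_iff_top_le_nrm.1 c1.2.2.1,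
    fun N a b d => c1.2.2.2 N (normal_iff_top_le_nrm.2 d) a b⟩ (c2.trans (pCore_eq p).le) c3)

end Cfsg.Agent.S2006
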