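import Cfsg.Statements.S2009
import Cfsg.Agent.H7.CF

set_option autoImplicit false
open Cfsg

namespace Cfsg.Agent.S2009
open H7
open scoped commutatorElement

/-- Let H be a finite group and z an involution such that every proper normal subgroup of H meets the centralizer of z trivially, and suppose z lies in a Klein four-subgroup E of H all three of whose involutions are conjugate to z in H. Then H is simple. -/
theorem result {H : Type*} [Group H] [Finite H] (z : H) (hz : orderOf z = 2) (hN : ∀ N : Subgroup H, N.Normal → N ≠ ⊤ → N ⊓ Subgroup.centralizer ({z} : Set H) = ⊥) (E : Subgroup H) (hE : IsKleinFour ↥E) (hzE : z ∈ E) (hc : ∀ e ∈ E, e ≠ 1 → IsConj z e) : IsSimpleGroup H := by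
  open Subgroup in
  have z1 : z ≠ 1 := fun e => by simp [e] at hz
  haveI : Nontrivial H := ⟨z, 1, z1⟩
  refine ⟨fun N n => (by_contra fun k => ?_)⟩
  rw [not_or] at k
  have nN : ∀ {A : Subgroup H}, A ≤ normalizer (N : Set H) := fun {A} => le_top.trans (normal_iff_top_le_nrm.1 n)
  have o : Nat.card (zpowers z) = 2 := (card_zpowers_eq z).trans hz
  have c := (reg_of_card_prime (K := N) (o ▸ Nat.prime_two) (cen_zpowers z ▸ hN N n k.2)).coprime nN
  have pE : IsPGroup 2 E := IsPGroup.of_card (n := 2) hE.card_four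
  haveI := hE
  obtain ⟨e, a, b, d⟩ := (cop_of_pgroup pE (o ▸ c).symm nN).exists_cen1_ne_bot IsKleinFour.isMulCommutative (IsKleinFour.not_isCyclic) k.1
  obtain ⟨g, rfl⟩ := isConj_iff.1 (hc e a b)
  refine d ?_
  rw [← cj_cen1, ← cj_of_mem_nrm (nN (mem_top g)), ← cj_inf, hN N n k.2, cj_bot]

end Cfsg.Agent.S2009
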