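import Cfsg.Statements.S2008
import Cfsg.Agent.H7.CF
import Cfsg.Agent.S2009

set_option autoImplicit false
open Cfsg

namespace Cfsg.Agent.S2008
open H7
open scoped commutatorElement

/-- Let H be a finite group and z an involution such that every proper normal subgroup of H meets the centralizer of z trivially, and suppose z lies in a Klein four-subgroup E of H all three of whose involutions are conjugate to z in H. Then H has no non-trivial abelian normal subgroup. -/
theorem result {H : Type*} [Group H] [Finite H] (z : H) (hz : orderOf z = 2) (hN : ∀ N : Subgroup H, N.Normal → N ≠ ⊤ → N ⊓ Subgroup.centralizer ({z} : Set H) = ⊥) (E : Subgroup H) (hE : IsKleinFour ↥E) (hzE : z ∈ E) (hc : ∀ e ∈ E, e ≠ 1 → IsConj z e) (N : Subgroup H) [N.Normal] (hab : IsMulCommutative ↥N) : N = ⊥ := by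
  open Subgroup in
  rcases (S2009.result z hz hN E hE hzE hc).eq_bot_or_eq_top_of_normal N ‹_› with e | rfl
  · exact e
  have : E ≤ zpowers z := fun e he => by
    by_cases h : e = 1
    · rw [h]; exact one_mem _
    obtain ⟨g, rfl⟩ := isConj_iff.1 (hc e he h)
    rw [isComm_iff'.1 hab g trivial z trivial, mul_inv_cancel_right]; exact mem_zpowers z
  have := card_le_of_le this
  rw [card_zpowers_eq, hz, hE.card_four] at this
  omega

end Cfsg.Agent.S2008
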