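import Cfsg.Statements.S2034
import Cfsg.Agent.H0.MM11.Main
import Cfsg.Agent.H0.QM11.Main
import Cfsg.Agent.H0.Mat


set_option autoImplicit false
open Cfsg

namespace Cfsg.Agent.S2034

/-- The Schur multiplier of the Mathieu group M₁₁ (the stabiliser of a dodecad and one of its points in the automorphism group of the length-24 binary code) is trivial; here the Schur multiplier is described through stem extensions, as in the definitions: surjective homomorphisms onto the group from a finite group, whose kernel is central in that finite group and contained in that finite group's commutator subgroup. -/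
theorem result : Cfsg.HasCyclicSchurMultiplier ↥Cfsg.Spor.M11 1 := by
  have := H0.MM11.fin (H0.Pres.pg 14 H0.MM11.B)
  have hs := H0.MM11.simple (H0.Pres.pg 14 H0.MM11.B)
  have hc := H0.MM11.card (H0.Pres.pg 14 H0.MM11.B)
  have hp := H0.perfect_of_simple (G := _) (by rw [hc]; exact Nat.not_prime_of_dvd_of_lt (m := 2) (by decide) le_rfl (by decide))
  obtain ⟨e⟩ := (H0.iso_M24 ((H6.ckS 0x5335f).fxP 0) [0xadaeb286263b98da29237c26440a40, 0xacd47589ed8d88971650a1ae81b020, 0x2bae7b25e88ae029d584a194d1c820, 0x52cb4732247cd12b5c4d39ab01a420, 0xa3d67b98b0b2a487552298e2c69020, 0x9bd573b4b0b2c64ab92ca4a2232020, 0xb2dd3a4ae92bcc489da8542a260c20, 0x8dcb3a496675523b1e08535ec11020, 0x756ca5ca9089d269bd03292e26b020, 0x2d6d15c9f055c629d1a9730e641020, 0xab9778c8a93d983a4ccd7915040820, 0xa3aeb54a643d90da96037a62660820, 0x9bd515caa3b1e042d189736e830820, 0x2be2abca8db1cc99d50470d6c80820] (by decide +kernel) hs hc (H6.card_M11 H6.D0_mem (by decide +kernel)) (by decide)).map fun e => e.trans (H6.isoM11 (d := H6.dec 0x5335f) H6.D0_mem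 (p := H6.pt 0) (by decide +kernel)).some.symm
  exact H0.hasMult_equiv e (H0.hasCyc_of hp (by decide) (H0.stemElt_one _)
    (H0.QM11.bound (H0.MM11.m (H0.Pres.pg 14 H0.MM11.B)) (H0.MM11.mR (H0.Pres.pg 14 H0.MM11.B)) (H0.MM11.base (H0.Pres.pg 14 H0.MM11.B)) hc))

end Cfsg.Agent.S2034
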