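import Cfsg.Statements.S2035
import Cfsg.Agent.H0.MM12.Main
import Cfsg.Agent.H0.QM12.Main
import Cfsg.Agent.H0.Mat
import Cfsg.Agent.H0.VM122.Main


set_option autoImplicit false
open Cfsg

namespace Cfsg.Agent.S2035

/-- The Schur multiplier of the Mathieu group M₁₂ (the stabiliser of a dodecad in the automorphism group of the length-24 binary code) is cyclic of order 2; here the Schur multiplier is described through stem extensions, as in the definitions: surjective homomorphisms onto the group from a finite group, whose kernel is central in that finite group and contained in that finite group's commutator subgroup. -/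
theorem result : Cfsg.HasCyclicSchurMultiplier ↥Cfsg.Spor.M12 2 := by
  have := H0.MM12.fin (H0.Pres.pg 10 H0.MM12.B)
  have hs := H0.MM12.simple (H0.Pres.pg 10 H0.MM12.B)
  have hc := H0.MM12.card (H0.Pres.pg 10 H0.MM12.B)
  have hp := H0.perfect_of_simple (G := _) (by rw [hc]; exact Nat.not_prime_of_dvd_of_lt (m := 2) (by decide) le_rfl (by decide))
  obtain ⟨e⟩ := (H0.iso_M24 (H6.ckS 0x5335f) [0x7aeaa29230bb9acb500838e7230449, 0xa3d73b82c2895243b830ab146921a3, 0x9c4f7a0de8b2826a95a2591cc04132, 0x8aeb49caf0795a4b1cc8525cc10c01, 0xad2e7526628ac6879586712cd84801, 0xa96f6889e359c8974e4ca21466c001, 0xbae6fac232a1504b292d399cc18801, 0x52eaf9c8f0a390cb5c4d88ca432401, 0x7d6ca8b666bae43750442c0e862401, 0x55a74ac0f2795a45dc4888dcc32420] (by decide +kernel) hs hc (H6.card_stab_dodecad H6.D0_mem) (by decide)).map fun e => e.trans (H6.isoM12 H6.D0_mem).some.symm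
  exact H0.hasMult_equiv e (H0.hasCyc_of hp (by decide) (H0.VM122.stem (H0.Pres.pg 10 H0.MM12.B) hp)
    (H0.QM12.bound (H0.MM12.m (H0.Pres.pg 10 H0.MM12.B)) (H0.MM12.mR (H0.Pres.pg 10 H0.MM12.B)) (H0.MM12.base (H0.Pres.pg 10 H0.MM12.B)) hc))

end Cfsg.Agent.S2035
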