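import Cfsg.Statements.S2036
import Cfsg.Agent.H0.MM22.Main
import Cfsg.Agent.H0.QM22.Main
import Cfsg.Agent.H0.Mat
import Cfsg.Agent.H0.VM223.Main
import Cfsg.Agent.H0.VM224.Main


set_option autoImplicit false
open Cfsg

namespace Cfsg.Agent.S2036

/-- The Schur multiplier of the Mathieu group M₂₂ (the permutations in the automorphism group of the length-24 binary code that fix each of two given points) is cyclic of order 12; here the Schur multiplier is described through stem extensions, as in the definitions: surjective homomorphisms onto the group from a finite group, whose kernel is central in that finite group and contained in that finite group's commutator subgroup. -/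
theorem result : Cfsg.HasCyclicSchurMultiplier ↥Cfsg.Spor.M22 12 := by
  have := H0.MM22.fin (H0.Pres.pg 16 H0.MM22.B)
  have hs := H0.MM22.simple (H0.Pres.pg 16 H0.MM22.B)
  have hc := H0.MM22.card (H0.Pres.pg 16 H0.MM22.B)
  have hp := H0.perfect_of_simple (G := _) (by rw [hc]; exact Nat.not_prime_of_dvd_of_lt (m := 2) (by decide) le_rfl (by decide))
  obtain ⟨e⟩ := (H0.iso_M24 ((H6.ckP 23).fxP 0) [0xba4cd62e3078a9392ac7454241b8a0, 0xbcdf4255c30c14d394c85a5828da40, 0xb8a54b046eac5853b4c85a553811e0, 0xbc0ea332364b892451ebaccad18820, 0xbda8c80cee9112652c4d8d5f32a020, 0xbd8d523cf32c11452da28b06e92420, 0xbc663b089469e126194b4b8b57a020, 0xbcc90ab2cd199eb424e2728b1a4820, 0xb9a323d1af655c41a053558b04ac20, 0xb99d2452a48362f11c6a9d8ac5a420, 0xbd9b4549cc246b04cd67418af10c20, 0xbd874449646244f89dd3518b0ab420, 0xb98965c84d639093d5f09d0aa88c20, 0xbd1463c8684ba0f9918d5d8b514420, 0xbd0e654ab37248c441e28d8a36ac20, 0xb9a36848ea4bc6c14dcbad0ad22020] (by decide +kernel) hs hc (H6.card_stab2 (by decide)) (by decide)).map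 fun e => e.trans (H6.isoM22 (p := H6.pt 23) (q := H6.pt 0) (by decide)).some.symm
  exact H0.hasMult_equiv e (H0.hasCyc_of hp (by decide) (H0.stemElt_mul hp (H0.VM223.stem (H0.Pres.pg 16 H0.MM22.B) hp) (H0.VM224.stem (H0.Pres.pg 16 H0.MM22.B) hp) (by decide))
    (H0.QM22.bound (H0.MM22.m (H0.Pres.pg 16 H0.MM22.B)) (H0.MM22.mR (H0.Pres.pg 16 H0.MM22.B)) (H0.MM22.base (H0.Pres.pg 16 H0.MM22.B)) hc))

end Cfsg.Agent.S2036
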