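import Cfsg.Statements.S2037
import Cfsg.Agent.H0.MM23.Main
import Cfsg.Agent.H0.QM23.Main
import Cfsg.Agent.H0.Mat


set_option autoImplicit false
open Cfsg

namespace Cfsg.Agent.S2037

/-- The Schur multiplier of the Mathieu group M₂₃ (the stabiliser of a point in the automorphism group of the length-24 binary code) is trivial; here the Schur multiplier is described through stem extensions, as in the definitions: surjective homomorphisms onto the group from a finite group, whose kernel is central in that finite group and contained in that finite group's commutator subgroup. -/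
theorem result : Cfsg.HasCyclicSchurMultiplier ↥Cfsg.Spor.M23 1 := by
  have := H0.MM23.fin (H0.Pres.pg 20 H0.MM23.B)
  have hs := H0.MM23.simple (H0.Pres.pg 20 H0.MM23.B)
  have hc := H0.MM23.card (H0.Pres.pg 20 H0.MM23.B)
  have hp := H0.perfect_of_simple (G := _) (by rw [hc]; exact Nat.not_prime_of_dvd_of_lt (m := 2) (by decide) le_rfl (by decide))
  obtain ⟨e⟩ := (H0.iso_M24 (H6.ckP 23) [0xbdab494d013388958d912bced50a00, 0xbb8076997612685ab20a9c9041bc31, 0xbc16d3980915a6a8a1c5a49841bc35, 0xb86a440a257b8c352d333b61464ac0, 0xba1ab11ca1612cf8a87591a9383920, 0xbb50521d6360aafa283691a2e4ce00, 0xbd96f0ba2c1c85024cd4ab547424a0, 0xbd8e853a2ca48d0a94432242b7b660, 0xb916a6ca27989f4332164d5c819420, 0xba0cc7ca296966aad0e482c561b820, 0xbd1877aa33838866a648b54ab10460, 0xb9cd68262f9b97524948a30ad08c40, 0xb920154e35758c511d8892c6f4b680, 0xbba0191e3523c4934c68535962ae80, 0xb983062a34139b35c8a81d9243bea0, 0xba86c81a332b9b45d8480c9e4aa4e0, 0xbccd6a4a2f3b4815a4a880d4eab040, 0xbd073b4a27811c2595487d52d30580, 0xb86637a62ca91c65a8a8b424d150e0,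 0xb9de2a96269b4905aa480b12ea0ec0] (by decide +kernel) hs hc (H6.card_stab1 _) (by decide)).map fun e => e.trans (H6.isoM23 (H6.pt 23)).some.symm
  exact H0.hasMult_equiv e (H0.hasCyc_of hp (by decide) (H0.stemElt_one _)
    (H0.QM23.bound (H0.MM23.m (H0.Pres.pg 20 H0.MM23.B)) (H0.MM23.mR (H0.Pres.pg 20 H0.MM23.B)) (H0.MM23.base (H0.Pres.pg 20 H0.MM23.B)) hc))

end Cfsg.Agent.S2037
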