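import Cfsg.Statements.S2038
import Cfsg.Agent.H0.MM24.Main
import Cfsg.Agent.H0.QM24.Main
import Cfsg.Agent.H0.Mat


set_option autoImplicit false
open Cfsg

namespace Cfsg.Agent.S2038

/-- The Schur multiplier of the Mathieu group M₂₄ (the automorphism group of the length-24 binary code) is trivial; here the Schur multiplier is described through stem extensions, as in the definitions: surjective homomorphisms onto the group from a finite group, whose kernel is central in that finite group and contained in that finite group's commutator subgroup. -/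
theorem result : Cfsg.HasCyclicSchurMultiplier ↥Cfsg.M24 1 := by
  have := H0.MM24.fin (H0.Pres.pg 12 H0.MM24.B)
  have hs := H0.MM24.simple (H0.Pres.pg 12 H0.MM24.B)
  have hc := H0.MM24.card (H0.Pres.pg 12 H0.MM24.B)
  have hp := H0.perfect_of_simple (G := _) (by rw [hc]; exact Nat.not_prime_of_dvd_of_lt (m := 2) (by decide) le_rfl (by decide))
  obtain ⟨e⟩ := (H0.iso_M24 H6.ck_top [0x60c3499a2d03a1759d09548a4b0aaf, 0xa89683514119e0eb81f2612d3495b1, 0x596f22200d4b027ac47474c467da0a, 0x812b454a3732c4574d283bd961b401, 0xbb0b21a0d453db3492b68896783801, 0xba130650e3709b62bd72246aa99801, 0xb8eb06ca347aa6c138c82a4e4b2c01, 0x12de835e70aa4f172ac36b25421420, 0x925e489590aace6b29d46cc4345c20, 0xbdaa894e30799a359cb45392261001, 0xbdaa994dab79a2c80a85239071a820, 0x74decb1a2aaddb4241283c86b28820] (by decide +kernel) hs hc H6.card_top_M24 (by decide)).map fun e => e.trans Subgroup.topEquiv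
  exact H0.hasMult_equiv e (H0.hasCyc_of hp (by decide) (H0.stemElt_one _)
    (H0.QM24.bound (H0.MM24.m (H0.Pres.pg 12 H0.MM24.B)) (H0.MM24.mR (H0.Pres.pg 12 H0.MM24.B)) (H0.MM24.base (H0.Pres.pg 12 H0.MM24.B)) hc))

end Cfsg.Agent.S2038
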