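import Cfsg.Statements.S2039
import Cfsg.Agent.H0.MJ1.Main
import Cfsg.Agent.H0.QJ1.Main
import Cfsg.Agent.H0.IJ1


set_option autoImplicit false
open Cfsg

namespace Cfsg.Agent.S2039

/-- The Schur multiplier of the Janko group J₁ (the group generated by two explicit 7 × 7 matrices over the integers modulo 11) is trivial; here the Schur multiplier is described through stem extensions, as in the definitions: surjective homomorphisms onto the group from a finite group, whose kernel is central in that finite group and contained in that finite group's commutator subgroup. -/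
theorem result : Cfsg.HasCyclicSchurMultiplier ↥Cfsg.Spor.J1 1 := by
  have := H0.MJ1.fin (H0.Pres.pg 8 H0.MJ1.B)
  have hs := H0.MJ1.simple (H0.Pres.pg 8 H0.MJ1.B)
  have hp := H0.perfect_of_simple (G := _) (by rw [H0.MJ1.card (H0.Pres.pg 8 H0.MJ1.B)]; exact Nat.not_prime_of_dvd_of_lt (m := 2) (by decide) le_rfl (by decide))
  obtain ⟨e⟩ := H0.IJ1.iso
  exact H0.hasMult_equiv e (H0.hasCyc_of hp (by decide) (H0.stemElt_one _) (H0.QJ1.bound (H0.MJ1.m (H0.Pres.pg 8 H0.MJ1.B)) (H0.MJ1.mR (H0.Pres.pg 8 H0.MJ1.B)) (H0.MJ1.base (H0.Pres.pg 8 H0.MJ1.B)) (H0.MJ1.card (H0.Pres.pg 8 H0.MJ1.B))))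

end Cfsg.Agent.S2039
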