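import Cfsg.Statements.S2040
import Cfsg.Agent.H0.Ico5
import Cfsg.Agent.H0.QJ2p.Main


set_option autoImplicit false
open Cfsg

namespace Cfsg.Agent.S2040

/-- The Schur multiplier of the Hall–Janko group J₂ (the icosian reflection group modulo its centre) is cyclic of order 2; here the Schur multiplier is described through stem extensions, as in the definitions: surjective homomorphisms onto the group from a finite group, whose kernel is central in that finite group and contained in that finite group's commutator subgroup. -/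
theorem result : Cfsg.HasCyclicSchurMultiplier Cfsg.Spor.J2 2 := by
  have := H0.MJ2p.fin (H0.Pres.pg 12 H0.MJ2p.B)
  obtain ⟨e⟩ := H0.Ico.iso
  exact H0.hasMult_equiv e (H0.hasCyc_of H0.Ico.perf (by decide) H0.Ico.stem (H0.QJ2p.bound (H0.MJ2p.m (H0.Pres.pg 12 H0.MJ2p.B)) (H0.MJ2p.mR (H0.Pres.pg 12 H0.MJ2p.B)) (H0.MJ2p.base (H0.Pres.pg 12 H0.MJ2p.B)) (H0.MJ2p.card (H0.Pres.pg 12 H0.MJ2p.B))))

end Cfsg.Agent.S2040
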