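import Cfsg.Statements.S2041
import Cfsg.Agent.H0.MJ3.Main
import Cfsg.Agent.H0.QJ3.Main
import Cfsg.Agent.H0.IJ3


set_option autoImplicit false
open Cfsg

namespace Cfsg.Agent.S2041

/-- For any field with 4 elements and any element ω of it with ω² + ω + 1 = 0: the Schur multiplier of the Janko group J₃ (the group generated by explicit 9 × 9 matrices over that field built from ω, taken modulo its centre) is cyclic of order 3; here the Schur multiplier is described through stem extensions, as in the definitions: surjective homomorphisms onto the group from a finite group, whose kernel is central in that finite group and contained in that finite group's commutator subgroup. -/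
theorem result {F : Type*} [Field F] [Fintype F] (hF : Fintype.card F = 4) (ω : F) (hω : ω ^ 2 + ω + 1 = 0) : Cfsg.HasCyclicSchurMultiplier (Cfsg.Spor.J3 F ω) 3 := by
  have := H0.MJ3.fin (H0.Pres.pg 8 H0.MJ3.B)
  have hs := H0.MJ3.simple (H0.Pres.pg 8 H0.MJ3.B)
  have hp := H0.perfect_of_simple (G := _) (by rw [H0.MJ3.card (H0.Pres.pg 8 H0.MJ3.B)]; exact Nat.not_prime_of_dvd_of_lt (m := 2) (by decide) le_rfl (by decide))
  obtain ⟨e⟩ := H0.IJ3.iso hF hω
  exact H0.hasMult_equiv e (H0.hasCyc_of hp (by decide) H0.IJ3.stem (H0.QJ3.bound (H0.MJ3.m (H0.Pres.pg 8 H0.MJ3.B)) (H0.MJ3.mR (H0.Pres.pg 8 H0.MJ3.B)) (H0.MJ3.base (H0.Pres.pg 8 H0.MJ3.B)) (H0.MJ3.card (H0.Pres.pg 8 H0.MJ3.B))))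

end Cfsg.Agent.S2041
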