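import Cfsg.Statements.S2043
import Cfsg.Agent.H6.Co1
import Cfsg.Agent.H0.QCo1.Main
import Cfsg.Agent.H6.StemCo1


set_option autoImplicit false
open Cfsg

namespace Cfsg.Agent.S2043

/-- The Schur multiplier of the Conway group Co₁ (the automorphism group of the rank-24 lattice modulo its centre) is cyclic of order 2; here the Schur multiplier is described through stem extensions, as in the definitions: surjective homomorphisms onto the group from a finite group, whose kernel is central in that finite group and contained in that finite group's commutator subgroup. -/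
theorem result : Cfsg.HasCyclicSchurMultiplier Cfsg.Spor.Co1 2 := by
  haveI := H6M.MCo1.fin H6.PCo1
  haveI := H6.simple_Co1
  have hp := H0.perfect_of_simple (G := _) (by rw [H6M.MCo1.card H6.PCo1]; exact Nat.not_prime_of_dvd_of_lt (m := 2) (by decide) le_rfl (by decide))
  exact H0.hasCyc_of hp (by decide) H6.stemCo1 (H0.QCo1.bound (H6M.MCo1.m H6.PCo1) (H6M.MCo1.mR H6.PCo1) (H6M.MCo1.base H6.PCo1) (H6M.MCo1.card H6.PCo1))

end Cfsg.Agent.S2043
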