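import Cfsg.Statements.S2045
import Cfsg.Agent.H6.CoSub
import Cfsg.Agent.H0.QCo3.Main


set_option autoImplicit false
open Cfsg

namespace Cfsg.Agent.S2045

/-- The Schur multiplier of the Conway group Co₃ (the stabiliser of a vector of the second shortest length in the rank-24 lattice) is trivial; here the Schur multiplier is described through stem extensions, as in the definitions: surjective homomorphisms onto the group from a finite group, whose kernel is central in that finite group and contained in that finite group's commutator subgroup. -/
theorem result : Cfsg.HasCyclicSchurMultiplier ↥Cfsg.Spor.Co3 1 := by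
  haveI := H6M.MCo3.fin H6.PCo3
  haveI := H6.simple_Co3
  have hp := H0.perfect_of_simple (G := _) (by rw [H6M.MCo3.card H6.PCo3]; exact Nat.not_prime_of_dvd_of_lt (m := 2) (by decide) le_rfl (by decide))
  exact H0.hasCyc_of hp (by decide) (H0.stemElt_one _) (H0.QCo3.bound (H6M.MCo3.m H6.PCo3) (H6M.MCo3.mR H6.PCo3) (H6M.MCo3.base H6.PCo3) (H6M.MCo3.card H6.PCo3))

end Cfsg.Agent.S2045
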