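import Cfsg.Statements.S2046
import Cfsg.Agent.H6.CoSub
import Cfsg.Agent.H0.QHS.Main
import Cfsg.Agent.H0.EHS.Main
import Cfsg.Agent.H0.VHSp2.Main


set_option autoImplicit false
open Cfsg

namespace Cfsg.Agent.S2046

/-- The Schur multiplier of the Higman–Sims group (as a two-vector stabiliser in the automorphism group of the rank-24 lattice) is cyclic of order 2; here the Schur multiplier is described through stem extensions, as in the definitions: surjective homomorphisms onto the group from a finite group, whose kernel is central in that finite group and contained in that finite group's commutator subgroup. -/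
theorem result : Cfsg.HasCyclicSchurMultiplier ↥Cfsg.Spor.HS 2 := by
  haveI := H6M.MHS.fin H6.PHS
  haveI := H6.simple_HS
  have hp := H0.perfect_of_simple (G := _) (by rw [H6M.MHS.card H6.PHS]; exact Nat.not_prime_of_dvd_of_lt (m := 2) (by decide) le_rfl (by decide))
  obtain ⟨e⟩ := H0.iso_top (H0.EHS.A_iso (H6M.MHS.m H6.PHS) (H6M.MHS.mR H6.PHS) (H6M.MHS.base H6.PHS) (H6M.MHS.card H6.PHS)) (H0.MHSp.card (H0.Pres.pg 12 H0.MHSp.B)) (H6M.MHS.card H6.PHS) (by decide)
  exact H0.hasCyc_of hp (by decide) (H0.VHSp2.stem ((H0.Pres.pg 12 H0.MHSp.B).congr e) hp) (H0.QHS.bound (H6M.MHS.m H6.PHS) (H6M.MHS.mR H6.PHS) (H6M.MHS.base H6.PHS) (H6M.MHS.card H6.PHS))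

end Cfsg.Agent.S2046
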