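import Cfsg.Statements.S2047
import Cfsg.Agent.H6.CoSub
import Cfsg.Agent.H0.QMcL.Main
import Cfsg.Agent.H0.EMcL.Main
import Cfsg.Agent.H0.VMcLp3.Main


set_option autoImplicit false
open Cfsg

namespace Cfsg.Agent.S2047

/-- The Schur multiplier of the McLaughlin group (as a two-vector stabiliser in the automorphism group of the rank-24 lattice) is cyclic of order 3; here the Schur multiplier is described through stem extensions, as in the definitions: surjective homomorphisms onto the group from a finite group, whose kernel is central in that finite group and contained in that finite group's commutator subgroup. -/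
theorem result : Cfsg.HasCyclicSchurMultiplier ↥Cfsg.Spor.McL 3 := by
  haveI := H6M.MMcL.fin H6.PMcL
  haveI := H6.simple_McL
  have hp := H0.perfect_of_simple (G := _) (by rw [H6M.MMcL.card H6.PMcL]; exact Nat.not_prime_of_dvd_of_lt (m := 2) (by decide) le_rfl (by decide))
  obtain ⟨e⟩ := H0.iso_top (H0.EMcL.A_iso (H6M.MMcL.m H6.PMcL) (H6M.MMcL.mR H6.PMcL) (H6M.MMcL.base H6.PMcL) (H6M.MMcL.card H6.PMcL)) (H0.MMcLp.card (H0.Pres.pg 15 H0.MMcLp.B)) (H6M.MMcL.card H6.PMcL) (by decide)
  exact H0.hasCyc_of hp (by decide) (H0.VMcLp3.stem ((H0.Pres.pg 15 H0.MMcLp.B).congr e) hp) (H0.QMcL.bound (H6M.MMcL.m H6.PMcL) (H6M.MMcL.mR H6.PMcL) (H6M.MMcL.base H6.PMcL) (H6M.MMcL.card H6.PMcL))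

end Cfsg.Agent.S2047
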