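import Cfsg.Statements.S2048
import Cfsg.Agent.H0.PSuz
import Cfsg.Agent.H0.QSuz.Main
import Cfsg.Agent.H0.VSuz2.Main
import Cfsg.Agent.H0.VSuz3.Main


set_option autoImplicit false
open Cfsg

namespace Cfsg.Agent.S2048

/-- The Schur multiplier of the Suzuki sporadic group (the finitely presented group of the definitions) is cyclic of order 6; here the Schur multiplier is described through stem extensions, as in the definitions: surjective homomorphisms onto the group from a finite group, whose kernel is central in that finite group and contained in that finite group's commutator subgroup. -/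
theorem result : Cfsg.HasCyclicSchurMultiplier Cfsg.Spor.Suz 6 := by
  haveI := H0.MSuz.fin H0.PSuz.P
  haveI := H0.MSuz.simple H0.PSuz.P
  have hp := H0.perfect_of_simple (G := _) (by rw [H0.MSuz.card H0.PSuz.P]; exact Nat.not_prime_of_dvd_of_lt (m := 2) (by decide) le_rfl (by decide))
  exact H0.hasCyc_of hp (by decide) (H0.stemElt_mul hp (H0.VSuz2.stem H0.PSuz.P hp) (H0.VSuz3.stem H0.PSuz.P hp) (by decide))
    (H0.QSuz.bound (H0.MSuz.m H0.PSuz.P) (H0.MSuz.mR H0.PSuz.P) (H0.MSuz.base H0.PSuz.P) (H0.MSuz.card H0.PSuz.P))

end Cfsg.Agent.S2048
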