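import Cfsg.Statements.S2049
import Cfsg.Agent.H0.PHe
import Cfsg.Agent.H0.QHe.Main


set_option autoImplicit false
open Cfsg

namespace Cfsg.Agent.S2049

/-- The Schur multiplier of the Held group (the finitely presented group of the definitions) is trivial; here the Schur multiplier is described through stem extensions, as in the definitions: surjective homomorphisms onto the group from a finite group, whose kernel is central in that finite group and contained in that finite group's commutator subgroup. -/
theorem result : Cfsg.HasCyclicSchurMultiplier Cfsg.Spor.He 1 := by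
  haveI := H0.MHe.fin H0.PHe.P
  haveI := H0.MHe.simple H0.PHe.P
  have hp := H0.perfect_of_simple (G := _) (by rw [H0.MHe.card H0.PHe.P]; exact Nat.not_prime_of_dvd_of_lt (m := 2) (by decide) le_rfl (by decide))
  exact H0.hasCyc_of hp (by decide) (H0.stemElt_one _)
    (H0.QHe.bound (H0.MHe.m H0.PHe.P) (H0.MHe.mR H0.PHe.P) (H0.MHe.base H0.PHe.P) (H0.MHe.card H0.PHe.P))

end Cfsg.Agent.S2049
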