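import Cfsg.Statements.S2051
import Cfsg.Agent.H0.MRu.Main
import Cfsg.Agent.H0.QRu.Main
import Cfsg.Agent.H0.Ru.Iso


set_option autoImplicit false
open Cfsg

namespace Cfsg.Agent.S2051

/-- The Schur multiplier of the Rudvalis group (the unitary automorphism group of the rank-28 Gaussian lattice modulo its centre) is cyclic of order 2; here the Schur multiplier is described through stem extensions, as in the definitions: surjective homomorphisms onto the group from a finite group, whose kernel is central in that finite group and contained in that finite group's commutator subgroup. -/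
theorem result : Cfsg.HasCyclicSchurMultiplier Cfsg.Spor.Ru 2 := by
  have := H0.MRu.fin (H0.Pres.pg 12 H0.MRu.B)
  have hs := H0.MRu.simple (H0.Pres.pg 12 H0.MRu.B)
  have hp := H0.perfect_of_simple (G := _) (by rw [H0.MRu.card (H0.Pres.pg 12 H0.MRu.B)]; exact Nat.not_prime_of_dvd_of_lt (m := 2) (by decide) le_rfl (by decide))
  obtain ⟨e⟩ := H0.Ru.iso
  exact H0.hasMult_equiv e (H0.hasCyc_of hp (by decide) H0.Ru.stem (H0.QRu.bound (H0.MRu.m (H0.Pres.pg 12 H0.MRu.B)) (H0.MRu.mR (H0.Pres.pg 12 H0.MRu.B)) (H0.MRu.base (H0.Pres.pg 12 H0.MRu.B)) (H0.MRu.card (H0.Pres.pg 12 H0.MRu.B))))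

end Cfsg.Agent.S2051
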