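import Cfsg.Statements.S2053
import Cfsg.Agent.H0.PFi22
import Cfsg.Agent.H0.QFi22.Main
import Cfsg.Agent.H0.VFi222.Main
import Cfsg.Agent.H0.VFi223.Main


set_option autoImplicit false
open Cfsg

namespace Cfsg.Agent.S2053

/-- The Schur multiplier of the Fischer group Fi₂₂ (the finitely presented group of the definitions) is cyclic of order 6; here the Schur multiplier is described through stem extensions, as in the definitions: surjective homomorphisms onto the group from a finite group, whose kernel is central in that finite group and contained in that finite group's commutator subgroup. -/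
theorem result : Cfsg.HasCyclicSchurMultiplier Cfsg.Spor.Fi22 6 := by
  haveI := H0.MFi22.fin H0.PFi22.P
  haveI := H0.MFi22.simple H0.PFi22.P
  have hp := H0.perfect_of_simple (G := _) (by rw [H0.MFi22.card H0.PFi22.P]; exact Nat.not_prime_of_dvd_of_lt (m := 2) (by decide) le_rfl (by decide))
  exact H0.hasCyc_of hp (by decide) (H0.stemElt_mul hp (H0.VFi222.stem H0.PFi22.P hp) (H0.VFi223.stem H0.PFi22.P hp) (by decide))
    (H0.QFi22.bound (H0.MFi22.m H0.PFi22.P) (H0.MFi22.mR H0.PFi22.P) (H0.MFi22.base H0.PFi22.P) (H0.MFi22.card H0.PFi22.P))

end Cfsg.Agent.S2053
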