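import Cfsg.Statements.S2086
import Cfsg.Agent.H5.GM7
import Cfsg.Agent.H5.GL1

set_option autoImplicit false
open Cfsg

namespace Cfsg.Agent.S2086

open H5.Gen

/-- Schur multipliers of the linear groups: for n ≥ 2 and a field F with q elements (q ≥ 4 when n = 2), apart from the five exceptional pairs (n, q) = (2, 4), (2, 9), (3, 2), (3, 4), (4, 2), the Schur multiplier of PSL_n(F) is cyclic of order gcd(n, q − 1); here the Schur multiplier is described through stem extensions, as in the definitions. -/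
theorem result {F : Type*} [Field F] [Fintype F] {q : ℕ} (hF : Fintype.card F = q) (n : ℕ) (hn : 2 ≤ n) (h2 : n = 2 → 4 ≤ q) (hexc : (n, q) ∉ ({(2, 4), (2, 9), (3, 2), (3, 4), (4, 2)} : Set (ℕ × ℕ))) : Cfsg.HasCyclicSchurMultiplier (Matrix.ProjectiveSpecialLinearGroup (Fin n) F) (Nat.gcd n (q - 1)) := by
  obtain ⟨n, rfl⟩ : ∃ k, n = k + 1 := ⟨n - 1, by omega⟩
  have : NeZero n := ⟨by omega⟩
  obtain ⟨-, -, -, h3, h4⟩ := squeeze_A (n := n) (F := F)
  rw [Nat.card_eq_fintype_card (α := F), hF] at h4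
  simp only [Set.mem_insert_iff, Prod.mk.injEq, Set.mem_singleton_iff] at hexc
  by_cases e : n = 1
  · subst e
    obtain ⟨v, h0, hv⟩ := exists_sq_ne (F := F) (by omega)
    exact adjPSL.hasCyc (StSys.perfect_of _ scSys_top fun r => StSys.x_mem_comm_H _ (γ := r) h0
      (by rw [pair_self]; exact_mod_cast hv))
      (fun E _ ψ hψ => lifts_A1 hψ adjPSL.hmul h0 hv (by omega) (by omega)) hp_inj_A h3 h4
  refine adjPSL.hasCyc (StSys.perfect_of _ scSys_top fun r =>
    let ⟨_, h⟩ := prA_A (by omega) r; StSys.x_mem_comm_A _ h)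
    (fun E _ ψ hψ => lifts_A hψ adjPSL.hmul (by omega) (fun h => ?_) fun h5 h6 => exists_cube_ne ?_)
    hp_inj_A h3 h4
  · have := card_of_two h; omega
  · have : CharP F 2 := CharTwo.of_one_ne_zero_of_two_eq_zero one_ne_zero h6
    have := FiniteField.even_card_of_char_two (F := F) (ringChar.eq F 2)
    have := Fintype.one_lt_card (α := F)
    omega

end Cfsg.Agent.S2086
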