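import Cfsg.Statements.S2087
import Cfsg.Agent.H0.ML32.Main
import Cfsg.Agent.H0.QL32.Main
import Cfsg.Agent.H0.IL32
import Cfsg.Agent.H0.VL322.Main


set_option autoImplicit false
open Cfsg

namespace Cfsg.Agent.S2087

/-- Exceptional Schur multiplier: over the field with 2 elements, PSL₃ has Schur multiplier cyclic of order 2 (here the Schur multiplier is described through stem extensions, as in the definitions). -/
theorem result {F : Type*} [Field F] [Fintype F] (hF : Fintype.card F = 2) : Cfsg.HasCyclicSchurMultiplier (Matrix.ProjectiveSpecialLinearGroup (Fin 3) F) 2 := by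
  have := H0.ML32.fin (H0.Pres.pg 8 H0.ML32.B)
  have hs := H0.ML32.simple (H0.Pres.pg 8 H0.ML32.B)
  have hp := H0.perfect_of_simple (G := _) (by rw [H0.ML32.card (H0.Pres.pg 8 H0.ML32.B)]; exact Nat.not_prime_of_dvd_of_lt (m := 2) (by decide) le_rfl (by decide))
  obtain ⟨e⟩ := H0.IL32.iso
  exact H0.hasMult_equiv (e.trans (H0.cenEquiv (H0.slEquiv (H0.fe (ZMod 2) hF (ZMod.card 2))))) (H0.hasCyc_of hp (by decide) (H0.VL322.stem (H0.Pres.pg 8 H0.ML32.B) hp) (H0.QL32.bound (H0.ML32.m (H0.Pres.pg 8 H0.ML32.B)) (H0.ML32.mR (H0.Pres.pg 8 H0.ML32.B)) (H0.ML32.base (H0.Pres.pg 8 H0.ML32.B)) (H0.ML32.card (H0.Pres.pg 8 H0.ML32.B))))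

end Cfsg.Agent.S2087
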