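import Cfsg.Statements.S2090
import Cfsg.Agent.H0.MU43.Main
import Cfsg.Agent.H0.QU43.Main
import Cfsg.Agent.H0.IU43
import Cfsg.Agent.H0.WU43.Main


set_option autoImplicit false
open Cfsg

namespace Cfsg.Agent.S2090

/-- Exceptional Schur multiplier: PSU₄(3), realised over the field with 9 elements, has Schur multiplier isomorphic to the product of cyclic groups of orders 4, 3 and 3 (order 36, not cyclic; here the Schur multiplier is described through stem extensions, as in the definitions). -/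
theorem result {F : Type*} [Field F] [Fintype F] (hF : Fintype.card F = 9) : Cfsg.HasSchurMultiplier (Cfsg.PSU 4 F 3) (Multiplicative (ZMod 4 × ZMod 3 × ZMod 3)) := by
  have := H0.MU43.fin (H0.Pres.pg 13 H0.MU43.B)
  have hs := H0.MU43.simple (H0.Pres.pg 13 H0.MU43.B)
  have hp := H0.perfect_of_simple (G := _) (by rw [H0.MU43.card (H0.Pres.pg 13 H0.MU43.B)]; exact Nat.not_prime_of_dvd_of_lt (m := 2) (by decide) le_rfl (by decide))
  obtain ⟨e⟩ := H0.IU43.iso
  exact H0.hasMult_equiv (e.trans (H0.cenEquiv (H0.suEquiv (H0.fe H0.G9 hF H0.c9) 4 3))) (H0.hasMult_of hp (H0.WU43.stem (H0.Pres.pg 13 H0.MU43.B) hp) fun Γ _ _ σ hσ => (H0.QU43.bound (H0.MU43.m (H0.Pres.pg 13 H0.MU43.B)) (H0.MU43.mR (H0.Pres.pg 13 H0.MU43.B)) (H0.MU43.base (H0.Pres.pg 13 H0.MU43.B)) (H0.MU43.card (H0.Pres.pg 13 H0.MU43.B)) Γ σ hσ).trans (dvd_of_eq (H0.card3 4 3 3).symm))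

end Cfsg.Agent.S2090
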