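import Cfsg.Statements.S2091
import Cfsg.Agent.H0.MU62.Main
import Cfsg.Agent.H0.QU62.Main
import Cfsg.Agent.H0.IU62
import Cfsg.Agent.H0.WU62.Main


set_option autoImplicit false
open Cfsg

namespace Cfsg.Agent.S2091

/-- Exceptional Schur multiplier: PSU₆(2), realised over the field with 4 elements, has Schur multiplier isomorphic to the product of cyclic groups of orders 3, 2 and 2 (order 12, not cyclic; here the Schur multiplier is described through stem extensions, as in the definitions). -/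
theorem result {F : Type*} [Field F] [Fintype F] (hF : Fintype.card F = 4) : Cfsg.HasSchurMultiplier (Cfsg.PSU 6 F 2) (Multiplicative (ZMod 3 × ZMod 2 × ZMod 2)) := by
  have := H0.MU62.fin (H0.Pres.pg 16 H0.MU62.B)
  have hs := H0.MU62.simple (H0.Pres.pg 16 H0.MU62.B)
  have hp := H0.perfect_of_simple (G := _) (by rw [H0.MU62.card (H0.Pres.pg 16 H0.MU62.B)]; exact Nat.not_prime_of_dvd_of_lt (m := 2) (by decide) le_rfl (by decide))
  obtain ⟨e⟩ := H0.IU62.iso
  exact H0.hasMult_equiv (e.trans (H0.cenEquiv (H0.suEquiv (H0.fe H0.G4 hF H0.c4) 6 2))) (H0.hasMult_of hp (H0.WU62.stem (H0.Pres.pg 16 H0.MU62.B) hp) fun Γ _ _ σ hσ => (H0.QU62.bound (H0.MU62.m (H0.Pres.pg 16 H0.MU62.B)) (H0.MU62.mR (H0.Pres.pg 16 H0.MU62.B)) (H0.MU62.base (H0.Pres.pg 16 H0.MU62.B)) (H0.MU62.card (H0.Pres.pg 16 H0.MU62.B)) Γ σ hσ).trans (dvd_of_eq (H0.card3 3 2 2).symm))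

end Cfsg.Agent.S2091
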