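import Cfsg.Statements.S2093
import Cfsg.Agent.H0.MS62.Main
import Cfsg.Agent.H0.QS62.Main
import Cfsg.Agent.H0.IS62
import Cfsg.Agent.H0.VS622.Main


set_option autoImplicit false
open Cfsg

namespace Cfsg.Agent.S2093

/-- Exceptional Schur multiplier: over the field with 2 elements, PSp₆ has Schur multiplier cyclic of order 2 (here the Schur multiplier is described through stem extensions, as in the definitions). -/
theorem result {F : Type*} [Field F] [Fintype F] (hF : Fintype.card F = 2) : Cfsg.HasCyclicSchurMultiplier (Cfsg.PSp 3 F) 2 := by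
  have := H0.MS62.fin (H0.Pres.pg 15 H0.MS62.B)
  have hs := H0.MS62.simple (H0.Pres.pg 15 H0.MS62.B)
  have hp := H0.perfect_of_simple (G := _) (by rw [H0.MS62.card (H0.Pres.pg 15 H0.MS62.B)]; exact Nat.not_prime_of_dvd_of_lt (m := 2) (by decide) le_rfl (by decide))
  obtain ⟨e⟩ := H0.IS62.isoP
  exact H0.hasMult_equiv (e.trans (H0.cenEquiv (H0.spEquiv (H0.fe (ZMod 2) hF (ZMod.card 2)) 3))) (H0.hasCyc_of hp (by decide) (H0.VS622.stem (H0.Pres.pg 15 H0.MS62.B) hp) (H0.QS62.bound (H0.MS62.m (H0.Pres.pg 15 H0.MS62.B)) (H0.MS62.mR (H0.Pres.pg 15 H0.MS62.B)) (H0.MS62.base (H0.Pres.pg 15 H0.MS62.B)) (H0.MS62.card (H0.Pres.pg 15 H0.MS62.B))))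

end Cfsg.Agent.S2093
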