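import Cfsg.Statements.S2094
import Cfsg.Agent.H5.GM7
import Cfsg.Agent.H5.GL6

set_option autoImplicit false
open Cfsg

namespace Cfsg.Agent.S2094

open H5.Gen

/-- Schur multipliers of the odd-dimensional orthogonal groups: for m ≥ 3 and a field F of odd order q with (m, q) ≠ (3, 3), the Schur multiplier of PΩ_(2m+1)(F) (for the form x₀² + Σ xᵢyᵢ) is cyclic of order 2 = gcd(2, q − 1); here the Schur multiplier is described through stem extensions, as in the definitions. -/
theorem result {F : Type*} [Field F] [Fintype F] {q : ℕ} (hF : Fintype.card F = q) (hq : Odd q) (m : ℕ) (hm : 3 ≤ m) (hexc : ¬ (m = 3 ∧ q = 3)) : Cfsg.HasCyclicSchurMultiplier (Cfsg.POmega F (Cfsg.quadFormOdd m F)) 2 := by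
  have : NeZero m := ⟨by omega⟩
  have h2 : (2 : F) ≠ 0 := fun h6 => by
    have : CharP F 2 := CharTwo.of_one_ne_zero_of_two_eq_zero one_ne_zero h6
    have := FiniteField.even_card_of_char_two (F := F) (ringChar.eq F 2)
    obtain ⟨k, hk⟩ := hq
    omega
  have hm1 : (-1 : F) ≠ 1 := fun e => h2 (by linear_combination -e)
  have : Fact (∃ a : F, a ≠ 0 ∧ a ≠ 1) := ⟨⟨-1, by simp, hm1⟩⟩
  obtain ⟨-, -, -, h3, h4⟩ := squeeze_B (m := m) (F := F)
  rw [Nat.card_eq_fintype_card (α := F), hF, Nat.gcd_eq_left (by obtain ⟨k, hk⟩ := hq; omega)] at h4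
  have h5 : 2 ≤ m := by omega
  refine (adjPOo (F := F) h5).hasCyc (StSys.perfect_of _ scSys_top fun r =>
    let ⟨γ, _, h⟩ := one_B hm r; StSys.x_mem_comm_H _ (γ := γ) (v := (-1 : F)) (by simp) (by simpa [h] using hm1))
    (fun E _ ψ hψ => lifts_B hψ (adjPOo (F := F) h5).hmul hm h2 fun a b => ?_) hp_inj_B h3 h4
  have := card_of_three a b
  have := Fintype.one_lt_card (α := F)
  obtain ⟨k, hk⟩ := hq
  omega

end Cfsg.Agent.S2094
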