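import Cfsg.Statements.S2095
import Cfsg.Agent.H0.MO73.Main
import Cfsg.Agent.H0.QO73.Main
import Cfsg.Agent.H0.IO73
import Cfsg.Agent.H0.VO732.Main
import Cfsg.Agent.H0.VO733.Main


set_option autoImplicit false
open Cfsg

namespace Cfsg.Agent.S2095

/-- Exceptional Schur multiplier: over the field with 3 elements, PΩ₇ (for the form x₀² + Σ xᵢyᵢ) has Schur multiplier cyclic of order 6 (the product of cyclic groups of orders 3 and 2; here the Schur multiplier is described through stem extensions, as in the definitions). -/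
theorem result {F : Type*} [Field F] [Fintype F] (hF : Fintype.card F = 3) : Cfsg.HasCyclicSchurMultiplier (Cfsg.POmega F (Cfsg.quadFormOdd 3 F)) 6 := by
  have := H0.MO73.fin (H0.Pres.pg 16 H0.MO73.B)
  have hs := H0.MO73.simple (H0.Pres.pg 16 H0.MO73.B)
  have hp := H0.perfect_of_simple (G := _) (by rw [H0.MO73.card (H0.Pres.pg 16 H0.MO73.B)]; exact Nat.not_prime_of_dvd_of_lt (m := 2) (by decide) le_rfl (by decide))
  obtain ⟨e⟩ := H0.IO73.iso
  exact H0.hasMult_equiv (e.trans (H0.oddEquiv (H0.fe (ZMod 3) hF (ZMod.card 3)) 3)) (H0.hasCyc_of hp (by decide) (H0.stemElt_mul hp (H0.VO732.stem (H0.Pres.pg 16 H0.MO73.B) hp) (H0.VO733.stem (H0.Pres.pg 16 H0.MO73.B) hp) (by decide)) (H0.QO73.bound (H0.MO73.m (H0.Pres.pg 16 H0.MO73.B)) (H0.MO73.mR (H0.Pres.pg 16 H0.MO73.B)) (H0.MO73.base (H0.Pres.pg 16 H0.MO73.B)) (H0.MO73.card (H0.Pres.pg 16 H0.MO73.B))))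

end Cfsg.Agent.S2095
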