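import Cfsg.Statements.S2096
import Cfsg.Agent.H5.GM7
import Cfsg.Agent.H5.GL4

set_option autoImplicit false
open Cfsg

namespace Cfsg.Agent.S2096

open H5.Gen

/-- Schur multipliers of the even-dimensional orthogonal groups of plus type and odd rank: for odd l ≥ 5 and a field F with q elements, the Schur multiplier of PΩ⁺_2l(F) (for the form Σ xᵢyᵢ) is cyclic of order gcd(4, q^l − 1); here the Schur multiplier is described through stem extensions, as in the definitions. -/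
theorem result {F : Type*} [Field F] [Fintype F] {q : ℕ} (hF : Fintype.card F = q) (l : ℕ) (hl : 5 ≤ l) (hodd : Odd l) : Cfsg.HasCyclicSchurMultiplier (Cfsg.POmega F (Cfsg.quadFormPlus l F)) (Nat.gcd 4 (q ^ l - 1)) := by
  obtain ⟨n, rfl⟩ : ∃ k, l = k + 2 := ⟨l - 2, by omega⟩
  have : NeZero n := ⟨by omega⟩
  obtain ⟨-, -, h3, h4⟩ := squeeze_D_odd (n := n) (F := F) (by simpa [Nat.odd_add] using hodd)
  rw [Nat.card_eq_fintype_card (α := F), hF] at h4
  refine adjPOp.hasCyc (StSys.perfect_of _ scSys_top fun r =>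
    let ⟨_, h⟩ := prA_D (by omega) r; StSys.x_mem_comm_A _ h)
    (fun E _ ψ hψ => lifts_D hψ adjPOp.hmul (by omega) fun _ => by omega) hp_inj_D h3 (h4.trans ?_)
  have h1 : 1 ≤ q := hF ▸ Fintype.card_pos
  obtain ⟨k, hk⟩ := hodd
  have h2 : q ^ (n + 2) % 4 = q % 4 ∨ q ^ (n + 2) % 2 = 0 ∧ q % 2 = 0 := by
    rw [hk, pow_succ, pow_mul]
    have : q % 4 < 4 := Nat.mod_lt _ (by norm_num)
    by_cases e : q % 2 = 0
    · exact Or.inr ⟨by simp [Nat.mul_mod, e], e⟩
    · have : q ^ 2 % 4 = 1 := by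
        rw [Nat.pow_mod]; interval_cases h : q % 4 <;> first | rfl | omega
      exact Or.inl (by simp [Nat.mul_mod, Nat.pow_mod, this])
  have h5 : 1 ≤ q ^ (n + 2) := Nat.one_le_pow _ _ h1
  generalize q ^ (n + 2) = a at *
  rw [Nat.gcd_rec 4 (q - 1), Nat.gcd_rec 4 (a - 1)]
  have : (q - 1) % 4 = (a - 1) % 4 ∨ ((q - 1) % 4 = 1 ∨ (q - 1) % 4 = 3) ∧
    ((a - 1) % 4 = 1 ∨ (a - 1) % 4 = 3) := by omega
  rcases this with h | ⟨h | h, h' | h'⟩ <;> simp [*]

end Cfsg.Agent.S2096
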