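import Cfsg.Statements.S2097
import Cfsg.Agent.H5.GM7
import Cfsg.Agent.H5.GL4

set_option autoImplicit false
open Cfsg

namespace Cfsg.Agent.S2097

open H5.Gen

/-- Schur multipliers of the even-dimensional orthogonal groups of plus type and even rank: for even l ≥ 4 and a field F with q elements, (l, q) ≠ (4, 2), the Schur multiplier of PΩ⁺_2l(F) (for the form Σ xᵢyᵢ) is the product of two cyclic groups of order gcd(2, q^l − 1) (so trivial for q even and a four-group for q odd; here the Schur multiplier is described through stem extensions, as in the definitions). -/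
theorem result {F : Type*} [Field F] [Fintype F] {q : ℕ} (hF : Fintype.card F = q) (l : ℕ) (hl : 4 ≤ l) (heven : Even l) (hexc : ¬ (l = 4 ∧ q = 2)) : Cfsg.HasSchurMultiplier (Cfsg.POmega F (Cfsg.quadFormPlus l F)) (Multiplicative (ZMod (Nat.gcd 2 (q ^ l - 1)) × ZMod (Nat.gcd 2 (q ^ l - 1)))) := by
  obtain ⟨n, rfl⟩ : ∃ k, l = k + 2 := ⟨l - 2, by omega⟩
  have : NeZero n := ⟨by omega⟩
  have hn : Even n := by simpa [Nat.even_add] using heven
  have h4 := card_ker_D_even (n := n) (F := F) hn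
  have e : ∀ c : (chiHom (ambD n).rs F).ker, chiS (ambD n).rs F c.1 = 1 := fun c =>
    (ker_chiS (D := (ambD n).rs) (F := F)).ge c.2
  let ψ : (chiHom (ambD n).rs F).ker →* PwR F 2 × PwR F 2 := MonoidHom.prod
    (((cw ((ambD n).wy ((2 : ℤ) • uv 0))).comp (Subgroup.subtype _)).codRestrict _
      fun c => by simpa [e] using (aD1_chiS c.1).symm)
    (((cw ((ambD n).wy (cum (n + 2)))).comp (Subgroup.subtype _)).codRestrict _
      fun c => by simpa [e] using (aD2_chiS hn c.1).symm)
  have h5 : Function.Bijective ψ := (Nat.bijective_iff_injective_and_card _).2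
    ⟨(injective_iff_map_eq_one _).2 fun c hc => Subtype.ext (eq_one_D c.2 (k := 0)
      ⟨by simpa using (natD n).mem_Wl (.inl 0), congrArg (·.1.1) hc⟩ ⟨cum_mem_Wl, congrArg (·.2.1) hc⟩),
      by rw [h4, Nat.card_prod, card_PwR]⟩
  have h6 : Nat.card (PwR F 2) = Nat.gcd 2 (q ^ (n + 2) - 1) := by
    rw [card_PwR, Nat.card_eq_fintype_card, hF]
    have h1 : 1 ≤ q := hF ▸ Fintype.card_pos
    have h2 : q ^ (n + 2) % 2 = q % 2 := by
      rcases Nat.mod_two_eq_zero_or_one q with h | h <;> simp [Nat.pow_mod, h]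
    have h5 : 1 ≤ q ^ (n + 2) := Nat.one_le_pow _ _ h1
    rw [Nat.gcd_rec 2 (q - 1), Nat.gcd_rec 2 (q ^ _ - 1)]
    congr 1
    omega
  have e1 : PwR F 2 ≃* Multiplicative (ZMod (Nat.gcd 2 (q ^ (n + 2) - 1))) := mulEquivOfCyclicCardEq
    (h6.trans ((Nat.card_zmod _).symm.trans (Nat.card_congr Multiplicative.ofAdd)))
  refine adjPOp.hasMult (StSys.perfect_of _ scSys_top fun r =>
    let ⟨_, h⟩ := prA_D (by omega) r; StSys.x_mem_comm_A _ h)
    (fun E _ ψ hψ => lifts_D hψ adjPOp.hmul (by omega) fun h => ?_) hp_inj_D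
    ((MulEquiv.ofBijective ψ h5).trans ((e1.prodCongr e1).trans (MulEquiv.prodMultiplicative _ _).symm))
  have := card_of_two h
  obtain ⟨k, hk⟩ := hn
  omega

end Cfsg.Agent.S2097
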