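import Cfsg.Statements.S2098
import Cfsg.Agent.H0.MO82.Main
import Cfsg.Agent.H0.QO82.Main
import Cfsg.Agent.H0.IO82
import Cfsg.Agent.H0.WO82.Main


set_option autoImplicit false
open Cfsg

namespace Cfsg.Agent.S2098

/-- Exceptional Schur multiplier: over the field with 2 elements, PΩ⁺₈ (for the form Σ xᵢyᵢ) has Schur multiplier a four-group, the product of two cyclic groups of order 2 (here the Schur multiplier is described through stem extensions, as in the definitions). -/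
theorem result {F : Type*} [Field F] [Fintype F] (hF : Fintype.card F = 2) : Cfsg.HasSchurMultiplier (Cfsg.POmega F (Cfsg.quadFormPlus 4 F)) (Multiplicative (ZMod 2 × ZMod 2)) := by
  have := H0.MO82.fin (H0.Pres.pg 10 H0.MO82.B)
  have hs := H0.MO82.simple (H0.Pres.pg 10 H0.MO82.B)
  have hp := H0.perfect_of_simple (G := _) (by rw [H0.MO82.card (H0.Pres.pg 10 H0.MO82.B)]; exact Nat.not_prime_of_dvd_of_lt (m := 2) (by decide) le_rfl (by decide))
  obtain ⟨e⟩ := H0.IO82.iso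
  exact H0.hasMult_equiv (e.trans (H0.plusEquiv (H0.fe (ZMod 2) hF (ZMod.card 2)) 4)) (H0.hasMult_of hp (H0.WO82.stem (H0.Pres.pg 10 H0.MO82.B) hp).two fun Γ _ _ σ hσ => (H0.QO82.bound (H0.MO82.m (H0.Pres.pg 10 H0.MO82.B)) (H0.MO82.mR (H0.Pres.pg 10 H0.MO82.B)) (H0.MO82.base (H0.Pres.pg 10 H0.MO82.B)) (H0.MO82.card (H0.Pres.pg 10 H0.MO82.B)) Γ σ hσ).trans (dvd_of_eq (H0.card2 2 2).symm))

end Cfsg.Agent.S2098
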