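import Cfsg.Statements.S2100
import Cfsg.Agent.H5.Mul6
import Cfsg.Agent.H5.EmbAll

set_option autoImplicit false
open Cfsg

namespace Cfsg.Agent.S2100

open H5.Chev Cfsg.Lie

/-- Schur multipliers of the Chevalley groups of type G₂: over a field with q ≥ 5 elements the Schur multiplier of G₂(q) is trivial (here the Schur multiplier is described through stem extensions, as in the definitions); the cases q = 3 and q = 4 are exceptional and q = 2 gives a non-simple group. -/
theorem result {F : Type*} [Field F] [Fintype F] (hF : 5 ≤ Fintype.card F) : Cfsg.HasCyclicSchurMultiplier ↥(Cfsg.Lie.chevG2.group F) 1 := by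
  obtain ⟨v, h0, hv⟩ := exists_pow_ne_one' two_pos (s := (Finset.univ : Finset F)) (by simp; omega)
  exact hasCyclicMult (perfect_G2 (scSys _ F) scSys_top ⟨v, h0, fun e => hv (by simp [e])⟩)
    (fun _ _ _ h => lifts_of_card (by simp) h grpSys_hmul ⟨Finset.univ, by simp; omega⟩)
    (stSys_hmul.hp_injective ker_G2) Nat.prime_two (one_dvd _) (by simp [ker_G2])

end Cfsg.Agent.S2100
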