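import Cfsg.Statements.S2101
import Cfsg.Agent.H0.MG23.Main
import Cfsg.Agent.H0.QG23.Main
import Cfsg.Agent.H0.IG23
import Cfsg.Agent.H0.VG233.Main


set_option autoImplicit false
open Cfsg

namespace Cfsg.Agent.S2101

/-- Exceptional Schur multiplier: over the field with 3 elements the Chevalley group of type G₂ has Schur multiplier cyclic of order 3 (here the Schur multiplier is described through stem extensions, as in the definitions). -/
theorem result {F : Type*} [Field F] [Fintype F] (hF : Fintype.card F = 3) : Cfsg.HasCyclicSchurMultiplier ↥(Cfsg.Lie.chevG2.group F) 3 := by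
  have := H0.MG23.fin (H0.Pres.pg 9 H0.MG23.B)
  have hs := H0.MG23.simple (H0.Pres.pg 9 H0.MG23.B)
  have hp := H0.perfect_of_simple (G := _) (by rw [H0.MG23.card (H0.Pres.pg 9 H0.MG23.B)]; exact Nat.not_prime_of_dvd_of_lt (m := 2) (by decide) le_rfl (by decide))
  obtain ⟨e⟩ := H0.IG23.iso
  exact H0.hasMult_equiv (e.trans (H0.chevEquiv (H0.fe (ZMod 3) hF (ZMod.card 3)) _)) (H0.hasCyc_of hp (by decide) (H0.VG233.stem (H0.Pres.pg 9 H0.MG23.B) hp) (H0.QG23.bound (H0.MG23.m (H0.Pres.pg 9 H0.MG23.B)) (H0.MG23.mR (H0.Pres.pg 9 H0.MG23.B)) (H0.MG23.base (H0.Pres.pg 9 H0.MG23.B)) (H0.MG23.card (H0.Pres.pg 9 H0.MG23.B))))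

end Cfsg.Agent.S2101
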