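import Cfsg.Statements.S2103
import Cfsg.Agent.H5.Mul6
import Cfsg.Agent.H5.EmbAll

set_option autoImplicit false
open Cfsg

namespace Cfsg.Agent.S2103

open H5.Chev Cfsg.Lie

/-- Schur multipliers of the Chevalley groups of type F₄: over a finite field with more than 2 elements the Schur multiplier of F₄(q) is trivial (here the Schur multiplier is described through stem extensions, as in the definitions); q = 2 is exceptional. -/
theorem result {F : Type*} [Field F] [Fintype F] (hF : 3 ≤ Fintype.card F) : Cfsg.HasCyclicSchurMultiplier ↥(Cfsg.Lie.chevF4.group F) 1 := by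
  obtain ⟨v, h0, hv⟩ := exists_pow_ne_one' one_pos (s := (Finset.univ : Finset F)) (by simp; omega)
  exact hasCyclicMult ((scSys _ F).perfect_of_perf scSys_top)
    (fun _ _ _ h => lifts_F4 h grpSys_hmul ⟨v, h0, fun e => hv (by simp [e])⟩)
    (stSys_hmul.hp_injective ker_F4) Nat.prime_two (one_dvd _) (by simp [ker_F4])

end Cfsg.Agent.S2103
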