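import Cfsg.Statements.S2106
import Cfsg.Agent.H5.Mul6
import Cfsg.Agent.H5.EmbAll
import Cfsg.Agent.H5.KerAll

set_option autoImplicit false
open Cfsg

namespace Cfsg.Agent.S2106

open H5.Chev Cfsg.Lie

/-- Schur multipliers of the (adjoint, simple) Chevalley groups of type E₇: over a field with q elements the Schur multiplier is cyclic of order gcd(2, q − 1) (here the Schur multiplier is described through stem extensions, as in the definitions). -/
theorem result {F : Type*} [Field F] [Fintype F] {q : ℕ} (hF : Fintype.card F = q) : Cfsg.HasCyclicSchurMultiplier ↥(Cfsg.Lie.chevE7.group F) (Nat.gcd 2 (q - 1)) := by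
  exact hasCyclicMult ((scSys _ F).perfect_of_perf scSys_top) (fun _ _ _ h => lifts_E7 h grpSys_hmul)
    hp_injective_E7 Nat.prime_two (Nat.gcd_dvd_left _ _)
    (by rw [card_ker_chiHom, card_ker_E7, Nat.card_eq_fintype_card, hF])

end Cfsg.Agent.S2106
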