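import Cfsg.Statements.S2107
import Cfsg.Agent.H5.Mul6
import Cfsg.Agent.H5.EmbAll

set_option autoImplicit false
open Cfsg

namespace Cfsg.Agent.S2107

open H5.Chev Cfsg.Lie

/-- Schur multipliers of the Chevalley groups of type E₈: over every finite field the Schur multiplier of E₈(q) is trivial (here the Schur multiplier is described through stem extensions, as in the definitions). -/
theorem result {F : Type*} [Field F] [Fintype F] : Cfsg.HasCyclicSchurMultiplier ↥(Cfsg.Lie.chevE8.group F) 1 := by

  exact hasCyclicMult ((scSys _ F).perfect_of_perf scSys_top)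
    (fun _ _ _ h => lifts_E8 h grpSys_hmul)
    (stSys_hmul.hp_injective ker_E8) Nat.prime_two (one_dvd _) (by simp [ker_E8])

end Cfsg.Agent.S2107
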