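import Cfsg.Statements.S2112
import Cfsg.Agent.H0.MSz8.Main
import Cfsg.Agent.H0.QSz8.Main
import Cfsg.Agent.H0.ISz8
import Cfsg.Agent.H0.WSz8.Main


set_option autoImplicit false
open Cfsg

namespace Cfsg.Agent.S2112

/-- Exceptional Schur multiplier: the Suzuki group Sz(8), built over the field with 8 elements using the map x ↦ x⁴, has Schur multiplier a four-group, the product of two cyclic groups of order 2 (here the Schur multiplier is described through stem extensions, as in the definitions). -/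
theorem result {F : Type*} [Field F] [Fintype F] (hF : Fintype.card F = 8) : Cfsg.HasSchurMultiplier ↥(Cfsg.Lie.Sz F 4) (Multiplicative (ZMod 2 × ZMod 2)) := by
  have := H0.MSz8.fin (H0.Pres.pg 9 H0.MSz8.B)
  have hs := H0.MSz8.simple (H0.Pres.pg 9 H0.MSz8.B)
  have hp := H0.perfect_of_simple (G := _) (by rw [H0.MSz8.card (H0.Pres.pg 9 H0.MSz8.B)]; exact Nat.not_prime_of_dvd_of_lt (m := 2) (by decide) le_rfl (by decide))
  obtain ⟨e⟩ := H0.ISz8.iso
  exact H0.hasMult_equiv (e.trans (H0.szEquiv (H0.fe H0.G8 hF H0.c8') 4)) (H0.hasMult_of hp (H0.WSz8.stem (H0.Pres.pg 9 H0.MSz8.B) hp).two fun Γ _ _ σ hσ => (H0.QSz8.bound (H0.MSz8.m (H0.Pres.pg 9 H0.MSz8.B)) (H0.MSz8.mR (H0.Pres.pg 9 H0.MSz8.B)) (H0.MSz8.base (H0.Pres.pg 9 H0.MSz8.B)) (H0.MSz8.card (H0.Pres.pg 9 H0.MSz8.B)) Γ σ hσ).trans (dvd_of_eq (H0.card2 2 2).symm))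

end Cfsg.Agent.S2112
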