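import Cfsg.Statements.S2115
import Cfsg.Agent.H0.SubW
import Cfsg.Agent.H0.MTits.Main
import Cfsg.Agent.H0.QTits.Main
import Cfsg.Agent.H0.ITits


set_option autoImplicit false
set_option maxRecDepth 100000
open Cfsg

namespace Cfsg.Agent.S2115

/-- The Tits group, the commutator subgroup of ²F₄(2), has trivial Schur multiplier (here the Schur multiplier is described through stem extensions, as in the definitions). -/
theorem result : Cfsg.HasCyclicSchurMultiplier Cfsg.Lie.TitsGroup 1 := by
  have := H0.MTits.fin (H0.Pres.pg 9 H0.MTits.B)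
  have hs := H0.MTits.simple (H0.Pres.pg 9 H0.MTits.B)
  have hp := H0.perfect_of_simple (G := _) (by rw [H0.MTits.card (H0.Pres.pg 9 H0.MTits.B)]; exact Nat.not_prime_of_dvd_of_lt (m := 2) (by decide) le_rfl (by decide))
  exact H0.hasMult_sub _ H0.ITits.iso (H0.hasCyc_of hp (by decide) (H0.stemElt_one _) (H0.QTits.bound (H0.MTits.m (H0.Pres.pg 9 H0.MTits.B)) (H0.MTits.mR (H0.Pres.pg 9 H0.MTits.B)) (H0.MTits.base (H0.Pres.pg 9 H0.MTits.B)) (H0.MTits.card (H0.Pres.pg 9 H0.MTits.B))))

end Cfsg.Agent.S2115
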