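import Cfsg.Statements.S2116
import Cfsg.Agent.H0.IA67
import Cfsg.Agent.H0.QL29.Main
import Cfsg.Agent.H0.VL292.Main
import Cfsg.Agent.H0.VL293.Main
import Cfsg.Agent.H0.QA7.Main
import Cfsg.Agent.H0.VA72.Main
import Cfsg.Agent.H0.VA73.Main
-- import your own Cfsg.Agent.* helpers here

set_option autoImplicit false
open Cfsg

namespace Cfsg.Agent.S2116

/-- Exceptional Schur multipliers of the alternating groups: for n = 6 and n = 7 the Schur multiplier of the alternating group of degree n is cyclic of order 6 (here the Schur multiplier is described through stem extensions, as in the definitions). -/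
theorem result (n : ℕ) (hn : n = 6 ∨ n = 7) : Cfsg.HasCyclicSchurMultiplier (alternatingGroup (Fin n)) 6 := by
  rcases hn with rfl | rfl
  · have := H0.ML29.fin (H0.Pres.pg 8 H0.ML29.B)
    have hs := H0.ML29.simple (H0.Pres.pg 8 H0.ML29.B)
    have hp := H0.perfect_of_simple (G := _) (by rw [H0.ML29.card (H0.Pres.pg 8 H0.ML29.B)]; exact Nat.not_prime_of_dvd_of_lt (m := 2) (by decide) le_rfl (by decide))
    obtain ⟨e⟩ := H0.IA67.iso6
    exact H0.hasMult_equiv e (H0.hasCyc_of hp (by decide) (H0.stemElt_mul hp (H0.VL292.stem (H0.Pres.pg 8 H0.ML29.B) hp) (H0.VL293.stem (H0.Pres.pg 8 H0.ML29.B) hp) (by decide)) (H0.QL29.bound (H0.ML29.m (H0.Pres.pg 8 H0.ML29.B)) (H0.ML29.mR (H0.Pres.pg 8 H0.ML29.B)) (H0.ML29.base (H0.Pres.pg 8 H0.ML29.B)) (H0.ML29.card (H0.Pres.pg 8 H0.ML29.B))))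
  · have := H0.MA7.fin (H0.Pres.pg 16 H0.MA7.B)
    have hs := H0.MA7.simple (H0.Pres.pg 16 H0.MA7.B)
    have hp := H0.perfect_of_simple (G := _) (by rw [H0.MA7.card (H0.Pres.pg 16 H0.MA7.B)]; exact Nat.not_prime_of_dvd_of_lt (m := 2) (by decide) le_rfl (by decide))
    obtain ⟨e⟩ := H0.IA67.iso7
    exact H0.hasMult_equiv e (H0.hasCyc_of hp (by decide) (H0.stemElt_mul hp (H0.VA72.stem (H0.Pres.pg 16 H0.MA7.B) hp) (H0.VA73.stem (H0.Pres.pg 16 H0.MA7.B) hp) (by decide)) (H0.QA7.bound (H0.MA7.m (H0.Pres.pg 16 H0.MA7.B)) (H0.MA7.mR (H0.Pres.pg 16 H0.MA7.B)) (H0.MA7.base (H0.Pres.pg 16 H0.MA7.B)) (H0.MA7.card (H0.Pres.pg 16 H0.MA7.B))))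

end Cfsg.Agent.S2116
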