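import Cfsg.Statements.S2117
import Cfsg.Agent.H5.GM9
import Cfsg.Agent.H4.SLBasic

set_option autoImplicit false
open Cfsg

namespace Cfsg.Agent.S2117

open H5.Gen

/-- For a finite field with q elements, q ≠ 4 and q ≠ 9, the special linear group SL₂ has trivial Schur multiplier (here the Schur multiplier is described through stem extensions, as in the definitions). -/
theorem result {F : Type*} [Field F] [Fintype F] (h4 : Fintype.card F ≠ 4) (h9 : Fintype.card F ≠ 9) : Cfsg.HasCyclicSchurMultiplier (Matrix.SpecialLinearGroup (Fin 2) F) 1 := by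
  have hk := (MonoidHom.ker_eq_bot_iff (MonoidHom.id (Matrix.SpecialLinearGroup (Fin 2) F))).2
    Function.injective_id
  refine ⟨⟨_, _, inferInstance, MonoidHom.id _, ⟨Function.surjective_id, hk ▸ bot_le, hk ▸ bot_le⟩,
    hk ▸ ⟨MulEquiv.ofUnique⟩⟩, fun Γ _ _ σ hσ => ⟨1, fun ⟨g, hg⟩ => ⟨1, Subtype.ext ?_⟩⟩⟩
  have hψ : CExt σ := ⟨hσ.1, hσ.2.1⟩
  have hL : Lifts (sysSL 1 F) σ := by
    by_cases h : 3 < Fintype.card F
    · obtain ⟨v, h0, hv⟩ := exists_sq_ne h
      exact lifts_A1 hψ (sysSL 1 F).hmul_of_finite h0 hv h4 h9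
    have h1 := Fintype.one_lt_card (α := F)
    have hp : (Fintype.card F).Prime := by interval_cases Fintype.card F <;> norm_num
    have := Fact.mk hp
    obtain ⟨P⟩ : Nonempty (Sylow (Fintype.card F) (Matrix.SpecialLinearGroup (Fin 2) F)) := inferInstance
    have h2 := H4.card_sl_mul (F := F) 2 (by norm_num)
    have h3 : Nat.card P = Fintype.card F := by
      rw [P.card_eq_multiplicity]
      generalize Nat.card (Matrix.SpecialLinearGroup (Fin 2) F) = N at *
      generalize Fintype.card F = q at *
      interval_cases q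
      · obtain rfl : N = 6 := by simpa using h2
        rw [show (6 : ℕ) = 2 * 3 from rfl, Nat.factorization_mul (by simp) (by simp)]
        simp [Nat.prime_two.factorization, Nat.prime_three.factorization]
      · obtain rfl : N = 24 := by simp at h2; omega
        rw [show (24 : ℕ) = 2 ^ 3 * 3 from rfl, Nat.factorization_mul (by simp) (by simp),
          Nat.factorization_pow]
        simp [Nat.prime_two.factorization, Nat.prime_three.factorization]
    have := isCyclic_of_prime_card h3
    exact lifts_of_coprime hψ (FiniteField.cast_card_eq_zero F)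
      ((hp.coprime_iff_not_dvd.2 P.not_dvd_index).symm) fun z => pow_index_of_cyclic hσ P
  obtain ⟨θ, hθ⟩ := exists_lift_sc (sysSL 1 F).rels
  obtain ⟨τ, hτ⟩ := hL.exists_hom (θ := θ) hθ
  obtain ⟨a, rfl⟩ := surj_of_stem hσ (τ := τ)
    (hτ ▸ StSys.surjective_of_map (S := scSys _ F) sysSL_top hθ) g
  have : θ a = 1 := (DFunLike.congr_fun hτ _).symm.trans hg
  simp [(map_eq_one_iff _ (sl_injective scSys_top hθ)).1 this]

end Cfsg.Agent.S2117
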