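import Cfsg.Statements.S2118
import Cfsg.Agent.H0.StemUp
import Cfsg.Agent.H0.IL29
import Cfsg.Agent.H4.SLBasic
import Cfsg.Agent.H0.QL29.Main
import Cfsg.Agent.H0.VL293.Main
-- import your own Cfsg.Agent.* helpers here

set_option autoImplicit false
open Cfsg

namespace Cfsg.Agent.S2118

/-- For the field with 9 elements, the special linear group SL₂ has Schur multiplier cyclic of order 3 (here the Schur multiplier is described through stem extensions, as in the definitions). -/
theorem result {F : Type*} [Field F] [Fintype F] (hF : Fintype.card F = 9) : Cfsg.HasCyclicSchurMultiplier (Matrix.SpecialLinearGroup (Fin 2) F) 3 := by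
  have := H0.ML29.fin (H0.Pres.pg 8 H0.ML29.B)
  have hs := H0.ML29.simple (H0.Pres.pg 8 H0.ML29.B)
  have hp := H0.perfect_of_simple (G := _) (by rw [H0.ML29.card (H0.Pres.pg 8 H0.ML29.B)]; exact Nat.not_prime_of_dvd_of_lt (m := 2) (by decide) le_rfl (by decide))
  obtain ⟨e⟩ := H0.IL29.iso
  have h9 : Nat.card H0.G9 = 9 := by rw [Nat.card_eq_fintype_card, H0.c9]
  have hS : commutator (Matrix.SpecialLinearGroup (Fin 2) H0.G9) = ⊤ := by
    obtain ⟨g, hg⟩ := IsCyclic.exists_ofOrder_eq_natCard (α := H0.G9ˣ)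
    rw [Nat.card_units, h9] at hg
    refine Matrix.SL2.commutator_eq_top (a := g.1) g.ne_zero fun h => ?_
    have : g ^ 2 = 1 := Units.ext (by simpa using h)
    rw [← orderOf_dvd_iff_pow_eq_one, hg] at this
    revert this; decide
  let π := e.symm.toMonoidHom.comp (QuotientGroup.mk' (Subgroup.center (Matrix.SpecialLinearGroup (Fin 2) H0.G9)))
  have hπ : IsStemExtension π := by
    refine ⟨e.symm.surjective.comp (QuotientGroup.mk'_surjective _), fun x hx => ?_, hS ▸ le_top⟩
    exact (QuotientGroup.eq_one_iff x).1 (e.symm.map_eq_one_iff.1 hx)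
  have ha : Nat.card π.ker = 2 := by
    have := H0.card_ker_mul_up hπ.1
    rw [H0.ML29.card (H0.Pres.pg 8 H0.ML29.B), H4.card_sl2, h9] at this
    omega
  exact H0.hasMult_equiv (H0.slEquiv (H0.fe H0.G9 hF H0.c9)) (H0.hasCyc_lift hπ hp (by decide) ha (by decide) (H0.VL293.stem (H0.Pres.pg 8 H0.ML29.B) hp)
    (H0.QL29.bound (H0.ML29.m (H0.Pres.pg 8 H0.ML29.B)) (H0.ML29.mR (H0.Pres.pg 8 H0.ML29.B)) (H0.ML29.base (H0.Pres.pg 8 H0.ML29.B)) (H0.ML29.card (H0.Pres.pg 8 H0.ML29.B))))

end Cfsg.Agent.S2118
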