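import Cfsg.Statements.S2122
import Cfsg.Agent.H5.Aut4

set_option autoImplicit false
open Cfsg

namespace Cfsg.Agent.S2122

open H5 H5.Chev Cfsg.Lie

/-- Outer automorphisms of the Chevalley groups of type F₄: over a field with q = p^f (p prime) elements, the outer automorphism group of F₄(q) has order gcd(2, p) · f (field automorphisms, and in characteristic 2 also the exceptional graph automorphism). -/
theorem result {F : Type*} [Field F] [Fintype F] (p f : ℕ) [Fact p.Prime] [CharP F p] (hF : Fintype.card F = p ^ f) : Nat.card (Cfsg.Out ↥(Cfsg.Lie.chevF4.group F)) = Nat.gcd 2 p * f := by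
  rw [card_out (bonds_le (by simp)), range_F4, card_ker_F4, card_ringAut (Nat.card_eq_fintype_card.trans hF)]
  have : (2 : F) = 0 ↔ p = 2 := by
    rw [show (2 : F) = (2 : ℕ) by simp, CharP.cast_eq_zero_iff F p, Nat.prime_dvd_prime_iff_eq Fact.out Nat.prime_two]
  by_cases h : p = 2
  · simp [h, this]
  · simp [h, this, ((Nat.coprime_primes Nat.prime_two Fact.out).2 (Ne.symm h)).gcd_eq_one]

end Cfsg.Agent.S2122
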