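import Cfsg.Statements.S2136
import Cfsg.Agent.H6.CoSub
import Cfsg.Agent.H0.ECo2Z.Main
import Cfsg.Agent.H0.IS62


set_option autoImplicit false
open Cfsg

namespace Cfsg.Agent.S2136

/-- The Conway group Co₂ (the stabiliser of a minimal vector of the rank-24 lattice) has an involution whose centraliser C has largest normal 2-subgroup extraspecial of order 2^9 with quotient C / O₂(C) isomorphic to the symplectic group Sp(6, 2) (shape 2^{1+8}Sp(6, 2)). -/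
theorem result : ∃ t : ↥Cfsg.Spor.Co2, orderOf t = 2 ∧ Cfsg.IsExtraspecial 2 (Cfsg.pCore 2 ↥(Subgroup.centralizer ({t} : Set ↥Cfsg.Spor.Co2))) ∧ Nat.card (Cfsg.pCore 2 ↥(Subgroup.centralizer ({t} : Set ↥Cfsg.Spor.Co2))) = 2 ^ 9 ∧ Nonempty (↥(Subgroup.centralizer ({t} : Set ↥Cfsg.Spor.Co2)) ⧸ Cfsg.pCore 2 ↥(Subgroup.centralizer ({t} : Set ↥Cfsg.Spor.Co2)) ≃* Matrix.symplecticGroup (Fin 3) (ZMod 2)) := by
  haveI := H6M.MCo2.fin H6.PCo2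
  obtain ⟨t, h, Q, K, h1, h2, h3, h4, h5⟩ := H0.ECo2Z.str (H6M.MCo2.m H6.PCo2) (H6M.MCo2.mR H6.PCo2) (H6M.MCo2.base H6.PCo2) (H6M.MCo2.card H6.PCo2)
  obtain ⟨_, a, b, -, ⟨c⟩, d⟩ := H0.cent_str h1 h2 h3 h4 (H0.MS62.simple (H0.Pres.pg _ _)) (by rw [H0.MS62.card (H0.Pres.pg _ _)]; decide)
  obtain ⟨f⟩ := H0.IS62.iso
  exact ⟨t, h, d ▸ a, by rw [d, b, h5]; rfl, ⟨((QuotientGroup.quotientMulEquivOfEq d).trans c).trans f⟩⟩

end Cfsg.Agent.S2136
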