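import Cfsg.Statements.S2155
import Cfsg.Agent.H5.Par1
import Cfsg.Agent.H7.Comp

set_option autoImplicit false
open Cfsg

namespace Cfsg.Agent.S2155

open H5.Chev Cfsg.Lie

/-- In a Chevalley group of type G₂, B₂, D₄, F₄, E₆, E₇ or E₈ over a finite field of characteristic p (for types G₂ and B₂ the field is assumed to have at least 3 elements, so that the group is simple), the generalized Fitting subgroup of every proper standard parabolic subgroup P_J is a p-group (P_J is p-constrained with trivial largest normal subgroup of order prime to p). -/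
theorem result {F : Type*} [Field F] [Fintype F] (p : ℕ) [Fact p.Prime] [CharP F p] (D : Cfsg.Lie.ChevalleyDatum) (hD : D ∈ [Cfsg.Lie.chevG2, Cfsg.Lie.chevB2, Cfsg.Lie.chevD4, Cfsg.Lie.chevF4, Cfsg.Lie.chevE6, Cfsg.Lie.chevE7, Cfsg.Lie.chevE8]) (hq : (D = Cfsg.Lie.chevG2 ∨ D = Cfsg.Lie.chevB2) → 3 ≤ Fintype.card F) (J : Set ℕ) (hJ : ∃ i, i < D.rank ∧ i ∉ J) : IsPGroup p ↥(Cfsg.generalizedFittingSubgroup ↥(D.parabolicSubgroup F J)) := by
  obtain ⟨G⟩ := good_of_mem hD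
  have := conn_of_mem hD
  obtain ⟨i, h1, h2⟩ := hJ
  rw [parabolicSubgroup_eq]
  generalize hK : {i : Ix D | (i : ℕ) ∈ J} = K
  have hi : ∃ i, i ∉ K := ⟨⟨i, h1⟩, hK ▸ h2⟩
  set S := glSys D F
  have hU : IsPGroup p (S.U {r | Pos r}) := S.isPGroup_U p nil_pos
  have h3 : S.UJ K ≤ H7.Opi {p} (S.PJ K) := H7.le_Op (S.UJ_sup_LJ K ▸ le_sup_left) (S.PJ_le_normalizer K)
    (hU.to_le (S.U_mono fun _ h => h.1))
  have h4 : H7.Fst (S.PJ K) = H7.Opi {p} (S.PJ K) := H7.Fst_eq_Op_iff.2 (H7.le_Op inf_le_left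
    (H7.nrm_inf (H7.le_nrm_self _) (H7.nrm_cen (H7.le_nrm_Opi _ _))) (hU.to_le fun g hg =>
      S.cent_UJ Units.val_injective hi (S.PJ_le_U K hg.1) fun y hy => (hg.2 y (h3 hy)).symm))
  have h5 := H7.Fst_eq_Op_iff'.1 h4
  rw [← H7.gfit_map] at h5
  exact h5.of_equiv (Subgroup.equivMapOfInjective _ _ (Subgroup.subtype_injective _)).symm

end Cfsg.Agent.S2155
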