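import Cfsg.Statements.S2158
import Cfsg.Agent.H5.Misc1

set_option autoImplicit false
open Cfsg

namespace Cfsg.Agent.S2158

open H5.Chev Cfsg.Lie

/-- In a Chevalley group of type G₂, B₂, D₄, F₄, E₆, E₇ or E₈ over any field, an element of the group whose matrix is the diagonal matrix `ĥ(χ)` of a character `χ` of the root lattice already lies in the diagonal subgroup H (the non-trivial inclusion of the statement that the group meets the group of all such diagonal matrices in H). -/
theorem result {F : Type*} [Field F] (D : Cfsg.Lie.ChevalleyDatum) (hD : D ∈ [Cfsg.Lie.chevG2, Cfsg.Lie.chevB2, Cfsg.Lie.chevD4, Cfsg.Lie.chevF4, Cfsg.Lie.chevE6, Cfsg.Lie.chevE7, Cfsg.Lie.chevE8]) (χ : ℕ → Fˣ) (hχ : D.IsRootCharacter χ) (g : GL D.Idx F) (hg : g ∈ D.group F)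
    (hgχ : (g : Matrix D.Idx D.Idx F) = D.charDiag F χ) : g ∈ D.diagonalSubgroup F := by
  obtain ⟨G⟩ := good_of_mem hD
  have := conn_of_mem hD
  have h := eq_chr_of_isRootCharacter hχ
  generalize (fun j => χ (simple j : Rt D)) = c at h
  have e : g = dgl c := Units.ext (by rw [hgχ, charDiag_eq]; simp only [h]; rfl)
  rw [diagonalSubgroup_eq]
  refine (glSys D F).mem_H_of_diag (group_eq (D := D) (F := F) ▸ hg) hgχ fun i => ?_
  rw [e, dgl_conj]
  exact (glSys D F).x_mem_B (pos_simple i) _

end Cfsg.Agent.S2158
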