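import Cfsg.Statements.S2161
import Cfsg.Agent.H5.Misc1

set_option autoImplicit false
open Cfsg

namespace Cfsg.Agent.S2161

open H5.Chev Cfsg.Lie

theorem co_inj {D : ChevalleyDatum} [Good D] {r s : Rt D} (h : ∀ i, co r i = co s i) : r = s := by
  have h1 : ∀ k, pair r k = pair s k := fun k => by simp only [pair, h]
  have h2 := ln_pair_symm r s
  rw [h1 s, ← h1 r, pair_self, pair_self] at h2
  apply vec_injective
  funext i
  have h3 := ln_mul_co r i
  rw [h, show ln r = ln s by omega, ln_mul_co] at h3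
  exact (mul_right_cancel₀ (ln_pos _).ne' h3).symm

theorem perm_eq {D : ChevalleyDatum} [Good D] (π : Equiv.Perm (Ix D)) {r s : Rt D}
    (h : ∀ i, co s (π i) = co r i) : D.permRoot π r = s := by
  rw [ChevalleyDatum.permRoot]
  cases e : (List.range D.nroots).find? _ with
  | none =>
    rw [List.find?_eq_none] at e
    exact absurd (by simpa [co] using h) (e s (List.mem_range.2 s.2))
  | some k =>
    have h1 := List.find?_some e
    have h2 := List.mem_range.1 (List.mem_of_find?_eq_some e)
    simp only [List.all_eq_true, List.mem_finRange, beq_iff_eq, true_imp_iff] at h1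
    exact congrArg Fin.val (co_inj (r := ⟨k, h2⟩) (s := s) fun i => by
      obtain ⟨j, rfl⟩ := π.surjective i
      exact (h1 j).trans (h j).symm)

theorem aux {F : Type*} [Field F] {D : ChevalleyDatum} [Good D] [Conn D] {G : Type*} [Group G]
    (S : StSys D F G) {π : Equiv.Perm (Ix D)} (hπ : ∀ i j, wt (simple (π i)) (π j) = wt (simple i) j)
    (φ : G →* G) (h1 : ∀ i t, φ (S.x (simple i) t) = S.x (simple (π i)) t)
    (h2 : ∀ i t, φ (S.x (neg (simple i)) t) = S.x (neg (simple (π i))) t) (r : Rt D) :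
    ∃ s, (∀ i, co s (π i) = co r i) ∧ ∃ ε : F, (ε = 1 ∨ ε = -1) ∧ ∀ t, φ (S.x r t) = S.x s (ε * t) := by
  induction r using root_induction with
  | h0 i => exact ⟨simple (π i), fun j => by simp [co_simple], 1, Or.inl rfl, by simpa using h1 i⟩
  | hs i r ih =>
    obtain ⟨s, h3, ε, h4, h5⟩ := ih
    have h6 : pair s (simple (π i)) = pair r (simple i) := by
      rw [pair, pair, ← Equiv.sum_comp π]; simp only [h3, hπ]
    refine ⟨refl (π i) s, fun j => by simp [co_refl, h3, h6], eta (π i) s * ε * eta i r, ?_, fun t => ?_⟩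
    · rcases h4 with rfl | rfl <;> rcases eta_cases (π i) s with a | a <;>
        rcases eta_cases i r with b | b <;> simp [a, b]
    · have h7 : φ (S.n (simple i) 1) = S.n (simple (π i)) 1 := by simp [StSys.n, h1, h2]
      have h8 := congrArg φ (S.n_conj (simple i) r one_ne_zero (eta i r * t))
      rw [map_mul, map_mul, map_inv, h7, h5, S.n_conj _ _ one_ne_zero] at h8
      simp only [rrefl_simple, sg_simple, one_zpow, mul_one, ← mul_assoc, eta_cast_mul_self,
        one_mul] at h8
      exact h8.symm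

theorem aux2 {D : ChevalleyDatum} [Good D] (h : ∀ i j : Ix D, i ≠ j → wt (simple i) j = - D.bonds i j)
    {π : Equiv.Perm (Ix D)} (hπ : D.IsDiagramSymmetry π) (i j : Ix D) :
    wt (simple (π i)) (π j) = wt (simple i) j := by
  by_cases e : i = j
  · simp [e]
  · rw [h _ _ e, h _ _ (π.injective.ne e), hπ i j e]

/-- For the Chevalley groups of types D₄ and E₆ (one root length) over any field: if `π` is a symmetry of the Dynkin diagram and `φ` is an automorphism sending `x_{p_i}(t)` to `x_{p_{π i}}(t)` and `x_{-p_i}(t)` to `x_{-p_{π i}}(t)` for every fundamental root `p_i`, then for every root `r` there is a sign `ε = ±1` with `φ(x_r(t)) = x_{π·r}(ε t)` for all `t`, where `π·r` is the root whose coefficients are those of `r` permuted by `π`. -/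
theorem result {F : Type*} [Field F] (D : Cfsg.Lie.ChevalleyDatum) (hD : D ∈ [Cfsg.Lie.chevD4, Cfsg.Lie.chevE6])
    (π : Equiv.Perm (Fin D.rank)) (hπ : D.IsDiagramSymmetry π) (φ : ↥(D.group F) ≃* ↥(D.group F))
    (hφ : ∀ (g : ↥(D.group F)) (i : Fin D.rank) (t : F),
      (((g : GL D.Idx F) : Matrix D.Idx D.Idx F) = D.x F (D.simple i) t →
        ((φ g : GL D.Idx F) : Matrix D.Idx D.Idx F) = D.x F (D.simple (π i)) t) ∧
      (((g : GL D.Idx F) : Matrix D.Idx D.Idx F) = D.x F (D.neg (D.simple i)) t →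
        ((φ g : GL D.Idx F) : Matrix D.Idx D.Idx F) = D.x F (D.neg (D.simple (π i))) t))
    (r : ℕ) (hr : r < D.nroots) :
    ∃ ε : F, (ε = 1 ∨ ε = -1) ∧ ∀ (g : ↥(D.group F)) (t : F),
      ((g : GL D.Idx F) : Matrix D.Idx D.Idx F) = D.x F r t →
        ((φ g : GL D.Idx F) : Matrix D.Idx D.Idx F) = D.x F (D.permRoot π r) (ε * t) := by
  have hD' : D ∈ [chevG2, chevB2, chevD4, chevF4, chevE6, chevE7, chevE8] := by
    simp only [List.mem_cons, List.not_mem_nil, or_false] at hD
    rcases hD with rfl | rfl <;> simp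
  obtain ⟨G⟩ := good_of_mem hD'
  have := conn_of_mem hD'
  have h : ∀ i j : Ix D, i ≠ j → wt (simple i) j = - D.bonds i j := by
    simp only [List.mem_cons, List.not_mem_nil, or_false] at hD
    simp only [wt, val_simple]
    rcases hD with rfl | rfl <;> decide +kernel
  obtain ⟨s, h1, ε, h2, h3⟩ := aux (grpSys D F) (aux2 h hπ) φ.toMonoidHom
    (fun i t => eq_grpSys_x ((hφ _ i t).1 (coe_grpSys_x _ _)))
    (fun i t => eq_grpSys_x (by
      rw [val_neg]
      exact (hφ _ i t).2 (by rw [coe_grpSys_x, val_neg]; rfl))) ⟨r, hr⟩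
  refine ⟨ε, h2, fun g t e => ?_⟩
  rw [eq_grpSys_x (r := ⟨r, hr⟩) e, perm_eq π h1, ← coe_grpSys_x, ← h3]
  rfl

end Cfsg.Agent.S2161
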