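import Cfsg.Statements.S2298
import Cfsg.Agent.H3.GL2d

set_option autoImplicit false
open Cfsg

namespace Cfsg.Agent.S2298
open H3
export H3 (inner_add_left inner_add_right inner_sub_left inner_sub_right inner_neg_left inner_neg_right
  inner_zero_left inner_zero_right inner_smul_left inner_smul_right inner_conj_symm inner_self_eq_zero
  inner_self_im)

open G2

/-- Over a finite field F with q elements, every irreducible complex character of GL₂ has degree 1, q − 1, q or q + 1; and when q ≥ 3 (so that these four numbers are distinct) there are exactly q − 1 irreducible characters of degree 1, exactly q − 1 of degree q, exactly (q − 1)(q − 2)/2 of degree q + 1 and exactly q(q − 1)/2 of degree q − 1. -/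
theorem result {F : Type*} [Field F] [Fintype F] :
    (∀ χ : Matrix.GeneralLinearGroup (Fin 2) F → ℂ, Cfsg.IsIrrCharacter (Matrix.GeneralLinearGroup (Fin 2) F) χ →
      χ 1 = 1 ∨ χ 1 = (Fintype.card F : ℂ) - 1 ∨ χ 1 = (Fintype.card F : ℂ) ∨ χ 1 = (Fintype.card F : ℂ) + 1) ∧
    (3 ≤ Fintype.card F →
      Nat.card {χ : Cfsg.IrrCharacter (Matrix.GeneralLinearGroup (Fin 2) F) // (χ : Matrix.GeneralLinearGroup (Fin 2) F → ℂ) 1 = 1} = Fintype.card F - 1 ∧
      Nat.card {χ : Cfsg.IrrCharacter (Matrix.GeneralLinearGroup (Fin 2) F) // (χ : Matrix.GeneralLinearGroup (Fin 2) F → ℂ) 1 = (Fintype.card F : ℂ)} = Fintype.card F - 1 ∧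
      Nat.card {χ : Cfsg.IrrCharacter (Matrix.GeneralLinearGroup (Fin 2) F) // (χ : Matrix.GeneralLinearGroup (Fin 2) F → ℂ) 1 = (Fintype.card F : ℂ) + 1} = (Fintype.card F - 1) * (Fintype.card F - 2) / 2 ∧
      Nat.card {χ : Cfsg.IrrCharacter (Matrix.GeneralLinearGroup (Fin 2) F) // (χ : Matrix.GeneralLinearGroup (Fin 2) F → ℂ) 1 = (Fintype.card F : ℂ) - 1} = Fintype.card F * (Fintype.card F - 1) / 2) := by
  set_option maxSynthPendingDepth 3 in
  classical
  refine ⟨fun χ h => ?_, fun h => ?_⟩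
  · rcases vv_cases ⟨χ, h⟩ with k | k | k | k
    · exact .inl (congrArg Prod.fst k.2)
    · exact .inr (.inr (.inl (congrArg Prod.fst k.2)))
    · exact .inr (.inr (.inr (congrArg Prod.fst k)))
    · exact .inr (.inl (congrArg Prod.fst k))
  · obtain ⟨a, b, c, d, -⟩ := gl_counts (F := F)
    exact ⟨(Nat.card_congr (Equiv.subtypeEquivRight fun χ => (vv_iff h χ).1)).trans a,
      (Nat.card_congr (Equiv.subtypeEquivRight fun χ => (vv_iff h χ).2.1)).trans b,
      (Nat.card_congr (Equiv.subtypeEquivRight fun χ => (vv_iff h χ).2.2.1)).trans c,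
      (Nat.card_congr (Equiv.subtypeEquivRight fun χ => (vv_iff h χ).2.2.2)).trans d⟩

end Cfsg.Agent.S2298
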