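import Cfsg.Statements.S2301
import Cfsg.Agent.H4.Cls3

set_option autoImplicit false
open Cfsg

namespace Cfsg.Agent.S2301


/-- Over a finite field with q elements of odd characteristic p, the elements of order p of SL₂ (the non-identity unipotent elements) fall into exactly two conjugacy classes, each of size (q² − 1)/2; two upper unitriangular matrices with non-zero off-diagonal entries b and b′ are conjugate exactly when bb′ is a square. -/
theorem result {F : Type*} [Field F] [Fintype F] (p : ℕ) [Fact p.Prime] [CharP F p] (hp : p ≠ 2) :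
    Nat.card {C : ConjClasses (Matrix.SpecialLinearGroup (Fin 2) F) // ∃ g : Matrix.SpecialLinearGroup (Fin 2) F, orderOf g = p ∧ ConjClasses.mk g = C} = 2 ∧
    (∀ g : Matrix.SpecialLinearGroup (Fin 2) F, orderOf g = p → Nat.card (ConjClasses.mk g).carrier = (Fintype.card F ^ 2 - 1) / 2) ∧
    ∀ g h : Matrix.SpecialLinearGroup (Fin 2) F, (g : Matrix (Fin 2) (Fin 2) F) 0 0 = 1 → (g : Matrix (Fin 2) (Fin 2) F) 1 1 = 1 → (g : Matrix (Fin 2) (Fin 2) F) 1 0 = 0 → (g : Matrix (Fin 2) (Fin 2) F) 0 1 ≠ 0 →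
      (h : Matrix (Fin 2) (Fin 2) F) 0 0 = 1 → (h : Matrix (Fin 2) (Fin 2) F) 1 1 = 1 → (h : Matrix (Fin 2) (Fin 2) F) 1 0 = 0 → (h : Matrix (Fin 2) (Fin 2) F) 0 1 ≠ 0 →
      (IsConj g h ↔ IsSquare ((g : Matrix (Fin 2) (Fin 2) F) 0 1 * (h : Matrix (Fin 2) (Fin 2) F) 0 1)) := by
  rw [← Nat.card_eq_fintype_card]
  have hq : Odd (Nat.card F) := (H4.char_ne_two_iff_odd (p := p)).1 hp
  refine ⟨?_, fun g hg => ?_, fun g h g0 g1 g2 g3 h0 h1 h2 h3 => ?_⟩
  · refine Eq.trans ?_ (H4.card_unip_classes.trans (H4.gcd_two_of_odd hq))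
    refine Nat.card_congr (Equiv.subtypeEquivRight fun C => ⟨?_, ?_⟩)
    · rintro ⟨g, hg, rfl⟩
      obtain ⟨b, hb, h⟩ := H4.orderOf_eq_char_iff.1 hg
      exact ⟨b, hb, ConjClasses.mk_eq_mk_iff_isConj.2 h⟩
    · rintro ⟨b, hb, rfl⟩
      exact ⟨_, H4.orderOf_ub hb, rfl⟩
  · obtain ⟨b, hb, h⟩ := H4.orderOf_eq_char_iff.1 hg
    rw [← ConjClasses.mk_eq_mk_iff_isConj.2 h, ← H4.card_class_ub hb, H4.gcd_two_of_odd hq]
    omega
  · rw [← H4.isConj_ub_iff g3 h3, ← H4.eq_ub g0 g1 g2, ← H4.eq_ub h0 h1 h2]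

end Cfsg.Agent.S2301
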