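import Cfsg.Statements.S2302
import Cfsg.Agent.H4.Cls3

set_option autoImplicit false
open Cfsg

namespace Cfsg.Agent.S2302


/-- Over a finite field with q elements of characteristic 2, the involutions of SL₂ (the non-identity unipotent elements) form a single conjugacy class, of size q² − 1. -/
theorem result {F : Type*} [Field F] [Fintype F] [CharP F 2] (g h : Matrix.SpecialLinearGroup (Fin 2) F) (hg : orderOf g = 2) (hh : orderOf h = 2) :
    IsConj g h ∧ Nat.card (ConjClasses.mk g).carrier = Fintype.card F ^ 2 - 1 := by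
  rw [← Nat.card_eq_fintype_card]
  have hq : Even (Nat.card F) := even_iff_two_dvd.2 (H4.char_dvd_card 2)
  obtain ⟨b, hb, h1⟩ := H4.orderOf_eq_char_iff.1 hg
  obtain ⟨c, hc, h2⟩ := H4.orderOf_eq_char_iff.1 hh
  refine ⟨h1.symm.trans (((H4.isConj_ub_iff hb hc).2 ?_).trans h2), ?_⟩
  · exact FiniteField.isSquare_of_char_two (ringChar.eq F 2) _
  · rw [← ConjClasses.mk_eq_mk_iff_isConj.2 h1, ← H4.card_class_ub hb,
      H4.gcd_two_of_even hq Nat.card_pos.ne', one_mul]

end Cfsg.Agent.S2302
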