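import Cfsg.Statements.S2303
import Cfsg.Agent.H3.GL2d

set_option autoImplicit false
open Cfsg

namespace Cfsg.Agent.S2303
open H3
export H3 (inner_add_left inner_add_right inner_sub_left inner_sub_right inner_neg_left inner_neg_right
  inner_zero_left inner_zero_right inner_smul_left inner_smul_right inner_conj_symm inner_self_eq_zero
  inner_self_im)

open G2

/-- Over a finite field with q elements: a diagonal element of GL₂ with two distinct diagonal entries has centralizer of order (q − 1)² (so q(q + 1) conjugates), and an element of GL₂ with no eigenvector in F² has centralizer of order q² − 1 (so q(q − 1) conjugates). -/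
theorem result {F : Type*} [Field F] [Fintype F] (g : Matrix.GeneralLinearGroup (Fin 2) F) :
    ((g : Matrix (Fin 2) (Fin 2) F) 0 1 = 0 → (g : Matrix (Fin 2) (Fin 2) F) 1 0 = 0 → (g : Matrix (Fin 2) (Fin 2) F) 0 0 ≠ (g : Matrix (Fin 2) (Fin 2) F) 1 1 →
      Nat.card (Subgroup.centralizer ({g} : Set (Matrix.GeneralLinearGroup (Fin 2) F))) = (Fintype.card F - 1) ^ 2) ∧
    ((∀ (c : F) (v : Fin 2 → F), v ≠ 0 → (g : Matrix (Fin 2) (Fin 2) F).mulVec v ≠ c • v) →
      Nat.card (Subgroup.centralizer ({g} : Set (Matrix.GeneralLinearGroup (Fin 2) F))) = Fintype.card F ^ 2 - 1) := by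
  set_option maxSynthPendingDepth 3 in
  classical
  refine ⟨fun a b c => ?_, fun h => card_To (ell_of h)⟩
  rw [sq, ← Nat.card_eq_fintype_card, ← Nat.card_units, ← Nat.card_prod]
  have m : ∀ p : Fˣ × Fˣ, dm p.1 p.2 ∈ To g := fun p => mem_To'.2 (by
    refine gl_ext ?_ ?_ ?_ ?_ <;> simp [gl_mul, dm, a, b, mul_comm, -Units.val_mul])
  refine (Nat.card_eq_of_bijective (fun p : Fˣ × Fˣ => (⟨dm p.1 p.2, m p⟩ : To g)) ⟨fun x y h => ?_, fun t => ?_⟩).symm
  · exact Prod.ext (Units.ext (congrArg (fun t : To g => t.1.1 0 0) h)) (Units.ext (congrArg (fun t : To g => t.1.1 1 1) h))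
  · have k := mem_To'.1 t.2
    have k1 := gl_mul t.1 g 0 1
    have k2 := gl_mul t.1 g 1 0
    rw [k, gl_mul, a] at k1
    rw [k, gl_mul, b] at k2
    have z1 : t.1.1 0 1 = 0 := mul_left_cancel₀ (sub_ne_zero.2 c) (by linear_combination k1)
    have z2 : t.1.1 1 0 = 0 := mul_left_cancel₀ (sub_ne_zero.2 c) (by linear_combination -k2)
    exact ⟨(Units.mk0 _ (Bo_ne z2).1, Units.mk0 _ (Bo_ne z2).2), Subtype.ext (gl_ext rfl z1.symm z2.symm rfl)⟩

end Cfsg.Agent.S2303
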