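import Cfsg.Statements.S2305
import Cfsg.Agent.H3.GL2d

set_option autoImplicit false
open Cfsg

namespace Cfsg.Agent.S2305
open H3
export H3 (inner_add_left inner_add_right inner_sub_left inner_sub_right inner_neg_left inner_neg_right
  inner_zero_left inner_zero_right inner_smul_left inner_smul_right inner_conj_symm inner_self_eq_zero
  inner_self_im)

open G2

/-- Over a finite field F, for multiplicative characters α, β, α′, β′ of F, the characters of GL₂ induced from the linear characters b ↦ α(b₁₁) β(b₂₂) and b ↦ α′(b₁₁) β′(b₂₂) of the upper triangular subgroup coincide exactly when {α, β} = {α′, β′} as unordered pairs. -/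
theorem result {F : Type*} [Field F] [Fintype F] [DecidableEq F] (α β α' β' : MulChar F ℂ) :
    Cfsg.indFun (Cfsg.upperTriangularGL 2 F) (fun b => α (((b : Matrix.GeneralLinearGroup (Fin 2) F) : Matrix (Fin 2) (Fin 2) F) 0 0) * β (((b : Matrix.GeneralLinearGroup (Fin 2) F) : Matrix (Fin 2) (Fin 2) F) 1 1)) = Cfsg.indFun (Cfsg.upperTriangularGL 2 F) (fun b => α' (((b : Matrix.GeneralLinearGroup (Fin 2) F) : Matrix (Fin 2) (Fin 2) F) 0 0) * β' (((b : Matrix.GeneralLinearGroup (Fin 2) F) : Matrix (Fin 2) (Fin 2) F) 1 1)) ↔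
      (α = α' ∧ β = β') ∨ (α = β' ∧ β = α') := by
  set_option maxSynthPendingDepth 3 in
  change ps α β = ps α' β' ↔ _
  refine ⟨fun h => ?_, ?_⟩
  · have := inner_ps α β α' β'
    rw [← h, inner_ps] at this
    by_contra! n
    rw [if_neg (c := α = α' ∧ β = β') (by tauto), if_neg (c := α = β' ∧ β = α') (by tauto)] at this
    rw [if_pos ⟨rfl, rfl⟩] at this
    split_ifs at this <;> norm_num at this
  · rintro (⟨rfl, rfl⟩ | ⟨rfl, rfl⟩)
    · rfl
    · exact cf_ext (ps_cf _ _) (ps_cf _ _) (fun g h => by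
        by_cases c : g.1 0 0 = g.1 1 1
        · rw [ps_B _ _ h, ps_B _ _ h, c]; ring
        · rw [ps_split _ _ h c, ps_split _ _ h c]; ring) fun g h => by rw [ps_ell _ _ h, ps_ell _ _ h]

end Cfsg.Agent.S2305
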