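import Cfsg.Statements.S2308
import Cfsg.Agent.H3.GL2d

set_option autoImplicit false
open Cfsg

namespace Cfsg.Agent.S2308
open H3
export H3 (inner_add_left inner_add_right inner_sub_left inner_sub_right inner_neg_left inner_neg_right
  inner_zero_left inner_zero_right inner_smul_left inner_smul_right inner_conj_symm inner_self_eq_zero
  inner_self_im)

open G2

/-- Values of the permutation character of GL₂ over a finite field F with q elements on the cosets of its upper triangular subgroup (equivalently, the number of lines of F² that an element maps to themselves): q + 1 at a scalar matrix, 2 at a diagonal matrix with two different diagonal entries, 0 at an element with no eigenvector in F², and 1 at an upper triangular matrix with equal diagonal entries and non-zero upper right entry. -/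
theorem result {F : Type*} [Field F] [Fintype F] (g : Matrix.GeneralLinearGroup (Fin 2) F) :
    ((∃ a : F, (g : Matrix (Fin 2) (Fin 2) F) = a • (1 : Matrix (Fin 2) (Fin 2) F)) → Cfsg.fixedPointCharacter (Cfsg.upperTriangularGL 2 F) g = Fintype.card F + 1) ∧
    ((g : Matrix (Fin 2) (Fin 2) F) 0 1 = 0 → (g : Matrix (Fin 2) (Fin 2) F) 1 0 = 0 → (g : Matrix (Fin 2) (Fin 2) F) 0 0 ≠ (g : Matrix (Fin 2) (Fin 2) F) 1 1 →
      Cfsg.fixedPointCharacter (Cfsg.upperTriangularGL 2 F) g = 2) ∧
    ((∀ (c : F) (v : Fin 2 → F), v ≠ 0 → (g : Matrix (Fin 2) (Fin 2) F).mulVec v ≠ c • v) → Cfsg.fixedPointCharacter (Cfsg.upperTriangularGL 2 F) g = 0) ∧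
    ((g : Matrix (Fin 2) (Fin 2) F) 1 0 = 0 → (g : Matrix (Fin 2) (Fin 2) F) 0 0 = (g : Matrix (Fin 2) (Fin 2) F) 1 1 → (g : Matrix (Fin 2) (Fin 2) F) 0 1 ≠ 0 →
      Cfsg.fixedPointCharacter (Cfsg.upperTriangularGL 2 F) g = 1) := by
  set_option maxSynthPendingDepth 3 in
  classical
  have k : Cfsg.fixedPointCharacter (Cfsg.upperTriangularGL 2 F) g = ps 1 1 g := by
    refine (indFun_one_eq_fixedBy _ g).symm.trans (congrFun (congrArg _ (funext fun b => ?_)) g)
    simp [bc, MulChar.one_apply (Bo_ne (mem_Bo.1 b.2)).1.isUnit, MulChar.one_apply (Bo_ne (mem_Bo.1 b.2)).2.isUnit]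
  have o : g.1 1 0 = 0 → (1 : MulChar F ℂ) (g.1 0 0) = 1 ∧ (1 : MulChar F ℂ) (g.1 1 1) = 1 := fun h =>
    ⟨MulChar.one_apply (Bo_ne h).1.isUnit, MulChar.one_apply (Bo_ne h).2.isUnit⟩
  rw [k]
  refine ⟨fun ⟨a, h⟩ => ?_, fun a b c => ?_, fun h => ps_ell _ _ (ell_of h), fun a b c => ?_⟩
  · have z : g.1 1 0 = 0 := by simp [h]
    rw [ps_scal _ _ z (by simp [h]) (by simp [h]), (o z).1]; simp
  · rw [ps_split _ _ b c, (o b).1, (o b).2]; norm_num
  · rw [ps_unip _ _ a b c, (o a).1, mul_one]

end Cfsg.Agent.S2308
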