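import Cfsg.Statements.S2315
import Cfsg.Agent.H5.SB7

set_option autoImplicit false
open Cfsg

namespace Cfsg.Agent.S2315

open H5.SB H5.Gen Matrix

/-- Steinberg's count of unipotent elements for the general linear group: over a finite field with q elements of characteristic p, the number of elements of GL_n of p-power order (the unipotent matrices) is q^(n(n−1)). -/
theorem result {F : Type*} [Field F] [Fintype F] (p : ℕ) [Fact p.Prime] [CharP F p] (n : ℕ) :
    Nat.card {g : Matrix.GeneralLinearGroup (Fin n) F // ∃ k : ℕ, orderOf g = p ^ k} = Fintype.card F ^ (n * (n - 1)) := by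
  obtain ⟨f, hp, hf⟩ := FiniteField.card F p
  have d : p ∣ Fintype.card F := hf ▸ dvd_pow_self p f.ne_zero
  have w : ∀ i, 0 < i → ¬p ∣ Fintype.card F ^ i - 1 := fun i hi h =>
    hp.one_lt.ne' (Nat.dvd_one.1 ((Nat.dvd_sub_iff_right (Nat.one_le_pow _ _ Fintype.card_pos) (d.pow hi.ne')).1 h))
  have e : Nat.card {g : GL (Fin n) F // ∃ k : ℕ, orderOf g = p ^ k} =
      Nat.card {g : SpecialLinearGroup (Fin n) F // ∃ k : ℕ, orderOf g = p ^ k} := by
    refine (Nat.card_eq_of_bijective (fun g => ⟨SpecialLinearGroup.toGL g.1, by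
      rw [orderOf_injective _ SpecialLinearGroup.toGL_injective]; exact g.2⟩) ⟨fun a b h =>
        Subtype.ext (SpecialLinearGroup.toGL_injective (congrArg (·.1) h)), fun ⟨g, k, h⟩ => ?_⟩).symm
    have : GeneralLinearGroup.det g = 1 := orderOf_eq_one_iff.1 (Nat.eq_one_of_dvd_coprimes
      ((hp.coprime_iff_not_dvd.2 (by simpa [Nat.card_units] using w 1 one_pos)).pow_left k)
      (h ▸ orderOf_map_dvd _ g) (orderOf_dvd_natCard _))
    obtain ⟨s, e⟩ : ∃ s : SpecialLinearGroup (Fin n) F, SpecialLinearGroup.toGL s = g :=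
      ⟨⟨g.1, congrArg Units.val this⟩, Units.ext rfl⟩
    exact ⟨⟨s, k, by rw [← orderOf_injective _ SpecialLinearGroup.toGL_injective, e, h]⟩, Subtype.ext e⟩
  rw [e]
  rcases n with _ | _ | n
  · rw [Nat.card_eq_one_iff_exists.2 ⟨⟨1, 0, by simp⟩, fun _ => Subsingleton.elim _ _⟩]; simp
  · have : Subsingleton (SpecialLinearGroup (Fin 1) F) := ⟨fun a b => Subtype.ext (by
      ext i j; fin_cases i; fin_cases j; simpa using a.2.trans b.2.symm)⟩
    rw [Nat.card_eq_one_iff_exists.2 ⟨⟨1, 0, by simp⟩, fun _ => Subsingleton.elim _ _⟩]; simp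
  have h := congrArg (·.factorization p) (H4.card_sl_mul (F := F) (n + 2) (by omega))
  have z : ∀ i, 0 < i → Fintype.card F ^ i - 1 ≠ 0 := fun i hi e => w i hi (e ▸ dvd_zero p)
  have v : ∀ i : Fin (n + 2), Fintype.card F ^ (n + 2) - Fintype.card F ^ i.val =
      p ^ (f.val * i.val) * (Fintype.card F ^ (n + 2 - i) - 1) := fun i => by
    rw [pow_mul, ← hf, Nat.mul_sub_one, ← pow_add, Nat.add_sub_cancel' i.2.le]
  have t : ∀ i : Fin (n + 2), (p ^ (f.val * i.val) * (Fintype.card F ^ (n + 2 - i) - 1)).factorization p = f.val * i.val := fun i => by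
    rw [Nat.factorization_mul (pow_ne_zero _ hp.ne_zero) (z _ (by omega)), Finsupp.add_apply,
      Nat.factorization_eq_zero_of_not_dvd (w _ (by omega)), hp.factorization_pow]
    simp
  simp only [v] at h
  rw [Nat.factorization_mul (by simpa using z 1 one_pos) Nat.card_pos.ne', Finsupp.add_apply,
    Nat.factorization_eq_zero_of_not_dvd (by simpa using w 1 one_pos), zero_add,
    Nat.factorization_prod_apply fun i _ => mul_ne_zero (pow_ne_zero _ hp.ne_zero) (z _ (by omega))] at h
  simp only [t] at h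
  rw [SBx.card_unip' (sysSL (n + 1) F) sysSL_top p, h, hf, ← pow_mul, ← pow_mul, ← Finset.mul_sum, mul_assoc,
    Fin.sum_univ_eq_sum_range (fun i => i), Finset.sum_range_id_mul_two]

end Cfsg.Agent.S2315
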