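import Cfsg.Statements.S2316
import Cfsg.Agent.H5.SB7
import Cfsg.Agent.S0245

set_option autoImplicit false
open Cfsg

namespace Cfsg.Agent.S2316

open H5.SB H5.Gen

/-- Steinberg's count of unipotent elements for the symplectic group: over a finite field with q elements of characteristic p, the number of elements of Sp_{2m} of p-power order is q^(2m²). -/
theorem result {F : Type*} [Field F] [Fintype F] (p : ℕ) [Fact p.Prime] [CharP F p] (m : ℕ) :
    Nat.card {g : ↥(Matrix.symplecticGroup (Fin m) F) // ∃ k : ℕ, orderOf g = p ^ k} = Fintype.card F ^ (2 * m ^ 2) := by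
  have key : Nat.card {g : ↥(Matrix.symplecticGroup (Fin m) F) // ∃ k : ℕ, orderOf g = p ^ k} =
      (p ^ (Nat.card (Matrix.symplecticGroup (Fin m) F)).factorization p) ^ 2 := by
    rcases m with _ | _ | m
    · haveI : Subsingleton (Matrix.symplecticGroup (Fin 0) F) := inferInstance
      rw [Nat.card_eq_one_iff_exists.2 ⟨⟨1, 0, by simp⟩, fun _ => Subsingleton.elim _ _⟩,
        Nat.card_eq_one_iff_exists.2 ⟨1, fun _ => Subsingleton.elim _ _⟩]
      simp
    · rw [Nat.card_congr (sp2 F).toEquiv, ← SBx.card_unip' (sysSL 1 F) sysSL_top p]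
      exact Nat.card_congr ((sp2 F).toEquiv.subtypeEquiv fun g => by simp)
    · exact SBx.card_unip' (sysSp _ F) (StSys.top_of_closure (closure_spX (by omega))) p
  obtain ⟨f, hp, hf⟩ := FiniteField.card F p
  have v : ¬p ∣ ∏ i ∈ Finset.range m, (Fintype.card F ^ (2 * (i + 1)) - 1) := fun h => by
    obtain ⟨i, -, h⟩ := hp.prime.exists_mem_finset_dvd h
    exact hp.one_lt.ne' (Nat.dvd_one.1 ((Nat.dvd_sub_iff_right (Nat.one_le_pow _ _ Fintype.card_pos)
      ((hf ▸ dvd_pow_self p f.ne_zero : p ∣ _).pow (by omega))).1 h))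
  rw [key, S0245.result rfl m, Nat.factorization_mul (pow_ne_zero _ Fintype.card_ne_zero) (mt (fun z => by rw [z]; exact dvd_zero p) v),
    Finsupp.add_apply, Nat.factorization_eq_zero_of_not_dvd v, hf, ← pow_mul p f, hp.factorization_pow]
  simp [← pow_mul]
  ring

end Cfsg.Agent.S2316
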