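import Cfsg.Statements.S2317
import Cfsg.Agent.H3.RCF2

set_option autoImplicit false
open Cfsg

namespace Cfsg.Agent.S2317

open H3.RCF Polynomial

/-- Over a finite field of characteristic p, the conjugacy classes of GL_n consisting of elements of p-power order (the unipotent classes) are as many as the partitions of n. -/
theorem result {F : Type*} [Field F] [Fintype F] (p : ℕ) [Fact p.Prime] [CharP F p] (n : ℕ) :
    Nat.card {C : ConjClasses (Matrix.GeneralLinearGroup (Fin n) F) //
      ∃ g : Matrix.GeneralLinearGroup (Fin n) F, (∃ k : ℕ, orderOf g = p ^ k) ∧ ConjClasses.mk g = C} =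
      Fintype.card (Nat.Partition n) := by
  set_option maxSynthPendingDepth 3 in
  have hp : p.Prime := Fact.out
  simp only [and_comm (b := ConjClasses.mk _ = _)]
  rw [card_jor _ (fun _ => True) (fun g ⟨k, e⟩ => ⟨_, (uni k).2 (e ▸ pow_orderOf_eq_one g)⟩) fun g μ a => iff_true_intro ?_,
    Nat.card_congr (Equiv.subtypeUnivEquiv fun _ => trivial), Nat.card_eq_fintype_card]
  obtain ⟨k, -, e⟩ := (Nat.dvd_prime_pow hp).1 (orderOf_dvd_of_pow_eq_one ((uni n).1 ((a.zero _).2 fun k b =>
    (Nat.Partition.le_of_mem_parts b).trans (Nat.lt_pow_self hp.one_lt).le)))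
  exact ⟨k, e⟩

end Cfsg.Agent.S2317
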