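import Cfsg.Statements.S2320
import Cfsg.Agent.H3.GL2d

set_option autoImplicit false
open Cfsg

namespace Cfsg.Agent.S2320
open H3
export H3 (inner_add_left inner_add_right inner_sub_left inner_sub_right inner_neg_left inner_neg_right
  inner_zero_left inner_zero_right inner_smul_left inner_smul_right inner_conj_symm inner_self_eq_zero
  inner_self_im)

open G2

/-- Over a finite field F with q elements, every irreducible complex character of GL₂ of degree q takes a value of absolute value 1 at every diagonal matrix with two different diagonal entries and at every element with no eigenvector in F². -/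
theorem result {F : Type*} [Field F] [Fintype F] (χ : Matrix.GeneralLinearGroup (Fin 2) F → ℂ) (hχ : Cfsg.IsIrrCharacter (Matrix.GeneralLinearGroup (Fin 2) F) χ) (hdeg : χ 1 = (Fintype.card F : ℂ)) (g : Matrix.GeneralLinearGroup (Fin 2) F) :
    ((g : Matrix (Fin 2) (Fin 2) F) 0 1 = 0 → (g : Matrix (Fin 2) (Fin 2) F) 1 0 = 0 → (g : Matrix (Fin 2) (Fin 2) F) 0 0 ≠ (g : Matrix (Fin 2) (Fin 2) F) 1 1 → ‖χ g‖ = 1) ∧
    ((∀ (c : F) (v : Fin 2 → F), v ≠ 0 → (g : Matrix (Fin 2) (Fin 2) F).mulVec v ≠ c • v) → ‖χ g‖ = 1) := by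
  set_option maxSynthPendingDepth 3 in
  classical
  obtain ⟨e, he⟩ := exists_ell (F := F)
  have := Fintype.one_lt_card (α := F)
  have := dg_eq hdeg
  rcases gl_irr' he hχ with ⟨α, k, d⟩ | ⟨α, k, d⟩ | ⟨α, β, -, k, d⟩ | ⟨θ, -, k, d⟩ <;> first | omega | skip
  refine ⟨fun _ b c => ?_, fun h => ?_⟩
  · rw [k, st_split _ b c, ← dl_val, norm_lin]
  · rw [k, st_ell _ (ell_of h), norm_neg, ← dl_val, norm_lin]

end Cfsg.Agent.S2320
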