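import Cfsg.Statements.S2322
import Cfsg.Agent.H3.GL2d

set_option autoImplicit false
open Cfsg

namespace Cfsg.Agent.S2322
open H3
export H3 (inner_add_left inner_add_right inner_sub_left inner_sub_right inner_neg_left inner_neg_right
  inner_zero_left inner_zero_right inner_smul_left inner_smul_right inner_conj_symm inner_self_eq_zero
  inner_self_im)

open G2

/-- Over a finite field F with q elements, q odd: every irreducible complex character of SL₂ of degree q − 1 or (q − 1)/2 vanishes at every diagonal matrix whose diagonal entry a has a² ≠ 1, and every irreducible complex character of degree q + 1 or (q + 1)/2 vanishes at every element with no eigenvector in F². -/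
theorem result {F : Type*} [Field F] [Fintype F] (hodd : Odd (Fintype.card F)) (χ : Matrix.SpecialLinearGroup (Fin 2) F → ℂ) (hχ : Cfsg.IsIrrCharacter (Matrix.SpecialLinearGroup (Fin 2) F) χ) (g : Matrix.SpecialLinearGroup (Fin 2) F) :
    ((χ 1 = (Fintype.card F : ℂ) - 1 ∨ χ 1 = (((Fintype.card F - 1) / 2 : ℕ) : ℂ)) →
      (g : Matrix (Fin 2) (Fin 2) F) 0 1 = 0 → (g : Matrix (Fin 2) (Fin 2) F) 1 0 = 0 → (g : Matrix (Fin 2) (Fin 2) F) 0 0 ^ 2 ≠ 1 → χ g = 0) ∧
    ((χ 1 = (Fintype.card F : ℂ) + 1 ∨ χ 1 = (((Fintype.card F + 1) / 2 : ℕ) : ℂ)) →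
      (∀ (c : F) (v : Fin 2 → F), v ≠ 0 → (g : Matrix (Fin 2) (Fin 2) F).mulVec v ≠ c • v) → χ g = 0) := by
  set_option maxSynthPendingDepth 3 in
  classical
  have := Fintype.one_lt_card (α := F)
  obtain ⟨m, o⟩ := id hodd
  refine ⟨fun d _ b c => ?_, fun d h => ?_⟩
  · obtain ⟨e, he⟩ := exists_ell (F := F)
    have := d.imp dg_sub dg_eq
    have := no_split b c
    have z : ∀ θ : To e →* ℂˣ, rho θ (tg g) = 0 := fun θ => by
      rw [rho_B (g := tg g) he θ b, cB, if_neg (show (tg g).1 0 0 ≠ (tg g).1 1 1 from ne_of_split b c), zero_mul]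
    rcases sl_irr' he hχ with ⟨k, d⟩ | ⟨k, d⟩ | ⟨α, -, k, d⟩ | ⟨θ, -, k, d⟩ | ⟨α, η, -, -, k, d⟩ | ⟨θ, η, -, -, k, d⟩ <;>
      first | omega | skip
    · rw [k]; exact z θ
    · linear_combination ((k.two_ss (tr_split b c)).trans (z θ)) / 2
  · have he := ell_of (g := tg g) h
    have := d.imp G2.dg_add dg_eq
    rcases sl_irr' he hχ with ⟨k, d⟩ | ⟨k, d⟩ | ⟨α, -, k, d⟩ | ⟨θ, n, k, d⟩ | ⟨α, η, -, -, k, d⟩ | ⟨θ, η, -, -, k, d⟩ <;>
      first | omega | skip
    · rw [k]; exact ps_ell _ _ he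
    · rw [k]
      exact (rho_C he θ ⟨g, mem_To'.2 rfl⟩ he.not_mem).trans (neg_eq_zero.2 (add_inv_three he (by omega)
        (l := θ.comp (jC _)) (by simpa [eqC_inv_iff] using n) _ he.not_mem))
    · linear_combination ((k.two_ss (tr_ell (two_ne hodd) he)).trans (ps_ell _ _ he)) / 2

end Cfsg.Agent.S2322
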