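import Cfsg.Statements.S2323
import Cfsg.Agent.H3.GL2d

set_option autoImplicit false
open Cfsg

namespace Cfsg.Agent.S2323
open H3
export H3 (inner_add_left inner_add_right inner_sub_left inner_sub_right inner_neg_left inner_neg_right
  inner_zero_left inner_zero_right inner_smul_left inner_smul_right inner_conj_symm inner_self_eq_zero
  inner_self_im)

open G2

/-- Over a finite field F with q ≥ 4 elements, let u be the upper unitriangular matrix of SL₂ with off-diagonal entry 1. An irreducible complex character of SL₂ takes at u the value 1 if its degree is q + 1 and the value −1 if its degree is q − 1. -/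
theorem result {F : Type*} [Field F] [Fintype F] (hq : 4 ≤ Fintype.card F) (χ : Matrix.SpecialLinearGroup (Fin 2) F → ℂ) (hχ : Cfsg.IsIrrCharacter (Matrix.SpecialLinearGroup (Fin 2) F) χ)
    (u : Matrix.SpecialLinearGroup (Fin 2) F) (hu : (u : Matrix (Fin 2) (Fin 2) F) = !![1, 1; 0, 1]) :
    (χ 1 = (Fintype.card F : ℂ) + 1 → χ u = 1) ∧ (χ 1 = (Fintype.card F : ℂ) - 1 → χ u = -1) := by
  set_option maxSynthPendingDepth 3 in
  classical
  obtain rfl : u = H4.ub 1 := Subtype.ext hu
  obtain ⟨e, he⟩ := exists_ell (F := F)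
  refine ⟨fun d => ?_, fun d => ?_⟩
  · have := G2.dg_add d
    rcases sl_irr' he hχ with ⟨k, d⟩ | ⟨k, d⟩ | ⟨α, -, k, d⟩ | ⟨θ, -, k, d⟩ | ⟨α, η, -, -, k, d⟩ | ⟨θ, η, -, -, k, d⟩ <;>
      first | omega | skip
    rw [k]; exact ps_ub _ _ one_ne_zero
  · have := dg_sub d
    rcases sl_irr' he hχ with ⟨k, d⟩ | ⟨k, d⟩ | ⟨α, -, k, d⟩ | ⟨θ, -, k, d⟩ | ⟨α, η, -, -, k, d⟩ | ⟨θ, η, -, -, k, d⟩ <;>
      first | omega | skip
    rw [k]; exact rho_ub he _ one_ne_zero

end Cfsg.Agent.S2323
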