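import Cfsg.Statements.S2324
import Cfsg.Agent.H3.GL2d

set_option autoImplicit false
open Cfsg

namespace Cfsg.Agent.S2324
open H3
export H3 (inner_add_left inner_add_right inner_sub_left inner_sub_right inner_neg_left inner_neg_right
  inner_zero_left inner_zero_right inner_smul_left inner_smul_right inner_conj_symm inner_self_eq_zero
  inner_self_im)

open G2

/-- Over a finite field F with q elements, q odd and q ≥ 5, let u be the upper unitriangular matrix of SL₂ with off-diagonal entry 1 and let δ = (−1)^((q−1)/2). Every irreducible complex character χ of SL₂ of degree (q + 1)/2 satisfies (2χ(u) − 1)² = δq, and every irreducible complex character χ of degree (q − 1)/2 satisfies (2χ(u) + 1)² = δq; that is, χ(u) = (1 ± √(δq))/2 in the first case and χ(u) = (−1 ± √(δq))/2 in the second. Moreover two different irreducible characters of degree (q + 1)/2 take the two different values (their values at u add up to 1), and likewise for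 degree (q − 1)/2 (values adding up to −1). -/
theorem result {F : Type*} [Field F] [Fintype F] (hodd : Odd (Fintype.card F)) (hq : 5 ≤ Fintype.card F)
    (u : Matrix.SpecialLinearGroup (Fin 2) F) (hu : (u : Matrix (Fin 2) (Fin 2) F) = !![1, 1; 0, 1]) :
    (∀ χ : Matrix.SpecialLinearGroup (Fin 2) F → ℂ, Cfsg.IsIrrCharacter (Matrix.SpecialLinearGroup (Fin 2) F) χ → χ 1 = (((Fintype.card F + 1) / 2 : ℕ) : ℂ) → (2 * χ u - 1) ^ 2 = (-1 : ℂ) ^ ((Fintype.card F - 1) / 2) * (Fintype.card F : ℂ)) ∧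
    (∀ χ : Matrix.SpecialLinearGroup (Fin 2) F → ℂ, Cfsg.IsIrrCharacter (Matrix.SpecialLinearGroup (Fin 2) F) χ → χ 1 = (((Fintype.card F - 1) / 2 : ℕ) : ℂ) → (2 * χ u + 1) ^ 2 = (-1 : ℂ) ^ ((Fintype.card F - 1) / 2) * (Fintype.card F : ℂ)) ∧
    (∀ χ₁ χ₂ : Matrix.SpecialLinearGroup (Fin 2) F → ℂ, Cfsg.IsIrrCharacter (Matrix.SpecialLinearGroup (Fin 2) F) χ₁ → Cfsg.IsIrrCharacter (Matrix.SpecialLinearGroup (Fin 2) F) χ₂ → χ₁ ≠ χ₂ →
      χ₁ 1 = (((Fintype.card F + 1) / 2 : ℕ) : ℂ) → χ₂ 1 = (((Fintype.card F + 1) / 2 : ℕ) : ℂ) → χ₁ u + χ₂ u = 1) ∧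
    (∀ χ₁ χ₂ : Matrix.SpecialLinearGroup (Fin 2) F → ℂ, Cfsg.IsIrrCharacter (Matrix.SpecialLinearGroup (Fin 2) F) χ₁ → Cfsg.IsIrrCharacter (Matrix.SpecialLinearGroup (Fin 2) F) χ₂ → χ₁ ≠ χ₂ →
      χ₁ 1 = (((Fintype.card F - 1) / 2 : ℕ) : ℂ) → χ₂ 1 = (((Fintype.card F - 1) / 2 : ℕ) : ℂ) → χ₁ u + χ₂ u = -1) := by
  set_option maxSynthPendingDepth 3 in
  classical
  obtain rfl : u = H4.ub 1 := Subtype.ext hu
  obtain ⟨e, he⟩ := exists_ell (F := F)
  have h4 : 4 ≤ Fintype.card F := by omega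
  obtain ⟨m, o⟩ := id hodd
  refine ⟨fun χ h d => ?_, fun χ h d => ?_, fun χ ψ h h' n d d' => ?_, fun χ ψ h h' n d d' => ?_⟩
  · obtain ⟨γ, η, -, -, k⟩ := half_add h4 h (by have := dg_eq d; omega)
    rw [← k.sq, ps_ub _ _ one_ne_zero]
  · obtain ⟨γ, η, -, -, k⟩ := half_sub he h4 h (by have := dg_eq d; omega)
    rw [← k.sq, rho_ub he _ one_ne_zero, sub_neg_eq_add]
  · obtain ⟨γ, η, a, b, k⟩ := half_add h4 h (by have := dg_eq d; omega)
    obtain ⟨γ', η', a', b', k'⟩ := half_add h4 h' (by have := dg_eq d'; omega)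
    rw [(k.uniq k' (by rw [quad_uniq a b a' b'])).resolve_left n.symm]
    exact (congrFun k.add _).symm.trans (ps_ub _ _ one_ne_zero)
  · obtain ⟨γ, η, a, b, k⟩ := half_sub he h4 h (by have := dg_eq d; omega)
    obtain ⟨γ', η', a', b', k'⟩ := half_sub he h4 h' (by have := dg_eq d'; omega)
    rw [(k.uniq k' (rs_rho_eq he (quadC_uniq he hodd a' b' a b))).resolve_left n.symm]
    exact (congrFun k.add _).symm.trans (rho_ub he _ one_ne_zero)

end Cfsg.Agent.S2324
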