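import Cfsg.Statements.S2325
import Cfsg.Agent.H4.Cls3

set_option autoImplicit false
open Cfsg

namespace Cfsg.Agent.S2325


/-- Over a finite field with q elements, q odd, the special linear group SL₂ has exactly q + 4 conjugacy classes. -/
theorem result {F : Type*} [Field F] [Fintype F] (hodd : Odd (Fintype.card F)) :
    Nat.card (ConjClasses (Matrix.SpecialLinearGroup (Fin 2) F)) = Fintype.card F + 4 := by
  classical
  have hq : Odd (Nat.card F) := by rwa [Nat.card_eq_fintype_card]
  have h2 : (2 : F) ≠ 0 := H4.two_ne_zero_iff_odd.2 hq
  have h3 : (2 : F) ≠ -2 := fun e => mul_ne_zero h2 h2 (by linear_combination e)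
  rw [H4.card_classes_sum, ← Finset.sum_add_sum_compl {2, -2}, Finset.sum_pair h3,
    H4.card_fiber_neg, H4.card_fiber_two, H4.gcd_two_of_odd hq,
    Finset.sum_congr rfl (g := fun _ => 1), Finset.sum_const, Finset.card_compl,
    Finset.card_pair h3]
  · have : 1 < Fintype.card F := Fintype.one_lt_card
    simp; omega
  · intro t ht
    refine H4.card_fiber_ne fun e => ?_
    have : (t - 2) * (t + 2) = 0 := by linear_combination e
    simp only [Finset.mem_compl, Finset.mem_insert, Finset.mem_singleton, not_or] at ht
    rcases mul_eq_zero.1 this with e | e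
    · exact ht.1 (by linear_combination e)
    · exact ht.2 (by linear_combination e)

end Cfsg.Agent.S2325
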