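import Cfsg.Statements.S2327
import Cfsg.Agent.H5.SB3

set_option autoImplicit false
open Cfsg

namespace Cfsg.Agent.S2327

open H5.SB H5.Chev

/-- In a Chevalley group of type G₂, B₂, D₄, F₄, E₆, E₇ or E₈ over a finite field with q elements, the Steinberg character (the alternating sum of the permutation characters on the standard parabolic subgroups) has degree q^N, N the number of positive roots; this is the order of U and the largest power of the characteristic dividing the group order. -/
theorem result {F : Type*} [Field F] [Fintype F] (D : Cfsg.Lie.ChevalleyDatum) (hD : D ∈ [Cfsg.Lie.chevG2, Cfsg.Lie.chevB2, Cfsg.Lie.chevD4, Cfsg.Lie.chevF4, Cfsg.Lie.chevE6, Cfsg.Lie.chevE7, Cfsg.Lie.chevE8]) :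
    D.steinbergCharacter F 1 = (Fintype.card F : ℂ) ^ (D.nroots / 2) := by
  obtain ⟨_⟩ := good_of_mem hD
  haveI := conn_of_mem hD
  haveI := (grpSys D F).finite_of_top grpSys_top grpSys_π_injective
  obtain ⟨n, hn⟩ := ex_n (grpSys D F) grpSys_top
  rw [st_eq, St_one ee_surj hn, relIndex_eq, Nat.card_eq_fintype_card, Nat.cast_pow]

end Cfsg.Agent.S2327
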