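import Cfsg.Statements.S2329
import Cfsg.Agent.H3.GL2d

set_option autoImplicit false
open Cfsg

namespace Cfsg.Agent.S2329
open H3
export H3 (inner_add_left inner_add_right inner_sub_left inner_sub_right inner_neg_left inner_neg_right
  inner_zero_left inner_zero_right inner_smul_left inner_smul_right inner_conj_symm inner_self_eq_zero
  inner_self_im)

open G2

/-- Over a finite field of characteristic p, any two elements of order p of GL₂ are conjugate: there is a single conjugacy class of non-identity unipotent elements. -/
theorem result {F : Type*} [Field F] [Fintype F] (p : ℕ) [Fact p.Prime] [CharP F p] (g h : Matrix.GeneralLinearGroup (Fin 2) F)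
    (hg : orderOf g = p) (hh : orderOf h = p) : IsConj g h := by
  set_option maxSynthPendingDepth 3 in
  classical
  have k : ∀ g : Matrix.GeneralLinearGroup (Fin 2) F, orderOf g = p → IsConj (tg (H4.ub 1)) g := fun g o => by
    obtain ⟨s, rfl⟩ := exists_tg (g := g) (by
      have : dv g ^ p = 1 := by rw [dv_eq, ← Units.val_pow_eq_pow_val, ← map_pow, ← o, pow_orderOf_eq_one]; simp
      have h := sub_pow_char (p := p) (dv g) 1
      rw [this, one_pow, sub_self] at h
      exact sub_eq_zero.1 (pow_eq_zero_iff (Fact.out : p.Prime).ne_zero |>.1 h))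
    obtain ⟨b, n, c⟩ := H4.orderOf_eq_char_iff.1 ((orderOf_injective tg tg_inj s).symm.trans o)
    refine (isConj_iff.2 ⟨dm (Units.mk0 b n) 1, ?_⟩).trans (tg.map_isConj c)
    rw [← H4.toGL_slConj, slConj_ub]; simp
  exact (k g hg).symm.trans (k h hh)

end Cfsg.Agent.S2329
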