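import Cfsg.Statements.S2331
import Cfsg.Agent.H4.Cls3

set_option autoImplicit false
open Cfsg

namespace Cfsg.Agent.S2331


/-- Over a finite field with q elements, q even, the special linear group SL₂ has exactly q + 1 conjugacy classes. -/
theorem result {F : Type*} [Field F] [Fintype F] [CharP F 2] :
    Nat.card (ConjClasses (Matrix.SpecialLinearGroup (Fin 2) F)) = Fintype.card F + 1 := by
  classical
  have hq : Even (Nat.card F) := even_iff_two_dvd.2 (H4.char_dvd_card 2)
  have h2 : (2 : F) = 0 := CharTwo.two_eq_zero
  rw [H4.card_classes_sum, ← Finset.sum_add_sum_compl {2}, Finset.sum_singleton,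
    H4.card_fiber_two, H4.gcd_two_of_even hq Nat.card_pos.ne',
    Finset.sum_congr rfl (g := fun _ => 1), Finset.sum_const, Finset.card_compl,
    Finset.card_singleton]
  · have : 1 < Fintype.card F := Fintype.one_lt_card
    simp; omega
  · intro t ht
    refine H4.card_fiber_ne fun e => ?_
    simp only [Finset.mem_compl, Finset.mem_singleton] at ht
    exact ht (by grind)

end Cfsg.Agent.S2331
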