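import Cfsg.Statements.S2362
import Cfsg.Agent.H3.Spec1
import Cfsg.Agent.H1.Zsig

set_option autoImplicit false
open Cfsg

namespace Cfsg.Agent.S2362

open Module H4 H4.Form H3.Spec

theorem zs {q N : ℕ} (hq : Odd q) (h1 : 1 < q) (hN : 3 ≤ N) :
    ∃ r : ℕ, r.Prime ∧ Odd r ∧ ¬ r ∣ q ∧ r ∣ q ^ N - 1 ∧ ∀ j, r ∣ q ^ j - 1 → N ∣ j := by
  obtain ⟨r, hr, h2, h3⟩ := H1B.zsigmondy h1 (show 1 < N by omega)
    (fun h => by rw [h.1] at hq; exact absurd hq (by decide)) (fun h => by omega)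
  refine ⟨r, hr, hr.odd_of_ne_two fun h => h3 1 one_pos (by omega) ?_, fun h => ?_, h2,
    fun j hj => ?_⟩
  · rw [h, pow_one]; obtain ⟨a, ha⟩ := hq; exact ⟨a, by omega⟩
  · have h4 : r ∣ q ^ N := h.trans (dvd_pow_self q (by omega))
    have h5 := Nat.dvd_sub h4 h2
    have h6 : 1 ≤ q ^ N := Nat.one_le_pow _ _ (by omega)
    rw [show q ^ N - (q ^ N - 1) = 1 by omega] at h5
    exact hr.one_lt.ne' (Nat.dvd_one.1 h5)
  · have h4 := Nat.dvd_gcd hj h2
    rw [Nat.pow_sub_one_gcd_pow_sub_one] at h4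
    have h5 : 0 < j.gcd N := Nat.gcd_pos_of_pos_right _ (by omega)
    have h6 : j.gcd N ≤ N := Nat.gcd_le_right _ (by omega)
    have h7 : j.gcd N = N := by
      by_contra h
      exact h3 _ h5 (by omega) h4
    rw [← h7]; exact Nat.gcd_dvd_left _ _

theorem nt {q m : ℕ} (hq : Odd q) (h1 : 1 < q) (hm : 2 ≤ m) :
    ∃ r : ℕ, r.Prime ∧ Odd r ∧ ¬ r ∣ q ∧ r ∣ q ^ (2 * m) - 1 ∧
      (∀ j, r ∣ q ^ (2 * j) - 1 → m ∣ j) ∧
      ((q ^ m % 4 = 1 ∧ r ∣ q ^ m + 1) ∨ (q ^ m % 4 ≠ 1 ∧ r ∣ q ^ m - 1)) := by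
  have e : q ^ (2 * m) - 1 = (q ^ m + 1) * (q ^ m - 1) := by
    rw [← Nat.sq_sub_sq, one_pow, ← pow_mul, mul_comm]
  by_cases h : q ^ m % 4 = 1
  · obtain ⟨r, a, b, c, d, k⟩ := zs hq h1 (show 3 ≤ 2 * m by omega)
    refine ⟨r, a, b, c, d, fun j hj => Nat.dvd_of_mul_dvd_mul_left two_pos (k _ hj),
      Or.inl ⟨h, ?_⟩⟩
    rw [e] at d
    refine (a.dvd_mul.1 d).resolve_right fun h' => ?_
    have := Nat.le_of_dvd (by omega) (k _ h')
    omega
  · have ho : Odd m := by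
      by_contra he
      obtain ⟨t, ht⟩ := Nat.not_odd_iff_even.1 he
      obtain ⟨a, ha⟩ : Odd (q ^ t) := hq.pow
      apply h
      rw [ht, pow_add, ha, show (2 * a + 1) * (2 * a + 1) = 1 + 4 * (a * a + a) by ring,
        Nat.add_mul_mod_self_left]
    obtain ⟨r, a, b, c, d, k⟩ := zs hq h1 (show 3 ≤ m by obtain ⟨t, ht⟩ := ho; omega)
    refine ⟨r, a, b, c, by rw [e]; exact d.mul_left _, fun j hj => ?_, Or.inr ⟨h, d⟩⟩
    exact (Nat.coprime_two_right.2 ho).dvd_of_dvd_mul_left (k _ hj)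

theorem sp {F : Type*} [Field F] [Finite F] {V : Type*} [AddCommGroup V] [Module F V]
    [FiniteDimensional F V] {f : Form (altKind F) V} (hf : f.ND) (h2 : (2 : F) ≠ 0) {m p r : ℕ}
    (hm : 1 ≤ m) (hV : finrank F V = 2 * m + 2) (hp : p.Prime) (hpo : Odd p) (hpq : p ∣ Nat.card F)
    (hr : r.Prime) (hro : Odd r) (hrq : r ∣ Nat.card F ^ (2 * m) - 1) :
    ∃ x : f.Isom ⧸ Subgroup.center f.Isom, 2 ∣ orderOf x ∧ p ∣ orderOf x ∧ r ∣ orderOf x := by
  have := Fact.mk hp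
  have := Fact.mk hr
  obtain ⟨a, b, hab⟩ := alt_exists_hyp hf (by omega)
  have hU := hab.NDOn
  have hd := hab.finrank_perp
  set U := Submodule.span F {a, b}
  have : Finite U := Module.finite_of_finite F
  have : Finite (f.perp U) := Module.finite_of_finite F
  have : Finite V := Module.finite_of_finite F
  have := (f.restrict U).finite_Isom
  have := (f.restrict (f.perp U)).finite_Isom
  have := f.finite_Isom
  obtain ⟨u, hu⟩ := exists_prime_orderOf_dvd_card' (G := (f.restrict U).Isom) p (by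
    rw [alt_card_Isom 1 _ _ (f.restrict_ND.2 hU) hab.finrank_span]
    exact (by simpa using hpq : p ∣ Nat.card F ^ 1 ^ 2).mul_right _)
  obtain ⟨s, hs⟩ := exists_prime_orderOf_dvd_card' (G := (f.restrict (f.perp U)).Isom) r (by
    rw [alt_card_Isom m _ _ (f.restrict_ND.2 (hU.perp hf)) (by omega)]
    refine Dvd.dvd.mul_left (hrq.trans ?_) _
    have := Finset.dvd_prod_of_mem (fun i => Nat.card F ^ (2 * (i + 1)) - 1)
      (Finset.mem_range.2 (show m - 1 < m by omega))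
    rwa [show m - 1 + 1 = m by omega] at this)
  obtain ⟨ν, hν⟩ := exists_neg (f.restrict (f.perp U))
  let e := hU.stabEquiv
  let G := e.symm (u, ν * s)
  refine ⟨(G.1 : f.Isom), ?_⟩
  set o := orderOf ((G.1 : f.Isom) : f.Isom ⧸ Subgroup.center f.Isom)
  have hc : G.1 ^ o ∈ Subgroup.center f.Isom := by
    rw [← QuotientGroup.eq_one_iff, QuotientGroup.mk_pow]; exact pow_orderOf_eq_one _
  have he : ∀ k, e (G ^ k) = (u ^ k, (ν * s) ^ k) := fun k => by
    rw [map_pow, e.apply_symm_apply]; rfl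
  have od : ∀ {t : ℕ}, Odd t → t ∣ o * 2 → t ∣ o := fun ht h =>
    (Nat.coprime_two_right.2 ht).dvd_of_dvd_mul_right h
  have h3 : G ^ (o * 2) = 1 := by
    apply Subtype.ext
    have h4 : (⟨_, hc⟩ : Subgroup.center f.Isom) ^ 2 = 1 := by
      apply orderOf_dvd_iff_pow_eq_one.1
      refine (orderOf_dvd_natCard _).trans ?_
      rw [alt_card_center hf (by omega)]; exact Nat.gcd_dvd_left _ _
    have h5 : (G.1 ^ o) ^ 2 = 1 := congrArg Subtype.val h4
    rw [← pow_mul] at h5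
    exact h5
  have h4 : p ∣ o := by
    apply od hpo
    rw [← hu, orderOf_dvd_iff_pow_eq_one]
    have := he (o * 2)
    rw [h3, map_one] at this
    exact (congrArg Prod.fst this).symm
  have h5 : u ^ o = 1 := by rw [← orderOf_dvd_iff_pow_eq_one, hu]; exact h4
  obtain ⟨c, hcx⟩ := (alt_rich.wrich.mem_center_iff hf hab (G := ⊤) le_top
    (z := ⟨G.1 ^ o, trivial⟩)).1
    (Subgroup.mem_center_iff.2 fun t => Subtype.ext (Subgroup.mem_center_iff.1 hc t.1))
  have h6 : c = 1 := by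
    have ha : a ∈ U := Submodule.subset_span (by simp)
    have h7 : (((e (G ^ o)).1 : U ≃ₗ[F] U) ⟨a, ha⟩ : V) = c • a := hcx a
    rw [he, h5] at h7
    have h8 : (c - 1) • a = 0 := by rw [sub_smul, one_smul, ← h7]; exact sub_self a
    exact sub_eq_zero.1 ((smul_eq_zero.1 h8).resolve_right hab.u_ne)
  have h7 : (ν * s) ^ o = 1 := by
    have : G ^ o = 1 := by
      apply Subtype.ext; apply Subtype.ext; ext x
      have := hcx x
      rw [h6, one_smul] at this
      exact this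
    have h8 := he o
    rw [this, map_one] at h8
    exact (congrArg Prod.snd h8).symm
  have hcm : Commute ν s := by
    apply Subtype.ext; ext x
    show ((ν.1 (s.1 x) : f.perp U) : V) = (s.1 (ν.1 x) : f.perp U)
    rw [hν, hν, map_neg]
  have hν2 : ν ^ 2 = 1 := by
    apply Subtype.ext; ext x
    rw [sq]
    show ((ν.1 (ν.1 x) : f.perp U) : V) = x
    rw [hν, hν, neg_neg]
  have h8 : r ∣ o := by
    apply od hro
    rw [← hs, orderOf_dvd_iff_pow_eq_one]
    have : (ν * s) ^ (o * 2) = 1 := by rw [pow_mul, h7, one_pow]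
    rwa [hcm.mul_pow, mul_comm o 2, pow_mul, hν2, one_pow, one_mul, mul_comm 2 o] at this
  refine ⟨?_, h4, h8⟩
  rw [hcm.mul_pow, show s ^ o = 1 from orderOf_dvd_iff_pow_eq_one.1 (hs.symm ▸ h8), mul_one] at h7
  by_contra h9
  obtain ⟨t, ht⟩ := Nat.not_even_iff_odd.1 (mt even_iff_two_dvd.1 h9)
  rw [ht, pow_succ, pow_mul, hν2, one_pow, one_mul] at h7
  have : Nontrivial (f.perp U) := Module.nontrivial_of_finrank_pos (R := F) (by omega)
  obtain ⟨x, hx⟩ := exists_ne (0 : f.perp U)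
  have h10 := hν x
  rw [h7] at h10
  have h11 : (2 : F) • x = 0 := by
    rw [two_smul]; exact eq_neg_iff_add_eq_zero.1 h10
  exact hx ((smul_eq_zero.1 h11).resolve_left h2)

/-- Let F be a finite field of odd order and n ≥ 3. The simple orthogonal group PΩ(2n+1, F) (type B_n) and the projective symplectic group PSp(2n, F) (type C_n), which have the same order, do not have the same set of element orders. -/
theorem result {F : Type*} [Field F] [Fintype F] (hodd : Odd (Fintype.card F)) (n : ℕ) (hn : 3 ≤ n) :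
    Set.range (orderOf : Cfsg.POmega F (Cfsg.quadFormOdd n F) → ℕ) ≠ Set.range (orderOf : Cfsg.PSp n F → ℕ) := by
  set_option maxSynthPendingDepth 3 in
  intro hE
  have hq : Odd (Nat.card F) := by rwa [Nat.card_eq_fintype_card]
  have h2 : (2 : F) ≠ 0 := H4.odd_card_iff.1 hq
  obtain ⟨m, rfl⟩ : ∃ m, n = m + 1 := ⟨n - 1, by omega⟩
  obtain ⟨r, hr, hro, hrq, hd, hA, hB⟩ := nt hq Finite.one_lt_card (show 2 ≤ m by omega)
  obtain ⟨p, hch⟩ := CharP.exists F
  obtain ⟨k, hp, hk⟩ := FiniteField.card F p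
  have := Fact.mk hp
  have hpq : p ∣ Nat.card F := by
    rw [Nat.card_eq_fintype_card, hk]; exact dvd_pow_self p k.ne_zero
  have hpo : Odd p := Odd.of_dvd_nat hq hpq
  have hr0 : (r : F) ≠ 0 := fun h => hrq (by
    rwa [← (Nat.prime_dvd_prime_iff_eq hp hr).1 ((CharP.cast_eq_zero_iff F p r).1 h)])
  obtain ⟨x, x1, x2, x3⟩ := sp (spForm_ND (m + 1) F) h2 (m := m) (by omega) (by simp; omega) hp hpo
    hpq hr hro hd
  have hx : orderOf x ∈ Set.range (orderOf : Cfsg.PSp (m + 1) F → ℕ) :=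
    ⟨(centerQuotEquiv (spEquiv (m + 1) F)).symm x, MulEquiv.orderOf_eq _ _⟩
  rw [← hE] at hx
  obtain ⟨y, hy⟩ := hx
  obtain ⟨g, hg⟩ := QuotientGroup.mk_surjective (pomegaEquiv (oddForm F (m + 1)) y)
  have h3 : orderOf x ∣ orderOf g.1 := by
    have e1 : orderOf (pomegaEquiv (oddForm F (m + 1)) y) = orderOf x :=
      ((pomegaEquiv (oddForm F (m + 1))).orderOf_eq y).trans hy
    rw [← e1, ← hg, Subgroup.orderOf_coe]
    exact orderOf_map_dvd (QuotientGroup.mk' _) g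
  have := (oddForm F (m + 1)).finite_Isom
  have h0 := (orderOf_pos g.1).ne'
  have o : ∀ t : ℕ, t.Prime → t ∣ orderOf x → (g.1 ^ (orderOf g.1 / t)) ^ t = 1 ∧
      g.1 ^ (orderOf g.1 / t) ≠ 1 := fun t ht h => by
    have h4 := orderOf_pow_orderOf_div h0 (h.trans h3)
    refine ⟨orderOf_dvd_iff_pow_eq_one.1 h4.dvd, fun h5 => ?_⟩
    rw [h5, orderOf_one] at h4
    exact ht.one_lt.ne h4
  exact (o p hp x2).2 (main (oddForm_ND F (m + 1) h2) h2 hpo (o 2 Nat.prime_two x1).1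
    (o 2 Nat.prime_two x1).2 (Subgroup.pow_mem _ g.2 _) (o p hp x2).1 hr hro hr0 hrq (o r hr x3).1
    hA hB (o r hr x3).2 (by omega) (by simp; omega) (Commute.pow_pow_self _ _ _)
    (Commute.pow_pow_self _ _ _) (Commute.pow_pow_self _ _ _))

end Cfsg.Agent.S2362
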