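import Cfsg.Statements.S2363
import Cfsg.Agent.S0243
import Cfsg.Agent.S0245
import Cfsg.Agent.S0246
import Cfsg.Agent.S0280
import Cfsg.Agent.S0292
import Cfsg.Agent.S0293
import Cfsg.Agent.S0294
import Cfsg.Agent.S1059
import Cfsg.Agent.S1062
import Cfsg.Agent.S1063
import Cfsg.Agent.S1064
import Cfsg.Agent.S1065
import Cfsg.Agent.S1066
import Cfsg.Agent.S1067
import Cfsg.Agent.S1068
import Cfsg.Agent.S1069
import Cfsg.Agent.S1163

set_option autoImplicit false
open Cfsg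

namespace Cfsg.Agent.S2363

open Finset

theorem key {G H : Type*} [Group G] [Finite G] [Group H] {p q d N R : ℕ} (hp : p.Prime) (hq : ∃ f, 0 < f ∧ q = p ^ f) (e : G ≃* H) (hd : ¬p ∣ d)
    (h : d * Nat.card H = q ^ N * R) (k : R ^ 3 < q ^ (5 * N)) : Nat.card G ^ 3 < p ^ (8 * (Nat.card G).factorization p) := by
  obtain ⟨f, -, rfl⟩ := hq
  rw [← Nat.card_congr e.toEquiv, ← pow_mul] at h
  have := (hp.pow_dvd_iff_le_factorization Nat.card_pos.ne').1 (((hp.coprime_iff_not_dvd.2 hd).pow_left _).dvd_of_dvd_mul_left ⟨_, h⟩)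
  calc _ ≤ (p ^ (f * N) * R) ^ 3 := Nat.pow_le_pow_left (h ▸ Nat.le_mul_of_pos_left _ (Nat.pos_of_ne_zero fun z => hd (z ▸ dvd_zero p))) _
    _ < (p ^ (f * N)) ^ 3 * (p ^ f) ^ (5 * N) := by rw [mul_pow]; exact mul_lt_mul_of_pos_left k (pow_pos (pow_pos hp.pos _) _)
    _ = p ^ (8 * (f * N)) := by ring
    _ ≤ _ := Nat.pow_le_pow_right hp.pos (by omega)

theorem pp {F : Type*} [Field F] [Fintype F] {p q k : ℕ} [CharP F p] (k0 : k ≠ 0) (h : Fintype.card F = q ^ k) : ∃ f, 0 < f ∧ q = p ^ f := by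
  obtain ⟨n, hp, e⟩ := FiniteField.card F p
  obtain ⟨f, -, rfl⟩ := (Nat.dvd_prime_pow hp).1 (e ▸ h ▸ dvd_pow_self q k0 : q ∣ p ^ (n : ℕ))
  exact ⟨f, Nat.pos_of_ne_zero fun z => Fintype.one_lt_card.ne' (by simpa [z] using h), rfl⟩

theorem nd {p q : ℕ} (hp : p.Prime) (hq : ∃ f, 0 < f ∧ q = p ^ f) : 2 ≤ q ∧ ∀ i, i ≠ 0 → (∀ a, ¬p ∣ Nat.gcd a (q ^ i - 1)) ∧ ∀ a, ¬p ∣ Nat.gcd a (q ^ i + 1) := by
  obtain ⟨f, f0, rfl⟩ := hq
  refine ⟨one_lt_pow₀ hp.one_lt f0.ne', fun i i0 => ?_⟩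
  have := (dvd_pow_self p f0.ne').pow i0
  exact ⟨fun a h => hp.not_dvd_one ((Nat.dvd_sub_iff_right (Nat.one_le_pow _ _ (pow_pos hp.pos f)) this).1 (h.trans (Nat.gcd_dvd_right _ _))),
    fun a h => hp.not_dvd_one ((Nat.dvd_add_right this).1 (h.trans (Nat.gcd_dvd_right _ _)))⟩

theorem bnd {q R E N : ℕ} (hq : 2 ≤ q) (h : R ≤ q ^ E) (k : E * 3 < 5 * N) : R ^ 3 < q ^ (5 * N) :=
  (Nat.pow_le_pow_left h 3).trans_lt (by rw [← pow_mul]; exact Nat.pow_lt_pow_right hq k)

theorem sc {q : ℕ} (hq : 2 ≤ q) (i : ℕ) : q ^ i + 1 ≤ q ^ (i + 1) := by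
  have := Nat.one_le_pow i q (by omega)
  rw [pow_succ]; nlinarith

theorem ev (q m : ℕ) : ∏ i ∈ range m, (q ^ (2 * (i + 1)) - 1) ≤ q ^ (m * (m + 1)) := by
  induction m with
  | zero => simp
  | succ m k => rw [prod_range_succ, show (m + 1) * (m + 1 + 1) = m * (m + 1) + 2 * (m + 1) by ring, pow_add]; exact Nat.mul_le_mul k (Nat.sub_le _ _)

theorem lu {q : ℕ} (hq : 2 ≤ q) {f : ℕ → ℕ} (h : ∀ i, f i ≤ q ^ (i + 1) + 1) (h1 : f 1 = q ^ 2 - 1) (n : ℕ) :
    (∏ i ∈ range (n + 2), f (i + 1)) ^ 3 < q ^ (5 * ∑ i ∈ range (n + 3), i) := by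
  induction n with
  | zero =>
    have : f 1 * f 2 < q ^ 5 := by
      obtain ⟨a, e⟩ : ∃ a, q ^ 2 = a + 1 := ⟨_, (Nat.sub_add_cancel (Nat.one_le_pow _ _ (by omega))).symm⟩
      have := Nat.pow_le_pow_right (show 0 < q by omega) (show 2 ≤ 3 by omega)
      have : f 2 ≤ q ^ 3 + 1 := h 2
      rw [h1, show q ^ 5 = q ^ 2 * q ^ 3 by ring, e, Nat.add_sub_cancel]; nlinarith [Nat.mul_le_mul_left a this]
    simpa [prod_range_succ, sum_range_succ, ← pow_mul] using Nat.pow_lt_pow_left this three_ne_zero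
  | succ n k =>
    rw [prod_range_succ, sum_range_succ, mul_pow, mul_add, pow_add]
    exact Nat.mul_lt_mul_of_lt_of_le k ((Nat.pow_le_pow_left ((h _).trans (sc hq _)) 3).trans (by rw [← pow_mul]; exact Nat.pow_le_pow_right (by omega) (by omega))) (by positivity)

/-- Let G be a finite simple group of Lie type in characteristic p and let p^k be the exact power of p dividing the order of G. Then the order of G is less than p^(3k); and unless G is isomorphic to PSL(2, F) for the field F with p^k elements, the cube of the order of G is less than p^(8k) (that is, the order is below p^(8k/3)). -/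
theorem result {G : Type*} [Group G] [Finite G] (p : ℕ) (hp : p.Prime) (hG : Cfsg.IsLieTypeChar p G) :
    Nat.card G < p ^ (3 * (Nat.card G).factorization p) ∧
      ((¬ ∃ (F : Type) (_ : Field F) (_ : Fintype F), Fintype.card F = p ^ (Nat.card G).factorization p ∧
          Nonempty (G ≃* Matrix.ProjectiveSpecialLinearGroup (Fin 2) F)) →
        Nat.card G ^ 3 < p ^ (8 * (Nat.card G).factorization p)) := by
  set_option maxSynthPendingDepth 3 in
  suffices Nat.card G ^ 3 < p ^ (8 * (Nat.card G).factorization p) ∨ _ ∧ ¬¬_ from this.elim (fun h => ⟨lt_of_pow_lt_pow_left₀ 3 (by positivity)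
    (h.trans_le (by rw [← pow_mul]; exact Nat.pow_le_pow_right hp.pos (by omega))), fun _ => h⟩) fun h => ⟨h.1, fun k => absurd k h.2⟩
  have o := hp.not_dvd_one
  have s := @Nat.sub_le
  rcases hG with ⟨F, _, _, _, n, n2, -, ⟨e⟩⟩ | ⟨F, _, _, _, m, m2, -, ⟨e⟩⟩ | ⟨F, _, _, _, n, q, c, n3, -, ⟨e⟩⟩ | ⟨F, _, _, _, m, m2, c, ⟨e⟩⟩ | ⟨F, _, _, _, m, m2, ⟨e⟩⟩ |
    ⟨F, _, _, _, m, a, b, m2, c, ⟨e⟩⟩ | ⟨F, _, _, _, h⟩ | ⟨F, _, _, _, q, c, ⟨d, ⟨e⟩⟩ | ⟨d, ⟨e⟩⟩⟩ | ⟨rfl, F, _, _, m, m1, c, ⟨e⟩⟩ | ⟨rfl, F, _, _, m, m1, c, ⟨e⟩⟩ | ⟨rfl, F, _, _, m, m1, c, ⟨e⟩⟩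
  · have a := pp (p := p) one_ne_zero (pow_one (Fintype.card F)).symm
    have h := S0243.result (F := F) rfl n n2
    obtain ⟨q2, b⟩ := nd hp a
    have b1 := (b 1 one_ne_zero).1
    rw [pow_one] at b1
    set q := Fintype.card F
    obtain ⟨n, rfl⟩ := Nat.exists_eq_add_of_le' n2
    rw [Fin.prod_univ_eq_prod_range fun i => q ^ (n + 2) - q ^ i, prod_congr rfl fun i a => show q ^ (n + 2) - q ^ i = q ^ i * (q ^ (n + 2 - 1 - i + 1) - 1) by
      rw [Nat.mul_sub_one, ← pow_add]; congr 2; simp at a; omega, prod_mul_distrib, prod_pow_eq_pow_sum, prod_range_reflect fun i => q ^ (i + 1) - 1, prod_range_succ',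
      zero_add, pow_one, mul_left_comm, ← mul_assoc (q ^ _), mul_comm _ (q - 1), mul_right_inj' (by omega)] at h
    cases n with
    | succ n => exact .inl (key hp a e (b1 _) h (lu q2 (f := fun i => q ^ (i + 1) - 1) (fun i => by omega) rfl n))
    | zero =>
      obtain ⟨f, f0, a⟩ := a
      have z : q ^ 2 - 1 < q ^ 2 := Nat.sub_one_lt (by positivity)
      have := congrArg (·.factorization p) h
      simp only [zero_add, prod_range_one, sum_range_succ, sum_range_zero, pow_one, ← Nat.card_congr e.toEquiv] at this h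
      rw [Nat.factorization_mul (fun z => b1 _ (z ▸ dvd_zero p)) Nat.card_pos.ne', Nat.factorization_mul (by omega) fun z => (b 2 two_ne_zero).1 0 (by simp [z]), Finsupp.add_apply,
        Finsupp.add_apply, Nat.factorization_eq_zero_of_not_dvd (b1 _), Nat.factorization_eq_zero_of_not_dvd (n := q ^ _ - 1) (by simpa using (b 2 two_ne_zero).1 0), zero_add,
        add_zero, a, hp.factorization_pow, Finsupp.single_eq_same] at this
      refine .inr ⟨?_, not_not.2 ⟨F, _, _, this ▸ a, ⟨e⟩⟩⟩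
      rw [this, mul_comm, pow_mul, ← a]
      exact ((Nat.le_mul_of_pos_left _ (Nat.gcd_pos_of_pos_left _ two_pos)).trans h.le).trans_lt (by nlinarith)
  · have a := pp (p := p) one_ne_zero (pow_one (Fintype.card F)).symm
    refine .inl (key hp a e (by simpa using ((nd hp a).2 1 one_ne_zero).1 2) (?_ : Nat.gcd 2 (Fintype.card F - 1) * _ = _) (bnd (nd hp a).1 (ev _ m) (N := m ^ 2) (by nlinarith)))
    rw [← S0245.result rfl, ← S0246.result rfl m (by omega), mul_comm, ← Subgroup.card_eq_card_quotient_mul_card_subgroup]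
  · have a := pp (p := p) two_ne_zero c
    have h := S0280.result c n (by omega)
    obtain ⟨n, rfl⟩ := Nat.exists_eq_add_of_le' n3
    rw [← sum_range_id, prod_range_succ', if_pos Even.zero, zero_add, pow_one, mul_left_comm, ← mul_assoc (q ^ _), mul_comm _ (q + 1), mul_right_inj' (by omega)] at h
    exact .inl (key hp a e (by simpa using ((nd hp a).2 1 one_ne_zero).2 (n + 3)) h (lu (nd hp a).1 (f := fun i => if Even i then q ^ (i + 1) + 1 else q ^ (i + 1) - 1)
      (fun i => by split_ifs <;> omega) (by simp) n))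
  · have a := pp (p := p) one_ne_zero (pow_one (Fintype.card F)).symm
    refine .inl (key hp a e (fun h => ?_) (S0292.result rfl c m m2) (bnd (nd hp a).1 (ev _ m) (by nlinarith)))
    obtain ⟨f, f0, a⟩ := a
    exact c.not_two_dvd_nat (a ▸ (Nat.prime_dvd_prime_iff_eq hp Nat.prime_two).1 h ▸ dvd_pow_self p f0.ne')
  · have a := pp (p := p) one_ne_zero (pow_one (Fintype.card F)).symm
    obtain ⟨m, rfl⟩ := Nat.exists_eq_add_of_le' m2
    exact .inl (key hp a e (((nd hp a).2 _ (by omega)).1 4) ((S0293.result rfl _ m2).trans (mul_assoc _ _ _)) (bnd (nd hp a).1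
      ((Nat.mul_le_mul (s _ _) (ev _ _)).trans (pow_add _ _ _).ge) (by simp; nlinarith)))
  · have a := pp (p := p) one_ne_zero (pow_one (Fintype.card F)).symm
    obtain ⟨m, rfl⟩ := Nat.exists_eq_add_of_le' m2
    exact .inl (key hp a e (((nd hp a).2 _ (by omega)).2 4) ((S0294.result rfl _ m2 _ _ c).trans (mul_assoc _ _ _)) (bnd (nd hp a).1
      ((Nat.mul_le_mul (sc (nd hp a).1 _) (ev _ _)).trans (pow_add _ _ _).ge) (by simp; nlinarith)))
  · have a := pp (p := p) one_ne_zero (pow_one (Fintype.card F)).symm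
    have b := ((nd hp a).2 1 one_ne_zero).1
    rw [pow_one] at b
    rcases h with ⟨-, ⟨e⟩⟩ | ⟨⟨e⟩⟩ | ⟨⟨e⟩⟩ | ⟨⟨e⟩⟩ | ⟨⟨e⟩⟩
    · exact .inl (key hp a e o (by rw [one_mul, S1059.result rfl]; simp only [mul_assoc]; rfl) (bnd (nd hp a).1 (E := 2 + 6) (by simp only [pow_add]; gcongr <;> apply s) (by omega)))
    · exact .inl (key hp a e o (by rw [one_mul, S1062.result rfl]; simp only [mul_assoc]; rfl) (bnd (nd hp a).1 (E := 2 + (6 + (8 + 12)))
        (by simp only [pow_add]; gcongr <;> apply s) (by omega)))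
    · exact .inl (key hp a e (b 3) (by rw [S1063.result rfl]; simp only [mul_assoc]; rfl) (bnd (nd hp a).1 (E := 2 + (5 + (6 + (8 + (9 + 12)))))
        (by simp only [pow_add]; gcongr <;> apply s) (by omega)))
    · exact .inl (key hp a e (b 2) (by rw [S1064.result rfl]; simp only [mul_assoc]; rfl) (bnd (nd hp a).1 (E := 2 + (6 + (8 + (10 + (12 + (14 + 18))))))
        (by simp only [pow_add]; gcongr <;> apply s) (by omega)))
    · exact .inl (key hp a e o (by rw [one_mul, S1065.result rfl]; simp only [mul_assoc]; rfl) (bnd (nd hp a).1 (E := 2 + (8 + (12 + (14 + (18 + (20 + (24 + 30)))))))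
        (by simp only [pow_add]; gcongr <;> apply s) (by omega)))
  · have a := pp (p := p) two_ne_zero d
    exact .inl (key hp a e (by simpa using ((nd hp a).2 1 one_ne_zero).2 3) (by rw [S1066.result c d]; simp only [mul_assoc]; rfl) (bnd (nd hp a).1 (E := 2 + (6 + (6 + (8 + (10 + 12)))))
      (by simp only [pow_add]; gcongr <;> first | apply s | exact sc (nd hp a).1 _) (by omega)))
  · have a := pp (p := p) three_ne_zero d
    exact .inl (key hp a e o (by rw [one_mul, S1067.result c d]; simp only [mul_assoc]; rfl) (bnd (nd hp a).1 (E := 2 + (6 + 9))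
      (by
        have t := (nd hp a).1
        have := Nat.pow_lt_pow_right t (show 4 < 8 by omega)
        have := Nat.mul_le_mul_left (q ^ 8) t
        simp only [pow_add]; gcongr; exacts [s _ _, s _ _, by rw [pow_succ q 8]; omega]) (by omega)))
  · have a : ∃ f, 0 < f ∧ 2 ^ (2 * m + 1) = 2 ^ f := ⟨_, by omega, rfl⟩
    refine .inl (key hp a e o ((one_mul _).trans ((S1163.result m1 c).1.trans (mul_assoc _ _ _))) (bnd (nd hp a).1 (E := 3) ?_ (by omega)))
    obtain ⟨q, e⟩ : ∃ q, 2 ^ (2 * m + 1) = q + 1 := ⟨_, (Nat.sub_add_cancel Nat.one_le_two_pow).symm⟩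
    rw [e, Nat.add_sub_cancel]; nlinarith
  · have a : ∃ f, 0 < f ∧ 2 ^ (2 * m + 1) = 2 ^ f := ⟨_, by omega, rfl⟩
    exact .inl (key hp a e o (by rw [one_mul, S1068.result c]; simp only [mul_assoc]; rfl) (bnd (nd hp a).1 (E := 1 + (4 + (4 + 7)))
      (by simp only [pow_add _ 1, pow_add _ 4, pow_one]; gcongr <;> first | apply s | exact sc (nd hp a).1 _) (by omega)))
  · have a : ∃ f, 0 < f ∧ 3 ^ (2 * m + 1) = 3 ^ f := ⟨_, by omega, rfl⟩
    refine .inl (key hp a e o ((one_mul _).trans ((S1069.result c).trans (mul_assoc _ _ _))) (bnd (nd hp a).1 (E := 4) ?_ (by omega)))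
    obtain ⟨q, e⟩ : ∃ q, 3 ^ (2 * m + 1) = q + 1 := ⟨_, (Nat.sub_add_cancel (Nat.one_le_pow _ _ three_pos)).symm⟩
    rw [e, Nat.add_sub_cancel]; nlinarith [Nat.zero_le (q ^ 3), Nat.zero_le (q ^ 2)]

end Cfsg.Agent.S2363
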