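import Cfsg.Statements.S2367
-- import your own Cfsg.Agent.* helpers here

set_option autoImplicit false
open Cfsg

namespace Cfsg.Agent.S2367

theorem spor {N a : ℕ} (h : (N, a) ∈ [(7920, 4), (95040, 6), (443520, 7), (10200960, 7), (244823040, 10), (175560, 3), (604800, 7), (50232960, 7), (86775571046077562880, 21), (4157776806543360000, 21), (42305421312000, 18), (495766656000, 10), (64561751654400, 17), (4089470473293004800, 18), (1255205709190661721292800, 21), (44352000, 9), (898128000, 7), (4030387200, 10), (145926144000, 14), (448345497600, 13), (460815505920, 9), (273030912000000, 14), (51765179004000000, 8), (90745943887872000, 15), (4154781481226426191177580544000000, 41), (808017424794512875886459904961710757005754368000000000, 46)]) (p : ℕ) (hp : p.Prime) (hodd : p ≠ 2) (h3 : N.factorization p = 3) :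
    p ^ 3 < 2 ^ N.factorization 2 := by
  have key : ∀ x ∈ [(7920, 4), (95040, 6), (443520, 7), (10200960, 7), (244823040, 10), (175560, 3), (604800, 7), (50232960, 7), (86775571046077562880, 21), (4157776806543360000, 21), (42305421312000, 18), (495766656000, 10), (64561751654400, 17), (4089470473293004800, 18), (1255205709190661721292800, 21), (44352000, 9), (898128000, 7), (4030387200, 10), (145926144000, 14), (448345497600, 13), (460815505920, 9), (273030912000000, 14), (51765179004000000, 8), (90745943887872000, 15), (4154781481226426191177580544000000, 41), (808017424794512875886459904961710757005754368000000000, 46)], x.1 ≠ 0 ∧ x.1 ∣ Nat.factorial 100 ∧ 2 ^ x.2 ∣ x.1 ∧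
      ∀ p < 101, p = 2 ∨ ¬ p ^ 3 ∣ x.1 ∨ p ^ 4 ∣ x.1 ∨ (∃ d < p, 2 ≤ d ∧ d ∣ p) ∨ p ^ 3 < 2 ^ x.2 := by
    set_option synthInstance.maxSize 1000 in decide +kernel
  obtain ⟨h0, h1, h2, h4⟩ := key _ h
  have d3 : p ^ 3 ∣ N := (hp.pow_dvd_iff_le_factorization h0).2 h3.ge
  have d4 : ¬ p ^ 4 ∣ N := fun h => by
    have : 4 ≤ N.factorization p := (hp.pow_dvd_iff_le_factorization h0).1 h
    omega
  have l : p ≤ 100 := hp.dvd_factorial.1 (((dvd_pow_self p (by norm_num)).trans d3).trans h1)
  exact (((((h4 p (by omega)).resolve_left hodd).resolve_left (not_not.2 d3)).resolve_left d4).resolve_left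
    fun ⟨d, h5, h6, h7⟩ => by rcases (Nat.dvd_prime hp).1 h7 with h | h <;> omega).trans_le
    (Nat.pow_le_pow_right (by norm_num) ((Nat.prime_two.pow_dvd_iff_le_factorization h0).1 h2))

theorem vf (p n : ℕ) [Fact p.Prime] : padicValNat p n.factorial = padicValNat p (n / p).factorial + n / p := by
  rw [← padicValNat_mul_div_factorial n, padicValNat_factorial_mul]

theorem cube (p : ℕ) (h : 5 ≤ p) : p ^ 3 < 2 ^ (2 * p - 1) := by
  induction p, h using Nat.le_induction with
  | base => norm_num
  | succ k hk ih =>
    rw [show 2 * (k + 1) - 1 = (2 * k - 1) + 2 by omega, pow_add]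
    have : (k + 1) ^ 3 ≤ k ^ 3 * 2 ^ 2 := by nlinarith [Nat.mul_le_mul hk hk, Nat.mul_le_mul (Nat.mul_le_mul hk (le_refl k)) (le_refl k)]
    omega


/-- Let G be an alternating group of degree at least 5 or a simple group with the order of one of the 26 sporadic groups, and let p be an odd prime such that p³ is the exact power of p dividing the order of G. Then p³ is less than the 2-part of the order of G. -/
theorem result {G : Type*} [Group G] [Finite G] (hG : Cfsg.IsAlternating G ∨ Cfsg.IsSporadic G)
    (p : ℕ) (hp : p.Prime) (hodd : p ≠ 2) (h3 : (Nat.card G).factorization p = 3) :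
    p ^ 3 < 2 ^ (Nat.card G).factorization 2 := by
  rcases hG with ⟨n, hn, ⟨e⟩⟩ | h
  · haveI := Fact.mk hp
    haveI : Nontrivial (Fin n) := Fin.nontrivial_iff_two_le.2 (by omega)
    have h1 : 2 * Nat.card G = n.factorial := by
      rw [Nat.card_congr e.toEquiv, two_mul_nat_card_alternatingGroup, Nat.card_perm, Nat.card_eq_fintype_card,
        Fintype.card_fin]
    have h0 : Nat.card G ≠ 0 := Nat.card_pos.ne'
    have h2 : padicValNat p n.factorial = 3 := by
      rw [← Nat.factorization_def _ hp, ← h1, Nat.factorization_mul (by norm_num) h0, Finsupp.add_apply, h3,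
        Nat.factorization_eq_zero_of_not_dvd (fun h => hodd ((Nat.prime_dvd_prime_iff_eq hp Nat.prime_two).1 h))]
    have h4 : padicValNat 2 n.factorial = 1 + (Nat.card G).factorization 2 := by
      rw [← Nat.factorization_def _ Nat.prime_two, ← h1, Nat.factorization_mul (by norm_num) h0, Finsupp.add_apply,
        Nat.prime_two.factorization_self]
    rw [vf] at h2
    have hp3 : 3 ≤ p := by have := hp.two_le; omega
    have z : ∀ k, k < p → padicValNat p k.factorial = 0 := fun k hk =>
      padicValNat.eq_zero_of_not_dvd fun h => absurd (hp.dvd_factorial.1 h) (by omega)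
    have k3 : n / p = 3 := by
      by_contra h
      rw [z _ (by omega)] at h2
      omega
    have p5 : 5 ≤ p := by
      by_contra h
      have : p = 3 ∨ p = 4 := by omega
      rcases this with rfl | rfl
      · rw [k3, vf] at h2; omega
      · norm_num at hp
    have n3 : 3 * p ≤ n := k3 ▸ Nat.div_mul_le_self n p
    rw [vf, vf] at h4
    exact (cube p p5).trans_le (Nat.pow_le_pow_right (by norm_num) (by omega))
  · rcases h with h | h | h | h | h | h | h | h | h | h | h | h | h | h | h | h | h | h | h | h | h | h | h | h | h | h <;> rw [h.2] at h3 ⊢ <;>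
      first
      | exact spor (a := 3) (by decide +kernel) p hp hodd h3
      | exact spor (a := 4) (by decide +kernel) p hp hodd h3
      | exact spor (a := 6) (by decide +kernel) p hp hodd h3
      | exact spor (a := 7) (by decide +kernel) p hp hodd h3
      | exact spor (a := 8) (by decide +kernel) p hp hodd h3
      | exact spor (a := 9) (by decide +kernel) p hp hodd h3
      | exact spor (a := 10) (by decide +kernel) p hp hodd h3
      | exact spor (a := 13) (by decide +kernel) p hp hodd h3
      | exact spor (a := 14) (by decide +kernel) p hp hodd h3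
      | exact spor (a := 15) (by decide +kernel) p hp hodd h3
      | exact spor (a := 17) (by decide +kernel) p hp hodd h3
      | exact spor (a := 18) (by decide +kernel) p hp hodd h3
      | exact spor (a := 21) (by decide +kernel) p hp hodd h3
      | exact spor (a := 41) (by decide +kernel) p hp hodd h3
      | exact spor (a := 46) (by decide +kernel) p hp hodd h3

end Cfsg.Agent.S2367
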