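import Cfsg.Statements.S2384
import Cfsg.Agent.H3.RCF2

set_option autoImplicit false
open Cfsg

namespace Cfsg.Agent.S2384

open H3.RCF Polynomial

/-- In `SL_n(q)`, `q` a power of the prime `p`, the number of conjugacy classes of elements of order prime to `p` (the semisimple classes) is `q^(n-1)`. -/
theorem result {F : Type*} [Field F] [Fintype F] {q : ℕ} (hq : Fintype.card F = q) (p : ℕ) [Fact p.Prime] [CharP F p] (n : ℕ) (hn : 1 ≤ n) :
    Nat.card {c : ConjClasses (Matrix.SpecialLinearGroup (Fin n) F) //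
      ∃ g : Matrix.SpecialLinearGroup (Fin n) F, ConjClasses.mk g = c ∧ (orderOf g).Coprime p} = q ^ (n - 1) := by
  set_option maxSynthPendingDepth 3 in
  obtain ⟨n, rfl⟩ := Nat.exists_eq_add_of_le' hn
  have c : Nat.card {c : F // (-1) ^ (n + 1) * c = 1} = 1 :=
    Nat.card_eq_one_iff_unique.2 ⟨⟨fun a b => Subtype.ext (mul_left_cancel₀ (by simp) (a.2.trans b.2.symm))⟩,
      ⟨⟨(-1) ^ (n + 1), by rw [← mul_pow]; simp⟩⟩⟩
  have c' := card_monic' (F := F) n fun c => (-1) ^ (n + 1) * c = 1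
  rw [c, one_mul] at c'
  rw [← hq, ← Nat.card_eq_fintype_card, Nat.add_sub_cancel, ← c']
  refine card_cls _ (fun g P => g.1.charpoly = P.1) (fun P => ?_) (fun g _ => ⟨⟨_, g.1.charpoly_monic, by simp, ?_⟩, rfl⟩)
    fun g h P Q a b d e => ?_
  · obtain ⟨A, m, t, d, e⟩ := exists_ss_mat P.2.1 P.2.2.1
    exact ⟨⟨A, by rw [A.det_eq_sign_charpoly_coeff, d, Fintype.card_fin, P.2.2.2]⟩,
      cop_of_typ Matrix.SpecialLinearGroup.coeMonoidHom Subtype.val_injective t fun x b => (e x b).1, d⟩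
  · have := g.2
    rwa [Matrix.det_eq_sign_charpoly_coeff, Fintype.card_fin] at this
  · rw [Subtype.ext_iff, ← d, ← e]
    exact ⟨fun k => Sim.cp (isConj_gl.1 (Matrix.SpecialLinearGroup.toGL.map_isConj k)), sl_conj a b⟩

end Cfsg.Agent.S2384
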