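import Cfsg.Statements.S2589
import Cfsg.Agent.H4.WlA

set_option autoImplicit false
open Cfsg

namespace Cfsg.Agent.S2589


/-- Two semisimple elements of the finite symplectic group Sp_2m(F) (elements of order prime to the characteristic) are conjugate in Sp_2m(F) if and only if they are conjugate in GL_2m(F). -/
theorem result {F : Type*} [Field F] [Fintype F] {p : ℕ} [Fact p.Prime] [CharP F p] {m : ℕ} (A B : Matrix.symplecticGroup (Fin m) F) (hA : (orderOf A).Coprime p) : IsConj A B ↔ IsConj (A : Matrix (Fin m ⊕ Fin m) (Fin m ⊕ Fin m) F) (B : Matrix (Fin m ⊕ Fin m) (Fin m ⊕ Fin m) F) := by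
  refine ⟨(Matrix.symplecticGroup (Fin m) F).subtype.map_isConj, fun ⟨g, hg⟩ => ?_⟩
  refine (H4.isConj_equiv (H4.spEquiv m F)).1 (H4.conj_alt (H4.spForm_ND m F) (g := H4.glEquiv g)
    (LinearEquiv.ext fun v => ?_) (n := orderOf A) ?_ fun h => ?_)
  · change g.1.mulVec (A.1.mulVec v) = B.1.mulVec (g.1.mulVec v)
    rw [Matrix.mulVec_mulVec, Matrix.mulVec_mulVec, hg.eq]
  · rw [← Subgroup.coe_pow, ← map_pow, pow_orderOf_eq_one, map_one, Subgroup.coe_one]
  · exact (Fact.out : p.Prime).one_lt.ne' (Nat.Coprime.eq_one_of_dvd hA.symm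
      ((CharP.cast_eq_zero_iff F p _).1 h))

end Cfsg.Agent.S2589
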