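import Cfsg.Statements.S2389
import Cfsg.Agent.S2589
import Cfsg.Agent.H3.RCF3

set_option autoImplicit false
open Cfsg

namespace Cfsg.Agent.S2389

open H3.RCF

/-- In the symplectic group `Sp_{2n}(q)`, `q` a power of the prime `p`, two elements of order prime to `p` with the same characteristic polynomial are conjugate in `Sp_{2n}(q)`. -/
theorem result {F : Type*} [Field F] [Fintype F] (p : ℕ) [Fact p.Prime] [CharP F p] (n : ℕ)
    (g h : ↥(Matrix.symplecticGroup (Fin n) F)) (hg : (orderOf g).Coprime p) (hh : (orderOf h).Coprime p)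
    (hc : (g : Matrix (Fin n ⊕ Fin n) (Fin n ⊕ Fin n) F).charpoly = (h : Matrix (Fin n ⊕ Fin n) (Fin n ⊕ Fin n) F).charpoly) :
    IsConj g h := by
  set_option maxSynthPendingDepth 3 in
  exact (S2589.result g h hg).2 (isConj_mat.2 (sim_of_cop (Matrix.symplecticGroup (Fin n) F).subtype hg hh hc))

end Cfsg.Agent.S2389
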