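import Cfsg.Statements.S2385
import Cfsg.Agent.H3.Wall6
import Cfsg.Agent.S2389

set_option autoImplicit false
open Cfsg

namespace Cfsg.Agent.S2385

open H3.RCF H3.Wall H4

/-- In the symplectic group `Sp_{2n}(q)`, `q` a power of the prime `p`, the number of conjugacy classes of elements of order prime to `p` is `q^n`. -/
theorem result {F : Type*} [Field F] [Fintype F] {q : ℕ} (hq : Fintype.card F = q) (p : ℕ) [Fact p.Prime] [CharP F p] (n : ℕ) :
    Nat.card {c : ConjClasses ↥(Matrix.symplecticGroup (Fin n) F) //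
      ∃ g : ↥(Matrix.symplecticGroup (Fin n) F), ConjClasses.mk g = c ∧ (orderOf g).Coprime p} = q ^ n := by
  set_option maxSynthPendingDepth 3 in
  rw [← hq, ← Nat.card_eq_fintype_card, ← card_pal]
  have E : ∀ C, (spEquiv n F C).1.toLinearMap = Matrix.toLin' C.1 := fun C => LinearMap.ext (spEquiv_apply n F C)
  refine card_cls _ (fun g P => g.1.charpoly = P.1) (fun P => ?_) (fun g _ => ⟨⟨_, ⟨g.1.charpoly_monic, by simp [two_mul], ?_⟩, ?_⟩, rfl⟩)
    fun g h P Q a b d e => ?_
  · obtain ⟨k, c, d⟩ := exists_k p P.2.1.1 (by simp [P.2.1.2.2])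
    obtain ⟨g, a, b, e⟩ := ach_sp c P.2.1.1 d P.2.2 P.2.1.2.2 P.2.1.2.1
    obtain ⟨g, rfl⟩ : ∃ t, (spEquiv n F t).1 = g := ⟨(spEquiv n F).symm ⟨g, a⟩, by simp⟩
    exact ⟨g, c.coprime_dvd_left (orderOf_dvd_of_pow_eq_one ((spEquiv n F).injective (by
      rw [map_pow, map_one]; exact Subtype.ext b))), by rw [← e, E, Matrix.charpoly_toLin']⟩
  · have := SymplecticGroup.det_eq_one g.2
    rw [Matrix.det_eq_sign_charpoly_coeff] at this
    simpa [← two_mul] using this
  · rw [← Matrix.charpoly_toLin', ← E]; exact cp_st (spForm_ND n F) (spEquiv n F g).2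
  · rw [Subtype.ext_iff, ← d, ← e]
    exact ⟨fun k => Sim.cp (isConj_mat.1 ((Matrix.symplecticGroup (Fin n) F).subtype.map_isConj k)), S2389.result p n g h a b⟩

end Cfsg.Agent.S2385
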