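import Cfsg.Statements.S2386
import Cfsg.Agent.H3.Wall6

set_option autoImplicit false
open Cfsg

namespace Cfsg.Agent.S2386

open H3.RCF H3.Wall H4

/-- In the special unitary group `SU_n(q)` (matrices of determinant one over the field with `q²` elements preserving the standard Hermitian form), `q` a power of the prime `p`, the number of conjugacy classes of elements of order prime to `p` is `q^(n-1)`. -/
theorem result {F : Type*} [Field F] [Fintype F] {q : ℕ} (hF : Fintype.card F = q ^ 2) (p : ℕ) [Fact p.Prime] [CharP F p] (n : ℕ) (hn : 1 ≤ n) :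
    Nat.card {c : ConjClasses ↥(Cfsg.SU n F q) // ∃ g : ↥(Cfsg.SU n F q), ConjClasses.mk g = c ∧ (orderOf g).Coprime p} = q ^ (n - 1) := by
  set_option maxSynthPendingDepth 3 in
  obtain ⟨n, rfl⟩ := Nat.exists_eq_add_of_le' hn
  obtain ⟨ω, hω⟩ := not_forall.1 fun z => frobq_ne_id hF (RingHom.ext z)
  have c := card_st (frobq hF) (frobq_frobq hF) hω (ε := (-1) ^ (n + 1)) (by rw [map_pow, map_neg, map_one, ← mul_pow]; simp) n
  rw [Nat.card_eq_fintype_card (α := F), hF, pow_right_comm] at c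
  rw [Nat.add_sub_cancel, ← Nat.pow_left_injective two_ne_zero c]
  let φ := Matrix.SpecialLinearGroup.coeMonoidHom.comp (SU (n + 1) F q).subtype
  refine card_cls _ (fun g P => g.1.1.charpoly = P.1) (fun P => ?_) (fun g _ => ⟨⟨_, ⟨g.1.1.charpoly_monic, by simp, ?_⟩, ?_⟩, rfl⟩)
    fun g h P Q a b d e => ?_
  · obtain ⟨k, c, d⟩ := exists_k p P.2.1.1 (by simp [P.2.1.2.2])
    obtain ⟨g, a, b, e⟩ := ach_u hF c P.2.1.1 d P.2.2 P.2.1.2.1
    obtain ⟨g, h⟩ := (suEquiv hF _).surjective ⟨⟨g, a⟩, Units.ext ((LinearEquiv.coe_det g).trans (by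
      rw [LinearMap.det_eq_sign_charpoly_coeff, e, P.2.1.2.2]; simp [← mul_pow]))⟩
    obtain rfl : (suEquiv hF _ g).1.1 = _ := congrArg (·.1.1) h
    exact ⟨g, c.coprime_dvd_left (orderOf_dvd_of_pow_eq_one ((suEquiv hF _).injective (by
      rw [map_pow, map_one]; exact Subtype.ext (Subtype.ext b)))), (Matrix.charpoly_toLin' _).symm.trans e⟩
  · have := g.1.2
    rw [Matrix.det_eq_sign_charpoly_coeff, Fintype.card_fin] at this
    exact (eq_inv_of_mul_eq_one_right this).trans (by simp [← inv_pow])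
  · have := cp_st (uForm_ND hF _) (suEquiv hF _ g).1.2
    rwa [show (suEquiv hF _ g).1.1.toLinearMap = Matrix.toLin' g.1.1 from LinearMap.ext (suEquiv_apply hF _ g), Matrix.charpoly_toLin'] at this
  · rw [Subtype.ext_iff, ← d, ← e]
    exact ⟨fun k => Sim.cp (isConj_mat.1 (φ.map_isConj k)), su_conj hF g h a b⟩

end Cfsg.Agent.S2386
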