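import Cfsg.Statements.S2387
import Cfsg.Agent.H3.RCF2

set_option autoImplicit false
open scoped MatrixGroups
open Cfsg

namespace Cfsg.Agent.S2387

open H3.RCF Polynomial

/-- In `GL_n(q)` with `n ≥ 1`, `q` a power of the prime `p`, the number of conjugacy classes of elements of order prime to `p` (diagonalisable over the algebraic closure; determined by the characteristic polynomial) is `(q - 1) q^(n-1)`. -/
theorem result {F : Type*} [Field F] [Fintype F] {q : ℕ} (hq : Fintype.card F = q) (p : ℕ) [Fact p.Prime] [CharP F p] (n : ℕ) (hn : 1 ≤ n) :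
    Nat.card {c : ConjClasses (GL (Fin n) F) // ∃ g : GL (Fin n) F, ConjClasses.mk g = c ∧ (orderOf g).Coprime p} = (q - 1) * q ^ (n - 1) := by
  set_option maxSynthPendingDepth 3 in
  obtain ⟨n, rfl⟩ := Nat.exists_eq_add_of_le' hn
  have c : Nat.card {c : F // c ≠ 0} = q - 1 := by
    classical rw [Nat.card_eq_fintype_card, Fintype.card_subtype_compl, hq, Fintype.card_unique]
  rw [← c, ← hq, ← Nat.card_eq_fintype_card, Nat.add_sub_cancel, ← card_monic' n (· ≠ 0)]
  refine card_cls _ (fun g P => g.1.charpoly = P.1) (fun P => ?_) (fun g _ => ⟨⟨_, g.1.charpoly_monic, by simp, fun z => ?_⟩, rfl⟩)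
    fun g h P Q a b d e => ?_
  · obtain ⟨A, m, t, d, e⟩ := exists_ss_mat P.2.1 P.2.2.1
    exact ⟨.mkOfDetNeZero A (by simp [A.det_eq_sign_charpoly_coeff, d, P.2.2.2]),
      cop_of_typ (Units.coeHom _) Units.val_injective t fun x b => (e x b).1, d⟩
  · exact g.det_ne_zero (by rw [Matrix.det_eq_sign_charpoly_coeff, z, mul_zero])
  · rw [isConj_gl, Subtype.ext_iff, ← d, ← e]
    exact ⟨Sim.cp, fun k => sim_of_cop (p := p) (Units.coeHom (Matrix (Fin (n + 1)) (Fin (n + 1)) F)) a b k⟩

end Cfsg.Agent.S2387
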