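import Cfsg.Statements.S2391
import Mathlib

set_option autoImplicit false
open Cfsg

namespace Cfsg.Agent.S2391

/-- The Borel–Tits property of `SL_n(q)` in flag form: for a field `F` of characteristic `p` with finitely many elements and a non-trivial `p`-subgroup `U` of `SL_n(F)`, there is a flag `0 = V₀ < V₁ < ⋯ < V_{k+1} = F^n` with at least one proper non-zero member such that every element of the normaliser of `U` maps each `V_i` onto itself and every element of `U` acts trivially on each quotient `V_{i+1}/V_i` (so the normaliser lies in the parabolic subgroup of the flag and `U` in its unipotent radical). -/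
theorem result {F : Type*} [Field F] [Fintype F] (p : ℕ) [Fact p.Prime] [CharP F p] (n : ℕ)
    (U : Subgroup (Matrix.SpecialLinearGroup (Fin n) F)) (hU : IsPGroup p ↥U) (hne : U ≠ ⊥) :
    ∃ (k : ℕ) (V : Fin (k + 2) → Submodule F (Fin n → F)), 1 ≤ k ∧ StrictMono V ∧ V 0 = ⊥ ∧ V (Fin.last (k + 1)) = ⊤ ∧
      (∀ g ∈ Subgroup.normalizer (U : Set (Matrix.SpecialLinearGroup (Fin n) F)), ∀ i, (V i).map (Matrix.mulVecLin (g : Matrix (Fin n) (Fin n) F)) = V i) ∧
      (∀ u ∈ U, ∀ i : Fin (k + 1), ∀ v ∈ V i.succ, (u : Matrix (Fin n) (Fin n) F).mulVec v - v ∈ V (Fin.castSucc i)) := by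
  set_option maxSynthPendingDepth 3 in
  classical
  let ρ : Representation F (Matrix.SpecialLinearGroup (Fin n) F) (Fin n → F) :=
    (Matrix.toLinAlgEquiv' (R := F) (n := Fin n)).toMonoidHom.comp Matrix.SpecialLinearGroup.coeMonoidHom
  let W : ℕ → Submodule F (Fin n → F) := fun i => Nat.rec ⊥ (fun _ X => ⨅ u : U, X.comap (ρ u - 1)) i
  have m : ∀ i v, v ∈ W (i + 1) ↔ ∀ u ∈ U, ρ u v - v ∈ W i := fun i v => by simp [W, Submodule.mem_iInf]
  have nv : ∀ i, ∀ g ∈ Subgroup.normalizer (U : Set (Matrix.SpecialLinearGroup (Fin n) F)), ∀ v ∈ W i, ρ g v ∈ W i :=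
    fun i => by
      induction i with
      | zero => intro g _ v h; rw [show v = 0 from h, map_zero]; exact zero_mem _
      | succ i ih =>
        refine fun g h v k => (m i _).2 fun u l => ?_
        have := ih g h _ ((m i v).1 k _ ((Subgroup.mem_normalizer_iff''.1 h u).1 l))
        rwa [map_sub, ← Module.End.mul_apply, ← map_mul, ← mul_assoc, mul_inv_cancel_left, map_mul] at this
  have lt : ∀ i, W i ≠ ⊤ → W i < W (i + 1) := fun i h => by
    refine SetLike.lt_iff_le_and_exists.2 ⟨fun v k => (m i v).2 fun u l => sub_mem (nv i u (Subgroup.le_normalizer l) v k) k,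
      ?_⟩
    letI : MulAction U ((Fin n → F) ⧸ W i) := MulAction.compHom _ (Representation.quotient (ρ.comp U.subtype) (W i)
      fun u => nv i u (Subgroup.le_normalizer u.2))
    haveI := Submodule.Quotient.nontrivial_iff.2 h
    obtain ⟨f, -, hf⟩ := FiniteField.card F p
    obtain ⟨b, b1, b2⟩ := hU.exists_fixed_point_of_prime_dvd_card_of_fixed_point ((Fin n → F) ⧸ W i) (a := 0) (by
      rw [Module.natCard_eq_pow_finrank (K := F), Nat.card_eq_fintype_card, hf]
      exact dvd_pow (dvd_pow_self p f.ne_zero) Module.finrank_pos.ne') fun u => map_zero (Representation.quotient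
        (ρ.comp U.subtype) (W i) (fun u => nv i u (Subgroup.le_normalizer u.2)) u)
    obtain ⟨v, rfl⟩ := Submodule.Quotient.mk_surjective _ b
    exact ⟨v, (m i v).2 fun u l => (Submodule.Quotient.eq _).1 (b1 ⟨u, l⟩),
      fun z => b2 ((Submodule.Quotient.mk_eq_zero _).2 z).symm⟩
  have ex : ∃ i, W i = ⊤ := by
    exact Classical.byContradiction fun z =>
      not_strictMono_of_wellFoundedGT W (strictMono_nat_of_lt_succ fun i => lt i fun y => z ⟨i, y⟩)
  have w1 : W 1 ≠ ⊤ := fun z => hne (eq_bot_iff.2 fun u l => Subtype.ext (Matrix.mulVec_injective (funext fun v =>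
    (sub_eq_zero.1 ((m 0 v).1 (z.ge Submodule.mem_top) u l)).trans (Matrix.one_mulVec v).symm)))
  have w0 : W 0 ≠ ⊤ := fun z => w1 (eq_top_iff.2 fun v _ => (m 0 v).2 fun u _ => z.ge Submodule.mem_top)
  obtain ⟨k, e, mn⟩ : ∃ k, W (k + 1 + 1) = ⊤ ∧ ∀ i < k + 1 + 1, W i ≠ ⊤ := by
    obtain ⟨k, a, b⟩ := wellFounded_lt.has_min {i | W i = ⊤} ex
    rcases k with _ | _ | k
    exacts [(w0 a).elim, (w1 a).elim, ⟨k, a, fun i l z => b i z l⟩]
  refine ⟨k + 1, fun i => W i, by omega, Fin.strictMono_iff_lt_succ.2 fun i => lt i (mn _ i.2), rfl,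
    e, fun g h i => le_antisymm (Submodule.map_le_iff_le_comap.2 (nv i g h)) fun v l =>
      ⟨_, nv i _ (inv_mem h) v l, ?_⟩, fun u l i v k => (m i v).1 k u l⟩
  show ρ g (ρ g⁻¹ v) = v
  rw [← Module.End.mul_apply, ← map_mul, mul_inv_cancel, map_one]; rfl

end Cfsg.Agent.S2391
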