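import Cfsg.Statements.S2394
import Cfsg.Agent.H7.GK
import Cfsg.Agent.H4.Classify

set_option autoImplicit false
open scoped MatrixGroups
open Cfsg

namespace Cfsg.Agent.S2394
open H7
open scoped commutatorElement

section
open Subgroup

theorem odd_prime {q n : ℕ} (hq : 2 ≤ q) (hn : 2 ≤ n) : ∃ r : ℕ, r.Prime ∧ r ≠ 2 ∧ r ∣ q ^ n + 1 := by
  have key : ∀ s, Odd s → s ≠ 1 → s ∣ q ^ n + 1 → ∃ r : ℕ, r.Prime ∧ r ≠ 2 ∧ r ∣ q ^ n + 1 := by
    intro s h1 h2 h3
    obtain ⟨r, hr, hd⟩ := Nat.exists_prime_and_dvd h2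
    refine ⟨r, hr, ?_, hd.trans h3⟩
    rintro rfl
    exact (Nat.not_even_iff_odd.2 h1) (even_iff_two_dvd.2 hd)
  have hlt : q < q ^ n := by
    calc q = q ^ 1 := (pow_one q).symm
      _ < q ^ n := Nat.pow_lt_pow_right hq hn
  rcases Nat.even_or_odd q with h | ⟨a, ha⟩
  · exact key _ (Even.add_one ((Nat.even_pow' (by omega)).2 h)) (by omega) dvd_rfl
  rcases Nat.even_or_odd n with ⟨k, hk⟩ | ⟨k, hk⟩
  · obtain ⟨b, hb⟩ : Odd (q ^ k) := Odd.pow ⟨a, ha⟩
    have e : q ^ n + 1 = 2 * (2 * (b * b + b) + 1) := by rw [hk, pow_add, hb]; ring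
    exact key (2 * (b * b + b) + 1) ⟨_, rfl⟩ (by omega) ⟨2, by rw [e]; ring⟩
  · obtain ⟨s, hs⟩ : q + 1 ∣ q ^ n + 1 := by simpa using Odd.nat_add_dvd_pow_add_pow q 1 ⟨k, hk⟩
    refine key s ?_ (by rintro rfl; omega) ⟨q + 1, by rw [hs]; ring⟩
    by_contra h
    obtain ⟨t, ht⟩ := Nat.not_odd_iff_even.1 h
    have h1 : ((2 * (q + 1) : ℕ) : ℤ) ∣ (q : ℤ) ^ n + 1 := by
      have : 2 * (q + 1) ∣ q ^ n + 1 := ⟨t, by rw [hs, ht]; ring⟩
      exact_mod_cast this
    have h2 : ((2 * (q + 1) : ℕ) : ℤ) ∣ (q : ℤ) ^ 2 - 1 := ⟨a, by rw [ha]; push_cast; ring⟩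
    have h3 : (q : ℤ) ^ 2 - 1 ∣ ((q : ℤ) ^ 2) ^ k - 1 := by simpa using sub_dvd_pow_sub_pow ((q : ℤ) ^ 2) 1 k
    have h4 : ((2 * (q + 1) : ℕ) : ℤ) ∣ ((q + 1 : ℕ) : ℤ) := by
      have := dvd_sub h1 (dvd_mul_of_dvd_right (h2.trans h3) q)
      rwa [show (q : ℤ) ^ n + 1 - q * (((q : ℤ) ^ 2) ^ k - 1) = ((q + 1 : ℕ) : ℤ) by rw [hk]; push_cast; ring] at this
    have := Nat.le_of_dvd (by omega) (Int.natCast_dvd_natCast.1 h4)
    omega

theorem split_prod (f : ℕ → ℕ) (m : ℕ) : ∏ j ∈ Finset.range (2 * m + 1), f (j + 1) =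
    (∏ i ∈ Finset.range m, f (2 * (i + 1))) * ∏ i ∈ Finset.range (m + 1), f (2 * i + 1) := by
  induction m with
  | zero => simp
  | succ m ih =>
    rw [show 2 * (m + 1) + 1 = 2 * m + 1 + 1 + 1 by ring, Finset.prod_range_succ, Finset.prod_range_succ, ih,
      Finset.prod_range_succ (fun i => f (2 * (i + 1))) m, Finset.prod_range_succ (fun i => f (2 * i + 1)) (m + 1),
      show 2 * m + 1 + 1 = 2 * (m + 1) by ring]
    ring

end

/-- The smallest degree of a faithful representation of the symplectic group `Sp_{2n}(q)` over its own field `F_q` is `2n`: every injective homomorphism from `Sp_{2n}(F)` to `GL_d(F)`, `F` the field with `q` elements, has `d ≥ 2n`. -/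
theorem result {F : Type*} [Field F] [Fintype F] (n : ℕ) {d : ℕ}
    (ρ : ↥(Matrix.symplecticGroup (Fin n) F) →* GL (Fin d) F) (hρ : Function.Injective ρ) : 2 * n ≤ d := by
  open Subgroup in
  by_contra hlt
  push Not at hlt
  obtain ⟨m, rfl⟩ : ∃ m, n = m + 1 := ⟨n - 1, by omega⟩
  have h := Subgroup.card_dvd_of_injective ρ hρ
  rw [H4.card_symplecticGroup, Matrix.card_GL_field, Nat.card_eq_fintype_card] at h
  set q := Fintype.card F with hq
  have q2 : 2 ≤ q := Fintype.one_lt_card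
  have e1 : ∏ i : Fin d, (q ^ d - q ^ (i : ℕ)) = (∏ i ∈ Finset.range d, q ^ i) * ∏ j ∈ Finset.range d, (q ^ (j + 1) - 1) := by
    rw [Fin.prod_univ_eq_prod_range (fun i => q ^ d - q ^ i), ← Finset.prod_range_reflect (fun j => q ^ (j + 1) - 1),
      ← Finset.prod_mul_distrib]
    refine Finset.prod_congr rfl fun i hi => ?_
    have := Finset.mem_range.1 hi
    rw [Nat.mul_sub, mul_one, ← pow_add]
    congr 2; omega
  rw [e1] at h
  have pos : ∀ k, 0 < q ^ (k + 1) - 1 := fun k => Nat.sub_pos_of_lt (Nat.one_lt_pow (by omega) q2)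
  have h2 : ∏ i ∈ Finset.range (m + 1), (q ^ (2 * (i + 1)) - 1) ∣ ∏ j ∈ Finset.range d, (q ^ (j + 1) - 1) := by
    refine Nat.Coprime.dvd_of_dvd_mul_left ?_ (dvd_of_mul_left_dvd h)
    refine Nat.Coprime.prod_left fun i _ => Nat.Coprime.prod_right fun j _ => Nat.Coprime.pow_right _ ?_
    have : q ^ (2 * (i + 1)) - 1 + 1 = q ^ (2 * i + 1) * q := by
      have := pos (2 * i + 1)
      rw [← pow_succ, show 2 * (i + 1) = 2 * i + 1 + 1 by ring]; omega
    exact Nat.Coprime.coprime_dvd_right ⟨_, this.trans (mul_comm _ _)⟩ (by simp)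
  have h3 := h2.trans (Finset.prod_dvd_prod_of_subset _ (Finset.range (2 * m + 1)) _ (Finset.range_mono (by omega)))
  rw [split_prod (fun j => q ^ j - 1), Finset.prod_range_succ] at h3
  have h4 := Nat.dvd_of_mul_dvd_mul_left (Finset.prod_pos fun i _ => pos (2 * i + 1)) h3
  rcases Nat.eq_zero_or_pos m with rfl | hm
  · simp at h4
    have := Nat.le_of_dvd (by omega) h4
    have h5 : q ^ 2 = q * q := pow_two q
    have : 2 * q ≤ q * q := Nat.mul_le_mul_right q q2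
    omega
  obtain ⟨r, hr, r2, hd⟩ := odd_prime q2 (show 2 ≤ m + 1 by omega)
  have h5 : q ^ (m + 1) + 1 ∣ q ^ (2 * (m + 1)) - 1 := by
    rw [mul_comm, pow_mul]
    exact ⟨q ^ (m + 1) - 1, by simpa using Nat.sq_sub_sq (q ^ (m + 1)) 1⟩
  obtain ⟨i, -, hi⟩ := (hr.prime.dvd_finset_prod_iff _).1 (hd.trans (h5.trans h4))
  have a1 : ((q : ZMod r)) ^ (m + 1) = -1 := by
    have := (ZMod.natCast_eq_zero_iff _ r).2 hd
    push_cast at this
    exact eq_neg_of_add_eq_zero_left this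
  have a2 : ((q : ZMod r)) ^ (2 * i + 1) = 1 := by
    have := (ZMod.natCast_eq_zero_iff _ r).2 hi
    rw [Nat.cast_sub (Nat.one_le_pow _ _ (by omega))] at this
    push_cast at this
    exact sub_eq_zero.1 this
  have a3 : ((2 : ℕ) : ZMod r) = 0 := by
    have : ((q : ZMod r) ^ (m + 1)) ^ (2 * i + 1) = (-1) ^ (2 * i + 1) := by rw [a1]
    rw [← pow_mul, mul_comm, pow_mul, a2, one_pow, Odd.neg_one_pow ⟨i, rfl⟩] at this
    push_cast
    linear_combination this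
  exact r2 ((Nat.prime_dvd_prime_iff_eq hr Nat.prime_two).1 ((ZMod.natCast_eq_zero_iff _ r).1 a3))

end Cfsg.Agent.S2394
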