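import Cfsg.Statements.S2399
import Cfsg.Agent.H5.Mul6

set_option autoImplicit false
open scoped MatrixGroups
open Cfsg

namespace Cfsg.Agent.S2399

open H5 H5.Chev Cfsg.Lie Matrix

theorem tors {D : ChevalleyDatum} [Good D] [Conn D] [Dom D] {F G E : Type*} [Field F] [Group G] [Group E]
    {S : StSys D F G} {ψ : E →* G} (hψ : CExt ψ) {p : ℕ} (hp : p.Prime) (h0 : (p : F) = 0)
    (h : ∀ z, ψ z = 1 → z ^ p = 1 → z = 1) (h' : ∀ z, ψ z = 1 → IsOfFinOrder z) : Lifts S ψ := by
  refine lifts_of_tors hψ h0 h fun z hz => ?_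
  have : p.Coprime (orderOf z) := hp.coprime_iff_not_dvd.2 fun ⟨k, hk⟩ => by
    have h1 := h (z ^ k) (by simp [hz]) (by rw [← pow_mul, mul_comm, ← hk, pow_orderOf_eq_one])
    have h2 := (h' z hz).orderOf_pos
    have := Nat.le_of_dvd (Nat.pos_of_mul_pos_left (hk ▸ h2)) (orderOf_dvd_of_pow_eq_one h1)
    have := hp.two_le
    nlinarith
  obtain ⟨k, hk⟩ := exists_pow_eq_self_of_coprime this
  exact ⟨z ^ k, by simp [hz], by rwa [← pow_mul, mul_comm, pow_mul]⟩

/-- Projective representations in the natural characteristic lift: for each of the types G₂, B₂, D₄, F₄, E₆, E₇, E₈ over any field `K` (for types B₂ and G₂ the field must have more than two elements — the cases where the Chevalley group is not simple are set aside), every homomorphism from the Chevalley group to `PGL_n(L) = GL_n(L)/Z`, `L` a field of the same characteristic as `K`, lifts uniquely to a homomorphism from the group Δ presented by (R1), (R2) to `GL_n(L)`, compatibly with the projection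 Δ → Chevalley group sending x̄_r(t) to x_r(t). -/
theorem result {K : Type*} [Field K] (D : Cfsg.Lie.ChevalleyDatum) (hD : D ∈ [Cfsg.Lie.chevG2, Cfsg.Lie.chevB2, Cfsg.Lie.chevD4, Cfsg.Lie.chevF4, Cfsg.Lie.chevE6, Cfsg.Lie.chevE7, Cfsg.Lie.chevE8]) (hK : D ∈ [Cfsg.Lie.chevB2, Cfsg.Lie.chevG2] → ∃ x : K, x ≠ 0 ∧ x ≠ 1)
    (θ : D.SteinbergCover K →* ↥(D.group K))
    (hθ : ∀ (r : ℕ) (t : K), r < D.nroots → ((θ (D.scGen K r t) : GL D.Idx K) : Matrix D.Idx D.Idx K) = D.x K r t)
    {L : Type*} [Field L] (hL : ringChar L = ringChar K) {n : ℕ}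
    (φ : ↥(D.group K) →* GL (Fin n) L ⧸ Subgroup.center (GL (Fin n) L)) :
    ∃! ψ : D.SteinbergCover K →* GL (Fin n) L, (QuotientGroup.mk' (Subgroup.center (GL (Fin n) L))).comp ψ = φ.comp θ := by
  obtain ⟨G⟩ := good_of_mem hD
  have := conn_of_mem hD
  have := dom_of_mem hD
  have hK' : D = chevG2 ∨ D = chevB2 → ∃ x : K, x ≠ 0 ∧ x ≠ 1 :=
    fun h => hK (by rcases h with rfl | rfl <;> simp)
  have hp := perfect_sys hD (scSys D K) scSys_top hK'
  have hπ : CExt (QuotientGroup.mk' (Subgroup.center (GL (Fin n) L))) :=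
    ⟨QuotientGroup.mk'_surjective _, (QuotientGroup.ker_mk' _).le⟩
  rcases CharP.char_is_prime_or_zero K (ringChar K) with h | h
  swap
  · have : CharP K 0 := h ▸ ringChar.charP K
    have := CharP.charP_to_charZero K
    have := Infinite.of_injective _ (Nat.cast_injective (R := K))
    obtain ⟨s, hs⟩ := Infinite.exists_subset_card_eq K 5
    exact univ_of_lifts hp (fun _ _ _ h => lifts_of_card hD h grpSys_hmul ⟨s, by omega⟩) hπ _
  let P := ((QuotientGroup.mk' _).comp (MonoidHom.fst _ _)).eqLocus (φ.comp (MonoidHom.snd _ _)) ⊓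
    (GeneralLinearGroup.det.comp (MonoidHom.fst (GL (Fin n) L) (D.group K))).ker
  have hs : ∀ z : P, z.1.2 = 1 → ∃ a : Lˣ, GeneralLinearGroup.scalar (Fin n) a = z.1.1 := fun z hz => by
    have := hπ.cen (z.2.1.trans (by simp [hz]) : QuotientGroup.mk' _ z.1.1 = 1)
    rwa [GeneralLinearGroup.center_eq_range_scalar] at this
  have hψ : CExt ((MonoidHom.snd _ _).comp P.subtype) := by
    refine ⟨?_, fun z hz => Subgroup.mem_center_iff.2 fun g => Subtype.ext (Prod.ext ?_ ?_)⟩
    · rw [← MonoidHom.range_eq_top, eq_top_iff, ← perfect_of_mem hD hK', commutator_eq_closure,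
        Subgroup.closure_le]
      rintro _ ⟨a, b, rfl⟩
      obtain ⟨A, hA⟩ := hπ.surj (φ a)
      obtain ⟨B, hB⟩ := hπ.surj (φ b)
      refine ⟨⟨(A * B * A⁻¹ * B⁻¹, a * b * a⁻¹ * b⁻¹), ?_, by simp⟩, rfl⟩
      change QuotientGroup.mk' _ (A * B * A⁻¹ * B⁻¹) = φ (a * b * a⁻¹ * b⁻¹)
      simp only [map_mul, map_inv, hA, hB]
    · exact (hπ.commute (z.2.1.trans (by simp [show z.1.2 = 1 from hz])) g.1.1).eq.symm
    · simp [show z.1.2 = 1 from hz]
  have := Fact.mk h
  have : CharP L (ringChar K) := hL ▸ ringChar.charP L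
  obtain ⟨τ, hτ⟩ := (tors (S := grpSys D K) hψ h (ringChar.spec K _ |>.2 dvd_rfl) (fun z h1 h2 => by
    obtain ⟨a, ha⟩ := hs z h1
    refine Subtype.ext (Prod.ext (Units.ext (Matrix.ext fun i j => ?_)) h1)
    have h3 := congrArg (fun g : P => (g.1.1 : Matrix (Fin n) (Fin n) L) i i) h2
    simp only [SubgroupClass.coe_pow, Prod.pow_fst, ← ha, ← map_pow] at h3
    have h4 : (a : L) = 1 := frobenius_inj L (ringChar K) (by simpa [frobenius_def, diagonal_pow] using h3)
    simp [← ha, h4]) (fun z h1 => by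
    obtain ⟨a, ha⟩ := hs z h1
    have h2 : a ^ n = 1 := by simpa [← ha] using (z.2.2 : GeneralLinearGroup.det z.1.1 = 1)
    rcases Nat.eq_zero_or_pos n with rfl | hn
    · rw [show z = 1 from Subtype.ext (Prod.ext (Subsingleton.elim z.1.1 1) h1)]
      exact IsOfFinOrder.one
    · exact isOfFinOrder_iff_pow_eq_one.2 ⟨n, hn, Subtype.ext (Prod.ext (by simp [← ha, ← map_pow, h2])
        (by simp [show z.1.2 = 1 from h1]))⟩)).exists_hom (θ := θ) fun r t => eq_grpSys_x (hθ r t r.2)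
  have h4 : (QuotientGroup.mk' _).comp (((MonoidHom.fst _ _).comp P.subtype).comp τ) = φ.comp θ :=
    MonoidHom.ext fun g => (τ g).2.1.trans (congrArg φ (DFunLike.congr_fun hτ g))
  exact ⟨_, h4, fun τ' h5 => lift_unique hπ.cen hp (h5.trans h4.symm)⟩

end Cfsg.Agent.S2399
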