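import Cfsg.Statements.S2400
import Cfsg.Agent.H5.Mul6

set_option autoImplicit false
open Cfsg

namespace Cfsg.Agent.S2400

open H5.Chev Cfsg.Lie

theorem aux {K : Type*} [Field K] [Fintype K] (h : Fintype.card K ≠ 2) : ∃ x : K, x ≠ 0 ∧ x ≠ 1 := by
  have := Fintype.one_lt_card (α := K)
  simpa using exists_pow_ne_one' one_pos (s := (Finset.univ : Finset K)) (by simp; omega)

/-- Over a finite field `K`, the group presented by Steinberg's relators (R1)–(R3) (the universal Chevalley group) of type E₆ or E₇, or of type B₂ or D₄ with `K` of more than two elements, has trivial Schur multiplier: every finite stem extension of it is an isomorphism (Schur multiplier described through stem extensions as in the definitions). Types G₂, F₄ and E₈ are not covered here. -/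
theorem result {K : Type*} [Field K] [Fintype K] (e : Cfsg.Lie.ChevalleyDatum × ℕ)
    (he : e ∈ [(Cfsg.Lie.chevE6, 0), (Cfsg.Lie.chevE7, 0), (Cfsg.Lie.chevB2, 2), (Cfsg.Lie.chevD4, 2)]) (hK : Fintype.card K ≠ e.2) :
    Cfsg.HasCyclicSchurMultiplier (e.1.SteinbergGroup K) 1 := by
  simp only [List.mem_cons, List.not_mem_nil, or_false] at he
  rcases he with rfl | rfl | rfl | rfl
  · exact hasMult_st ((scSys chevE6 K).perfect_of_perf scSys_top) fun _ _ _ h => lifts_E6 h grpSys_hmul
  · exact hasMult_st ((scSys chevE7 K).perfect_of_perf scSys_top) fun _ _ _ h => lifts_E7 h grpSys_hmul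
  · exact hasMult_st (perfect_B2 (scSys chevB2 K) scSys_top (aux hK))
      fun _ _ _ h => lifts_B2 h grpSys_hmul (aux hK)
  · exact hasMult_st ((scSys chevD4 K).perfect_of_perf scSys_top)
      fun _ _ _ h => lifts_D4 h grpSys_hmul (aux hK)

end Cfsg.Agent.S2400
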