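import Cfsg.Statements.S2401
import Cfsg.Agent.H5.GM8

set_option autoImplicit false
open Cfsg

namespace Cfsg.Agent.S2401

open H5.Gen

/-- The Steinberg presentation of `SL_n` over a finite field for `n ≥ 3`: the group generated by symbols `x_ij(t)` (`i ≠ j`, `t` in the field) subject to `x_ij(t) x_ij(u) = x_ij(t + u)` and, for `i ≠ l`, `x_ij(t) x_kl(u) x_ij(t)⁻¹ x_kl(u)⁻¹ = x_il(tu)` if `j = k` and `= 1` if `j ≠ k`, is isomorphic to `SL_n` by an isomorphism sending `x_ij(t)` to the elementary matrix `1 + t E_ij`. -/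
theorem result {K : Type*} [Field K] [Finite K] (n : ℕ) (hn : 3 ≤ n) :
    ∃ e : PresentedGroup
        ({g : FreeGroup ({ij : Fin n × Fin n // ij.1 ≠ ij.2} × K) | ∃ (a : {ij : Fin n × Fin n // ij.1 ≠ ij.2}) (t u : K),
            g = FreeGroup.of (a, t) * FreeGroup.of (a, u) * (FreeGroup.of (a, t + u))⁻¹} ∪
          {g | ∃ (a b : {ij : Fin n × Fin n // ij.1 ≠ ij.2}) (t u : K), a.1.1 ≠ b.1.2 ∧ a.1.2 ≠ b.1.1 ∧
            g = FreeGroup.of (a, t) * FreeGroup.of (b, u) * (FreeGroup.of (a, t))⁻¹ * (FreeGroup.of (b, u))⁻¹} ∪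
          {g | ∃ (a b : {ij : Fin n × Fin n // ij.1 ≠ ij.2}) (h : a.1.1 ≠ b.1.2) (t u : K), a.1.2 = b.1.1 ∧
            g = FreeGroup.of (a, t) * FreeGroup.of (b, u) * (FreeGroup.of (a, t))⁻¹ * (FreeGroup.of (b, u))⁻¹ *
              (FreeGroup.of (⟨(a.1.1, b.1.2), h⟩, t * u))⁻¹}) ≃* Matrix.SpecialLinearGroup (Fin n) K,
      ∀ (a : {ij : Fin n × Fin n // ij.1 ≠ ij.2}) (t : K), ((e (PresentedGroup.of (a, t)) : Matrix (Fin n) (Fin n) K)) = Matrix.transvection a.1.1 a.1.2 t := by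
  obtain ⟨n, rfl⟩ : ∃ k, n = k + 1 := ⟨n - 1, by omega⟩
  have : NeZero n := ⟨by omega⟩
  have hs := relsA_sl (F := K) (ι := Fin (n + 1))
  refine ⟨MulEquiv.ofBijective (PresentedGroup.toGroup
    (f := fun p => Matrix.SpecialLinearGroup.transvection p.1.2 p.2) ?_) (exists_equiv_sl
      (RelsA.rels (by omega) (x := fun a t => PresentedGroup.of (a, t)) ⟨fun a t u => ?_,
        fun a b t u h1 h2 => ?_, fun i j l h1 h2 h3 t u => ?_⟩) ?_ fun r t => ?_), fun a t => ?_⟩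
  · rintro _ ((⟨a, t, u, rfl⟩ | ⟨a, b, t, u, h1, h2, rfl⟩) | ⟨⟨⟨i, j⟩, a⟩, ⟨⟨k, l⟩, b⟩, h, t, u, rfl, rfl⟩)
    · simp [hs.add]
    · simp [(hs.comm a b t u h1 h2).eq]
    · simp only [map_mul, map_inv, FreeGroup.lift_apply_of]
      rw [hs.cm _ _ _ a b h, mul_inv_cancel]
  · exact mul_inv_eq_one.1 (PresentedGroup.one_of_mem (Or.inl (Or.inl ⟨a, t, u, rfl⟩)))
  · exact (commutatorElement_eq_one_iff_commute.1
      (PresentedGroup.one_of_mem (Or.inl (Or.inr ⟨a, b, t, u, h1, h2, rfl⟩))))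
  · exact mul_inv_eq_one.1 (PresentedGroup.one_of_mem
      (Or.inr ⟨⟨(i, j), h1⟩, ⟨(j, l), h2⟩, h3, t, u, rfl, rfl⟩))
  · rw [eq_top_iff, ← PresentedGroup.closure_range_of]
    refine Subgroup.closure_mono ?_
    rintro _ ⟨⟨⟨⟨i, j⟩, h⟩, t⟩, rfl⟩
    exact ⟨rtA h, t, by rw [ijA_rtA]⟩
  · obtain ⟨i, j, h, rfl⟩ := exists_rtA r
    rw [PresentedGroup.toGroup.of, ijA_rtA, slX_rtA]
  · rw [MulEquiv.ofBijective_apply, PresentedGroup.toGroup.of]; rfl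

end Cfsg.Agent.S2401
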