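import Cfsg.Statements.S2403
import Cfsg.Agent.H7.GK
import Cfsg.Agent.H4.SLBasic

set_option autoImplicit false
open Cfsg

namespace Cfsg.Agent.S2403
open H7
open scoped commutatorElement

section
open Subgroup

open Matrix Matrix.SpecialLinearGroup in
theorem w_step {K : Type*} [Field K] {n : ℕ} (w : SpecialLinearGroup (Fin (n + 1)) K)
    (hw : (w : Matrix (Fin (n + 1)) (Fin (n + 1)) K) =
      Matrix.of (fun i j => if j.val = i.val + 1 then 1 else if i.val = n ∧ j.val = 0 then (-1) ^ n else 0))
    {i j : Fin (n + 1)} (h : i ≠ j) (h' : i + 1 ≠ j + 1) (a : K) :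
    ∃ c : K, c * c = 1 ∧ w * transvection h' a * w⁻¹ = transvection h (c * a) := by
  let c : Fin (n + 1) → K := fun i => if i = Fin.last n then (-1) ^ n else 1
  have cc : ∀ i, c i * c i = 1 := fun i => by
    simp only [c]; split_ifs
    · rw [← mul_pow]; simp
    · simp
  have e : ∀ r s, (w : Matrix (Fin (n + 1)) (Fin (n + 1)) K) r s = if s = r + 1 then c r else 0 := by
    intro r s
    rw [hw, of_apply]
    have h1 := Fin.val_add_one r
    by_cases hr : r = Fin.last n
    · rw [if_pos hr] at h1
      have h2 : r.val = n := by rw [hr]; rfl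
      have := s.isLt
      rw [if_neg (by omega)]
      simp only [c, if_pos hr, Fin.ext_iff (a := s), h1, h2, true_and]
    · rw [if_neg hr] at h1
      have h2 : r.val ≠ n := fun e => hr (Fin.ext e)
      simp only [c, if_neg hr, Fin.ext_iff (a := s), h1, h2, false_and, if_false]
  refine ⟨c i * c j, by linear_combination (c j * c j) * cc i + cc j, ?_⟩
  rw [mul_inv_eq_iff_eq_mul]
  apply Subtype.ext
  simp only [Matrix.SpecialLinearGroup.coe_mul, transvection_coe, mul_add, add_mul, one_mul, mul_one]
  congr 1
  ext r s
  by_cases hs : s = j + 1 <;> by_cases hr : r = i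
  · subst hs hr
    rw [mul_single_apply_same, single_mul_apply_same, e, e, if_pos rfl, if_pos rfl]
    linear_combination (-(c r * a)) * cc j
  · subst hs
    rw [mul_single_apply_same, single_mul_apply_of_ne _ _ _ _ _ hr, e, if_neg (fun h => hr (add_right_cancel h).symm), zero_mul]
  · subst hr
    rw [mul_single_apply_of_ne _ _ _ _ _ hs, single_mul_apply_same, e, if_neg hs, mul_zero]
  · rw [mul_single_apply_of_ne _ _ _ _ _ hs, single_mul_apply_of_ne _ _ _ _ _ hr]

open Matrix Matrix.SpecialLinearGroup in
theorem gen_top {K : Type*} [Field K] {n : ℕ} (w : SpecialLinearGroup (Fin (n + 1)) K)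
    (hw : (w : Matrix (Fin (n + 1)) (Fin (n + 1)) K) =
      Matrix.of (fun i j => if j.val = i.val + 1 then 1 else if i.val = n ∧ j.val = 0 then (-1) ^ n else 0))
    (H : Subgroup (SpecialLinearGroup (Fin (n + 1)) K)) (hwH : w ∈ H)
    (h0 : ∀ (h : (0 : Fin (n + 1)) ≠ 0 + 1) (a : K), transvection h a ∈ H) : H = ⊤ := by
  have A : ∀ (i : Fin (n + 1)) (h : i ≠ i + 1) (a : K), transvection h a ∈ H := by
    intro i
    induction i using Fin.induction with
    | zero => exact h0
    | succ i ih =>
      rw [← Fin.coeSucc_eq_succ]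
      intro h a
      have h1 : i.castSucc ≠ i.castSucc + 1 := fun e => h (congrArg (· + 1) e)
      obtain ⟨c, -, e⟩ := w_step w hw h1 h a
      have := mul_mem (mul_mem (inv_mem hwH) (ih h1 (c * a))) hwH
      rw [← e] at this
      simpa [mul_assoc] using this
  have B : ∀ (d i : Fin (n + 1)) (h : i ≠ i + d) (a : K), transvection h a ∈ H := by
    intro d
    induction d using Fin.induction with
    | zero => intro i h; exact absurd (add_zero i).symm h
    | succ d ih =>
      rw [← Fin.coeSucc_eq_succ]
      intro i
      by_cases hd : d.castSucc = 0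
      · rw [hd, zero_add]; exact A i
      intro h a
      have h1 : i ≠ i + d.castSucc := fun e => hd (left_eq_add.1 e)
      have h2 : i + d.castSucc ≠ i + d.castSucc + 1 := by
        intro e
        have := congrArg Fin.val (left_eq_add.1 e)
        have hn : n ≠ 0 := by rintro rfl; exact d.elim0
        simp [Fin.val_one'] at this
        omega
      have h3 : i ≠ i + d.castSucc + 1 := by rwa [add_assoc]
      have := H4.sl_transvection_mul_comm3 h3 h1 h2 a (1 : K)
      rw [mul_one] at this
      have h4 : transvection h3 a ∈ H := by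
        rw [← this, commutatorElement_def]
        exact mul_mem (mul_mem (mul_mem (ih i h1 a) (A _ h2 1)) (inv_mem (ih i h1 a))) (inv_mem (A _ h2 1))
      convert h4 using 2
      rw [add_assoc]
  refine H4.sl_eq_top_of_transvection H fun i j h c => ?_
  have := B (j - i) i (by rwa [add_sub_cancel]) c
  convert this using 2
  rw [add_sub_cancel]

end

/-- Explicit two-element generation of `PSL_{n+1}(K)` over the fields with two or three elements: with `x = 1 + E₁₂` and `w` the monomial matrix with entries `1` in positions `(i, i+1)` and `(−1)^n` in position `(n+1, 1)`, the elements `x` and `w` generate `SL_{n+1}(K)` modulo its centre. -/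
theorem result {K : Type*} [Field K] [Fintype K] (hK : Fintype.card K ≤ 3) (n : ℕ) (hn : 1 ≤ n)
    (x w : Matrix.SpecialLinearGroup (Fin (n + 1)) K)
    (hx : (x : Matrix (Fin (n + 1)) (Fin (n + 1)) K) = Matrix.transvection (0 : Fin (n + 1)) (1 : Fin (n + 1)) 1)
    (hw : (w : Matrix (Fin (n + 1)) (Fin (n + 1)) K) =
      Matrix.of (fun i j => if j.val = i.val + 1 then 1 else if i.val = n ∧ j.val = 0 then (-1) ^ n else 0)) :
    Subgroup.closure ({x, w} : Set (Matrix.SpecialLinearGroup (Fin (n + 1)) K)) ⊔
      Subgroup.center (Matrix.SpecialLinearGroup (Fin (n + 1)) K) = ⊤ := by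
  open Subgroup in
  classical
  refine eq_top_iff.2 (le_sup_of_le_left (gen_top w hw _ (Subgroup.subset_closure (by simp)) fun h a => ?_).ge)
  have hx' : x = Matrix.SpecialLinearGroup.transvection h 1 := by
    apply Subtype.ext
    rw [hx, Matrix.SpecialLinearGroup.transvection_coe, zero_add]; rfl
  have h1 : Matrix.SpecialLinearGroup.transvection h (1 : K) ∈ Subgroup.closure ({x, w} : Set _) :=
    hx' ▸ Subgroup.subset_closure (by simp)
  have ha : a = 0 ∨ a = 1 ∨ a = -1 := by
    by_contra hc
    push Not at hc
    obtain ⟨a0, a1, a2⟩ := hc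
    have : ∀ b : K, b ≠ 0 → b ≠ 1 → b ≠ a → False := by
      intro b b0 b1 b2
      have := Finset.card_le_univ ({0, 1, a, b} : Finset K)
      rw [Finset.card_insert_of_notMem (by simp [a0.symm, b0.symm]), Finset.card_insert_of_notMem (by simp [a1.symm, b1.symm]),
        Finset.card_pair b2.symm] at this
      omega
    by_cases h2 : (-1 : K) = 1
    · exact this (a + 1) (fun e => a2 (by linear_combination e)) (fun e => a0 (by linear_combination e)) (by simp)
    · exact this (-1) (by simp) h2 a2.symm
  rcases ha with rfl | rfl | rfl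
  · rw [Matrix.SpecialLinearGroup.transvection_coeff_zero]; exact one_mem _
  · exact h1
  · rw [← Matrix.SpecialLinearGroup.transvection_inv]; exact inv_mem h1

end Cfsg.Agent.S2403
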