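import Cfsg.Statements.S2402
import Cfsg.Agent.H7.GK
import Cfsg.Agent.H4.SLBasic
import Cfsg.Agent.S2403

set_option autoImplicit false
open Cfsg

namespace Cfsg.Agent.S2402
open H7
open scoped commutatorElement

section
open Subgroup

open Matrix Matrix.SpecialLinearGroup in
theorem dconj {K ι : Type*} [Field K] [Fintype ι] [DecidableEq ι] (δ : SpecialLinearGroup ι K) (f : ι → K)
    (hδ : (δ : Matrix ι ι K) = diagonal f) {i j : ι} (h : i ≠ j) (a b : K) (e : f i * a = b * f j) :
    δ * transvection h a * δ⁻¹ = transvection h b := by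
  rw [mul_inv_eq_iff_eq_mul]
  apply Subtype.ext
  simp only [Matrix.SpecialLinearGroup.coe_mul, transvection_coe, mul_add, add_mul, one_mul, mul_one, hδ]
  congr 1
  ext r s
  rw [diagonal_mul, mul_diagonal, single_apply, single_apply]
  split_ifs with hc
  · obtain ⟨rfl, rfl⟩ := hc; exact e
  · simp

open Matrix Matrix.SpecialLinearGroup in
theorem wconj {K : Type*} [Field K] {n : ℕ} (w : SpecialLinearGroup (Fin (n + 1)) K)
    (hw : (w : Matrix (Fin (n + 1)) (Fin (n + 1)) K) =
      Matrix.of (fun i j => if j.val = i.val + 1 then 1 else if i.val = n ∧ j.val = 0 then (-1) ^ n else 0))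
    (δ : SpecialLinearGroup (Fin (n + 1)) K) (f : Fin (n + 1) → K)
    (hδ : (δ : Matrix (Fin (n + 1)) (Fin (n + 1)) K) = diagonal f) :
    ((w * δ * w⁻¹ : SpecialLinearGroup (Fin (n + 1)) K) : Matrix (Fin (n + 1)) (Fin (n + 1)) K) =
      diagonal (fun i => f (i + 1)) := by
  have e : ∀ r s, s ≠ r + 1 → (w : Matrix (Fin (n + 1)) (Fin (n + 1)) K) r s = 0 := by
    intro r s hs
    rw [hw, of_apply]
    have h1 := Fin.val_add_one r
    have hs' : s.val ≠ (r + 1).val := fun e => hs (Fin.ext e)
    by_cases hr : r = Fin.last n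
    · rw [if_pos hr] at h1
      have h2 : r.val = n := by rw [hr]; rfl
      have := s.isLt
      rw [if_neg (by omega), if_neg (by omega)]
    · rw [if_neg hr] at h1
      have h2 : r.val ≠ n := fun e => hr (Fin.ext e)
      rw [if_neg (by omega), if_neg (by omega)]
  have e2 : (w : Matrix (Fin (n + 1)) (Fin (n + 1)) K) * diagonal f = diagonal (fun i => f (i + 1)) * w := by
    ext r s
    rw [diagonal_mul, mul_diagonal]
    by_cases hs : s = r + 1
    · rw [hs, mul_comm]
    · rw [e r s hs]; simp
  have e3 : (w : Matrix (Fin (n + 1)) (Fin (n + 1)) K) * ((w⁻¹ : SpecialLinearGroup (Fin (n + 1)) K) : Matrix _ _ K) = 1 := by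
    rw [← Matrix.SpecialLinearGroup.coe_mul, mul_inv_cancel]; rfl
  rw [Matrix.SpecialLinearGroup.coe_mul, Matrix.SpecialLinearGroup.coe_mul, hδ, e2, mul_assoc, e3, mul_one]

end

/-- Explicit two-element generation of `PSL_{n+1}(K)` for a finite field `K` with more than three elements: let `k` generate the multiplicative group of `K`, `h = diag(k, k⁻¹, 1, …, 1)`, `x = 1 + E₁₂` (the elementary transvection) and `w` the monomial matrix with entries `1` in positions `(i, i+1)` and `(−1)^n` in position `(n+1, 1)`. Then `h` and `x·w` generate `SL_{n+1}(K)` modulo its centre: the subgroup they generate together with the centre is everything. -/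
theorem result {K : Type*} [Field K] [Fintype K] (hK : 3 < Fintype.card K) (n : ℕ) (hn : 1 ≤ n)
    (k : Kˣ) (hk : ∀ u : Kˣ, u ∈ Subgroup.zpowers k)
    (h x w : Matrix.SpecialLinearGroup (Fin (n + 1)) K)
    (hh : (h : Matrix (Fin (n + 1)) (Fin (n + 1)) K) =
      Matrix.diagonal (fun i => if i.val = 0 then (k : K) else if i.val = 1 then ((k⁻¹ : Kˣ) : K) else 1))
    (hx : (x : Matrix (Fin (n + 1)) (Fin (n + 1)) K) = Matrix.transvection (0 : Fin (n + 1)) (1 : Fin (n + 1)) 1)
    (hw : (w : Matrix (Fin (n + 1)) (Fin (n + 1)) K) =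
      Matrix.of (fun i j => if j.val = i.val + 1 then 1 else if i.val = n ∧ j.val = 0 then (-1) ^ n else 0)) :
    Subgroup.closure ({h, x * w} : Set (Matrix.SpecialLinearGroup (Fin (n + 1)) K)) ⊔
      Subgroup.center (Matrix.SpecialLinearGroup (Fin (n + 1)) K) = ⊤ := by
  open Subgroup in
  classical
  set H := Subgroup.closure ({h, x * w} : Set (Matrix.SpecialLinearGroup (Fin (n + 1)) K)) with hH
  have hhH : h ∈ H := Subgroup.subset_closure (by simp)
  have hyH : x * w ∈ H := Subgroup.subset_closure (by simp)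
  have h01 : (0 : Fin (n + 1)) ≠ 0 + 1 := by
    intro e
    have := congrArg Fin.val e
    simp [Fin.val_one'] at this
    omega
  have v1 : ((0 + 1 : Fin (n + 1)) : ℕ) = 1 := by
    rw [zero_add, Fin.val_one', Nat.mod_eq_of_lt (by omega)]
  have hx' : x = Matrix.SpecialLinearGroup.transvection h01 1 := by
    apply Subtype.ext
    rw [hx, Matrix.SpecialLinearGroup.transvection_coe, zero_add]; rfl
  have k2 : (k : K) * k ≠ 1 := by
    intro e
    have e' : k ^ 2 = 1 := Units.ext (by rw [pow_two]; exact e)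
    have h1 : orderOf k = Nat.card Kˣ := orderOf_eq_card_of_forall_mem_zpowers hk
    have h2 := Nat.le_of_dvd (by norm_num) (orderOf_dvd_of_pow_eq_one e')
    rw [h1, Nat.card_units, Nat.card_eq_fintype_card] at h2
    omega
  have k0 : (k : K) ≠ 0 := k.ne_zero
  have hc : ∀ a : K, h * Matrix.SpecialLinearGroup.transvection h01 a * h⁻¹ =
      Matrix.SpecialLinearGroup.transvection h01 ((k : K) * k * a) := fun a =>
    dconj h _ hh h01 a _ (by simp only [v1]; simp; field_simp)
  have hd := wconj w hw h _ hh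
  set d := w * h * w⁻¹ with hdd
  obtain ⟨r, hr1, hr⟩ : ∃ r : K, r ≠ 1 ∧ ∀ a : K, d * Matrix.SpecialLinearGroup.transvection h01 a * d⁻¹ =
      Matrix.SpecialLinearGroup.transvection h01 (r * a) := by
    by_cases hn1 : n = 1
    · subst hn1
      refine ⟨((k : K) * k)⁻¹, fun e => k2 (inv_eq_one.1 e), fun a => dconj d _ hd h01 a _ ?_⟩
      simp; field_simp
    · refine ⟨(k : K)⁻¹, fun e => k2 (by rw [inv_eq_one.1 e, one_mul]), fun a => dconj d _ hd h01 a _ ?_⟩
      have v2 : ((0 + 1 + 1 : Fin (n + 1)) : ℕ) = 2 := by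
        rw [Fin.val_add, v1, Fin.val_one', Nat.mod_eq_of_lt (a := 1) (by omega), Nat.mod_eq_of_lt (by omega)]
      simp only [v1, v2]; simp
  have hcomm : h * d * h⁻¹ = d := by
    rw [mul_inv_eq_iff_eq_mul]
    apply Subtype.ext
    rw [Matrix.SpecialLinearGroup.coe_mul h d, Matrix.SpecialLinearGroup.coe_mul d h, hd, hh, Matrix.diagonal_mul_diagonal,
      Matrix.diagonal_mul_diagonal]
    congr 1; funext i; exact mul_comm _ _
  have hg : x * d * x⁻¹ ∈ H := by
    have := mul_mem (mul_mem hyH hhH) (inv_mem hyH)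
    convert this using 1
    rw [hdd]; group
  have ht : Matrix.SpecialLinearGroup.transvection h01 (((k : K) * k - 1) * (1 - r)) ∈ H := by
    have := mul_mem (mul_mem (mul_mem hhH hg) (inv_mem hhH)) (inv_mem hg)
    convert this using 1
    have e1 : h * (x * d * x⁻¹) * h⁻¹ * (x * d * x⁻¹)⁻¹ =
        (h * x * h⁻¹) * ((h * d * h⁻¹) * ((h * x * h⁻¹)⁻¹ * x) * d⁻¹) * x⁻¹ := by group
    rw [e1, hcomm, hx', hc, Matrix.SpecialLinearGroup.transvection_inv, Matrix.SpecialLinearGroup.transvection_inv,
      ← Matrix.SpecialLinearGroup.transvection_add, hr, ← Matrix.SpecialLinearGroup.transvection_add,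
      ← Matrix.SpecialLinearGroup.transvection_add]
    congr 1; ring
  set t := ((k : K) * k - 1) * (1 - r) with htt
  have t0 : t ≠ 0 := mul_ne_zero (sub_ne_zero.2 k2) (sub_ne_zero.2 hr1.symm)
  have hsq : ∀ b : K, Matrix.SpecialLinearGroup.transvection h01 (b * b * t) ∈ H := by
    intro b
    by_cases b0 : b = 0
    · rw [b0, zero_mul, zero_mul, Matrix.SpecialLinearGroup.transvection_coeff_zero]; exact one_mem _
    obtain ⟨m, hm⟩ := mem_powers_iff_mem_zpowers.2 (hk (Units.mk0 b b0))
    have hb : b = (k : K) ^ m := by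
      have := congrArg Units.val hm
      simpa using this.symm
    rw [hb]
    clear hb hm
    induction m with
    | zero => simpa using ht
    | succ m ih =>
      have := mul_mem (mul_mem hhH ih) (inv_mem hhH)
      rw [hc] at this
      convert this using 2; ring
  have hall : ∀ a : K, Matrix.SpecialLinearGroup.transvection h01 a ∈ H := by
    intro a
    by_cases h2 : ringChar K = 2
    · obtain ⟨b, hb⟩ := FiniteField.isSquare_of_char_two h2 (a / t)
      have := hsq b
      rwa [← hb, div_mul_cancel₀ _ t0] at this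
    · have h2' : (2 : K) ≠ 0 := Ring.two_ne_zero h2
      have := mul_mem (hsq ((a / t + 1) / 2)) (inv_mem (hsq ((a / t - 1) / 2)))
      rw [Matrix.SpecialLinearGroup.transvection_inv, ← Matrix.SpecialLinearGroup.transvection_add] at this
      convert this using 2
      field_simp; ring
  have hwH : w ∈ H := by
    have := mul_mem (inv_mem (hx' ▸ hall 1 : x ∈ H)) hyH
    simpa using this
  exact eq_top_iff.2 (le_sup_of_le_left (Cfsg.Agent.S2403.gen_top w hw H hwH fun _ a => hall a).ge)

end Cfsg.Agent.S2402
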