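import Cfsg.Statements.S2416
import Cfsg.Agent.H5.Misc1

set_option autoImplicit false
open scoped MatrixGroups
open Cfsg

namespace Cfsg.Agent.S2416

open H5.Chev Cfsg.Lie

theorem aux {K : Type*} [Field K] {D : ChevalleyDatum} [Good D] [Conn D] [Dom D] (i : Ix D)
    (hi : D.isLong (D.simple i) = false)
    (h : (∀ r : Rt D, D.isLong r = false) ∨ ∃ r s k : Rt D, ∃ c : ℤ, s ≠ r ∧ s ≠ neg r ∧
      D.commTerms r s = [((k : ℕ), c, 1, 1)] ∧ (c : K) ≠ 0 ∧ D.isLong r = false ∧ D.isLong s = false ∧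
        D.isLong k = true) :
    D.group K ≤ D.monomialSubgroup K ⊔ D.rootSubgroup K (D.simple i) := by
  rw [group_eq, monomialSubgroup_eq, ← val_simple, rootSubgroup_eq, StSys.U_le_iff]
  have h0 : ∀ j, (glSys D K).n (simple j) 1 ∈ (glSys D K).N ⊔ (glSys D K).U {simple i} := fun j =>
    Subgroup.mem_sup_left ((glSys D K).n_mem_N _ one_ne_zero)
  have h1 : ∀ r : Rt D, D.isLong r = false → ∀ t,
      (glSys D K).x r t ∈ (glSys D K).N ⊔ (glSys D K).U {simple i} := fun r hr =>
    (glSys D K).x_mem_of_isLong h0 (r := simple i) (hi.trans hr.symm) fun t =>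
      Subgroup.mem_sup_right ((glSys D K).x_mem_U (Set.mem_singleton _) t)
  intro r _
  rcases h with h | ⟨a, b, k, c, h2, h3, h4, h5, h6, h7, h8⟩
  · exact h1 r (h r)
  cases hr : D.isLong r
  · exact h1 r hr
  · exact (glSys D K).x_mem_of_isLong h0 (h8.trans hr.symm)
      ((glSys D K).x_mem_of_cts h2 h3 h4 h5 (h1 a h6) (h1 b h7))

theorem sl {D : ChevalleyDatum} [Good D] (h : chkSL (Good.T D) = true) [Dom D] (r : Rt D) :
    D.isLong r = false := by
  obtain ⟨w, i, rfl⟩ := exists_wg_simple r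
  rw [(wg_aut w).isLong, Bool.eq_false_iff, Ne, isLong_iff]
  rintro ⟨s, h1, h2, h3⟩
  simp only [chkSL, allLt_iff, bor_iff, Nat.beq_eq, Nat.ble_eq, l_eq, n_eq] at h
  rcases h i i.2 s s.2 with h | h | h
  · exact h1 (Fin.ext (h.trans (val_simple_T i).symm))
  · exact h2 (Fin.ext (by rw [h, neg_eq_T, val_simple_T]))
  · rw [pair_T, val_simple_T] at h3; omega

theorem ne_zero {K : Type*} [Field K] {p : ℕ} (hp : p.Prime) (h : ringChar K ≠ p) :
    (((p : ℕ) : ℤ) : K) ≠ 0 := by
  intro e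
  rw [Int.cast_natCast, ringChar.spec] at e
  rcases (Nat.dvd_prime hp).1 e with e | e
  · exact CharP.ringChar_ne_one e
  · exact h e

/-- A Chevalley group of type G₂, B₂, D₄, F₄, E₆, E₇ or E₈ over a finite field lies in (indeed equals) the subgroup generated by its monomial subgroup `N` and a single fundamental root subgroup `X_p`, where `p` is a short fundamental root if there are two root lengths (any fundamental root otherwise), provided the characteristic is not 2 for types B₂, F₄ and not 3 for type G₂ (and the field has more than two elements for B₂, G₂). -/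
theorem result {K : Type*} [Field K] [Finite K] (D : Cfsg.Lie.ChevalleyDatum) (hD : D ∈ [Cfsg.Lie.chevG2, Cfsg.Lie.chevB2, Cfsg.Lie.chevD4, Cfsg.Lie.chevF4, Cfsg.Lie.chevE6, Cfsg.Lie.chevE7, Cfsg.Lie.chevE8])
    (hK : D ∈ [Cfsg.Lie.chevB2, Cfsg.Lie.chevG2] → ∃ x : K, x ≠ 0 ∧ x ≠ 1)
    (h2 : D ∈ [Cfsg.Lie.chevB2, Cfsg.Lie.chevF4] → ringChar K ≠ 2) (h3 : D = Cfsg.Lie.chevG2 → ringChar K ≠ 3)
    (i : ℕ) (hi : i < D.rank) (hshort : D.isLong (D.simple i) = false) :
    D.group K ≤ D.monomialSubgroup K ⊔ D.rootSubgroup K (D.simple i) := by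
  simp only [List.mem_cons, List.not_mem_nil, or_false] at hD
  rcases hD with rfl | rfl | rfl | rfl | rfl | rfl | rfl
  · exact aux ⟨i, hi⟩ hshort (Or.inr ⟨⟨2, by decide⟩, ⟨3, by decide⟩, ⟨0, by decide⟩, (3 : ℕ), by decide,
      by decide, by decide +kernel, ne_zero (by decide) (h3 rfl), by decide +kernel, by decide +kernel,
      by decide +kernel⟩)
  · exact aux ⟨i, hi⟩ hshort (Or.inr ⟨⟨1, by decide⟩, ⟨2, by decide⟩, ⟨0, by decide⟩, (2 : ℕ), by decide,
      by decide, by decide +kernel, ne_zero (by decide) (h2 (by simp)), by decide +kernel,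
      by decide +kernel, by decide +kernel⟩)
  · exact aux ⟨i, hi⟩ hshort (Or.inl (sl sl_D4))
  · exact aux ⟨i, hi⟩ hshort (Or.inr ⟨⟨3, by decide⟩, ⟨18, by decide⟩, ⟨0, by decide⟩, (2 : ℕ), by decide,
      by decide, by decide +kernel, ne_zero (by decide) (h2 (by simp)), by decide +kernel,
      by decide +kernel, by decide +kernel⟩)
  · exact aux ⟨i, hi⟩ hshort (Or.inl (sl sl_E6))
  · exact aux ⟨i, hi⟩ hshort (Or.inl (sl sl_E7))
  · exact aux ⟨i, hi⟩ hshort (Or.inl (sl sl_E8))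

end Cfsg.Agent.S2416
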