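import Cfsg.Statements.S2417
import Cfsg.Agent.H5.Misc1

set_option autoImplicit false
open scoped MatrixGroups
open Cfsg

namespace Cfsg.Agent.S2417

open H5.Chev Cfsg.Lie

theorem aux {K : Type*} [Field K] {D : ChevalleyDatum} [Good D] [Conn D] [Dom D] (i j : Ix D)
    (hi : D.isLong (D.simple i) = false) (hj : D.isLong (D.simple j) = true) :
    D.group K ≤ D.monomialSubgroup K ⊔ D.rootSubgroup K (D.simple i) ⊔
      D.rootSubgroup K (D.simple j) := by
  rw [group_eq, monomialSubgroup_eq, ← val_simple, ← val_simple, rootSubgroup_eq, rootSubgroup_eq,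
    StSys.U_le_iff]
  have h0 : ∀ k, (glSys D K).n (simple k) 1 ∈ (glSys D K).N ⊔ (glSys D K).U {simple i} ⊔
      (glSys D K).U {simple j} := fun j =>
    Subgroup.mem_sup_left (Subgroup.mem_sup_left ((glSys D K).n_mem_N _ one_ne_zero))
  intro r _
  cases hr : D.isLong r
  · exact (glSys D K).x_mem_of_isLong h0 (r := simple i) (hi.trans hr.symm) fun t =>
      Subgroup.mem_sup_left (Subgroup.mem_sup_right ((glSys D K).x_mem_U (Set.mem_singleton _) t))
  · exact (glSys D K).x_mem_of_isLong h0 (r := simple j) (hj.trans hr.symm) fun t =>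
      Subgroup.mem_sup_right ((glSys D K).x_mem_U (Set.mem_singleton _) t)

/-- In the characteristics with an exceptional graph symmetry — type B₂ or F₄ in characteristic 2 (field of more than two elements for B₂) and type G₂ in characteristic 3 — the Chevalley group lies in the subgroup generated by its monomial subgroup `N` and the two fundamental root subgroups `X_a`, `X_b` of a short root `a` and a long root `b` joined in the Dynkin diagram. -/
theorem result {K : Type*} [Field K] [Finite K] (e : Cfsg.Lie.ChevalleyDatum × ℕ)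
    (he : e ∈ [(Cfsg.Lie.chevB2, 2), (Cfsg.Lie.chevF4, 2), (Cfsg.Lie.chevG2, 3)]) [CharP K e.2]
    (hK : e.1 = Cfsg.Lie.chevB2 → ∃ x : K, x ≠ 0 ∧ x ≠ 1)
    (i j : ℕ) (hi : i < e.1.rank) (hj : j < e.1.rank) (hshort : e.1.isLong (e.1.simple i) = false)
    (hlong : e.1.isLong (e.1.simple j) = true) (hbond : e.1.bonds i j ≠ 0) :
    e.1.group K ≤ e.1.monomialSubgroup K ⊔ e.1.rootSubgroup K (e.1.simple i) ⊔ e.1.rootSubgroup K (e.1.simple j) := by
  simp only [List.mem_cons, List.not_mem_nil, or_false] at he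
  rcases he with rfl | rfl | rfl
  · exact aux (D := chevB2) ⟨i, hi⟩ ⟨j, hj⟩ hshort hlong
  · exact aux (D := chevF4) ⟨i, hi⟩ ⟨j, hj⟩ hshort hlong
  · exact aux (D := chevG2) ⟨i, hi⟩ ⟨j, hj⟩ hshort hlong

end Cfsg.Agent.S2417
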