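import Cfsg.Statements.S2419
import Cfsg.Agent.H7.GK

set_option autoImplicit false
open Cfsg

namespace Cfsg.Agent.S2419
open H7
open scoped commutatorElement

section
open Subgroup

variable {B W : Type*} [Group W] {M : CoxeterMatrix B} (cs : CoxeterSystem M W)

theorem comm2 {i j : B} (h : M i j = 2) : Commute (cs.simple i) (cs.simple j) := by
  have := cs.simple_mul_simple_pow i j
  rw [h, pow_two, mul_eq_one_iff_eq_inv, mul_inv_rev, cs.inv_simple, cs.inv_simple] at this
  exact this

theorem braid3 {i j : B} (h : M i j = 3) :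
    cs.simple i * cs.simple j * cs.simple i = cs.simple j * cs.simple i * cs.simple j := by
  have := cs.simple_mul_simple_pow i j
  rw [h] at this
  have h2 : (cs.simple i * cs.simple j * cs.simple i) * (cs.simple j * cs.simple i * cs.simple j) = 1 := by
    rw [← this]; simp only [pow_succ, pow_zero, one_mul, mul_assoc]
  rw [mul_eq_one_iff_eq_inv, mul_inv_rev, mul_inv_rev, cs.inv_simple, cs.inv_simple] at h2
  rw [h2, mul_assoc]

theorem commL {i : B} (l : List B) (h : ∀ k ∈ l, M i k = 2) : Commute (cs.simple i) (cs.wordProd l) := by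
  unfold CoxeterSystem.wordProd
  refine Commute.list_prod_right _ _ ?_
  intro x hx
  obtain ⟨k, hk, rfl⟩ := List.mem_map.1 hx
  exact comm2 cs (h k hk)

theorem shift (H : Subgroup W) (l l1 l2 : List B) (i j : B) (hl : l = l1 ++ i :: j :: l2)
    (h1 : ∀ k ∈ l1, M j k = 2) (h2 : ∀ k ∈ l2, M i k = 2) (h : M i j = 3)
    (hc : cs.wordProd l ∈ H) (hi : cs.simple i ∈ H) : cs.simple j ∈ H := by
  have key : cs.wordProd l * cs.simple i = cs.simple j * cs.wordProd l := by
    rw [hl, cs.wordProd_append, cs.wordProd_cons, cs.wordProd_cons, ← mul_assoc (cs.simple j),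
      (commL cs l1 h1).eq]
    have e := (commL cs l2 h2).eq
    have b := braid3 cs h
    calc _ = cs.wordProd l1 * (cs.simple i * cs.simple j * (cs.wordProd l2 * cs.simple i)) := by
          simp only [mul_assoc]
      _ = cs.wordProd l1 * (cs.simple i * cs.simple j * cs.simple i * cs.wordProd l2) := by
          rw [← e]; simp only [mul_assoc]
      _ = _ := by rw [b]; simp only [mul_assoc]
  have : cs.simple j = cs.wordProd l * cs.simple i * (cs.wordProd l)⁻¹ := by
    rw [key, mul_inv_cancel_right]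
  rw [this]
  exact H.mul_mem (H.mul_mem hc hi) (H.inv_mem hc)

theorem wmem (H : Subgroup W) (l : List B) (h : ∀ k ∈ l, cs.simple k ∈ H) : cs.wordProd l ∈ H := by
  unfold CoxeterSystem.wordProd
  refine H.list_prod_mem ?_
  intro x hx
  obtain ⟨k, hk, rfl⟩ := List.mem_map.1 hx
  exact h k hk

theorem last (H : Subgroup W) (l l1 : List B) (j : B) (hl : l = l1 ++ [j])
    (hc : cs.wordProd l ∈ H) (h : ∀ k ∈ l1, cs.simple k ∈ H) : cs.simple j ∈ H := by
  rw [hl, cs.wordProd_append, cs.wordProd_singleton] at hc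
  exact (H.mul_mem_cancel_left (wmem cs H l1 h)).1 hc

theorem etype (H : Subgroup W) (l l2 : List B) (a b c d : B) (hl : l = [a, b, c] ++ l2)
    (hc : cs.wordProd l ∈ H) (h : ∀ k ∈ l2, cs.simple k ∈ H) (hd : cs.simple d ∈ H)
    (hba : M b a = 2) (hbc : M b c = 2) (hac : M a c = 3) (had : M a d = 2) (hcd : M c d = 3) :
    cs.simple a ∈ H ∧ cs.simple b ∈ H ∧ cs.simple c ∈ H := by
  rw [hl, cs.wordProd_append] at hc
  have hu := (H.mul_mem_cancel_right (wmem cs H l2 h)).1 hc
  rw [cs.wordProd_cons, cs.wordProd_cons, cs.wordProd_singleton, ← mul_assoc, ← (comm2 cs hba).eq,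
    mul_assoc] at hu
  have hb : cs.simple b ∈ H := by
    have := H.pow_mem hu 3
    rw [((comm2 cs hba).mul_right (comm2 cs hbc)).mul_pow, ← hac, cs.simple_mul_simple_pow, mul_one, hac,
      pow_succ, cs.simple_sq, one_mul] at this
    exact this
  have hv := (H.mul_mem_cancel_left hb).1 hu
  have hcH : cs.simple c ∈ H := by
    have := H.mul_mem (H.mul_mem (H.inv_mem hv) hd) hv
    have e : (cs.simple a * cs.simple c)⁻¹ * cs.simple d * (cs.simple a * cs.simple c) =
        cs.simple d * cs.simple c * cs.simple d := by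
      rw [← braid3 cs hcd, mul_inv_rev, cs.inv_simple, cs.inv_simple, mul_assoc (cs.simple c),
        (comm2 cs had).eq]
      simp only [mul_assoc, cs.simple_mul_simple_cancel_left]
    rw [e] at this
    exact (H.mul_mem_cancel_left hd).1 ((H.mul_mem_cancel_right hd).1 this)
  exact ⟨(H.mul_mem_cancel_right hcH).1 hv, hb, hcH⟩

theorem top_of (H : Subgroup W) (h : ∀ i, cs.simple i ∈ H) : H = ⊤ := by
  rw [eq_top_iff, ← cs.subgroup_closure_range_simple, closure_le]
  rintro _ ⟨i, rfl⟩
  exact h i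

theorem one_case {n : ℕ} (M : CoxeterMatrix (Fin n)) (i : Fin n)
    (h : ∀ H : Subgroup M.Group, M.toCoxeterSystem.wordProd (List.finRange n) ∈ H →
      M.toCoxeterSystem.simple i ∈ H → ∀ k, M.toCoxeterSystem.simple k ∈ H) :
    ∃ T : Finset M.Group, T.card = 1 ∧ (∀ t ∈ T, ∃ (g : M.Group) (i : Fin n), t = g * M.simple i * g⁻¹) ∧
      Subgroup.closure (({((List.finRange n).map M.simple).prod} : Set M.Group) ∪ ↑T) = ⊤ := by
  refine ⟨{M.simple i}, rfl, fun t ht => ⟨1, i, by simpa using ht⟩, top_of M.toCoxeterSystem _ (h _ ?_ ?_)⟩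
  · exact subset_closure (Or.inl rfl)
  · exact subset_closure (Or.inr (Finset.mem_singleton_self _))

theorem two_case {n : ℕ} (M : CoxeterMatrix (Fin n)) (i j : Fin n)
    (hij : M.toCoxeterSystem.simple i ≠ M.toCoxeterSystem.simple j)
    (h : ∀ H : Subgroup M.Group, M.toCoxeterSystem.wordProd (List.finRange n) ∈ H →
      M.toCoxeterSystem.simple i ∈ H → M.toCoxeterSystem.simple j ∈ H → ∀ k, M.toCoxeterSystem.simple k ∈ H) :
    ∃ T : Finset M.Group, T.card = 2 ∧ (∀ t ∈ T, ∃ (g : M.Group) (i : Fin n), t = g * M.simple i * g⁻¹) ∧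
      Subgroup.closure (({((List.finRange n).map M.simple).prod} : Set M.Group) ∪ ↑T) = ⊤ := by
  classical
  refine ⟨{M.simple i, M.simple j}, Finset.card_pair hij, fun t ht => ?_,
    top_of M.toCoxeterSystem _ (h _ ?_ ?_ ?_)⟩
  · rcases Finset.mem_insert.1 ht with rfl | ht
    · exact ⟨1, i, by simp⟩
    · exact ⟨1, j, by simpa using ht⟩
  · exact subset_closure (Or.inl rfl)
  · exact subset_closure (Or.inr (Finset.mem_insert_self _ _))
  · exact subset_closure (Or.inr (Finset.mem_insert_of_mem (Finset.mem_singleton_self _)))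

/-- A permutation image separating two simple reflections. -/
def fD : Fin 4 → Equiv.Perm (Fin 4) := ![Equiv.swap 0 1, Equiv.swap 1 2, Equiv.swap 2 3, Equiv.swap 2 3]

/-- A sign image separating two simple reflections. -/
def fF : Fin 4 → ℤˣ := ![-1, -1, 1, 1]

theorem liftD : Cfsg.Lie.coxeterD4.IsLiftable fD := by
  unfold CoxeterMatrix.IsLiftable
  decide

theorem liftF : CoxeterMatrix.F₄.IsLiftable fF := by
  unfold CoxeterMatrix.IsLiftable
  decide

theorem neD : Cfsg.Lie.coxeterD4.toCoxeterSystem.simple 0 ≠ Cfsg.Lie.coxeterD4.toCoxeterSystem.simple 2 := by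
  intro h
  have := congrArg (Cfsg.Lie.coxeterD4.toCoxeterSystem.lift ⟨fD, liftD⟩) h
  rw [CoxeterSystem.lift_apply_simple, CoxeterSystem.lift_apply_simple] at this
  revert this
  decide

theorem neF : CoxeterMatrix.F₄.toCoxeterSystem.simple 0 ≠ CoxeterMatrix.F₄.toCoxeterSystem.simple 2 := by
  intro h
  have := congrArg (CoxeterMatrix.F₄.toCoxeterSystem.lift ⟨fF, liftF⟩) h
  rw [CoxeterSystem.lift_apply_simple, CoxeterSystem.lift_apply_simple] at this
  revert this
  decide

theorem rk2 (M : CoxeterMatrix (Fin 2)) (H : Subgroup M.Group) (hc : M.toCoxeterSystem.wordProd (List.finRange 2) ∈ H)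
    (h0 : M.toCoxeterSystem.simple 0 ∈ H) : ∀ k, M.toCoxeterSystem.simple k ∈ H := by
  have h1 := last _ H _ [0] 1 (by decide) hc (by simpa using h0)
  intro k
  fin_cases k <;> assumption

theorem rk4 (M : CoxeterMatrix (Fin 4)) (h01 : M 0 1 = 3) (h02 : M 0 2 = 2) (h03 : M 0 3 = 2)
    (H : Subgroup M.Group) (hc : M.toCoxeterSystem.wordProd (List.finRange 4) ∈ H)
    (h0 : M.toCoxeterSystem.simple 0 ∈ H) (h2 : M.toCoxeterSystem.simple 2 ∈ H) :
    ∀ k, M.toCoxeterSystem.simple k ∈ H := by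
  have h1 := shift _ H _ [] [2, 3] 0 1 (by decide) (by simp) (by simp [h02, h03]) h01 hc h0
  have h3 := last _ H _ [0, 1, 2] 3 (by decide) hc (by simp only [List.mem_cons, List.not_mem_nil, or_false, forall_eq_or_imp, forall_eq]; exact ⟨h0, h1, h2⟩)
  intro k
  fin_cases k <;> assumption

theorem e6 (H : Subgroup CoxeterMatrix.E₆.Group) (hc : CoxeterMatrix.E₆.toCoxeterSystem.wordProd (List.finRange 6) ∈ H)
    (h3 : CoxeterMatrix.E₆.toCoxeterSystem.simple 3 ∈ H) : ∀ k, CoxeterMatrix.E₆.toCoxeterSystem.simple k ∈ H := by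
  have h4 := shift _ H _ [0, 1, 2] [5] 3 4 (by decide) (by decide) (by decide) (by decide) hc h3
  have h5 := shift _ H _ [0, 1, 2, 3] [] 4 5 (by decide) (by decide) (by decide) (by decide) hc h4
  obtain ⟨h0, h1, h2⟩ := etype _ H _ [3, 4, 5] 0 1 2 3 (by decide) hc
    (by simp only [List.mem_cons, List.not_mem_nil, or_false, forall_eq_or_imp, forall_eq]; exact ⟨h3, h4, h5⟩) h3
    (by decide) (by decide) (by decide) (by decide) (by decide)
  intro k
  fin_cases k <;> assumption

theorem e7 (H : Subgroup CoxeterMatrix.E₇.Group) (hc : CoxeterMatrix.E₇.toCoxeterSystem.wordProd (List.finRange 7) ∈ H)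
    (h3 : CoxeterMatrix.E₇.toCoxeterSystem.simple 3 ∈ H) : ∀ k, CoxeterMatrix.E₇.toCoxeterSystem.simple k ∈ H := by
  have h4 := shift _ H _ [0, 1, 2] [5, 6] 3 4 (by decide) (by decide) (by decide) (by decide) hc h3
  have h5 := shift _ H _ [0, 1, 2, 3] [6] 4 5 (by decide) (by decide) (by decide) (by decide) hc h4
  have h6 := shift _ H _ [0, 1, 2, 3, 4] [] 5 6 (by decide) (by decide) (by decide) (by decide) hc h5
  obtain ⟨h0, h1, h2⟩ := etype _ H _ [3, 4, 5, 6] 0 1 2 3 (by decide) hc
    (by simp only [List.mem_cons, List.not_mem_nil, or_false, forall_eq_or_imp, forall_eq]; exact ⟨h3, h4, h5, h6⟩) h3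
    (by decide) (by decide) (by decide) (by decide) (by decide)
  intro k
  fin_cases k <;> assumption

theorem e8 (H : Subgroup CoxeterMatrix.E₈.Group) (hc : CoxeterMatrix.E₈.toCoxeterSystem.wordProd (List.finRange 8) ∈ H)
    (h3 : CoxeterMatrix.E₈.toCoxeterSystem.simple 3 ∈ H) : ∀ k, CoxeterMatrix.E₈.toCoxeterSystem.simple k ∈ H := by
  have h4 := shift _ H _ [0, 1, 2] [5, 6, 7] 3 4 (by decide) (by decide) (by decide) (by decide) hc h3
  have h5 := shift _ H _ [0, 1, 2, 3] [6, 7] 4 5 (by decide) (by decide) (by decide) (by decide) hc h4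
  have h6 := shift _ H _ [0, 1, 2, 3, 4] [7] 5 6 (by decide) (by decide) (by decide) (by decide) hc h5
  have h7 := shift _ H _ [0, 1, 2, 3, 4, 5] [] 6 7 (by decide) (by decide) (by decide) (by decide) hc h6
  obtain ⟨h0, h1, h2⟩ := etype _ H _ [3, 4, 5, 6, 7] 0 1 2 3 (by decide) hc
    (by simp only [List.mem_cons, List.not_mem_nil, or_false, forall_eq_or_imp, forall_eq]; exact ⟨h3, h4, h5, h6, h7⟩) h3
    (by decide) (by decide) (by decide) (by decide) (by decide)
  intro k
  fin_cases k <;> assumption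

end

/-- The Coxeter groups of types B₂, G₂, E₆, E₇, E₈ are generated by the Coxeter element `s₁ s₂ ⋯ s_l` together with one suitable reflection (a conjugate of a simple reflection); for types D₄ and F₄ the Coxeter element together with two suitable reflections suffices. -/
theorem result (c : (Σ n : ℕ, CoxeterMatrix (Fin n)) × ℕ)
    (hc : c ∈ [(⟨2, CoxeterMatrix.B 2⟩, 1), (⟨2, CoxeterMatrix.G₂⟩, 1), (⟨4, Cfsg.Lie.coxeterD4⟩, 2), (⟨4, CoxeterMatrix.F₄⟩, 2),
      (⟨6, CoxeterMatrix.E₆⟩, 1), (⟨7, CoxeterMatrix.E₇⟩, 1), (⟨8, CoxeterMatrix.E₈⟩, 1)]) :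
    ∃ T : Finset c.1.2.Group, T.card = c.2 ∧ (∀ t ∈ T, ∃ (g : c.1.2.Group) (i : Fin c.1.1), t = g * c.1.2.simple i * g⁻¹) ∧
      Subgroup.closure (({((List.finRange c.1.1).map c.1.2.simple).prod} : Set c.1.2.Group) ∪ ↑T) = ⊤ := by
  open Subgroup in
  simp only [List.mem_cons, List.not_mem_nil, or_false] at hc
  rcases hc with rfl | rfl | rfl | rfl | rfl | rfl | rfl
  · exact one_case _ 0 (rk2 _)
  · exact one_case _ 0 (rk2 _)
  · exact two_case _ 0 2 neD (rk4 _ (by decide) (by decide) (by decide))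
  · exact two_case _ 0 2 neF (rk4 _ (by decide) (by decide) (by decide))
  · exact one_case _ 3 e6
  · exact one_case _ 3 e7
  · exact one_case _ 3 e8

end Cfsg.Agent.S2419
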