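import Cfsg.Statements.S2424
import Cfsg.Agent.H3.Par

set_option autoImplicit false
open scoped MatrixGroups
open Cfsg

namespace Cfsg.Agent.S2424

open H3.Par Finset Polynomial

theorem key (q : ℕ) {r j : ℕ} (h : j ≤ r) : (q : ℂ) ^ (∑ k ∈ range j, k) * qf q r =
    qf q (r - j) * ∏ k ∈ range j, (((∑ l ∈ range r, q ^ l : ℕ) : ℂ) - (∑ l ∈ range k, q ^ l : ℕ)) := by
  induction j with
  | zero => simp
  | succ j ih =>
    obtain ⟨t, rfl⟩ := Nat.exists_eq_add_of_le h
    rw [sum_range_succ, pow_add, mul_right_comm, ih (by omega), prod_range_succ _ j, show j + 1 + t - j = t + 1 by omega, Nat.add_sub_cancel_left, qf, prod_range_succ,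
      show j + 1 + t = j + (t + 1) by omega, sum_range_add (q ^ ·) j]
    simp only [pow_add, ← mul_sum]; push_cast; ring

/-- Degrees of the partition-indexed irreducible characters of `GL_n(q)`: for `ν` a partition of `n` with `n` non-decreasing parts `ν_0 ≤ ⋯ ≤ ν_{n−1}` (zeros allowed; positions counted from 0) and `λ_i = ν_i + i`, write `Q(r)` for the q-integer `1 + q + ⋯ + q^(r−1)` and `Q!(r)` for `Q(1)Q(2)⋯Q(r)`; then the degree `γ(ν)` of the character satisfies `γ(ν) · q^(n(n−1)(n−2)/6) · ∏_i Q!(λ_i) = Q!(n) · ∏_{i<j} (Q(λ_j) − Q(λ_i))`. For `ν = (1,…,1)` this gives the Steinberg degree `q^(n(n−1)/2)`, for `ν = (0,…,0,n)` degree 1. -/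
theorem result {F : Type*} [Field F] [Fintype F] {q : ℕ} (hq : Fintype.card F = q) {n : ℕ} (ν : Fin n → ℕ) (hmono : Monotone ν) (hsum : ∑ i, ν i = n) :
    Cfsg.unipotentCharacterGL n F ν 1 * (q : ℂ) ^ (n * (n - 1) * (n - 2) / 6) *
        ∏ i : Fin n, ∏ j ∈ Finset.range (ν i + i.val), ((∑ l ∈ Finset.range (j + 1), q ^ l : ℕ) : ℂ) =
      (∏ j ∈ Finset.range n, ((∑ l ∈ Finset.range (j + 1), q ^ l : ℕ) : ℂ)) *
        ∏ i : Fin n, ∏ j ∈ Finset.univ.filter (fun j : Fin n => i < j),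
          (((∑ l ∈ Finset.range (ν j + j.val), q ^ l : ℕ) : ℂ) - ((∑ l ∈ Finset.range (ν i + i.val), q ^ l : ℕ) : ℂ)) := by
  set_option maxSynthPendingDepth 3 in
  have c : n * (n - 1) * (n - 2) / 6 = ∑ i : Fin n, ∑ k ∈ range i, k := by
    have : ∀ n, ∑ i ∈ range n, ∑ k ∈ range i, k = n.choose 3 := fun n => n.rec rfl fun n k => by
      rw [sum_range_succ, k, sum_range_id, ← Nat.choose_two_right, Nat.choose_succ_succ', add_comm]
    rw [Fin.sum_univ_eq_sum_range fun i => ∑ k ∈ range i, k, this, Nat.choose_eq_descFactorial_div_factorial]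
    simp [Nat.descFactorial_succ, Nat.factorial, mul_comm, mul_assoc]
  have d := Matrix.det_eval_matrixOfPolynomials_eq_det_vandermonde (fun i : Fin n => ((∑ l ∈ range (ν i + i), q ^ l : ℕ) : ℂ))
    (fun j => ∏ k ∈ range j, (X - C ((∑ l ∈ range k, q ^ l : ℕ) : ℂ))) (fun i => by rw [natDegree_finsetProd_X_sub_C_eq_card, card_range]) fun i => monic_prod_X_sub_C _ _
  rw [Matrix.det_vandermonde, ← Matrix.det_transpose, Matrix.det_apply'] at d
  simp only [filter_lt_eq_Ioi, d, unipotentCharacterGL, sum_mul, mul_sum, ← Nat.cast_prod]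
  refine sum_congr rfl fun κ _ => ?_
  simp only [Matrix.transpose_apply, Matrix.of_apply, eval_prod, eval_sub, eval_X, eval_C]
  split_ifs with h
  · have s : ∑ i, (ν i + i - κ i) = n := by
      have := sum_congr rfl fun i (_ : i ∈ univ) => Nat.sub_add_cancel (h i)
      rw [sum_add_distrib, sum_add_distrib, Equiv.sum_comp κ fun i => (i : ℕ)] at this
      omega
    rw [← show _ = ∏ j ∈ range n, ∑ l ∈ range (j + 1), q ^ l from index_par hq _ s, c, ← Equiv.sum_comp κ, ← prod_pow_eq_pow_sum, Nat.cast_prod, mul_assoc, ← prod_mul_distrib,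
      prod_congr rfl fun i _ => key q (h i), prod_mul_distrib, fixedPointCharacter, MulAction.fixedBy_one_eq_univ, Nat.card_univ]
    push_cast; ring
  · obtain ⟨i, h⟩ := not_forall.1 h
    rw [zero_mul, zero_mul, prod_eq_zero (mem_univ i) (prod_eq_zero (mem_range.2 (not_le.1 h)) (sub_self _)), mul_zero, mul_zero]

end Cfsg.Agent.S2424
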