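import Cfsg.Statements.S2421
import Cfsg.Agent.H3.Par2
import Cfsg.Agent.S2424

set_option autoImplicit false
open scoped MatrixGroups
open Cfsg

namespace Cfsg.Agent.S2421

open H3 H3.Par Finset

/-- Irreducible characters of `GL_n(q)` indexed by partitions: for `ν` a partition of `n` written with `n` non-decreasing parts `ν_0 ≤ ⋯ ≤ ν_{n−1}` (zeros allowed; positions counted from 0) and `λ_i = ν_i + i`, the alternating sum over permutations `κ` of `{0, …, n−1}` of `sign κ` times the permutation character on partial flags of type `λ − κ` (terms with a negative entry omitted) is an irreducible complex character of `GL_n(q)`. For `ν = (1, …, 1)` this is the Steinberg character. -/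
theorem result {F : Type*} [Field F] [Fintype F] {n : ℕ} (ν : Fin n → ℕ) (hmono : Monotone ν) (hsum : ∑ i, ν i = n) :
    Cfsg.IsIrrCharacter (GL (Fin n) F) (Cfsg.unipotentCharacterGL n F ν) := by
  set_option maxSynthPendingDepth 3 in
  classical
  refine (uni_gen F ν).isIrr_of_re_nonneg ((uni_inner F hmono hmono hsum hsum).trans (if_pos rfl)) ?_
  obtain ⟨m, e⟩ := (uni_gen F ν).exists_deg
  have := S2424.result (F := F) rfl ν hmono hsum
  rw [e, mul_assoc] at this
  norm_cast at this
  rw [e, Complex.intCast_re, Int.cast_nonneg_iff]
  refine nonneg_of_mul_nonneg_left (this.symm ▸ mul_nonneg (Int.natCast_nonneg _) (prod_nonneg fun i _ => prod_nonneg fun j h => ?_)) (Int.natCast_pos.2 (mul_pos (by positivity)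
    (prod_pos fun i _ => prod_pos fun j _ => sum_pos (fun _ _ => by positivity) (by simp))))
  have := (mem_filter.1 h).2
  rw [Int.subNatNat_eq_coe, sub_nonneg, Nat.cast_le]
  exact sum_le_sum_of_subset (range_mono (add_le_add (hmono this.le) this.le))

end Cfsg.Agent.S2421
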