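import Cfsg.Statements.S2423
import Mathlib

set_option autoImplicit false
open scoped MatrixGroups
open Cfsg

namespace Cfsg.Agent.S2423

open Finset MulAction Matrix

universe u in
theorem burn {G : Type u} [Group G] [Fintype G] (H K : Subgroup G) : ∃ (Ω : Type u) (f : G → Ω), Function.Surjective f ∧ (∀ a b, f a = f b ↔ ∃ h ∈ H, ∃ k ∈ K, h * b = a * k) ∧
    (Nat.card G : ℂ)⁻¹ * ∑ g, fixedPointCharacter H g * fixedPointCharacter K g = Nat.card Ω := by
  classical
  refine ⟨orbitRel.Quotient G ((G ⧸ H) × G ⧸ K), fun g => .mk _ ((1 : G), g), ?_, fun a b => ?_, ?_⟩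
  · rintro ⟨⟨x⟩, ⟨y⟩⟩
    exact ⟨x⁻¹ * y, Quotient.sound ⟨x⁻¹, Prod.ext (congrArg QuotientGroup.mk (inv_mul_cancel x)) rfl⟩⟩
  · refine (Quotient.eq.trans mem_orbit_iff).trans ⟨fun ⟨h, e⟩ => ⟨h, by simpa using QuotientGroup.eq.1 (congrArg Prod.fst e).symm, _, QuotientGroup.eq.1 (congrArg Prod.snd e).symm, by simp⟩,
      fun ⟨h, p, k, r, e⟩ => ⟨h, Prod.ext (QuotientGroup.eq.2 (by simpa)) (QuotientGroup.eq.2 (by simpa [e])).symm⟩⟩
  · have := congrArg (Nat.cast (R := ℂ)) (sum_card_fixedBy_eq_card_orbits_mul_card_group G ((G ⧸ H) × G ⧸ K))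
    simp only [← Nat.card_eq_fintype_card, Nat.cast_mul, Nat.cast_sum] at this
    rw [inv_mul_eq_iff_eq_mul₀ (Nat.cast_ne_zero.2 Nat.card_pos.ne'), mul_comm, ← this]
    refine sum_congr rfl fun g _ => ?_
    rw [fixedPointCharacter, fixedPointCharacter, ← Nat.cast_mul, ← Nat.card_prod]
    exact congrArg _ (Nat.card_congr (Equiv.subtypeProdEquivProd.symm.trans (Equiv.subtypeEquivRight fun x => (Prod.ext_iff (x := g • x) (y := x)).symm)))

theorem bruhat {F : Type*} [Field F] {n : ℕ} (g : GL (Fin n) F) : ∃ (b c : GL (Fin n) F) (w : Equiv.Perm (Fin n)), b.1.BlockTriangular id ∧ c.1.BlockTriangular id ∧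
    b * permMatrixHom.toHomUnits w = g * c := by
  classical
  have ex : ∀ j : Fin n, ∃ t : ℕ, ∃ c : Fin n → F, c j = 1 ∧ (∀ k, j < k → c k = 0) ∧ ∀ i : Fin n, t ≤ i → (g.1 *ᵥ c) i = 0 := fun j =>
    ⟨n, Pi.single j 1, by simp, fun k h => by simp [h.ne'], fun i h => absurd i.2 h.not_gt⟩
  choose c c1 c2 c3 using fun j => Nat.find_spec (ex j)
  have p : ∀ j, Nat.find (ex j) ≠ 0 := fun j z => one_ne_zero ((c1 j).symm.trans (congrFun (mulVec_injective_of_isUnit g.isUnit (show g.1 *ᵥ c j = g.1 *ᵥ 0 from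
    _root_.funext fun i => by simp [c3 j i (by simp [z])])) j))
  have l : ∀ j, Nat.find (ex j) - 1 < n := fun j => by
    have := Nat.find_min' (ex j) ⟨Pi.single j 1, by simp, fun k h => by simp [h.ne'], fun i (h : n ≤ i) => absurd i.2 h.not_gt⟩
    have := p j; omega
  let w : Fin n → Fin n := fun j => ⟨_, l j⟩
  have m : ∀ j, ∀ d : Fin n → F, d j = 1 → (∀ k, j < k → d k = 0) → (∀ i : Fin n, Nat.find (ex j) ≤ i → (g.1 *ᵥ d) i = 0) → (g.1 *ᵥ d) (w j) ≠ 0 := fun j d a b e z =>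
    Nat.find_min (ex j) (Nat.sub_one_lt (p j)) ⟨d, a, b, fun i h => h.eq_or_lt.elim (fun h => (Fin.ext h : w j = i) ▸ z) fun h => e i (by omega)⟩
  have i : Function.Injective w := Function.Injective.of_lt_imp_ne fun k j h e => by
    have e' : Nat.find (ex k) = Nat.find (ex j) := by have := congrArg Fin.val e; have := p j; have := p k; simp only [w] at *; omega
    refine m j (c j - ((g.1 *ᵥ c j) (w j) / (g.1 *ᵥ c k) (w k)) • c k) (by simp [c1, c2 k j h]) (fun i a => by simp [c2 j i a, c2 k i (h.trans a)])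
      (fun i a => by simp [mulVec_sub, mulVec_smul, c3 j i a, c3 k i (e' ▸ a)]) ?_
    simp [mulVec_sub, mulVec_smul, ← e, m k _ (c1 k) (c2 k) (c3 k)]
  let W := Equiv.ofBijective w i.bijective_of_finite
  have t : (of fun i j => c j i).BlockTriangular id := fun i j h => c2 j i h
  let C := GeneralLinearGroup.mkOfDetNeZero (of fun i j => c j i) (by simp [det_of_upperTriangular t, c1])
  refine ⟨g * C * (permMatrixHom.toHomUnits W)⁻¹, C, W, fun i j h => ?_, t, inv_mul_cancel_right _ _⟩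
  obtain ⟨j, rfl⟩ := W.surjective j
  rw [← map_inv]
  refine Eq.trans ?_ (c3 j i (by have : Nat.find (ex j) - 1 < i := h; omega))
  rw [Units.val_mul, MonoidHom.coe_toHomUnits, permMatrixHom_apply, PEquiv.mul_toMatrix_toPEquiv]
  simp [mul_apply, mulVec, dotProduct, C]

/-- The comparison of `GL_n(q)` with the symmetric group on flags: for partitions `ν`, `μ` of `n` (each with `n` non-decreasing parts, zeros allowed), the inner product of the permutation characters of `GL_n(q)` on partial flags of types `ν` and `μ` equals the inner product of the permutation characters of `Sym(n)` on the cosets of the Young subgroups of types `ν` and `μ` (both count the orbits on pairs). -/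
theorem result {F : Type*} [Field F] [Fintype F] [DecidableEq F] {n : ℕ} (ν μ : Fin n → ℕ) (hν : Monotone ν) (hνs : ∑ i, ν i = n)
    (hμ : Monotone μ) (hμs : ∑ i, μ i = n) :
    (Nat.card (GL (Fin n) F) : ℂ)⁻¹ * ∑ g : GL (Fin n) F,
        Cfsg.fixedPointCharacter (Cfsg.parabolicGL n F ν) g * Cfsg.fixedPointCharacter (Cfsg.parabolicGL n F μ) g =
      (Nat.card (Equiv.Perm (Fin n)) : ℂ)⁻¹ * ∑ σ : Equiv.Perm (Fin n),
        Cfsg.fixedPointCharacter (Cfsg.youngSubgroup ν) σ * Cfsg.fixedPointCharacter (Cfsg.youngSubgroup μ) σ := by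
  set_option maxSynthPendingDepth 3 in
  obtain ⟨Ω, f, s, e, h⟩ := burn (parabolicGL n F ν) (parabolicGL n F μ)
  obtain ⟨Ω', f', s', e', h'⟩ := burn (youngSubgroup ν) (youngSubgroup μ)
  let π : Equiv.Perm (Fin n) →* GL (Fin n) F := permMatrixHom.toHomUnits
  have mo : ∀ (μ : Fin n → ℕ) (b : GL (Fin n) F), b.1.BlockTriangular id → b ∈ parabolicGL n F μ := fun μ b h i j k => h (lt_of_not_ge fun a => k.not_ge
    (card_le_card fun x => by simpa using fun d => d.trans a))
  have y : ∀ μ : Fin n → ℕ, ∀ a ∈ youngSubgroup μ, π a ∈ parabolicGL n F μ := fun μ a h i j k => by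
    have : a j ≠ i := fun z => k.ne (z ▸ h j).symm
    simp [π, permMatrixHom_apply, Equiv.Perm.permMatrix, PEquiv.toMatrix_apply, Equiv.symm_apply_eq, this.symm]
  rw [h, h', ← Nat.card_congr (Setoid.quotientKerEquivOfSurjective _ s'), ← Nat.card_congr (Setoid.quotientKerEquivOfSurjective (f ∘ π) fun x => ?_)]
  · refine congrArg _ (Nat.card_congr (Quotient.congrRight fun a b => (e _ _).trans (.trans ⟨fun ⟨p, hp, k, hk, z⟩ => ?_, fun ⟨p, hp, k, hk, z⟩ =>
      ⟨_, y _ _ hp, _, y _ _ hk, by rw [← map_mul, z, map_mul]⟩⟩ (e' _ _).symm)))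
    obtain ⟨τ, -, t⟩ := exists_ne_zero_of_sum_ne_zero ((det_apply' _).symm.trans_ne (p * π b).det_ne_zero)
    have t := fun j => prod_ne_zero_iff.1 (right_ne_zero_of_mul t) j (mem_univ j)
    have a1 : ∀ j, compLabel ν (τ j) ≤ compLabel ν (b j) := fun j => le_of_not_gt fun c => t j (by
      simpa [π, permMatrixHom_apply, Equiv.Perm.permMatrix, PEquiv.mul_toMatrix_toPEquiv, Equiv.Perm.inv_def] using hp c)
    have a2 : ∀ j, compLabel μ (a⁻¹ (τ j)) ≤ compLabel μ j := fun j => le_of_not_gt fun c => t j (by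
      simpa [z, π, permMatrixHom_apply, Equiv.Perm.permMatrix, PEquiv.toMatrix_toPEquiv_mul] using hk c)
    refine ⟨τ * b⁻¹, fun j => ?_, a⁻¹ * τ, fun j => (sum_eq_sum_iff_of_le fun j _ => a2 j).1 (Equiv.sum_comp (a⁻¹ * τ) _) j (mem_univ j), by group⟩
    simpa using (sum_eq_sum_iff_of_le fun j _ => a1 j).1 ((Equiv.sum_comp τ _).trans (Equiv.sum_comp b _).symm) (b⁻¹ j) (mem_univ _)
  · obtain ⟨g, rfl⟩ := s x
    obtain ⟨b, c, w, p, r, z⟩ := bruhat g
    exact ⟨w, ((e _ _).2 ⟨b, mo _ _ p, c, mo _ _ r, z⟩).symm⟩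

end Cfsg.Agent.S2423
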