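import Cfsg.Statements.S2426
import Cfsg.Agent.H5.GM8

set_option autoImplicit false
open Cfsg

namespace Cfsg.Agent.S2426

open H5.Gen

/-- The rank-one Steinberg presentation of `SL₂` over a finite field `K`: generators `x(t)`, `y(t)` (`t ∈ K`; the two opposite root subgroups) subject to additivity `x(t)x(u) = x(t+u)`, `y(t)y(u) = y(t+u)` and, with `w(t) = x(t) y(−t⁻¹) x(t)` and `w'(t) = y(t) x(−t⁻¹) y(t)` for `t ≠ 0`, the relations `w(t) x(u) w(t)⁻¹ = y(−t⁻² u)` and `w'(t) y(u) w'(t)⁻¹ = x(−t⁻² u)`, present `SL₂(K)`, with `x(t) ↦ (1 t; 0 1)` and `y(t) ↦ (1 0; t 1)`. -/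
theorem result {K : Type*} [Field K] [Finite K] :
    ∃ e : PresentedGroup
        ({g : FreeGroup (Bool × K) | ∃ (b : Bool) (t u : K), g = FreeGroup.of (b, t) * FreeGroup.of (b, u) * (FreeGroup.of (b, t + u))⁻¹} ∪
          {g | ∃ (b : Bool) (t u : K), t ≠ 0 ∧
            g = (FreeGroup.of (b, t) * FreeGroup.of (!b, -t⁻¹) * FreeGroup.of (b, t)) * FreeGroup.of (b, u) *
                  (FreeGroup.of (b, t) * FreeGroup.of (!b, -t⁻¹) * FreeGroup.of (b, t))⁻¹ * (FreeGroup.of (!b, -(t⁻¹ ^ 2 * u)))⁻¹})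
        ≃* Matrix.SpecialLinearGroup (Fin 2) K,
      (∀ t : K, ((e (PresentedGroup.of (true, t)) : Matrix (Fin 2) (Fin 2) K)) = !![1, t; 0, 1]) ∧
      (∀ t : K, ((e (PresentedGroup.of (false, t)) : Matrix (Fin 2) (Fin 2) K)) = !![1, 0; t, 1]) := by
  classical
  have h01 : (0 : Fin 2) ≠ 1 := by decide
  let ρ (b : Bool) : Rt (ambA 1).rs := if b then rtA h01 else rtA h01.symm
  let β (r : Rt (ambA 1).rs) : Bool := decide (r = rtA h01)
  have hn : ∀ b, ρ (!b) = neg (ρ b) := by rintro (_ | _) <;> simp [ρ, neg_rtA]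
  have h1 : ∀ b, β (ρ b) = b := by
    rintro (_ | _)
    · simpa [ρ, β] using fun e => h01 (rtA_inj e).2
    · simp [ρ, β]
  have h2 : Function.Surjective ρ := fun r => by
    obtain ⟨i, j, h, rfl⟩ := exists_rtA r
    fin_cases i <;> fin_cases j
    exacts [absurd rfl h, ⟨true, rfl⟩, ⟨false, rfl⟩, absurd rfl h]
  have hs := (sysSL 1 K).rels
  refine ⟨MulEquiv.ofBijective (PresentedGroup.toGroup (f := fun p => (sysSL 1 K).x (ρ p.1) p.2) ?_)
    (exists_equiv_sl (y := fun r t => PresentedGroup.of (β r, t)) ⟨fun r t u => ?_,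
        fun r s a b => ?_, fun r t u ht => ?_⟩ ?_ fun r t => ?_), fun t => ?_, fun t => ?_⟩
  · rintro _ (⟨a, t, u, rfl⟩ | ⟨a, t, u, ht, rfl⟩)
    · simp [hs.add]
    · simp only [map_mul, map_inv, FreeGroup.lift_apply_of, hn]
      rw [mul_inv_eq_one, mul_inv_eq_iff_eq_mul]
      exact hs.nrel _ t u ht
  · exact mul_inv_eq_one.1 (PresentedGroup.one_of_mem (Or.inl ⟨_, t, u, rfl⟩))
  · obtain ⟨c, rfl⟩ := h2 r
    obtain ⟨d, rfl⟩ := h2 s
    rw [← hn] at b
    cases c <;> cases d <;> simp at a b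
  · obtain ⟨c, rfl⟩ := h2 r
    simp only [nn, ← hn, h1]
    exact mul_inv_eq_iff_eq_mul.1 (mul_inv_eq_one.1 (PresentedGroup.one_of_mem (Or.inr ⟨c, t, u, ht, rfl⟩)))
  · rw [eq_top_iff, ← PresentedGroup.closure_range_of]
    refine Subgroup.closure_mono ?_
    rintro _ ⟨⟨b, t⟩, rfl⟩
    exact ⟨ρ b, t, by rw [h1]⟩
  · obtain ⟨c, rfl⟩ := h2 r
    rw [PresentedGroup.toGroup.of, h1]; rfl
  all_goals
    rw [MulEquiv.ofBijective_apply, PresentedGroup.toGroup.of]
    refine (minA_X (by first | exact h01 | exact h01.symm) t).trans ?_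
    ext i j
    fin_cases i <;> fin_cases j <;> simp [Matrix.transvection]

end Cfsg.Agent.S2426
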