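import Cfsg.Statements.S2427
import Cfsg.Agent.H3.GL2f
import Cfsg.Agent.H1.Two5
import Cfsg.Agent.H2.PRes
import Cfsg.Agent.H4.Dihed

set_option autoImplicit false
open Cfsg

namespace Cfsg.Agent.S2427
open H3
export H3 (inner_add_left inner_add_right inner_sub_left inner_sub_right inner_neg_left inner_neg_right
  inner_zero_left inner_zero_right inner_smul_left inner_smul_right inner_conj_symm inner_self_eq_zero
  inner_self_im)

open H1B Subgroup H7
open scoped MatrixGroups commutatorElement
/-- auxiliary -/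
def mk (a b c d : ZMod 3) (h : (!![a, b; c, d]).det = 1) : SL(2, ZMod 3) := ⟨_, h⟩
theorem key : ∀ a b c d : ZMod 3, ∀ h : (!![a, b; c, d]).det = 1, mk a b c d h = 1 ∨ mk a b c d h = -1 ∨
    ∃ k ∈ [1, slW, slW * slW, slY, slY * slW, slY * slW * slW], k * mk a b c d h * k⁻¹ = slX ∨
      k * (mk a b c d h * (slX * (mk a b c d h)⁻¹ * slX⁻¹)) * k⁻¹ = slX := by decide +kernel

/-- The group SL₂ over the field with 3 elements has order 24 and centre of order 2; its commutator subgroup has order 8, is isomorphic to the quaternion group of order 8 and is complemented by every Sylow 3-subgroup (so the group is a semidirect product of a quaternion group of order 8 by a cyclic group of order 3); and its only normal subgroups besides the trivial subgroup and the whole group are the centre and the commutator subgroup. -/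
theorem result :
    Nat.card (Matrix.SpecialLinearGroup (Fin 2) (ZMod 3)) = 24 ∧
    Nat.card (Subgroup.center (Matrix.SpecialLinearGroup (Fin 2) (ZMod 3))) = 2 ∧
    Nat.card (commutator (Matrix.SpecialLinearGroup (Fin 2) (ZMod 3))) = 8 ∧
    Nonempty (commutator (Matrix.SpecialLinearGroup (Fin 2) (ZMod 3)) ≃* QuaternionGroup 2) ∧
    (∀ P : Sylow 3 (Matrix.SpecialLinearGroup (Fin 2) (ZMod 3)),
      Subgroup.IsComplement' (commutator (Matrix.SpecialLinearGroup (Fin 2) (ZMod 3)))
        (P : Subgroup (Matrix.SpecialLinearGroup (Fin 2) (ZMod 3)))) ∧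
    ∀ N : Subgroup (Matrix.SpecialLinearGroup (Fin 2) (ZMod 3)), N.Normal →
      N = ⊥ ∨ N = ⊤ ∨ N = Subgroup.center (Matrix.SpecialLinearGroup (Fin 2) (ZMod 3)) ∨
        N = commutator (Matrix.SpecialLinearGroup (Fin 2) (ZMod 3)) := by
  set_option maxSynthPendingDepth 3 in
  haveI : Fact (Nat.Prime 3) := ⟨Nat.prime_three⟩
  have h : S23 slX slY slW := ⟨by decide, by decide, by decide, by decide, by decide, by decide⟩
  have t := eq_top_of_card_eq _ ((h.card (by decide)).trans card_sl23.symm)
  have le : ∀ N : Subgroup SL(2, ZMod 3), N.Normal → slX ∈ N → zpowers slX ⊔ zpowers slY ≤ N := fun N n a =>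
    sup_le (zpowers_le.2 a) (zpowers_le.2 (h.gx ▸ n.conj_mem _ a _))
  haveI n : (zpowers slX ⊔ zpowers slY).Normal :=
    normalizer_eq_top_iff.1 (eq_top_iff.2 (t.ge.trans (sup_le le_normalizer (zpowers_le.2 h.nrm_Q))))
  have i3 : (zpowers slX ⊔ zpowers slY).index = 3 := by
    have := (zpowers slX ⊔ zpowers slY).card_mul_index
    rw [h.card_Q, card_sl23] at this; omega
  have c : commutator SL(2, ZMod 3) = zpowers slX ⊔ zpowers slY := by
    refine le_antisymm ?_ (le _ inferInstance ?_)
    · haveI : IsCyclic (SL(2, ZMod 3) ⧸ (zpowers slX ⊔ zpowers slY)) := isCyclic_of_prime_card i3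
      exact Subgroup.Normal.quotient_commutative_iff_commutator_le.1 IsCyclic.commutative
    · rw [show slX = ⁅slW, slY⁆ by decide]
      exact commutator_mem_commutator (mem_top _) (mem_top _)
  have z : center SL(2, ZMod 3) = zpowers (-1) := le_antisymm (fun g m => by
    rcases H4.sl2_mem_center_iff.1 m with rfl | rfl
    exacts [one_mem _, mem_zpowers _]) (zpowers_le.2 (H4.sl2_mem_center_iff.2 (.inr rfl)))
  refine ⟨card_sl23, ?_, c ▸ h.card_Q, ?_, fun P => H2.isComplement'_sylow_of_coprime (k := 1)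
    (by rw [c, h.card_Q]; norm_num) (by rw [c, i3]; norm_num) P, fun N m => ?_⟩
  · rw [z, Nat.card_zpowers]; exact orderOf_eq_prime (by decide) (by decide)
  · obtain ⟨e⟩ := H4.closure_equiv_quaternion (n := 2) h.ord_x (h.y2.trans (pow_two _).symm) h.inv h.out
    refine ⟨(MulEquiv.subgroupCongr ?_).trans e⟩
    rw [c, Set.insert_eq, Subgroup.closure_union, ← zpowers_eq_closure, ← zpowers_eq_closure]
  by_cases a : slX ∈ N
  · have d1 := card_dvd_of_le (le N m a)
    have d2 := N.card_subgroup_dvd_card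
    rw [h.card_Q] at d1; rw [card_sl23] at d2
    obtain ⟨k, e⟩ := d1
    rw [e] at d2
    rcases (Nat.dvd_prime Nat.prime_three).1 (Nat.dvd_of_mul_dvd_mul_left (by norm_num : 0 < 8) d2) with rfl | rfl
    · exact .inr (.inr (.inr (c ▸ (eq_of_le_of_card_ge (le N m a) (by rw [e, h.card_Q])).symm)))
    · exact .inr (.inl (eq_top_of_card_eq _ (e.trans card_sl23.symm)))
  have b : ∀ g ∈ N, g = 1 ∨ g = -1 := fun ⟨g, u⟩ v => by
    revert u; rw [Matrix.eta_fin_two g]; intro u v
    rcases key _ _ _ _ u with e | e | ⟨k, -, e | e⟩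
    exacts [.inl e, .inr e, (a (e ▸ m.conj_mem _ v k)).elim,
      (a (e ▸ m.conj_mem _ (mul_mem v (m.conj_mem _ (inv_mem v) _)) k)).elim]
  by_cases d : -1 ∈ N
  · exact .inr (.inr (.inl (le_antisymm (fun g v => H4.sl2_mem_center_iff.2 (b g v)) (z ▸ zpowers_le.2 d))))
  · exact .inl (eq_bot_iff.2 fun g v => (b g v).resolve_right fun e => d (e ▸ v))

end Cfsg.Agent.S2427
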