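import Cfsg.Statements.S2429
import Cfsg.Agent.H3.GL2e

set_option autoImplicit false
open Cfsg

namespace Cfsg.Agent.S2429
open H3
export H3 (inner_add_left inner_add_right inner_sub_left inner_sub_right inner_neg_left inner_neg_right
  inner_zero_left inner_zero_right inner_smul_left inner_smul_right inner_conj_symm inner_self_eq_zero
  inner_self_im)

open G2

/-- Let F be a finite field with q elements, q odd. Then SL₂ over F contains a cyclic subgroup T′ of order q + 1 (a non-split torus) with the following properties: T′ is its own centraliser, and indeed the centraliser of each element of T′ other than 1 and −1 is exactly T′; every element of SL₂ having no eigenvector in F² is conjugate to an element of T′; the normaliser of T′ has order 2(q + 1) and exactly (q + 7)/2 conjugacy classes; and every element of that normaliser outside T′ has square −1. -/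
theorem result {F : Type*} [Field F] [Fintype F] (hodd : Odd (Fintype.card F)) :
    ∃ T' : Subgroup (Matrix.SpecialLinearGroup (Fin 2) F), IsCyclic T' ∧ Nat.card T' = Fintype.card F + 1 ∧
      Subgroup.centralizer ((T' : Set (Matrix.SpecialLinearGroup (Fin 2) F))) = T' ∧
      (∀ g : Matrix.SpecialLinearGroup (Fin 2) F, g ∈ T' → (g : Matrix (Fin 2) (Fin 2) F) ≠ 1 → (g : Matrix (Fin 2) (Fin 2) F) ≠ -1 → Subgroup.centralizer ({g} : Set (Matrix.SpecialLinearGroup (Fin 2) F)) = T') ∧
      (∀ g : Matrix.SpecialLinearGroup (Fin 2) F, (∀ (c : F) (v : Fin 2 → F), v ≠ 0 → (g : Matrix (Fin 2) (Fin 2) F).mulVec v ≠ c • v) → ∃ h : Matrix.SpecialLinearGroup (Fin 2) F, h * g * h⁻¹ ∈ T') ∧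
      Nat.card (Subgroup.normalizer (T' : Set (Matrix.SpecialLinearGroup (Fin 2) F))) = 2 * (Fintype.card F + 1) ∧
      Nat.card (ConjClasses (Subgroup.normalizer (T' : Set (Matrix.SpecialLinearGroup (Fin 2) F)))) = (Fintype.card F + 7) / 2 ∧
      ∀ g : Matrix.SpecialLinearGroup (Fin 2) F, g ∈ Subgroup.normalizer (T' : Set (Matrix.SpecialLinearGroup (Fin 2) F)) → g ∉ T' → ((g * g) : Matrix (Fin 2) (Fin 2) F) = -1 := by
  set_option maxSynthPendingDepth 3 in
  classical
  obtain ⟨e, he⟩ := exists_ell (F := F)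
  obtain ⟨w, h⟩ := tor_CS (two_ne hodd) he
  obtain ⟨a, m, a1, a2⟩ := h.ex
  refine ⟨CS e, h.cyc, h.card, h.cen_eq le_rfl m a1 a2, fun g m b c => h.cent g m (fun z => b (by simp [z]))
    (fun z => c (by simp [z])), fun g k => ?_, h.card_nrm, h.classes_nrm, fun g a b =>
      congrArg Subtype.val (h.sq' (h.out a b))⟩
  have l := ell_of (g := tg g) k
  obtain ⟨x, c⟩ := conj_into_To he l
  obtain ⟨y, v⟩ := isConj_iff.1 (H4.isConj_sl_of_trace (tr_slConj x g).symm (tr_ell (two_ne hodd) l))
  exact ⟨y, by rw [v]; rwa [← H4.toGL_slConj] at c⟩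

end Cfsg.Agent.S2429
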