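import Cfsg.Statements.S2434
import Cfsg.Agent.H3.GL2e

set_option autoImplicit false
open Cfsg

namespace Cfsg.Agent.S2434
open H3
export H3 (inner_add_left inner_add_right inner_sub_left inner_sub_right inner_neg_left inner_neg_right
  inner_zero_left inner_zero_right inner_smul_left inner_smul_right inner_conj_symm inner_self_eq_zero
  inner_self_im)

open G2

/-- Let F be a finite field with q elements, q odd, and C a cyclic subgroup of order q + 1 of SL₂ over F (a non-split torus; it contains the centre). For every homomorphism θ from C to the non-zero complex numbers with θ² ≠ 1 there is an irreducible complex character χ of degree q − 1 such that χ(c) = −θ(c) − θ(c)⁻¹ for every non-central c in C, χ(zg) = θ(z)χ(g) for central z in C, χ vanishes at diagonal elements with entry a, a² ≠ 1, and χ takes the value −1 at every upper unitriangular element other than 1. Conversely every irreducible character of degree q − 1 has, for some such θ, the values −θ(c) − θ(c)⁻¹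 at the non-central elements c of C (for q ≥ 5 these are exactly the cuspidal characters of degree q − 1). -/
theorem result {F : Type*} [Field F] [Fintype F] (hodd : Odd (Fintype.card F))
    (C : Subgroup (Matrix.SpecialLinearGroup (Fin 2) F)) (hC : IsCyclic C) (hcard : Nat.card C = Fintype.card F + 1) :
    (∀ θ : C →* ℂˣ, (∃ c : C, θ c ^ 2 ≠ 1) →
      ∃ χ : Matrix.SpecialLinearGroup (Fin 2) F → ℂ, Cfsg.IsIrrCharacter (Matrix.SpecialLinearGroup (Fin 2) F) χ ∧ χ 1 = (Fintype.card F : ℂ) - 1 ∧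
        (∀ c : C, (c : Matrix.SpecialLinearGroup (Fin 2) F) ∉ Subgroup.center (Matrix.SpecialLinearGroup (Fin 2) F) → χ c = -((θ c).val + (θ c)⁻¹.val)) ∧
        (∀ c : C, (c : Matrix.SpecialLinearGroup (Fin 2) F) ∈ Subgroup.center (Matrix.SpecialLinearGroup (Fin 2) F) → ∀ g : Matrix.SpecialLinearGroup (Fin 2) F, χ ((c : Matrix.SpecialLinearGroup (Fin 2) F) * g) = (θ c).val * χ g) ∧
        (∀ g : Matrix.SpecialLinearGroup (Fin 2) F, (g : Matrix (Fin 2) (Fin 2) F) 0 1 = 0 → (g : Matrix (Fin 2) (Fin 2) F) 1 0 = 0 → (g : Matrix (Fin 2) (Fin 2) F) 0 0 ^ 2 ≠ 1 → χ g = 0) ∧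
        (∀ g : Matrix.SpecialLinearGroup (Fin 2) F, (g : Matrix (Fin 2) (Fin 2) F) 1 0 = 0 → (g : Matrix (Fin 2) (Fin 2) F) 0 0 = 1 → (g : Matrix (Fin 2) (Fin 2) F) 1 1 = 1 → (g : Matrix (Fin 2) (Fin 2) F) 0 1 ≠ 0 → χ g = -1)) ∧
    (∀ χ : Matrix.SpecialLinearGroup (Fin 2) F → ℂ, Cfsg.IsIrrCharacter (Matrix.SpecialLinearGroup (Fin 2) F) χ → χ 1 = (Fintype.card F : ℂ) - 1 →
      ∃ θ : C →* ℂˣ, (∃ c : C, θ c ^ 2 ≠ 1) ∧
        ∀ c : C, (c : Matrix.SpecialLinearGroup (Fin 2) F) ∉ Subgroup.center (Matrix.SpecialLinearGroup (Fin 2) F) → χ c = -((θ c).val + (θ c)⁻¹.val)) := by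
  set_option maxSynthPendingDepth 3 in
  classical
  have h2 := two_ne hodd
  have q1 := Fintype.one_lt_card (α := F)
  obtain ⟨m, o⟩ := id hodd
  obtain ⟨c, oc⟩ := IsCyclic.exists_ofOrder_eq_natCard (α := C)
  rw [hcard, ← Subgroup.orderOf_coe] at oc
  have he : Ell (tg c.1) := by
    intro x k
    rw [← H4.toGL_slConj] at k
    have := (BS F).orderOf_dvd_natCard (show H4.slConj x c.1 ∈ BS F from k)
    rw [orderOf_injective _ (H4.slConj_injective x), oc, ← Nat.card_congr sEq, Nat.card_prod, Nat.card_units,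
      Nat.card_eq_fintype_card] at this
    have := Nat.le_of_dvd (by omega) (Nat.Coprime.dvd_of_dvd_mul_right (by simp) this)
    omega
  have hCe : C = CS (tg c.1) := Subgroup.eq_of_le_of_card_ge (fun a b => mem_To'.2 (by
    rw [← map_mul, ← map_mul]
    exact congrArg (fun z : C => tg z.1) (IsCyclic.commutative.is_comm.comm (⟨a, b⟩ : C) c)))
    (by rw [card_CS he, hcard])
  generalize tg c.1 = e at he hCe
  clear oc c
  subst hCe
  have nz : ∀ a : CS e, a.1 ∉ Subgroup.center _ → a.1.1 1 0 ≠ 0 := fun a n =>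
    CS_nonscal he.not_mem a.2 (fun z => n (H4.sl2_mem_center_iff.2 (.inl z))) fun z => n (H4.sl2_mem_center_iff.2 (.inr z))
  refine ⟨fun l n => ?_, fun χ h d => ?_⟩
  · obtain ⟨θ, k⟩ := exists_ext_C he l
    have i := rs_rho_irr he (θ := θ) (by simpa [eqC_inv_iff, k] using n)
    refine ⟨rs (rho θ), i, rs_one.trans (rho_one he θ), fun a b => k a ▸ rho_C he θ a (nz a b), fun a b =>
      i.cent_mul (Subgroup.mem_center_iff.1 b) ?_, fun g _ b c => ?_, fun g a b c d => ?_⟩
    · have z : a.1.1 1 0 = 0 := by rcases H4.sl2_mem_center_iff.1 b with z | z <;> simp [z]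
      obtain ⟨u, v⟩ := To_scal he.not_mem a.2 z
      rw [rs_one, rho_one he, rs, rho_B (g := tg a.1) he θ z, cB, if_pos u, if_pos v, mul_comm, ← k]
      exact congrArg (· * _) (om_of he.not_mem θ (jC e a) z)
    · rw [rs, rho_B (g := tg g) he θ b, cB, if_neg (show (tg g).1 0 0 ≠ (tg g).1 1 1 from ne_of_split b c), zero_mul]
    · rw [H4.eq_ub b c a]; exact rho_ub he θ d
  · have := dg_sub d
    rcases sl_irr' he h with ⟨k, d⟩ | ⟨k, d⟩ | ⟨α, -, k, d⟩ | ⟨θ, n, k, d⟩ | ⟨α, η, -, -, k, d⟩ | ⟨θ, η, -, -, k, d⟩ <;>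
      first | omega | skip
    · exact ⟨θ.comp (jC e), by simpa [eqC_inv_iff] using n, fun a b => k ▸ rho_C he θ a (nz a b)⟩
    · obtain ⟨l, n⟩ := exists_lin_pow_ne (A := CS e) (n := 2) (fun z => by have := Nat.le_of_dvd two_pos z; omega)
      refine ⟨l, n, fun a b => ?_⟩
      have v := To_ell he a.2 (nz a b)
      have := add_inv_three he (by omega) n a (nz a b)

      linear_combination ((k.two_ss (tr_ell h2 v)).trans (ps_ell _ _ v)) / 2 + this

end Cfsg.Agent.S2434
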