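import Cfsg.Statements.S2435
import Cfsg.Agent.H3.GL2d

set_option autoImplicit false
open Cfsg

namespace Cfsg.Agent.S2435
open H3
export H3 (inner_add_left inner_add_right inner_sub_left inner_sub_right inner_neg_left inner_neg_right
  inner_zero_left inner_zero_right inner_smul_left inner_smul_right inner_conj_symm inner_self_eq_zero
  inner_self_im)

open G2

/-- Let F be a finite field with q elements, q odd and q ≥ 5, and χ an irreducible complex character of SL₂ over F. If χ has degree (q + 1)/2, then at a diagonal element with entry a, a² ≠ 1, χ takes the value 1 when a is a square in F and −1 otherwise. If χ has degree (q − 1)/2, then at an element g with no eigenvector in F² (so g has order dividing q + 1), χ takes the value −1 when g raised to the power (q + 1)/2 is the identity and the value 1 otherwise. -/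
theorem result {F : Type*} [Field F] [Fintype F] (hodd : Odd (Fintype.card F)) (hq : 5 ≤ Fintype.card F)
    (χ : Matrix.SpecialLinearGroup (Fin 2) F → ℂ) (hχ : Cfsg.IsIrrCharacter (Matrix.SpecialLinearGroup (Fin 2) F) χ) (g : Matrix.SpecialLinearGroup (Fin 2) F) :
    (χ 1 = (((Fintype.card F + 1) / 2 : ℕ) : ℂ) → (g : Matrix (Fin 2) (Fin 2) F) 0 1 = 0 → (g : Matrix (Fin 2) (Fin 2) F) 1 0 = 0 → (g : Matrix (Fin 2) (Fin 2) F) 0 0 ^ 2 ≠ 1 →
      (IsSquare ((g : Matrix (Fin 2) (Fin 2) F) 0 0) → χ g = 1) ∧ (¬ IsSquare ((g : Matrix (Fin 2) (Fin 2) F) 0 0) → χ g = -1)) ∧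
    (χ 1 = (((Fintype.card F - 1) / 2 : ℕ) : ℂ) → (∀ (c : F) (v : Fin 2 → F), v ≠ 0 → (g : Matrix (Fin 2) (Fin 2) F).mulVec v ≠ c • v) →
      (((g ^ ((Fintype.card F + 1) / 2)) : Matrix (Fin 2) (Fin 2) F) = 1 → χ g = -1) ∧ (((g ^ ((Fintype.card F + 1) / 2)) : Matrix (Fin 2) (Fin 2) F) ≠ 1 → χ g = 1)) := by
  set_option maxSynthPendingDepth 3 in
  classical
  have h4 : 4 ≤ Fintype.card F := by omega
  obtain ⟨m, o⟩ := id hodd
  refine ⟨fun d _ b c => ?_, fun d h => ?_⟩
  · obtain ⟨γ, η, x, y, k⟩ := half_add h4 hχ (by have := dg_eq d; omega)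
    have v := (k.two_ss (tr_split b c)).trans (ps_split (g := tg g) _ _ b (ne_of_split b c))
    obtain ⟨n0, n1⟩ := Bo_ne (g := tg g) b
    have e := H4.sl2_det g
    rw [b, mul_zero, sub_zero] at e
    have w := congrArg γ e
    rw [map_mul, map_one] at w
    simp only [tg_val, MulChar.one_apply (R' := ℂ) n0.isUnit, MulChar.one_apply (R' := ℂ) n1.isUnit] at v n0
    simp only [tg_val] at n1
    rw [MulChar.one_apply n0.isUnit, MulChar.one_apply n1.isUnit] at v
    refine ⟨fun s => ?_, fun s => ?_⟩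
    · rw [(quad_val x y n0).1 s] at v w; linear_combination v / 2 + w / 2
    · rw [(quad_val x y n0).2 s] at v w; linear_combination v / 2 - w / 2
  · have he := ell_of (g := tg g) h
    obtain ⟨θ, η, x, y, k⟩ := half_sub he h4 hχ (by have := dg_eq d; omega)
    have v := (k.two_ss (tr_ell (two_ne hodd) he)).trans (rho_C he θ ⟨g, mem_To'.2 rfl⟩ he.not_mem)
    obtain ⟨a, b⟩ := quadC he hodd x y ⟨g, mem_To'.2 rfl⟩

    rw [Units.val_inv_eq_inv_val] at v
    refine ⟨fun s => ?_, fun s => ?_⟩
    · rw [a (Subtype.ext (Subtype.ext ((Matrix.SpecialLinearGroup.coe_pow g _).trans s)))] at v; linear_combination v / 2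
    · rw [b fun z => s ((Matrix.SpecialLinearGroup.coe_pow g _).symm.trans (congrArg (fun c : CS (tg g) => c.1.1) z))] at v
      linear_combination v / 2

end Cfsg.Agent.S2435
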