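import Cfsg.Statements.S2436
import Cfsg.Agent.H3.GL2f
import Cfsg.Agent.S2325
import Cfsg.Agent.H3.Cls

set_option autoImplicit false
open Cfsg

namespace Cfsg.Agent.S2436
open H3
export H3 (inner_add_left inner_add_right inner_sub_left inner_sub_right inner_neg_left inner_neg_right
  inner_zero_left inner_zero_right inner_smul_left inner_smul_right inner_conj_symm inner_self_eq_zero
  inner_self_im)

open G2

/-- Let F be a finite field with q elements, q odd, ℓ any prime and S a Sylow ℓ-subgroup of SL₂ over F with normaliser N. Then SL₂ and N have the same number of irreducible complex characters of degree not divisible by ℓ (the McKay equality holds for SL₂ over F at every prime). -/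
theorem result {F : Type*} [Field F] [Fintype F] (hodd : Odd (Fintype.card F)) (ℓ : ℕ) [Fact ℓ.Prime] (S : Sylow ℓ (Matrix.SpecialLinearGroup (Fin 2) F)) :
    Nat.card {χ : Cfsg.IrrCharacter (Matrix.SpecialLinearGroup (Fin 2) F) // ¬ ℓ ∣ Cfsg.charDegree (χ : Matrix.SpecialLinearGroup (Fin 2) F → ℂ)} =
      Nat.card {ψ : Cfsg.IrrCharacter (Subgroup.normalizer ((S : Subgroup (Matrix.SpecialLinearGroup (Fin 2) F)) : Set (Matrix.SpecialLinearGroup (Fin 2) F))) //
        ¬ ℓ ∣ Cfsg.charDegree (ψ : Subgroup.normalizer ((S : Subgroup (Matrix.SpecialLinearGroup (Fin 2) F)) : Set (Matrix.SpecialLinearGroup (Fin 2) F)) → ℂ)} := by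
  set_option maxSynthPendingDepth 3 in
  classical
  have hp : ℓ.Prime := Fact.out
  have q1 := Fintype.one_lt_card (α := F)
  obtain ⟨m, o⟩ := id hodd
  by_cases h2 : ℓ = 2
  · subst h2
    rw [odd_cnt hodd (S2325.result hodd)]
    by_cases c : Fintype.card F % 8 = 1 ∨ Fintype.card F % 8 = 7
    · obtain ⟨a, b⟩ := nrm_sylow_two hodd S c
      rw [cnt_equiv (MulEquiv.subgroupCongr a) fun d => ¬ 2 ∣ d, b]
    · obtain ⟨-, ⟨e⟩⟩ := nrm_sylow_two' hodd S (by omega)
      haveI : Fact (Nat.Prime 3) := ⟨Nat.prime_three⟩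
      have o3 : Odd (Fintype.card (ZMod 3)) := by rw [ZMod.card]; decide
      rw [cnt_equiv e fun d => ¬ 2 ∣ d]
      convert (odd_cnt o3 (S2325.result o3)).symm
  have n1 : ¬ ℓ ∣ 1 := hp.not_dvd_one
  have n2 : ¬ ℓ ∣ 2 := fun z => h2 ((Nat.prime_dvd_prime_iff_eq hp Nat.prime_two).1 z)
  have l3 : 3 ≤ ℓ := by have := hp.two_le; omega
  by_cases c0 : ℓ ∣ Fintype.card F
  · haveI := H4.charP_of_dvd_card (F := F) hp (by rwa [Nat.card_eq_fintype_card])
    have a := card_add_compl fun χ : IrrCharacter (Matrix.SpecialLinearGroup (Fin 2) F) => ℓ ∣ dg χ.1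
    rw [card_irr, S2325.result hodd, card_eq_of_range _ (fun _ : Unit => rs (st 1)) (fun _ _ _ => rfl)
      (fun _ => rs_st_irr) fun χ => ⟨fun h => ⟨(), eq_st_of_dvd χ.2 h⟩, fun ⟨_, h⟩ => by rw [h, st_dg]; exact c0⟩,
      Nat.card_unique] at a
    rw [nrm_sylow_char hodd S]; omega
  by_cases c1 : ℓ ∣ Fintype.card F - 1
  · obtain ⟨B, v, h, -, b⟩ := sylow_sub hodd h2 S c1
    have := Nat.le_of_dvd (by omega) c1
    have c2 : ¬ ℓ ∣ Fintype.card F + 1 := fun z => n2 (by
      simpa [show Fintype.card F + 1 - (Fintype.card F - 1) = 2 by omega] using Nat.dvd_sub z c1)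
    rw [cnt_equiv (MulEquiv.subgroupCongr b) fun d => ¬ ℓ ∣ d, h.cnt hp h2, cnt_odd hodd (by omega), if_neg n1, if_neg c0,
      if_neg c2, if_pos c1, if_neg fun z => c2 (z.trans ⟨2, by omega⟩), if_pos ((hp.dvd_mul.1
        (show ℓ ∣ 2 * ((Fintype.card F - 1) / 2) by convert c1; omega)).resolve_left n2)]
    omega
  by_cases c2 : ℓ ∣ Fintype.card F + 1
  · obtain ⟨B, v, h, -, b⟩ := sylow_add hodd h2 S c2
    have c3 := (hp.dvd_mul.1 (show ℓ ∣ 2 * ((Fintype.card F + 1) / 2) by convert c2; omega)).resolve_left n2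
    have := Nat.le_of_dvd (by omega) c3
    rw [cnt_equiv (MulEquiv.subgroupCongr b) fun d => ¬ ℓ ∣ d, h.cnt hp h2, cnt_odd hodd (by omega), if_neg n1, if_neg c0,
      if_pos c2, if_neg c1, if_pos c3, if_neg fun z => c1 (z.trans ⟨2, by omega⟩)]
    omega
  have b : S.1 = ⊥ := by
    obtain ⟨k, e⟩ := S.2.exists_card_eq
    rcases k with _ | k
    · exact Subgroup.card_eq_one.1 e
    have := (e ▸ dvd_pow_self ℓ k.succ_ne_zero).trans S.1.card_subgroup_dvd_card
    rw [card_SL', hp.dvd_mul, hp.dvd_mul] at this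
    tauto
  refine (cnt_equiv ((MulEquiv.subgroupCongr ?_).trans Subgroup.topEquiv) fun d => ¬ ℓ ∣ d).symm
  rw [b]; exact Subgroup.normalizer_eq_top ⊥

end Cfsg.Agent.S2436
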