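import Cfsg.Statements.S2439
import Cfsg.Agent.H3.GL2f

set_option autoImplicit false
open Cfsg

namespace Cfsg.Agent.S2439
open H3
export H3 (inner_add_left inner_add_right inner_sub_left inner_sub_right inner_neg_left inner_neg_right
  inner_zero_left inner_zero_right inner_smul_left inner_smul_right inner_conj_symm inner_self_eq_zero
  inner_self_im)

open G2 H9
open scoped MatrixGroups ComplexConjugate

/-- Let F be a finite field with q elements of odd characteristic p, and M a maximal ideal of the algebraic integers containing p. Then SL₂ over F has exactly three p-blocks relative to M: the irreducible character of degree q (the Steinberg character) alone; the other irreducible characters taking the same value at −1 as at 1 (the principal block); and the irreducible characters χ with χ(−1) = −χ(1). Every Sylow p-subgroup is a defect group of each of the last two blocks. -/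
theorem result {F : Type*} [Field F] [Fintype F] (p : ℕ) [Fact p.Prime] [CharP F p] (hp : p ≠ 2)
    (M : Ideal Cfsg.AlgInt) (hM : Cfsg.IsPModular p M) :
    (∀ B : Set (Cfsg.IrrCharacter (Matrix.SpecialLinearGroup (Fin 2) F)), Cfsg.IsPBlock M B ↔
      (B = {χ : Cfsg.IrrCharacter (Matrix.SpecialLinearGroup (Fin 2) F) | (χ : Matrix.SpecialLinearGroup (Fin 2) F → ℂ) 1 = (Fintype.card F : ℂ)} ∨
       B = {χ : Cfsg.IrrCharacter (Matrix.SpecialLinearGroup (Fin 2) F) | (χ : Matrix.SpecialLinearGroup (Fin 2) F → ℂ) (-1) = (χ : Matrix.SpecialLinearGroup (Fin 2) F → ℂ) 1 ∧ (χ : Matrix.SpecialLinearGroup (Fin 2) F → ℂ) 1 ≠ (Fintype.card F : ℂ)} ∨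
       B = {χ : Cfsg.IrrCharacter (Matrix.SpecialLinearGroup (Fin 2) F) | (χ : Matrix.SpecialLinearGroup (Fin 2) F → ℂ) (-1) = -(χ : Matrix.SpecialLinearGroup (Fin 2) F → ℂ) 1})) ∧
    Nat.card {B : Set (Cfsg.IrrCharacter (Matrix.SpecialLinearGroup (Fin 2) F)) // Cfsg.IsPBlock M B} = 3 ∧
    ∀ P : Sylow p (Matrix.SpecialLinearGroup (Fin 2) F),
      Cfsg.IsDefectGroup p M {χ : Cfsg.IrrCharacter (Matrix.SpecialLinearGroup (Fin 2) F) | (χ : Matrix.SpecialLinearGroup (Fin 2) F → ℂ) (-1) = (χ : Matrix.SpecialLinearGroup (Fin 2) F → ℂ) 1 ∧ (χ : Matrix.SpecialLinearGroup (Fin 2) F → ℂ) 1 ≠ (Fintype.card F : ℂ)} (P : Subgroup (Matrix.SpecialLinearGroup (Fin 2) F)) ∧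
      Cfsg.IsDefectGroup p M {χ : Cfsg.IrrCharacter (Matrix.SpecialLinearGroup (Fin 2) F) | (χ : Matrix.SpecialLinearGroup (Fin 2) F → ℂ) (-1) = -(χ : Matrix.SpecialLinearGroup (Fin 2) F → ℂ) 1} (P : Subgroup (Matrix.SpecialLinearGroup (Fin 2) F)) := by
  set_option maxSynthPendingDepth 3 in
  classical
  haveI : PMod p M := ⟨hM⟩
  have hq : p.Prime := Fact.out
  have o : Odd (Fintype.card F) := by rw [← Nat.card_eq_fintype_card]; exact (H4.char_ne_two_iff_odd p).1 hp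
  have h2 := two_ne o
  have cq : p ∣ Fintype.card F := Nat.card_eq_fintype_card (α := F) ▸ H4.char_dvd_card p
  have s1 : rs (st (1 : MulChar F ℂ)) 1 = Fintype.card F := rs_one.trans (st_one _)
  have sg : ∀ χ : IrrCharacter SL(2, F), χ.1 (-1) = χ.1 1 ∨ χ.1 (-1) = -χ.1 1 := fun χ => χ.2.cent_sign (by simp) (by simp)
  have nd : ∀ χ : IrrCharacter SL(2, F), χ.1 1 ≠ Fintype.card F → ¬ p ∣ dg χ.1 := fun χ n z =>
    n (by rw [eq_st_of_dvd χ.2 z, s1])
  have nm : ∀ χ : IrrCharacter SL(2, F), χ.1 (-1) = -χ.1 1 → χ.1 1 ≠ Fintype.card F := fun χ n z => by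
    rw [eq_st χ.2 (dg_eq z), st_neg, s1] at n
    exact q_ne (F := F) (by linear_combination n / 2)
  have b0 : ∀ χ : IrrCharacter SL(2, F), χ.1 1 = Fintype.card F →
      blockOf M χ.1 = {χ : IrrCharacter SL(2, F) | χ.1 1 = Fintype.card F} := fun χ e => Set.ext fun ψ =>
    ⟨fun k => by_contra fun z => not_same_st h2 ψ.2 (nd ψ z) (eq_st χ.2 (dg_eq e) ▸ sameBlock_symm k),
      fun k => show SameBlock M χ.1 ψ.1 by rw [eq_st χ.2 (dg_eq e), eq_st ψ.2 (dg_eq k)]; exact sameBlock_refl _⟩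
  have b1 : ∀ χ : IrrCharacter SL(2, F), χ.1 (-1) = χ.1 1 → χ.1 1 ≠ Fintype.card F →
      blockOf M χ.1 = {χ : IrrCharacter SL(2, F) | χ.1 (-1) = χ.1 1 ∧ χ.1 1 ≠ Fintype.card F} := fun χ e n => Set.ext fun ψ =>
    ⟨fun k => ⟨(sg ψ).resolve_right fun z => not_same_sign hp χ.2 ψ.2 e z k,
      fun z => not_same_st h2 χ.2 (nd χ n) (eq_st ψ.2 (dg_eq z) ▸ (show SameBlock M χ.1 ψ.1 from k))⟩,
      fun k => same_block h2 χ.2 (nd χ n) ψ.2 (nd ψ k.2) (c := 1) (by simpa using e) (by simpa using k.1)⟩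
  have b2 : ∀ χ : IrrCharacter SL(2, F), χ.1 (-1) = -χ.1 1 →
      blockOf M χ.1 = {χ : IrrCharacter SL(2, F) | χ.1 (-1) = -χ.1 1} := fun χ e => Set.ext fun ψ =>
    ⟨fun k => (sg ψ).resolve_left fun z => not_same_sign hp ψ.2 χ.2 z e (sameBlock_symm k),
      fun k => same_block h2 χ.2 (nd χ (nm χ e)) ψ.2 (nd ψ (nm ψ k)) (c := -1) (by simpa using e) (by simpa using k)⟩
  obtain ⟨η, hη⟩ : ∃ χ : IrrCharacter SL(2, F), χ.1 (-1) = -χ.1 1 := by
    by_contra! n
    exact neg_ne h2 (eq_one_of_forall_irr fun χ h => (sg ⟨χ, h⟩).resolve_right (n _))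
  have q1 : (1 : ℂ) ≠ Fintype.card F := by exact_mod_cast Fintype.one_lt_card.ne
  have m1 : (1 : ℂ) ≠ -1 := by norm_num
  have key : ∀ B : Set (IrrCharacter SL(2, F)), IsPBlock M B ↔
      (B = {χ : IrrCharacter SL(2, F) | χ.1 1 = Fintype.card F} ∨
        B = {χ : IrrCharacter SL(2, F) | χ.1 (-1) = χ.1 1 ∧ χ.1 1 ≠ Fintype.card F} ∨
        B = {χ : IrrCharacter SL(2, F) | χ.1 (-1) = -χ.1 1}) := fun B => by
    refine ⟨?_, ?_⟩
    · rintro ⟨χ, rfl⟩
      by_cases c : χ.1 1 = Fintype.card F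
      · exact .inl (b0 χ c)
      · exact .inr ((sg χ).imp (b1 χ · c) (b2 χ))
    · rintro (rfl | rfl | rfl)
      exacts [⟨⟨_, rs_st_irr⟩, (b0 _ s1).symm⟩, ⟨⟨_, isIrrCharacter_one⟩, (b1 _ rfl q1).symm⟩, ⟨η, (b2 _ hη).symm⟩]
  refine ⟨key, Set.ncard_eq_three.2 ⟨_, _, _, fun z => ?_, fun z => ?_, fun z => ?_, Set.ext key⟩, fun P => ?_⟩
  · exact (z.le (show (⟨_, rs_st_irr⟩ : IrrCharacter SL(2, F)) ∈ _ from s1)).2 s1
  · exact nm η hη (z.ge hη)
  · exact m1 (z.le (show (⟨_, isIrrCharacter_one⟩ : IrrCharacter SL(2, F)) ∈ _ from ⟨rfl, q1⟩))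
  have dc : ∀ B : Set (IrrCharacter SL(2, F)), blockCoeff B 1 ∈ LR M → blockCoeff B 1 ∉ LI M → IsDefectGroup p M B P.1 :=
    fun B a b => by
      have l : P.1 ≤ Subgroup.centralizer {1} := fun x _ => H7.mem_cen1.2 (by simp)
      refine ⟨1, ⟨a, b, fun χ _ z => one_not_mem_LI (M := M) ?_⟩, P.subtype l, (Subgroup.map_subgroupOf_eq_of_le l).symm⟩
      rwa [centralChar, show Subgroup.centralizer {(1 : SL(2, F))} = ⊤ from eq_top_iff.2 fun x _ => H7.mem_cen1.2 (by simp),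
        Subgroup.index_top, Nat.cast_one, one_mul, div_self χ.2.deg_ne_zero] at z
  have t1 : ∑ χ : IrrCharacter SL(2, F), χ.1 1 ^ 2 = _ := sum_deg_sq.trans card_SL
  have t2 : ∑ χ : IrrCharacter SL(2, F), χ.1 1 * χ.1 (-1) = 0 := sum_deg_mul_eq_zero (neg_ne h2)
  have t3 := sum_cnt (G := SL(2, F)) (Fintype.card F) ((Fintype.card F : ℂ) ^ 2)
  rw [show cnD SL(2, F) (Fintype.card F) = 1 from (cs_eq rfl).trans cs_q] at t3
  have q0 := q_ne (F := F); have q2 := q1_ne (F := F); have q3 := q2_ne (F := F)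
  have n2 : ¬ p ∣ 2 := fun z => hp ((Nat.prime_dvd_prime_iff_eq hq Nat.prime_two).1 z)
  have c1 : blockCoeff {χ : IrrCharacter SL(2, F) | χ.1 (-1) = -χ.1 1} 1 = ((2 : ℕ) : ℂ)⁻¹ := by
    rw [blockCoeff, finsum_mem_def, finsum_eq_sum_of_fintype, Finset.sum_congr rfl
      (g := fun χ => 2⁻¹ * χ.1 1 ^ 2 - 2⁻¹ * (χ.1 1 * χ.1 (-1))) fun χ _ => by
        rw [Set.indicator_apply, conj_deg χ.2.isCharacter]
        split_ifs with c
        · rw [show χ.1 (-1) = -χ.1 1 from c]; ring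
        · rw [(sg χ).resolve_right c]; ring,
      Finset.sum_sub_distrib, ← Finset.mul_sum, ← Finset.mul_sum, t1, t2, card_SL]
    field_simp; norm_num
  have c2 : blockCoeff {χ : IrrCharacter SL(2, F) | χ.1 (-1) = χ.1 1 ∧ χ.1 1 ≠ Fintype.card F} 1 =
      (((Fintype.card F : ℤ) ^ 2 - 2 * Fintype.card F - 1 : ℤ) : ℂ) * ((2 * (Fintype.card F ^ 2 - 1) : ℕ) : ℂ)⁻¹ := by
    rw [blockCoeff, finsum_mem_def, finsum_eq_sum_of_fintype, Finset.sum_congr rfl
      (g := fun χ : IrrCharacter SL(2, F) => 2⁻¹ * χ.1 1 ^ 2 + 2⁻¹ * (χ.1 1 * χ.1 (-1)) -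
        if χ.1 1 = (Fintype.card F : ℂ) then (Fintype.card F : ℂ) ^ 2 else 0) fun χ _ => by
        rw [Set.indicator_apply, conj_deg χ.2.isCharacter]
        split_ifs with c d d
        · exact absurd d c.2
        · rw [c.1]; ring
        · rw [(sg χ).resolve_right fun z => nm χ z d, d]; ring
        · rw [(sg χ).resolve_left fun z => c ⟨z, d⟩]; ring,
      Finset.sum_sub_distrib, Finset.sum_add_distrib, ← Finset.mul_sum, ← Finset.mul_sum, t1, t2, t3, card_SL,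
      Nat.cast_mul, Nat.cast_sub (Nat.one_le_pow _ _ Fintype.card_pos)]
    have := q3_ne (F := F)
    push_cast; field_simp; ring
  have n3 : ¬ p ∣ 2 * (Fintype.card F ^ 2 - 1) := fun z => (hq.dvd_mul.1 z).elim n2 fun z => by
    have b := Nat.dvd_sub (cq.trans (dvd_pow_self _ two_ne_zero)) z
    rw [Nat.sub_sub_self (Nat.one_le_pow _ _ Fintype.card_pos)] at b
    exact hq.not_dvd_one b
  refine ⟨dc _ (c2 ▸ (LR M).mul_mem (intCast_mem _ _) (natCast_inv_mem_LR n3)) (c2 ▸ mul_not_mem_LI (intCast_mem _ _)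
    (natCast_inv_mem_LR n3) (fun z => ?_) (inv_not_mem_LI (natCast_mem _ _) (Nat.cast_ne_zero.2 fun z => n3 (z ▸ dvd_zero _)))),
    dc _ (c1 ▸ natCast_inv_mem_LR n2) (c1 ▸ inv_not_mem_LI (natCast_mem _ _) (by simp))⟩
  have a := Int.natCast_dvd_natCast.2 cq
  have := ((a.pow two_ne_zero).sub (a.mul_left 2)).sub ((intCast_mem_LI_iff _).1 z)
  exact hq.not_dvd_one (Int.natCast_dvd_natCast.1 (by simp at this; exact this))

end Cfsg.Agent.S2439
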