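import Cfsg.Statements.S2532
import Cfsg.Agent.H7.GK

set_option autoImplicit false
open Cfsg

namespace Cfsg.Agent.S2532
open H7
open scoped commutatorElement

/-- There is a function `f` of two natural-number arguments such that, whenever `m ≥ f(n, r)`, every subgroup of order `n` of the alternating group of degree `m` centralizes some subgroup of that alternating group isomorphic to the alternating group of degree `r`. -/
theorem result :
    ∃ f : ℕ → ℕ → ℕ, ∀ (m r : ℕ) (H : Subgroup ↥(alternatingGroup (Fin m))), f (Nat.card H) r ≤ m →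
      ∃ K : Subgroup ↥(alternatingGroup (Fin m)), Nonempty (↥K ≃* ↥(alternatingGroup (Fin r))) ∧
        K ≤ Subgroup.centralizer (H : Set ↥(alternatingGroup (Fin m))) := by
  open Subgroup in
  classical
  refine ⟨fun n r => n * (2 ^ n * r), fun m r H hm => ?_⟩
  let Q := MulAction.orbitRel.Quotient H (Fin m)
  have h1 : m ≤ Nat.card H * Nat.card Q := by
    have := Nat.card_le_card_of_surjective (fun p : H × Q => p.1 • (Quotient.out p.2 : Fin m)) (fun y => by
      obtain ⟨h, hh⟩ : y ∈ MulAction.orbit H (Quotient.out (Quotient.mk'' y : Q) : Fin m) :=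
        MulAction.orbitRel_apply.1 (Quotient.exact' (Quotient.out_eq' (Quotient.mk'' y : Q)).symm)
      exact ⟨(h, Quotient.mk'' y), hh⟩)
    simpa using this
  have h2 : 2 ^ Nat.card H * r ≤ Nat.card Q := Nat.le_of_mul_le_mul_left (hm.trans h1) Nat.card_pos
  have h3 : Nat.card (Subgroup H) ≤ 2 ^ Nat.card H := by
    have := Nat.card_le_card_of_injective (fun S : Subgroup H => (S : Set H)) SetLike.coe_injective
    rwa [Nat.card_eq_fintype_card (α := Set H), Fintype.card_set, ← Nat.card_eq_fintype_card] at this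
  haveI := Fintype.ofFinite Q
  haveI := Fintype.ofFinite (Subgroup H)
  obtain ⟨S, hS⟩ := Fintype.exists_le_card_fiber_of_mul_le_card (n := r)
    (fun q : Q => MulAction.stabilizer H (Quotient.out q : Fin m))
    (by rw [← Nat.card_eq_fintype_card, ← Nat.card_eq_fintype_card]; exact (Nat.mul_le_mul_right r h3).trans h2)
  obtain ⟨e⟩ : Nonempty (Fin r ↪ (Finset.univ.filter fun q : Q => MulAction.stabilizer H (Quotient.out q : Fin m) = S)) :=
    Function.Embedding.nonempty_of_card_le (by rw [Fintype.card_coe, Fintype.card_fin]; exact hS)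
  let x : Fin r → Fin m := fun i => Quotient.out (e i).1
  have hx : ∀ i, MulAction.stabilizer H (x i) = S := fun i => (Finset.mem_filter.1 (e i).2).2
  let ι0 : Fin r × (H ⧸ S) → Fin m := fun p => p.2.out • x p.1
  have hι : ∀ i (h : H), ι0 (i, QuotientGroup.mk h) = h • x i := fun i h => by
    obtain ⟨s, hs⟩ := QuotientGroup.mk_out_eq_mul S h
    have : (s : H) • x i = x i := (hx i).ge s.2
    simp only [ι0, hs, mul_smul, this]
  have hinj : Function.Injective ι0 := by
    rintro ⟨i, a⟩ ⟨j, b⟩ hab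
    obtain ⟨a, rfl⟩ := QuotientGroup.mk_surjective a
    obtain ⟨b, rfl⟩ := QuotientGroup.mk_surjective b
    rw [hι, hι] at hab
    have hij : i = j := by
      apply e.injective
      apply Subtype.ext
      rw [← Quotient.out_eq' (e i).1, ← Quotient.out_eq' (e j).1]
      exact Quotient.sound' (MulAction.orbitRel_apply.2 ⟨a⁻¹ * b, by
        show (a⁻¹ * b) • x j = x i
        rw [mul_smul, ← hab, inv_smul_smul]⟩)
    subst hij
    refine Prod.ext rfl (QuotientGroup.eq.2 ?_)
    rw [← hx i, MulAction.mem_stabilizer_iff, mul_smul, ← hab, inv_smul_smul]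
  let ι : Fin r × (H ⧸ S) ↪ Fin m := ⟨ι0, hinj⟩
  haveI := Fintype.ofFinite (H ⧸ S)
  let φ0 : Equiv.Perm (Fin r) →* Equiv.Perm (Fin r × (H ⧸ S)) :=
    { toFun := fun σ => Equiv.prodCongrLeft (fun _ => σ), map_one' := rfl, map_mul' := fun _ _ => rfl }
  let φ := (Equiv.Perm.viaEmbeddingHom ι).comp φ0
  have hφ : ∀ σ i (h : H), φ σ (h • x i) = h • x (σ i) := fun σ i h => by
    rw [← hι, ← hι]
    exact Equiv.Perm.viaEmbedding_apply (φ0 σ) ι (i, QuotientGroup.mk h)
  have hφ' : ∀ σ y, y ∉ Set.range ι → φ σ y = y := fun σ y hy => Equiv.Perm.viaEmbedding_apply_of_notMem (φ0 σ) ι y hy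
  have hs : ∀ g : alternatingGroup (Fin r), φ g ∈ alternatingGroup (Fin m) := by
    intro g
    rw [Equiv.Perm.mem_alternatingGroup]
    have hg : Equiv.Perm.sign (g : Equiv.Perm (Fin r)) = 1 := g.2
    simp only [φ, MonoidHom.comp_apply, Equiv.Perm.viaEmbeddingHom_apply, Equiv.Perm.viaEmbedding,
      Equiv.Perm.sign_extendDomain]
    have := Equiv.Perm.sign_prodCongrLeft (fun _ : H ⧸ S => (g : Equiv.Perm (Fin r)))
    rw [hg, Finset.prod_const_one] at this
    convert this
    rfl
  let ψ : alternatingGroup (Fin r) →* alternatingGroup (Fin m) := (φ.comp (alternatingGroup (Fin r)).subtype).codRestrict _ hs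
  have hψ : Function.Injective ψ := by
    intro a b hab
    have h4 : φ a = φ b := congrArg Subtype.val hab
    have h5 := Equiv.Perm.viaEmbeddingHom_injective ι h4
    apply Subtype.ext
    ext i
    exact congrArg (fun g : Equiv.Perm (Fin r × (H ⧸ S)) => ((g (i, QuotientGroup.mk 1)).1 : ℕ)) h5
  refine ⟨ψ.range, ⟨(MonoidHom.ofInjective hψ).symm⟩, ?_⟩
  rintro _ ⟨σ, rfl⟩ h hh
  apply Subtype.ext
  apply Equiv.ext
  intro y
  show (⟨h, hh⟩ : H) • φ σ y = φ σ ((⟨h, hh⟩ : H) • y)
  by_cases hy : y ∈ Set.range ι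
  · obtain ⟨⟨i, a⟩, rfl⟩ := hy
    obtain ⟨a, rfl⟩ := QuotientGroup.mk_surjective a
    have : ι (i, QuotientGroup.mk a) = a • x i := hι i a
    rw [this, hφ, ← mul_smul, ← mul_smul, hφ]
  · rw [hφ' _ _ hy, hφ']
    rintro ⟨⟨i, a⟩, ha⟩
    obtain ⟨a, rfl⟩ := QuotientGroup.mk_surjective a
    have : ι (i, QuotientGroup.mk a) = a • x i := hι i a
    refine hy ⟨(i, QuotientGroup.mk ((⟨h, hh⟩ : H)⁻¹ * a)), ?_⟩
    have h6 : ι (i, QuotientGroup.mk ((⟨h, hh⟩ : H)⁻¹ * a)) = ((⟨h, hh⟩ : H)⁻¹ * a) • x i := hι i _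
    rw [h6, mul_smul, ← this, ha, inv_smul_smul]

end Cfsg.Agent.S2532
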