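import Cfsg.Statements.S2540
import Cfsg.Agent.H7.GK
import Cfsg.Agent.H4.SLBasic

set_option autoImplicit false
open Cfsg

namespace Cfsg.Agent.S2540
open H7
open scoped commutatorElement

/-- Let F be a finite field and n ≥ 1, excluding the case n = 2 with #F ≤ 3. A subgroup of GL_n(F) that is normalized by every element of SL_n(F) either consists of scalar matrices or contains SL_n(F). -/
theorem result {F : Type*} [Field F] [Fintype F] (n : ℕ) (hn : 1 ≤ n) (hex : ¬ (n = 2 ∧ Fintype.card F ≤ 3)) (G : Subgroup (Matrix.GeneralLinearGroup (Fin n) F)) (hG : ∀ s : Matrix.SpecialLinearGroup (Fin n) F, ∀ g ∈ G, (Matrix.SpecialLinearGroup.toGL s) * g * (Matrix.SpecialLinearGroup.toGL s)⁻¹ ∈ G) : (∀ g ∈ G, ∃ c : F, (g : Matrix (Fin n) (Fin n) F) = c • (1 : Matrix (Fin n) (Fin n) F)) ∨ (Matrix.SpecialLinearGroup.toGL : Matrix.SpecialLinearGroup (Fin n) F →* _).range ≤ G := by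
  open Subgroup in
  classical
  open Subgroup in
  rcases (show n = 1 ∨ 2 ≤ n by omega) with rfl | hn2
  · left
    intro g _
    refine ⟨(g : Matrix (Fin 1) (Fin 1) F) 0 0, ?_⟩
    ext i j; rw [Subsingleton.elim i 0, Subsingleton.elim j 0]; simp
  have key : commutator (Matrix.SpecialLinearGroup (Fin n) F) = ⊤ ∧ IsSimpleGroup (Matrix.ProjectiveSpecialLinearGroup (Fin n) F) := by
    rcases hn2.eq_or_lt with rfl | h3
    · have h4 : 4 ≤ Fintype.card F := by by_contra h; exact hex ⟨rfl, by omega⟩
      obtain ⟨x, hx⟩ : IsCyclic Fˣ := inferInstance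
      have : ((x : F)) ^ 2 ≠ 1 := by
        intro h
        have h1 := orderOf_le_of_pow_eq_one zero_lt_two (Units.ext (by simpa using h) : x ^ 2 = 1)
        rw [orderOf_eq_card_of_forall_mem_zpowers hx, Nat.card_units, Nat.card_eq_fintype_card] at h1
        omega
      exact ⟨Matrix.SL2.commutator_eq_top x.ne_zero this,
        Matrix.ProjectiveSpecialLinearGroup.rank_two_simple' ⟨x, x.ne_zero, this⟩⟩
    · exact ⟨H4.sl_commutator_eq_top (by rw [Fintype.card_fin]; exact h3), H4.psl_isSimpleGroup (by rw [Fintype.card_fin]; exact h3)⟩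
  obtain ⟨hper, hsim⟩ := key
  set τ := (Matrix.SpecialLinearGroup.toGL : Matrix.SpecialLinearGroup (Fin n) F →* _) with hτ
  haveI hHn : (G.comap τ).Normal := ⟨fun x hx s => by
    show τ (s * x * s⁻¹) ∈ G
    rw [map_mul, map_mul, map_inv]; exact hG s _ hx⟩
  rcases hsim.eq_bot_or_eq_top_of_normal ((G.comap τ).map (QuotientGroup.mk' _))
    (hHn.map _ (QuotientGroup.mk'_surjective _)) with h | h
  · left
    rw [Subgroup.map_eq_bot_iff, QuotientGroup.ker_mk'] at h
    haveI hLn : τ.range.Normal := by rw [hτ, H4.range_toGL]; infer_instance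
    have hL : ⁅τ.range, τ.range⁆ = τ.range := by
      rw [MonoidHom.range_eq_map, ← map_commutator, ← _root_.commutator_def, hper]
    have := H7.le_cen_of_perfect (A := G) hL (by
      rw [commutator_le]
      rintro g hg _ ⟨s, rfl⟩
      have h1 : ⁅g, τ s⁆ ∈ τ.range := by
        rw [commutatorElement_def]
        exact mul_mem (hLn.conj_mem _ ⟨s, rfl⟩ g) (inv_mem ⟨s, rfl⟩)
      obtain ⟨u, hu⟩ := h1
      have h2 : u ∈ G.comap τ := by
        show τ u ∈ G
        rw [hu, commutatorElement_def, mul_assoc, mul_assoc, ← mul_assoc (τ s)]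
        exact mul_mem hg (hG s _ (inv_mem hg))
      rintro _ ⟨t, rfl⟩
      rw [← hu, ← map_mul, ← map_mul, mem_center_iff.1 (h h2) t])
    intro g hg
    obtain ⟨c, hc⟩ := Matrix.mem_range_scalar_of_commute_transvectionStruct (M := (g : Matrix (Fin n) (Fin n) F)) (fun t => by
      have := this hg _ ⟨t.toSpecialLinearGroup, rfl⟩
      exact congrArg Units.val this)
    exact ⟨c, by rw [← hc, Matrix.scalar_apply, Matrix.smul_one_eq_diagonal]⟩
  · right
    have h1 : G.comap τ ⊔ center _ = ⊤ := by
      have := congrArg (comap (QuotientGroup.mk' (center (Matrix.SpecialLinearGroup (Fin n) F)))) h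
      rwa [comap_map_eq, QuotientGroup.ker_mk', comap_top] at this
    have h2 : (⊤ : Subgroup (Matrix.SpecialLinearGroup (Fin n) F)) ≤ G.comap τ := by
      rw [← hper, _root_.commutator_def]
      conv_lhs => rw [← h1]
      have nn : ∀ A : Subgroup (Matrix.SpecialLinearGroup (Fin n) F), A ≤ normalizer (G.comap τ : Set _) := fun A => by
        rw [normalizer_eq_top]; exact le_top
      refine H7.comm_sup_le (nn _) (nn _) (commutator_le_left _ _) ?_
      rw [commutator_eq_bot_iff_le_centralizer.2 (fun z hz g _ => mem_center_iff.1 hz g)]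
      exact bot_le
    rintro _ ⟨s, rfl⟩
    exact h2 (mem_top s)

end Cfsg.Agent.S2540
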