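import Cfsg.Statements.S2541
import Mathlib

set_option autoImplicit false
open Cfsg

namespace Cfsg.Agent.S2541

/-- Let F be a field with 9 elements. The symmetric group S_6 is not isomorphic to PGL_2(F) (although both have index-2 subgroups isomorphic to A_6). -/
theorem result {F : Type*} [Field F] [Fintype F] (hF : Fintype.card F = 9) : ¬ Nonempty (Equiv.Perm (Fin 6) ≃* Matrix.ProjGenLinGroup (Fin 2) F) := by
  set_option maxSynthPendingDepth 3 in
  rintro ⟨e⟩
  obtain ⟨ω, h⟩ := IsCyclic.exists_ofOrder_eq_natCard (α := Fˣ)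
  have k : ∀ σ : Equiv.Perm (Fin 6), σ ^ 60 = 1 := fun σ => orderOf_dvd_iff_pow_eq_one.1 (by
    rw [← Equiv.Perm.lcm_cycleType, Multiset.lcm_dvd]
    intro n h
    have := Equiv.Perm.two_le_of_mem_cycleType h
    have := (Multiset.single_le_sum (fun _ _ => Nat.zero_le _) _ h).trans σ.sum_cycleType_le
    rw [Fintype.card_fin] at this
    interval_cases n <;> decide)
  have k' : ∀ x : Matrix.ProjGenLinGroup (Fin 2) F, x ^ 60 = 1 := fun x => by
    rw [← e.apply_symm_apply x, ← map_pow, k, map_one]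
  obtain ⟨g, hg⟩ : ∃ g : GL (Fin 2) F, g.1 = Matrix.diagonal ![ω.1, 1] :=
    ⟨Matrix.GeneralLinearGroup.mkOfDetNeZero (Matrix.diagonal ![ω.1, 1]) (by simp), rfl⟩
  obtain ⟨c, hc⟩ := Matrix.GeneralLinearGroup.mem_center_iff_val_mem_range_scalar.1
    ((QuotientGroup.eq_one_iff (g ^ 60)).1 (k' (QuotientGroup.mk g)))
  rw [Units.val_pow_eq_pow_val, hg, Matrix.diagonal_pow] at hc
  have a := congrFun (congrFun hc 0) 0
  have b := congrFun (congrFun hc 1) 1
  simp at a b
  have := orderOf_dvd_of_pow_eq_one (Units.ext (a.symm.trans b) : ω ^ 60 = 1)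
  rw [h, Nat.card_units, Nat.card_eq_fintype_card, hF] at this
  omega

end Cfsg.Agent.S2541
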