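import Cfsg.Statements.S2542
import Cfsg.Agent.H0.EL211.Main
import Cfsg.Agent.H0.IL211


set_option autoImplicit false
open Cfsg

namespace Cfsg.Agent.S2542

/-- Let F be a field with 11 elements. PSL_2(F) has a subgroup H of index 11 isomorphic to the alternating group A_5, and the action of PSL_2(F) on the cosets of H is 2-transitive (of degree 11). -/
theorem result {F : Type*} [Field F] [Fintype F] (hF : Fintype.card F = 11) : ∃ H : Subgroup (Matrix.ProjectiveSpecialLinearGroup (Fin 2) F), H.index = 11 ∧ Nonempty (H ≃* alternatingGroup (Fin 5)) ∧ MulAction.IsMultiplyPretransitive (Matrix.ProjectiveSpecialLinearGroup (Fin 2) F) ((Matrix.ProjectiveSpecialLinearGroup (Fin 2) F) ⧸ H) 2 := by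
  have := H0.IL211.fp
  obtain ⟨f⟩ := H0.IL211.iso
  let e := f.trans (H0.cenEquiv (H0.slEquiv (H0.fe (ZMod 11) hF (ZMod.card 11))))
  let m := (H0.ML211.m (H0.Pres.pg _ _)).map e
  have hb := (H0.ML211.m (H0.Pres.pg _ _)).map_base e (H0.ML211.base (H0.Pres.pg _ _))
  have hc := (Nat.card_congr e.toEquiv).symm.trans (H0.ML211.card (H0.Pres.pg _ _))
  have := Nat.finite_of_card_ne_zero (hc.trans_ne (by decide))
  have ht := ((H0.ML211.m (H0.Pres.pg _ _)).map_orb e 0).trans (H0.ML211.trans (H0.Pres.pg _ _))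
  obtain ⟨g⟩ := H0.EL211.A_iso m rfl hb hc
  have h := H0.eq_of_card (H0.EL211.A_fix m rfl) ⟨g⟩ (H0.card_alt 3) (m.card_stab ht hc (by decide)) (by decide)
  exact ⟨m.pst [0], m.index0 ht, ⟨(MulEquiv.subgroupCongr h.symm).trans g.symm⟩, m.two_trans (n := 10) ht (h ▸ (H0.EL211.o1 m rfl).ge)⟩

end Cfsg.Agent.S2542
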