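import Cfsg.Statements.S2544
import Cfsg.Agent.H3.Down
import Cfsg.Agent.H3.Mack
import Cfsg.Agent.H4.SLBasic
import Cfsg.Agent.S2421

set_option autoImplicit false
open Cfsg

namespace Cfsg.Agent.S2544

open H3 H3.Par H4 Finset Matrix

theorem res_irr {G : Type*} [Group G] [Fintype G] {N : Subgroup G} [N.Normal] (ab : commutator G ≤ N) {χ : G → ℂ} (h : Irr G χ) (c : (dg χ).Coprime N.index) : Irr N χ↾N := by
  classical
  obtain ⟨θ, a, b⟩ := (h.isCharacter.res N).isClassFunction.exists_constituent fun z => h.sirr.deg_ne_zero (congrFun z 1)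
  obtain ⟨e, C, -, i, k, l, m, -⟩ := ind_ab' a ((Subgroup.commutator_mono le_top le_top).trans ab)
  have : χ ∈ C := by_contra fun n => b (by
    rw [← inner_indFun_right N θ h.isClassFunction, l, H3.inner_smul_right, inner_sum_right, sum_eq_zero fun ψ p => h.inner_of_ne (i ψ p) fun z => n (z ▸ p), mul_zero])
  have z : (inertia θ).index * e = 1 := Nat.eq_one_of_dvd_coprimes c ⟨dg θ, dg_eq (by rw [m χ this, (dg_cast a.isCharacter).1 rfl]; push_cast; rfl)⟩
    ⟨e * C.card, by rw [← Subgroup.relIndex_mul_index (le_inertia a.isClassFunction), ← k]; ring⟩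
  exact (h.isCharacter.res N).eq_of_inner_ne_zero a b (by rw [← one_mul (θ 1), ← Nat.cast_one, ← z, Nat.cast_mul]; exact m χ this) ▸ a

theorem st_deg (F : Type*) [Field F] [Fintype F] (n : ℕ) : unipotentCharacterGL n F (fun _ => 1) 1 = (Fintype.card F ^ ∑ i ∈ range n, i : ℕ) := by
  have := S2424.result (F := F) rfl (fun _ : Fin n => 1) monotone_const (by simp)
  set q := Fintype.card F
  have Q : ∀ j, ((∑ l ∈ range (j + 1), q ^ l : ℕ) : ℂ) ≠ 0 := fun j => Nat.cast_ne_zero.2 (sum_pos (fun _ _ => pow_pos Fintype.card_pos _) (by simp)).ne'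
  have c : ∀ n, ∑ j ∈ range n, ∑ k ∈ range (j + 1), k = n * (n - 1) * (n - 2) / 6 + ∑ i ∈ range n, i := fun n => by
    have : ∀ n, ∑ i ∈ range n, ∑ k ∈ range i, k = n.choose 3 := fun n => n.rec rfl fun n k => by
      rw [sum_range_succ, k, sum_range_id, ← Nat.choose_two_right, Nat.choose_succ_succ', add_comm]
    simp [sum_range_succ, sum_add_distrib, this, Nat.choose_eq_descFactorial_div_factorial, Nat.descFactorial_succ, Nat.factorial, mul_comm, mul_assoc]
  have k : ∀ j : Fin n, ∏ i ∈ Iio j, (((∑ l ∈ range (1 + j), q ^ l : ℕ) : ℂ) - (∑ l ∈ range (1 + i), q ^ l : ℕ)) = q ^ (∑ k ∈ range (j + 1), k) * qf q j := fun j => by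
    have := S2424.key q (le_refl ((j : ℕ) + 1))
    rw [Nat.sub_self, prod_range_succ', qf, prod_range_succ, Nat.cast_mul, ← mul_assoc] at this
    refine mul_right_cancel₀ (Q j) (.trans ?_ this.symm)
    rw [← Nat.Iio_eq_range (a := j), ← Fin.map_valEmbedding_Iio, prod_map]
    simp [add_comm 1]
  have e : ∀ n, ∏ i ∈ range n, qf q (1 + i) = qf q n * ∏ i ∈ range n, qf q i := fun n => by
    have := (prod_range_succ (qf q) n).symm.trans (prod_range_succ' _ n)
    simp only [add_comm 1]; rw [mul_comm, this, qf, prod_range_zero, mul_one]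
  rw [prod_comm' (s := univ) (t := fun i : Fin n => filter (i < ·) univ) (t' := univ) (s' := fun j => Iio j) (fun _ _ => by simp), prod_congr rfl fun j _ => k j, prod_mul_distrib, prod_pow_eq_pow_sum,
    Fin.sum_univ_eq_sum_range fun j => ∑ k ∈ range (j + 1), k, c] at this
  simp only [← Nat.cast_prod] at this
  rw [Fin.prod_univ_eq_prod_range fun i => qf q (1 + i), e, ← Fin.prod_univ_eq_prod_range] at this
  have z : ∀ j, qf q j ≠ 0 := fun j => prod_ne_zero_iff.2 fun i _ => Nat.cast_ne_zero.1 (Q i)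
  refine mul_right_cancel₀ (b := ((q ^ (n * (n - 1) * (n - 2) / 6) * (qf q n * ∏ i : Fin n, qf q i) : ℕ) : ℂ)) (Nat.cast_ne_zero.2 (mul_ne_zero
    (pow_ne_zero _ Fintype.card_ne_zero) (mul_ne_zero (z n) (prod_ne_zero_iff.2 fun i _ => z i)))) ?_
  push_cast at this ⊢
  linear_combination this

/-- Let F be a finite field of characteristic p and consider the projective special linear group PSL_n(F) with n ≥ 2. This group has an irreducible complex character χ whose degree equals the order of a Sylow p-subgroup (namely q^(n(n−1)/2) when #F = q) and whose restriction to any Sylow p-subgroup P is the regular character of P: χ vanishes on the non-identity elements of P. (This is the Steinberg character.) -/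
theorem result {F : Type*} [Field F] [Fintype F] (p : ℕ) [Fact p.Prime] [CharP F p] (n : ℕ) (hn : 2 ≤ n) : ∃ χ : Matrix.ProjectiveSpecialLinearGroup (Fin n) F → ℂ, Cfsg.IsIrrCharacter (Matrix.ProjectiveSpecialLinearGroup (Fin n) F) χ ∧ ∀ P : Sylow p (Matrix.ProjectiveSpecialLinearGroup (Fin n) F), χ 1 = Nat.card P ∧ ∀ x : Matrix.ProjectiveSpecialLinearGroup (Fin n) F, x ∈ P → x ≠ 1 → χ x = 0 := by
  set_option maxSynthPendingDepth 3 in
  classical
  have hp : p.Prime := Fact.out
  obtain ⟨f, -, hf⟩ := FiniteField.card F p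
  haveI : Nonempty (Fin n) := ⟨⟨0, by omega⟩⟩
  have q1 : ¬p ∣ Fintype.card F - 1 := fun h => hp.one_lt.ne' (Nat.dvd_one.1 ((Nat.dvd_sub_iff_right Fintype.card_pos (hf ▸ dvd_pow_self p f.ne_zero)).1 h))
  have i := (res_irr (N := GeneralLinearGroup.det.ker) (Abelianization.commutator_subset_ker _) (S2421.result (F := F) (fun _ : Fin n => 1) monotone_const (by simp)) (by
    rw [dg_eq (st_deg F n), Subgroup.index_ker, MonoidHom.range_eq_top.2 gl_det_surjective, Subgroup.card_top, Nat.card_units, Nat.card_eq_fintype_card, hf, ← pow_mul]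
    exact (hp.coprime_iff_not_dvd.2 (hf ▸ q1)).pow_left _)).comp_equiv slEquivKer
  obtain ⟨χ, a, b⟩ := i.exists_quotient (Subgroup.center _) fun g h => by
    obtain ⟨r, -, e⟩ := Matrix.SpecialLinearGroup.mem_center_iff.1 h
    refine sum_congr rfl fun κ _ => if_congr .rfl (congrArg (_ * ·) (congrArg (fun s : Set _ => (Nat.card s : ℂ)) ?_)) rfl
    rw [map_one, OneMemClass.coe_one, MulAction.fixedBy_one_eq_univ, Set.eq_univ_iff_forall]
    rintro ⟨x⟩
    refine QuotientGroup.eq.2 (inv_mem_iff.1 ?_)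
    have : (slEquivKer g).1 * x = x * (slEquivKer g).1 := Units.ext (show g.1 * x.1 = x.1 * g.1 from e ▸ scalar_commute r (fun _ => .all _ _) _)
    show (((slEquivKer g).1 * x)⁻¹ * x)⁻¹ ∈ _
    rw [this, _root_.mul_inv_rev, inv_inv, inv_mul_cancel_left]
    exact show g.1.BlockTriangular _ from e ▸ blockTriangular_diagonal _
  have d : χ 1 = (p ^ (Nat.card (ProjectiveSpecialLinearGroup (Fin n) F)).factorization p : ℕ) := by
    refine (b 1).symm.trans (.trans (by simp) ((st_deg F n).trans (congrArg _ ?_)))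
    have := card_sl_mul (F := F) n (by omega)
    rw [← card_psl_mul, prod_congr rfl fun (i : Fin n) _ => show Fintype.card F ^ n - Fintype.card F ^ (i : ℕ) = Fintype.card F ^ (i : ℕ) * (Fintype.card F ^ (n - i) - 1) by
      rw [Nat.mul_sub_one, ← pow_add, Nat.add_sub_cancel' i.2.le], prod_mul_distrib, prod_pow_eq_pow_sum, Fin.sum_univ_eq_sum_range (·), ← mul_assoc, mul_comm (_ ^ _)] at this
    have u : ¬p ∣ (Fintype.card F - 1) * (Fintype.card (Fin n)).gcd (Nat.card F - 1) := fun h => (hp.dvd_mul.1 h).elim q1 fun h =>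
      q1 (Nat.card_eq_fintype_card (α := F) ▸ h.trans (Nat.gcd_dvd_right _ _))
    have v : ¬p ∣ ∏ i : Fin n, (Fintype.card F ^ (n - i) - 1) := fun h => by
      obtain ⟨i, -, h⟩ := hp.prime.exists_mem_finset_dvd h
      exact hp.one_lt.ne' (Nat.dvd_one.1 ((Nat.dvd_sub_iff_right (Nat.one_le_pow _ _ Fintype.card_pos) ((hf ▸ dvd_pow_self p f.ne_zero : p ∣ _).pow (by omega))).1 h))
    have := congrArg (·.factorization p) this
    have w : ∀ {m}, ¬p ∣ m → m ≠ 0 := fun h z => h (z ▸ dvd_zero p)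
    simp only [Nat.factorization_mul (w u) Nat.card_pos.ne', Nat.factorization_mul (w v) (pow_ne_zero _ Fintype.card_ne_zero),
      Finsupp.add_apply, Nat.factorization_eq_zero_of_not_dvd u, Nat.factorization_eq_zero_of_not_dvd v, zero_add] at this
    rw [this, hf, ← pow_mul, hp.factorization_pow]; simp
  refine ⟨χ, a, fun P => ⟨d.trans (congrArg _ P.card_eq_multiplicity.symm), fun x h z => a.eq_zero_of_dz hp (dg_eq d).symm.dvd ?_⟩⟩
  obtain ⟨k, e⟩ := IsPGroup.iff_orderOf.1 P.isPGroup' ⟨x, h⟩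
  rw [Subgroup.orderOf_mk] at e
  exact e ▸ dvd_pow_self p fun k0 => z (orderOf_eq_one_iff.1 (by simpa [k0] using e))

end Cfsg.Agent.S2544
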