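import Cfsg.Statements.S2548
import Cfsg.Agent.H5.SB8

set_option autoImplicit false
open Cfsg

namespace Cfsg.Agent.S2548

open H5.SB H5.Gen

/-- Let F be a finite field of characteristic p and consider the group PΩ⁺_{2m}(F) of the hyperbolic quadratic form Σ x_i y_i with m ≥ 1, where Ω denotes the commutator subgroup of the full isometry group. This group has an irreducible complex character χ whose degree equals the order of a Sylow p-subgroup (equal to q^(m(m−1)) when #F = q, except in the degenerate case m = 2, q = 2, where this commutator subgroup has order 18 and its Sylow 2-subgroups have order 2) and whose restriction to any Sylow p-subgroup P is the regular character of P: χ vanishes on the non-identity elements of P. (This is the Steinberg character.) -/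
theorem result {F : Type*} [Field F] [Fintype F] (p : ℕ) [Fact p.Prime] [CharP F p] (m : ℕ) (hm : 1 ≤ m) : ∃ χ : Cfsg.POmega F (Cfsg.quadFormPlus m F) → ℂ, Cfsg.IsIrrCharacter (Cfsg.POmega F (Cfsg.quadFormPlus m F)) χ ∧ ∀ P : Sylow p (Cfsg.POmega F (Cfsg.quadFormPlus m F)), χ 1 = Nat.card P ∧ ∀ x : Cfsg.POmega F (Cfsg.quadFormPlus m F), x ∈ P → x ≠ 1 → χ x = 0 := by
  match m, hm with
  | 1, _ =>
    refine (Cfsg.Agent.S0305.result (F := F) rfl).elim fun e => (dz_dih e fun h => ?_).fin
    have := (Nat.dvd_sub_iff_right (Nat.sub_le _ 1) ((prime_dvd_char_iff_dvd_card p).1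
      (ringChar.eq F p ▸ dvd_rfl))).2 h
    rw [Nat.sub_sub_self Fintype.card_pos] at this
    exact (Fact.out : p.Prime).one_lt.ne' (Nat.dvd_one.1 this)
  | 2, _ => exact (dz_plus2 F).fin
  | n + 3, _ => exact (dz_sys (sysPOp (n + 1) F) adjPOp.top).fin

end Cfsg.Agent.S2548
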