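import Cfsg.Statements.S2549
import Cfsg.Agent.H5.TB4
import Cfsg.Agent.H5.SB8
import Cfsg.Agent.H5.CI2
import Cfsg.Agent.S0306

set_option autoImplicit false
open Cfsg

namespace Cfsg.Agent.S2549

open H5.SB H5.Gen QuadraticAlgebra

/-- Let F be a finite field of characteristic p and consider the group PΩ⁻_{2m+2}(F) of the quadratic form Σ_{i<m} x_i y_i + (z₁² + a z₁ z₂ + b z₂²) with anisotropic binary part, m ≥ 0. This group has an irreducible complex character χ whose degree equals the order of a Sylow p-subgroup (namely q^(m(m+1)) when #F = q) and whose restriction to any Sylow p-subgroup P is the regular character of P: χ vanishes on the non-identity elements of P. (This is the Steinberg character.) -/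
theorem result {F : Type*} [Field F] [Fintype F] (p : ℕ) [Fact p.Prime] [CharP F p] (m : ℕ) (a b : F) (hab : ∀ z₁ z₂ : F, z₁ ^ 2 + a * z₁ * z₂ + b * z₂ ^ 2 = 0 → z₁ = 0 ∧ z₂ = 0) : ∃ χ : Cfsg.POmega F (Cfsg.quadFormMinus m F a b) → ℂ, Cfsg.IsIrrCharacter (Cfsg.POmega F (Cfsg.quadFormMinus m F a b)) χ ∧ ∀ P : Sylow p (Cfsg.POmega F (Cfsg.quadFormMinus m F a b)), χ 1 = Nat.card P ∧ ∀ x : Cfsg.POmega F (Cfsg.quadFormMinus m F a b), x ∈ P → x ≠ 1 → χ x = 0 := by
  haveI : Fact (∀ r, r ^ 2 ≠ -b + a * r) := ⟨fun r h => by simpa using (hab r (-1) (by linear_combination h)).2⟩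
  haveI := Fintype.ofEquiv _ (equivProd (-b) a).symm
  haveI := charP_of_injective_algebraMap (algebraMap F (QuadraticAlgebra F (-b) a)).injective p
  have hs : (2 : F) = 0 → a ≠ 0 := fun h2 ha => by
    obtain ⟨r, hr⟩ := H4.exists_sq_of_two_eq_zero h2 b
    simpa using (hab r 1 (by rw [ha, ← hr]; linear_combination r ^ 2 * h2)).2
  have k : ∀ z : QuadraticAlgebra F (-b) a, star z = z → z.im = 0 := fun z e => by
    have e1 := congrArg re e
    have e2 := congrArg im e
    simp only [re_star, im_star] at e1 e2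
    by_contra n
    exact hs (mul_right_cancel₀ n (by linear_combination -e2)) (mul_right_cancel₀ n (by linear_combination e1))
  match m with
  | 0 =>
    refine (Cfsg.Agent.S0306.result rfl a b hab).elim fun e => (dz_dih e fun h => ?_).fin
    exact (Fact.out : p.Prime).one_lt.ne' (Nat.dvd_one.1 ((Nat.dvd_add_right ((prime_dvd_char_iff_dvd_card p).1
      (ringChar.eq F p ▸ dvd_rfl))).1 h))
  | 1 =>
    exact (H5.CI.s300 hab (K := QuadraticAlgebra F (-b) a) (by
      rw [Nat.card_congr (equivProd _ _), Nat.card_prod, sq])).elim fun e => ((dz_psl _ 1).equiv e).fin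
  | n + 2 =>
    exact (dz_minus (n := n + 1) (φ := starRingAut) (j := algebraMap F (QuadraticAlgebra F (-b) a))
      (fun z => ⟨fun h => ⟨z.re, by ext <;> simp [k z h]⟩, by rintro ⟨x, rfl⟩; ext <;> simp⟩)
      (orderOf_eq_prime (by ext z : 1; exact star_star z) fun h => by
        simpa using k omega (DFunLike.congr_fun h _)) p hab).fin

end Cfsg.Agent.S2549
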