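import Cfsg.Statements.S2550
import Cfsg.Agent.S0819
import Cfsg.Agent.S0256


set_option autoImplicit false
open Cfsg

namespace Cfsg.Agent.S2550

/-- Let F be a field with 2 elements and K a field with 4 elements. PSL_4(F) and PSL_3(K) have the same order (20160) but are not isomorphic. -/
theorem result {F K : Type*} [Field F] [Fintype F] [Field K] [Fintype K] (hF : Fintype.card F = 2) (hK : Fintype.card K = 4) : Nat.card (Matrix.ProjectiveSpecialLinearGroup (Fin 4) F) = Nat.card (Matrix.ProjectiveSpecialLinearGroup (Fin 3) K) ∧ ¬ Nonempty (Matrix.ProjectiveSpecialLinearGroup (Fin 4) F ≃* Matrix.ProjectiveSpecialLinearGroup (Fin 3) K) := by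
  refine ⟨(H0.cardA (n := 20160) (S0243.result hF 4 (by decide)) (by decide +kernel)).trans (H0.cardA (S0243.result hK 3 (by decide)) (by decide +kernel)).symm, fun ⟨e⟩ => ?_⟩
  obtain ⟨f⟩ := S0256.result hF
  have := (H0.alt_spec 8 (L := [1, 2, 3, 4, 5, 6, 7, 15]) (by decide +kernel)).symm.trans ((H0.spec_congr (f.symm.trans e)).trans (S0819.sp hK))
  exact absurd (this.le (show 6 ∈ _ by simp)) (by simp)

end Cfsg.Agent.S2550
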