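import Cfsg.Statements.S2551
import Cfsg.Agent.H0.IA67
import Cfsg.Agent.H0.Fld
import Cfsg.Agent.H0.CA7.Main
import Cfsg.Agent.S0256
-- import your own Cfsg.Agent.* helpers here

set_option autoImplicit false
open Cfsg

namespace Cfsg.Agent.S2551

open Matrix

abbrev V := Fin 4 → ZMod 2
abbrev G := GL (Fin 4) (ZMod 2)
def IsT (g : G) : Prop := ∃ x φ : V, φ ⬝ᵥ x = 0 ∧ (g : Matrix (Fin 4) (Fin 4) (ZMod 2)) = 1 + vecMulVec x φ

theorem two (A : Matrix (Fin 4) (Fin 4) (ZMod 2)) : A + A = 0 := by ext; simp [CharTwo.add_self_eq_zero]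
theorem tmul {φ : V} (x : V) {y : V} (h : φ ⬝ᵥ y = 0) :
    (1 + vecMulVec x φ) * (1 + vecMulVec y φ) = 1 + vecMulVec (x + y) φ := by
  simp [mul_add, add_mul, vecMulVec_mul_vecMulVec, h, add_vecMulVec, add_assoc]
def T (φ : V) (x : {x : V // φ ⬝ᵥ x = 0}) : G :=
  ⟨1 + vecMulVec x.1 φ, 1 + vecMulVec x.1 φ, by rw [tmul _ x.2, add_vecMulVec, two, add_zero], by rw [tmul _ x.2, add_vecMulVec, two, add_zero]⟩

theorem IsT.conj {t : G} (h : IsT t) (g : G) : IsT (g * t * g⁻¹) := by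
  obtain ⟨x, φ, h1, h2⟩ := h
  refine ⟨g.1 *ᵥ x, φ ᵥ* g⁻¹.1, ?_, ?_⟩
  · rw [← dotProduct_mulVec, mulVec_mulVec, Units.inv_mul, one_mulVec, h1]
  · rw [Units.val_mul, Units.val_mul, h2, mul_add, add_mul, mul_one, Units.mul_inv, mul_vecMulVec, vecMulVec_mul]

theorem IsT.pow {a b : G} (ha : IsT a) (hb : IsT b) : (a * b) ^ 12 = 1 := by
  obtain ⟨x, φ, h1, h2⟩ := ha
  obtain ⟨y, ψ, h3, h4⟩ := hb
  have k : ∀ A B : Matrix (Fin 4) (Fin 4) (ZMod 2), A + (A + B) = B := fun A B => by rw [← add_assoc, two, zero_add]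
  have c : ∀ s : ZMod 2, s = 0 ∨ s = 1 := by decide
  have : (a * b) ^ 4 = 1 ∨ (a * b) ^ 3 = 1 := by
    rcases c (φ ⬝ᵥ y) with h5 | h5 <;> rcases c (ψ ⬝ᵥ x) with h6 | h6
    iterate 3
      left; ext1
      simp only [pow_succ, pow_zero, one_mul, Units.val_mul, h2, h4, Units.val_one]
      simp [mul_add, add_mul, vecMulVec_mul_vecMulVec, h1, h3, h5, h6]
      simp only [add_assoc, add_left_comm, add_comm, k, two, add_zero]
    right; ext1
    simp only [pow_succ, pow_zero, one_mul, Units.val_mul, h2, h4, Units.val_one]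
    simp [mul_add, add_mul, vecMulVec_mul_vecMulVec, h1, h3, h5, h6]
    simp only [add_assoc, add_left_comm, add_comm, k, two, add_zero]
  rcases this with h | h
  · rw [show 12 = 4 * 3 from rfl, pow_mul, h, one_pow]
  · rw [show 12 = 3 * 4 from rfl, pow_mul, h, one_pow]

def pa : alternatingGroup (Fin 7) := ⟨Equiv.swap 1 4 * Equiv.swap 2 3, Equiv.Perm.mem_alternatingGroup.2 (by decide +kernel)⟩
def pb : alternatingGroup (Fin 7) := ⟨Equiv.swap 0 1 * Equiv.swap 2 4, Equiv.Perm.mem_alternatingGroup.2 (by decide +kernel)⟩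

theorem noT {H : Subgroup G} (e : H ≃* alternatingGroup (Fin 7)) {t : G} (ht : t ∈ H) (h : IsT t) : t = 1 := by
  by_contra h1
  have := H0.MA7.fin (H0.Pres.pg 16 H0.MA7.B)
  obtain ⟨i⟩ := H0.IA67.iso7
  have one : ∀ x y : alternatingGroup (Fin 7), orderOf x = 2 → orderOf y = 2 → IsConj x y := fun x y hx hy => by
    simpa using i.toMonoidHom.map_isConj (H0.CA7.aone (H0.MA7.m (H0.Pres.pg 16 H0.MA7.B)) (H0.MA7.mR (H0.Pres.pg 16 H0.MA7.B)) (H0.MA7.base (H0.Pres.pg 16 H0.MA7.B)) (H0.MA7.card (H0.Pres.pg 16 H0.MA7.B))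
      (i.symm x) (i.symm y) (by rw [i.symm.orderOf_eq, hx]) (by rw [i.symm.orderOf_eq, hy]))
  have h2 : orderOf (e ⟨t, ht⟩) = 2 := by
    rw [e.orderOf_eq, ← Subgroup.orderOf_coe]
    obtain ⟨x, φ, h3, h4⟩ := h
    exact orderOf_eq_prime (Units.ext (by rw [sq, Units.val_mul, h4, tmul _ h3, add_vecMulVec, two, add_zero]; rfl)) h1
  have k : ∀ p : alternatingGroup (Fin 7), p ^ 2 = 1 → p ≠ 1 → IsT (e.symm p : G) := fun p h3 h4 => by
    obtain ⟨c, rfl⟩ := isConj_iff.1 (one _ p h2 (orderOf_eq_prime h3 h4))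
    simpa using h.conj (e.symm c)
  have h5 := (k pa (by decide +kernel) (by decide +kernel)).pow (k pb (by decide +kernel) (by decide +kernel))
  have h6 : e.symm ((pa * pb) ^ 12) = 1 := Subtype.ext (by simpa using h5)
  exact absurd (e.symm.map_eq_one_iff.1 h6) (by decide +kernel)

theorem bas {v w : V} (h1 : v ≠ 0) (h2 : w ≠ 0) (h3 : v ≠ w) : ∃ g : G, g.1 *ᵥ Pi.single 0 1 = v ∧ g.1 *ᵥ Pi.single 1 1 = w := by
  obtain ⟨i, j, h⟩ := (by decide +kernel : ∀ v w : V, v ≠ 0 → w ≠ 0 → v ≠ w → ∃ i j : Fin 4,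
    (Matrix.of ![v, w, Pi.single i 1, Pi.single j 1]).det ≠ 0) v w h1 h2 h3
  refine ⟨GeneralLinearGroup.mkOfDetNeZero (Matrix.of ![v, w, Pi.single i 1, Pi.single j 1])ᵀ (by rwa [det_transpose]), ?_, ?_⟩ <;>
    ext k <;> simp

theorem key (H : Subgroup G) (e : H ≃* alternatingGroup (Fin 7)) {v w v' w' : V} (h1 : v ≠ 0) (h2 : w ≠ 0) (h3 : v ≠ w)
    (h4 : v' ≠ 0) (h5 : w' ≠ 0) (h6 : v' ≠ w') : ∃ g ∈ H, g.1 *ᵥ v = v' ∧ g.1 *ᵥ w = w' := by
  obtain ⟨φ, hφ, hv, hw⟩ := (by decide +kernel : ∀ v w : V, ∃ φ : V, φ ≠ 0 ∧ φ ⬝ᵥ v = 0 ∧ φ ⬝ᵥ w = 0) v w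
  obtain ⟨a, a1, a2⟩ := bas h1 h2 h3
  obtain ⟨b, b1, b2⟩ := bas h4 h5 h6
  have hi : H.index = 8 := by
    have := H.card_mul_index
    rw [Nat.card_congr e.toEquiv, (H0.card_alt 5).trans (by decide : _ = 2520), Matrix.card_GL_field,
      show (∏ i : Fin 4, (Fintype.card (ZMod 2) ^ 4 - Fintype.card (ZMod 2) ^ (i : ℕ))) = 20160 by decide +kernel] at this
    omega
  have hb : Function.Bijective fun x => (QuotientGroup.mk (T φ x) : G ⧸ H) := by
    refine (Nat.bijective_iff_injective_and_card _).2 ⟨fun x y h => ?_, ?_⟩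
    · have h7 : (((T φ x)⁻¹ * T φ y : G) : Matrix (Fin 4) (Fin 4) (ZMod 2)) = 1 + vecMulVec (x.1 + y.1) φ := tmul _ y.2
      have h8 := noT e (QuotientGroup.eq.1 h) ⟨_, _, by rw [dotProduct_add, x.2, y.2, add_zero], h7⟩
      rw [h8, Units.val_one, left_eq_add] at h7
      exact Subtype.ext ((by decide +kernel : ∀ x y φ : V, φ ≠ 0 → vecMulVec (x + y) φ = 0 → x = y) _ _ _ hφ h7)
    · rw [← Subgroup.index_eq_card, hi, Nat.card_eq_fintype_card]
      exact (by decide +kernel : ∀ φ : V, φ ≠ 0 → Fintype.card {x : V // φ ⬝ᵥ x = 0} = 8) φ hφ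
  obtain ⟨x, hx⟩ := hb.2 (QuotientGroup.mk (b * a⁻¹)⁻¹)
  have h9 : ∀ u : V, φ ⬝ᵥ u = 0 → (T φ x).1 *ᵥ u = u := fun u hu => by
    show (1 + vecMulVec x.1 φ) *ᵥ u = u
    rw [add_mulVec, one_mulVec, vecMulVec_mulVec, hu]; simp
  refine ⟨b * a⁻¹ * T φ x, by simpa using QuotientGroup.eq.1 hx.symm, ?_, ?_⟩
  · rw [Units.val_mul, ← mulVec_mulVec, h9 v hv, ← a1, mulVec_mulVec, ← Units.val_mul, inv_mul_cancel_right, b1]
  · rw [Units.val_mul, ← mulVec_mulVec, h9 w hw, ← a2, mulVec_mulVec, ← Units.val_mul, inv_mul_cancel_right, b2]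

theorem ex7 : ∃ f : alternatingGroup (Fin 7) →* G, Function.Injective f := by
  obtain ⟨i⟩ := Cfsg.Agent.S0256.result (F := ZMod 2) (ZMod.card 2)
  have hc : Subgroup.center (SpecialLinearGroup (Fin 4) (ZMod 2)) = ⊥ := by
    rw [eq_bot_iff]; intro a ha
    obtain ⟨r, h1, h2⟩ := Matrix.SpecialLinearGroup.mem_center_iff.1 ha
    obtain rfl : r = 1 := (by decide : ∀ x : ZMod 2, x ^ 4 = 1 → x = 1) r (by simpa using h1)
    exact Subtype.ext (h2.symm.trans (by simp))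
  let j := (QuotientGroup.quotientMulEquivOfEq hc).trans QuotientGroup.quotientBot
  let f : Fin 7 ≃ {x : Fin 8 // x ≠ 0} := finSuccAboveEquiv 0
  let u : alternatingGroup (Fin 7) →* alternatingGroup (Fin 8) :=
    ((Equiv.Perm.extendDomainHom f).comp (Subgroup.subtype _)).codRestrict _ fun x => by
      simpa [Equiv.Perm.mem_alternatingGroup] using Equiv.Perm.mem_alternatingGroup.1 x.2
  refine ⟨SpecialLinearGroup.toGL.comp (j.toMonoidHom.comp (i.symm.toMonoidHom.comp u)),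
    SpecialLinearGroup.toGL_injective.comp (j.injective.comp (i.symm.injective.comp fun x y h => ?_))⟩
  exact Subtype.ext (Equiv.Perm.extendDomainHom_injective f (congrArg Subtype.val h))

/-- Let F be the field with 2 elements. GL_4(F) (≅ A_8) has a subgroup isomorphic to the alternating group A_7, and every such subgroup acts 2-transitively on the 15 non-zero vectors of F⁴: any ordered pair of distinct non-zero vectors is carried to any other by some element of the subgroup. -/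
theorem result {F : Type*} [Field F] [Fintype F] (hF : Fintype.card F = 2) : (∃ H : Subgroup (Matrix.GeneralLinearGroup (Fin 4) F), Nonempty (H ≃* alternatingGroup (Fin 7))) ∧ ∀ H : Subgroup (Matrix.GeneralLinearGroup (Fin 4) F), Nonempty (H ≃* alternatingGroup (Fin 7)) → ∀ v w v' w' : Fin 4 → F, v ≠ 0 → w ≠ 0 → v ≠ w → v' ≠ 0 → w' ≠ 0 → v' ≠ w' → ∃ g ∈ H, (g : Matrix (Fin 4) (Fin 4) F).mulVec v = v' ∧ (g : Matrix (Fin 4) (Fin 4) F).mulVec w = w' := by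
  have σ := H0.fe (ZMod 2) hF (ZMod.card 2)
  let θ : G ≃* GL (Fin 4) F := H0.glEquiv σ
  obtain ⟨f, hf⟩ := ex7
  refine ⟨⟨(θ.toMonoidHom.comp f).range, ⟨(MonoidHom.ofInjective (θ.injective.comp hf)).symm⟩⟩, ?_⟩
  rintro H ⟨e⟩ v w v' w' h1 h2 h3 h4 h5 h6
  have s : ∀ u : Fin 4 → F, ∃ u₀ : V, σ ∘ u₀ = u := fun u => ⟨σ.symm ∘ u, by ext; simp⟩
  obtain ⟨v, rfl⟩ := s v
  obtain ⟨w, rfl⟩ := s w
  obtain ⟨v', rfl⟩ := s v'
  obtain ⟨w', rfl⟩ := s w'
  have z : ∀ u : V, σ ∘ u ≠ 0 → u ≠ 0 := fun u h h' => h (by ext; simp [h'])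
  obtain ⟨g, hg, g1, g2⟩ := key (H.map θ.symm.toMonoidHom) ((θ.symm.subgroupMap H).symm.trans e) (z v h1) (z w h2)
    (fun h => h3 (h ▸ rfl)) (z v' h4) (z w' h5) (fun h => h6 (h ▸ rfl))
  have m : ∀ u : V, (θ g).1 *ᵥ (σ ∘ u) = σ ∘ (g.1 *ᵥ u) := fun u => by
    ext i; exact (σ.toRingHom.map_mulVec g.1 u i).symm
  obtain ⟨g', hg', rfl⟩ := hg
  refine ⟨g', hg', ?_, ?_⟩
  · simpa [g1] using (m v).trans (congrArg _ g1)
  · simpa [g2] using (m w).trans (congrArg _ g2)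

end Cfsg.Agent.S2551
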