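import Cfsg.Statements.S2564
import Cfsg.Agent.H4.Orth2

set_option autoImplicit false
open Cfsg

namespace Cfsg.Agent.S2564

def qf {m : ℕ} (q : (Fin m ⊕ Fin m → ZMod 2) → ZMod 2)
    (hq : ∀ u v, q (u + v) = q u + q v + (H4.plusForm (ZMod 2) m).B u v) :
    H4.Form (H4.quadKind (ZMod 2)) (Fin m ⊕ Fin m → ZMod 2) :=
  H4.mkQuad q (H4.plusForm (ZMod 2) m).B hq fun c x => by
    have h0 : q 0 = 0 := by simpa using hq 0 0
    fin_cases c
    · change q ((0 : ZMod 2) • x) = 0 * 0 * _; simp [h0]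
    · change q ((1 : ZMod 2) • x) = 1 * 1 * _; simp

lemma key {m : ℕ} (hm : 1 ≤ m) (q : (Fin m ⊕ Fin m → ZMod 2) → ZMod 2)
    (hq : ∀ u v, q (u + v) = q u + q v + (H4.plusForm (ZMod 2) m).B u v) (w) :
    (∃ g : (Fin m ⊕ Fin m → ZMod 2) ≃ₗ[ZMod 2] (Fin m ⊕ Fin m → ZMod 2),
      ∀ v, q v + (H4.plusForm (ZMod 2) m).B v w = q (g v)) ↔ q w = 0 := by
  set f := H4.plusForm (ZMod 2) m
  have h2 : (2 : ZMod 2) = 0 := rfl
  have hww : f.B w w = 0 := by rw [H4.quad_B_self, h2, zero_mul]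
  constructor
  · rintro ⟨g, hg⟩
    by_contra hw
    have hw1 : q w = 1 := by revert hw; generalize q w = a; decide +revert
    have hf : (qf q hq).ND := H4.plusForm_ND _ m
    have e : (qf q hq).cnt 0 = (qf q hq).cnt 1 := by
      refine Nat.card_congr ((g.toEquiv.symm.trans (Equiv.addRight w)).subtypeEquiv fun v => ?_)
      obtain ⟨v, rfl⟩ := g.surjective v
      change q (g v) = 0 ↔ q (g.symm (g v) + w) = 1
      rw [g.symm_apply_apply, hq, ← hg, hw1]
      generalize q v = a; generalize f.B v w = b; decide +revert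
    obtain ⟨k, rfl⟩ : ∃ k, m = k + 1 := ⟨m - 1, by omega⟩
    have hp : (0 : ℤ) < 2 ^ k := by positivity
    by_cases h : (qf q hq).HasTS (k + 1)
    · obtain ⟨h3, h4⟩ := H4.plus_cnt _ _ _ hf (H4.finrank_plus _ _) h
      have h5 := h4 1 one_ne_zero
      rw [← e, h3, Nat.card_zmod] at h5
      simp [pow_succ] at h5
    · obtain ⟨h3, h4⟩ := H4.minus_cnt k _ _ hf (H4.finrank_plus _ _) h
      have h5 := h4 1 one_ne_zero
      rw [← e, h3, Nat.card_zmod] at h5
      simp [pow_succ] at h5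
  · intro hw
    let t : (Fin m ⊕ Fin m → ZMod 2) →ₗ[ZMod 2] (Fin m ⊕ Fin m → ZMod 2) :=
      LinearMap.id + (f.B w).smulRight w
    have ht : ∀ v, t v = v + f.B w v • w := fun v => rfl
    refine ⟨LinearEquiv.ofInvolutive t fun v => ?_, fun v => ?_⟩
    · rw [ht, ht, map_add, map_smul, hww, smul_zero, add_zero, add_assoc, ← add_smul, ← two_mul, h2]
      simp
    · change _ = q (t v)
      rw [ht, hq, map_smul, H4.quad_symm f w v, show q (f.B v w • w) = _ from
        H4.quad_Q_smul (qf q hq) _ _, show (qf q hq).Q w = 0 from hw, smul_eq_mul]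
      generalize q v = a; generalize f.B v w = b; decide +revert

/-- On the 2m-dimensional space over the field of two elements (m ≥ 1) let f be the alternating form obtained by polarizing the plus-type form Σ xᵢyᵢ, and let q be any quadratic form polarizing to f. For a vector w, the function q + f(·, w) again polarizes to f, and it is equivalent to q under an invertible linear map (that is, has the same type) if and only if q(w) = 0. -/
theorem result (m : ℕ) (hm : 1 ≤ m) (q : (Fin m ⊕ Fin m → ZMod 2) → ZMod 2) (hq : (∀ u v : (Fin m ⊕ Fin m → ZMod 2), q (u + v) = q u + q v + (Cfsg.quadFormPlus m (ZMod 2) (u + v) - Cfsg.quadFormPlus m (ZMod 2) u - Cfsg.quadFormPlus m (ZMod 2) v))) (w : (Fin m ⊕ Fin m → ZMod 2)) :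
    (∀ u v : (Fin m ⊕ Fin m → ZMod 2), (q (u + v) + (Cfsg.quadFormPlus m (ZMod 2) (u + v + w) - Cfsg.quadFormPlus m (ZMod 2) (u + v) - Cfsg.quadFormPlus m (ZMod 2) w)) =
        (q u + (Cfsg.quadFormPlus m (ZMod 2) (u + w) - Cfsg.quadFormPlus m (ZMod 2) u - Cfsg.quadFormPlus m (ZMod 2) w)) + (q v + (Cfsg.quadFormPlus m (ZMod 2) (v + w) - Cfsg.quadFormPlus m (ZMod 2) v - Cfsg.quadFormPlus m (ZMod 2) w)) +
        (Cfsg.quadFormPlus m (ZMod 2) (u + v) - Cfsg.quadFormPlus m (ZMod 2) u - Cfsg.quadFormPlus m (ZMod 2) v)) ∧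
    ((∃ g : (Fin m ⊕ Fin m → ZMod 2) ≃ₗ[ZMod 2] (Fin m ⊕ Fin m → ZMod 2), ∀ v, q v + (Cfsg.quadFormPlus m (ZMod 2) (v + w) - Cfsg.quadFormPlus m (ZMod 2) v - Cfsg.quadFormPlus m (ZMod 2) w) = q (g v)) ↔ q w = 0) := by
  simp only [← H4.plusForm_Q, ← H4.quad_B_eq] at hq ⊢
  refine ⟨fun u v => ?_, key hm q hq w⟩
  rw [hq, map_add, LinearMap.add_apply]; ring

end Cfsg.Agent.S2564
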