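import Cfsg.Statements.S2561
import Cfsg.Agent.H4.Orth2
import Cfsg.Agent.S2564

set_option autoImplicit false
open Cfsg

namespace Cfsg.Agent.S2561


/-- Fix the non-singular alternating form on the 2m-dimensional space over the field of two elements obtained by polarizing the plus-type form Σ xᵢyᵢ (m ≥ 1). The functions q on the space with q(u + v) = q(u) + q(v) + f(u, v) (the quadratic forms polarizing to f) number 2^(2m); each is equivalent under an invertible linear map either to the plus-type form or to the minus-type form Σ xᵢyᵢ + (z₁² + z₁z₂ + z₂²); and those of plus type number 2^(2m−1) + 2^(m−1), those of minus type 2^(2m−1) − 2^(m−1). -/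
theorem result (m : ℕ) (hm : 1 ≤ m) :
    Nat.card {q : (Fin m ⊕ Fin m → ZMod 2) → ZMod 2 // (∀ u v : (Fin m ⊕ Fin m → ZMod 2), q (u + v) = q u + q v + (Cfsg.quadFormPlus m (ZMod 2) (u + v) - Cfsg.quadFormPlus m (ZMod 2) u - Cfsg.quadFormPlus m (ZMod 2) v))} = 2 ^ (2 * m) ∧
    (∀ q : (Fin m ⊕ Fin m → ZMod 2) → ZMod 2, (∀ u v : (Fin m ⊕ Fin m → ZMod 2), q (u + v) = q u + q v + (Cfsg.quadFormPlus m (ZMod 2) (u + v) - Cfsg.quadFormPlus m (ZMod 2) u - Cfsg.quadFormPlus m (ZMod 2) v)) →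
      (∃ g : (Fin m ⊕ Fin m → ZMod 2) ≃ₗ[ZMod 2] (Fin m ⊕ Fin m → ZMod 2), ∀ v, q v = Cfsg.quadFormPlus m (ZMod 2) (g v)) ∨
      (∃ g : (Fin m ⊕ Fin m → ZMod 2) ≃ₗ[ZMod 2] ((Fin (m - 1) ⊕ Fin (m - 1)) ⊕ Fin 2 → ZMod 2), ∀ v, q v = Cfsg.quadFormMinus (m - 1) (ZMod 2) 1 1 (g v))) ∧
    Nat.card {q : (Fin m ⊕ Fin m → ZMod 2) → ZMod 2 // (∀ u v : (Fin m ⊕ Fin m → ZMod 2), q (u + v) = q u + q v + (Cfsg.quadFormPlus m (ZMod 2) (u + v) - Cfsg.quadFormPlus m (ZMod 2) u - Cfsg.quadFormPlus m (ZMod 2) v)) ∧ ∃ g : (Fin m ⊕ Fin m → ZMod 2) ≃ₗ[ZMod 2] (Fin m ⊕ Fin m → ZMod 2), ∀ v, q v = Cfsg.quadFormPlus m (ZMod 2) (g v)} = 2 ^ (2 * m - 1) + 2 ^ (m - 1) ∧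
    Nat.card {q : (Fin m ⊕ Fin m → ZMod 2) → ZMod 2 // (∀ u v : (Fin m ⊕ Fin m → ZMod 2), q (u + v) = q u + q v + (Cfsg.quadFormPlus m (ZMod 2) (u + v) - Cfsg.quadFormPlus m (ZMod 2) u - Cfsg.quadFormPlus m (ZMod 2) v)) ∧ ∃ g : (Fin m ⊕ Fin m → ZMod 2) ≃ₗ[ZMod 2] ((Fin (m - 1) ⊕ Fin (m - 1)) ⊕ Fin 2 → ZMod 2), ∀ v, q v = Cfsg.quadFormMinus (m - 1) (ZMod 2) 1 1 (g v)} = 2 ^ (2 * m - 1) - 2 ^ (m - 1) := by
  simp only [← H4.plusForm_Q, ← H4.quad_B_eq]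
  set f := H4.plusForm (ZMod 2) m
  have hf : f.ND := H4.plusForm_ND _ m
  have hab : ∀ z₁ z₂ : ZMod 2, z₁ ^ 2 + 1 * z₁ * z₂ + 1 * z₂ ^ 2 = 0 → z₁ = 0 ∧ z₂ = 0 := by decide
  have hinj : Function.Injective fun (w : Fin m ⊕ Fin m → ZMod 2) v => f.Q v + f.B v w :=
    fun w w' h => hf.ext' fun z => add_left_cancel (congrFun h z)
  have hr : ∀ q : (Fin m ⊕ Fin m → ZMod 2) → ZMod 2,
      (∀ u v, q (u + v) = q u + q v + f.B u v) ↔ ∃ w, (fun v => f.Q v + f.B v w) = q := by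
    intro q
    constructor
    · intro hq
      obtain ⟨w, hw⟩ := hf.B_surj
        { toFun := fun v => q v - f.Q v
          map_add' := fun u v => by rw [hq, H4.quad_Q_add]; ring
          map_smul' := fun c v => by
            rw [H4.quad_Q_smul, show q (c • v) = _ from H4.quad_Q_smul (S2564.qf q hq) c v]
            change _ * q v - _ = c * _
            generalize q v = a; generalize f.Q v = b; revert c a b; decide }
      refine ⟨w, funext fun v => ?_⟩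
      rw [H4.quad_symm f, hw]; simp
    · rintro ⟨w, rfl⟩ u v
      simp only [H4.quad_Q_add, map_add, LinearMap.add_apply]; ring
  have count : ∀ (P : ((Fin m ⊕ Fin m → ZMod 2) → ZMod 2) → Prop) (c : ZMod 2),
      (∀ w, P (fun v => f.Q v + f.B v w) ↔ f.Q w = c) →
      Nat.card {q : (Fin m ⊕ Fin m → ZMod 2) → ZMod 2 //
        (∀ u v, q (u + v) = q u + q v + f.B u v) ∧ P q} = f.cnt c := fun P c h => by
    refine (Nat.card_congr (Equiv.ofBijective (fun w : {w // f.Q w = c} =>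
      ⟨fun v => f.Q v + f.B v w, (hr _).2 ⟨w, rfl⟩, (h w).2 w.2⟩) ⟨fun w w' e =>
        Subtype.ext (hinj (congrArg Subtype.val e)), ?_⟩)).symm
    rintro ⟨q, hq, hP⟩
    obtain ⟨w, rfl⟩ := (hr q).1 hq
    exact ⟨⟨w, (h w).1 hP⟩, rfl⟩
  have hor : ∀ q : (Fin m ⊕ Fin m → ZMod 2) → ZMod 2, (∀ u v, q (u + v) = q u + q v + f.B u v) →
      Xor (∃ g : _ ≃ₗ[ZMod 2] _, ∀ v, q v = f.Q (g v))
        (∃ g : _ ≃ₗ[ZMod 2] _, ∀ v, q v = quadFormMinus (m - 1) (ZMod 2) 1 1 (g v)) := by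
    intro q hq
    have hn : (S2564.qf q hq).ND := hf
    have hm' := H4.minusForm_not_hasTS (m - 1) hab
    by_cases h : (S2564.qf q hq).HasTS m
    · obtain ⟨e, he⟩ := H4.plus_exists_isIso m _ _ _ _ hn hf (H4.finrank_plus _ m)
        (H4.finrank_plus _ m) h (H4.plusForm_hasTS m)
      refine Or.inl ⟨⟨e, fun v => (he.Q v).symm⟩, fun ⟨g, hg⟩ => hm' ?_⟩
      rw [Nat.sub_add_cancel hm]
      exact (H4.quad_isIso_of_Q (f := S2564.qf q hq) (f' := H4.minusForm _ (m - 1) 1 1) (e := g) fun v => (hg v).symm).hasTS h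
    · obtain ⟨e, he⟩ := H4.minus_exists_isIso (m - 1) _ _ _ _ hn (H4.minusForm_ND _ hab)
        (by simp; omega) (by simp; ring) (by rwa [Nat.sub_add_cancel hm]) hm'
      refine Or.inr ⟨⟨e, fun v => (he.Q v).symm⟩, fun ⟨g, hg⟩ => h ?_⟩
      exact (H4.quad_isIso_of_Q (f := S2564.qf q hq) (f' := f)
        fun v => (hg v).symm).symm.hasTS (H4.plusForm_hasTS m)
  have hplus := S2564.key hm f.Q (H4.quad_Q_add f)
  obtain ⟨h3, h4⟩ := H4.plus_cnt _ _ _ hf (H4.finrank_plus _ _) (H4.plusForm_hasTS m)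
  have h5 := h4 1 one_ne_zero
  rw [Nat.card_zmod] at h3 h5
  obtain ⟨k, rfl⟩ : ∃ k, m = k + 1 := ⟨m - 1, by omega⟩
  have e1 : 2 * (k + 1) - 1 = 2 * k + 1 := by omega
  refine ⟨?_, fun q hq => (hor q hq).or, ?_, ?_⟩
  · simp only [hr]
    refine (Nat.card_congr (Equiv.ofInjective _ hinj)).symm.trans ?_
    simp [two_mul]
  · rw [count _ 0 hplus, e1, Nat.add_sub_cancel]
    zify
    simp only [mul_add, pow_succ, mul_one] at h3 ⊢
    push_cast at h3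
    linarith
  · rw [count _ 1 fun w => ?_, e1, Nat.add_sub_cancel]
    · zify [Nat.pow_le_pow_right two_pos (show k ≤ 2 * k + 1 by omega)]
      simp only [mul_add, pow_succ, mul_one] at h5 ⊢
      push_cast at h5
      linarith
    · have := hor _ ((hr _).2 ⟨w, rfl⟩)
      rw [xor_iff_not_iff', hplus] at this
      rw [← this]
      generalize f.Q w = a; decide +revert

end Cfsg.Agent.S2561
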