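import Cfsg.Statements.S2565
import Cfsg.Agent.H4.Disc
import Cfsg.Agent.H5.GB2
import Cfsg.Agent.S0256

set_option autoImplicit false
open Cfsg

namespace Cfsg.Agent.S2565


/-- The commutator subgroup of the full orthogonal group of the plus-type form Σ xᵢyᵢ in dimension 6 over the field of two elements (the group Ω⁺₆(2), of index 2) is isomorphic to the alternating group of degree 8. -/
theorem result :
    (Cfsg.Omega (ZMod 2) (Cfsg.quadFormPlus 3 (ZMod 2))).index = 2 ∧
    Nonempty (↥(Cfsg.Omega (ZMod 2) (Cfsg.quadFormPlus 3 (ZMod 2))) ≃* alternatingGroup (Fin 8)) := by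
  let f := H4.plusForm (ZMod 2) 3
  have hf : f.ND := H4.plusForm_ND _ _
  have h2 : ¬ (2 : ZMod 2) ≠ 0 := by decide
  let e : Cfsg.isometryGroup (ZMod 2) (Cfsg.quadFormPlus 3 (ZMod 2)) ≃* f.Isom := H4.isometryEquiv f
  refine ⟨by rw [Omega, H4.index_commutator_congr e, H4.index_omega hf (by simp), if_neg h2], ?_⟩
  obtain ⟨e1⟩ := H5.Gen.equiv_A3 (F := ZMod 2)
  obtain ⟨e2⟩ := S0256.result (ZMod.card 2)
  have h := H4.card_center_omega hf (by simp)
  rw [if_neg (fun h => h2 h.1), Subgroup.card_eq_one] at h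
  let e3 : Omega (ZMod 2) (quadFormPlus 3 (ZMod 2)) ≃* commutator f.Isom :=
    (e.subgroupMap _).trans (MulEquiv.subgroupCongr (by
      rw [map_commutator_eq, MonoidHom.range_eq_top.2 e.surjective]; rfl))
  exact ⟨e3.trans (QuotientGroup.quotientBot.symm.trans ((QuotientGroup.quotientMulEquivOfEq
    h.symm).trans ((H4.pomegaEquiv f).symm.trans (e1.symm.trans e2))))⟩

end Cfsg.Agent.S2565
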