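import Cfsg.Statements.S2567
import Cfsg.Agent.H4.SLBasic

set_option autoImplicit false
open Cfsg

namespace Cfsg.Agent.S2567

/-- Lifting elements of prime order from PGL to GL: let F be a finite field with q elements, r a prime not dividing q − 1, and x an element of order r in GL_n(F) modulo its centre (the scalar matrices). Then x has exactly one preimage in GL_n(F) of order r. -/
theorem result {F : Type*} [Field F] [Fintype F] {q n r : ℕ} (hF : Fintype.card F = q) (hr : r.Prime) (hdiv : ¬ r ∣ q - 1) (x : GL (Fin n) F ⧸ Subgroup.center (GL (Fin n) F)) (hx : orderOf x = r) : ∃! g : GL (Fin n) F, (QuotientGroup.mk g : GL (Fin n) F ⧸ Subgroup.center (GL (Fin n) F)) = x ∧ orderOf g = r := by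
  set_option maxSynthPendingDepth 3 in
  classical
  haveI := Fact.mk hr
  rcases Nat.eq_zero_or_pos n with rfl | hn
  · exact absurd (hx.symm.trans (orderOf_eq_one_iff.2 (by
      obtain ⟨g, rfl⟩ := QuotientGroup.mk_surjective x
      rw [Subsingleton.elim g 1]; rfl))) hr.one_lt.ne'
  haveI : Nonempty (Fin n) := ⟨⟨0, hn⟩⟩
  have c : ∀ z ∈ Subgroup.center (GL (Fin n) F), z ^ (q - 1) = 1 := fun z m => by
    have := pow_card_eq_one' (x := (⟨z, m⟩ : Subgroup.center (GL (Fin n) F)))
    rw [H4.card_center_gl, Nat.card_eq_fintype_card, hF] at this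
    exact congrArg Subtype.val this
  have co := (hr.coprime_iff_not_dvd.2 hdiv)
  have x1 : x ≠ 1 := fun e => hr.one_lt.ne' (hx.symm.trans (orderOf_eq_one_iff.2 e))
  obtain ⟨g, rfl⟩ := QuotientGroup.mk_surjective x
  obtain ⟨k, hk⟩ := Nat.exists_mul_mod_eq_one_of_coprime co.symm hr.one_lt
  have e : (QuotientGroup.mk (g ^ ((q - 1) * k)) : GL (Fin n) F ⧸ Subgroup.center (GL (Fin n) F)) = QuotientGroup.mk g := by
    rw [QuotientGroup.mk_pow, ← pow_mod_orderOf, hx, hk.2, pow_one]
  refine ⟨g ^ ((q - 1) * k), ⟨e, orderOf_eq_prime ?_ fun z => x1 (by rw [← e, z]; rfl)⟩, fun y ⟨a, b⟩ => ?_⟩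
  · rw [← pow_mul, mul_comm, pow_mul, pow_mul, c _ ((QuotientGroup.eq_one_iff _).1 (by
      rw [QuotientGroup.mk_pow, ← hx, pow_orderOf_eq_one])), one_pow]
  · have m := QuotientGroup.eq.1 a
    rw [← mul_inv_cancel_left y g, (show Commute y (y⁻¹ * g) from Subgroup.mem_center_iff.1 m y).mul_pow, pow_mul (y⁻¹ * g),
      c _ m, one_pow, mul_one, ← pow_mod_orderOf, b, hk.2, pow_one]

end Cfsg.Agent.S2567
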