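import Cfsg.Statements.S2568
import Cfsg.Agent.H3.RCF2

set_option autoImplicit false
open Cfsg

namespace Cfsg.Agent.S2568

open H3.RCF Polynomial UniqueFactorizationMonoid

/-- Number of conjugacy classes of elements of a given prime order r, coprime to the characteristic, in GL_n(q): if i is the multiplicative order of q modulo r and t = (r − 1)/i, the classes correspond to the non-zero t-tuples of natural numbers (a_1, …, a_t) with i(a_1 + ⋯ + a_t) ≤ n (a_j is the multiplicity of the j-th Frobenius orbit of nontrivial r-th roots of unity among the eigenvalues), so there are exactly C(⌊n/i⌋ + t, t) − 1 of them. -/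
theorem result {F : Type*} [Field F] [Fintype F] {p q : ℕ} [Fact p.Prime] [CharP F p] (hF : Fintype.card F = q) (n r i t : ℕ) (hr : r.Prime) (hrp : r ≠ p) (hi : i = orderOf (q : ZMod r)) (ht : t * i = r - 1) : Nat.card {C : ConjClasses (GL (Fin n) F) // ∃ g : GL (Fin n) F, ConjClasses.mk g = C ∧ orderOf g = r} = Nat.choose (n / i + t) t - 1 := by
  set_option maxSynthPendingDepth 3 in
  classical
  haveI := Fact.mk hr
  obtain ⟨f, hp, e⟩ := FiniteField.card F p
  have c : p.Coprime r := (Nat.coprime_primes hp hr).2 hrp.symm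
  have o : orderOf (ZMod.unitOfCoprime _ (c.pow_left f)) = i := by rw [← orderOf_units, ZMod.coe_unitOfCoprime, ← e, hF, hi]
  have i0 : 0 < i := o ▸ orderOf_pos _
  set S := (normalizedFactors (cyclotomic r F)).toFinset
  have s1 : S.card = t := by rw [normalizedFactors_cyclotomic_card e c, o, Nat.totient_prime hr, ← ht, Nat.mul_div_cancel _ i0]
  have s2 : ∀ x, x ∈ S ↔ Irreducible x ∧ x.Monic ∧ x ∣ cyclotomic r F := fun x =>
    Multiset.mem_toFinset.trans (Polynomial.mem_normalizedFactors_iff (cyclotomic_ne_zero r F))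
  have s3 : ∀ x ∈ S, x.natDegree = i := fun x b => (natDegree_of_dvd_cyclotomic_of_irreducible e c ((s2 x).1 b).2.2 ((s2 x).1 b).1).trans o
  have s4 := cyclotomic_prime_mul_X_sub_one F r
  have s5 : X - C 1 ∉ S := fun b => not_isUnit_X_sub_C (1 : F) (sqf c.symm _ (s4 ▸ mul_dvd_mul ((s2 _).1 b).2.2 dvd_rfl))
  let M := fun y : Multiset S => y.map (↑) + Multiset.replicate (n - i * y.card) (X - C 1 : F[X])
  have m1 : ∀ y, ∀ x ∈ M y, (Irreducible x ∧ x.Monic) ∧ x ∣ X ^ r - 1 := fun y x b => by
    rcases Multiset.mem_add.1 b with b | b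
    · obtain ⟨x, -, rfl⟩ := Multiset.mem_map.1 b
      have := (s2 x).1 x.2
      exact ⟨⟨this.1, this.2.1⟩, s4 ▸ this.2.2.mul_right _⟩
    · rw [Multiset.eq_of_mem_replicate b]
      exact ⟨⟨irreducible_X_sub_C 1, monic_X_sub_C 1⟩, s4 ▸ dvd_mul_left _ _⟩
  have dg : ∀ (y : Multiset S) (k : ℕ), (y.map Subtype.val + Multiset.replicate k (X - C 1 : F[X])).prod.natDegree = i * y.card + k := fun y k => by
    rw [natDegree_multiset_prod_of_monic _ fun x b => (Multiset.mem_add.1 b).elim
      (fun b => by obtain ⟨x, -, rfl⟩ := Multiset.mem_map.1 b; exact ((s2 x).1 x.2).2.1)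
      fun b => Multiset.eq_of_mem_replicate b ▸ monic_X_sub_C 1]
    rw [Multiset.map_add, Multiset.sum_add, Multiset.map_map, Multiset.map_congr rfl fun x _ => s3 x.1 x.2, Multiset.map_replicate,
      natDegree_X_sub_C]
    simp [mul_comm]
  rw [card_ord hr, ← Nat.sum_range_multichoose, ← s1, ← Fintype.card_coe, Finset.sum_range]
  simp only [← Sym.card_sym_eq_multichoose]
  rw [← Fintype.card_sigma, ← Nat.card_eq_fintype_card]
  congr 1
  refine card_cls _ (fun g y => Typ g.1.toLin' (M y.2.1)) (fun y => ?_) (fun g h => ?_) fun g h y z _ _ a b => ?_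
  · obtain ⟨A, a⟩ := exists_mat (n := n) (fun x b => (m1 y.2.1 x b).1.2) (by
      rw [dg, y.2.2, Nat.add_sub_cancel' ((Nat.mul_le_mul_left _ (Nat.lt_succ_iff.1 y.1.2)).trans (Nat.mul_div_le n i))])
    have := aeval_pow.1 ((a.zero _).2 fun x b => (m1 _ x b).2)
    exact ⟨Units.ofPowEqOne A r this hr.ne_zero, Units.ext (by simpa using this), a⟩
  · have z := (aeval_pow (A := g.1)).2 (by rw [← Units.val_pow_eq_pow_val, h, Units.val_one])
    obtain ⟨m, a, b, d⟩ := exists_ss (sqf c.symm) z
    obtain ⟨y, hy⟩ : ∃ y : Multiset S, y.map (↑) = m.filter (¬ · = X - C 1) := CanLift.prf _ fun x k => by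
      obtain ⟨k, k'⟩ := Multiset.mem_filter.1 k
      exact (s2 x).2 ⟨(b x k).1, (b x k).2, ((b x k).1.prime.dvd_mul.1 (s4 ▸ (a.zero _).1 z x k)).resolve_right fun e =>
        k' (eq_of_monic_of_associated (b x k).2 (monic_X_sub_C 1) ((b x k).1.associated_of_dvd (irreducible_X_sub_C 1) e))⟩
    have e1 := Multiset.filter_add_not (· = X - C 1) m
    rw [Multiset.filter_eq', add_comm, ← hy] at e1
    have e2 := dg y (m.count (X - C 1))
    rw [e1, ← d, LinearMap.charpoly_natDegree, Module.finrank_fin_fun] at e2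
    refine ⟨⟨⟨y.card, Nat.lt_succ_of_le ((Nat.le_div_iff_mul_le i0).2 (by rw [mul_comm]; omega))⟩, y, rfl⟩, ?_⟩
    show Typ _ (_ + Multiset.replicate (n - i * y.card) _)
    rwa [show n - i * y.card = m.count (X - C 1) by omega, e1]
  · rw [isConj_gl]
    refine ⟨fun k => ?_, by rintro rfl; exact a.sim b⟩
    have := congrArg (Multiset.filter (· ∈ S)) (ms_eq (fun x k => (m1 _ x k).1) (fun x k => (m1 _ x k).1)
      ((a.charpoly fun x k => (m1 _ x k).1.2).symm.trans (k.charpoly.trans (b.charpoly fun x k => (m1 _ x k).1.2))))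
    have fl : ∀ y, (M y).filter (· ∈ S) = y.map (↑) := fun y => by
      rw [Multiset.filter_add, Multiset.filter_eq_self.2 (by simp +contextual), Multiset.filter_eq_nil.2 fun x b => Multiset.eq_of_mem_replicate b ▸ s5, add_zero]
    rw [fl, fl] at this
    clear a b k fl
    obtain ⟨y, y2, y3⟩ := y
    obtain ⟨z, z2, z3⟩ := z
    obtain rfl : y2 = z2 := Multiset.map_injective Subtype.val_injective this
    obtain rfl : y = z := Fin.ext (y3.symm.trans z3)
    rfl

end Cfsg.Agent.S2568
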