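import Cfsg.Statements.S2569
import Cfsg.Agent.H4.TvC
import Cfsg.Agent.H3.RCF2

set_option autoImplicit false
open Cfsg

namespace Cfsg.Agent.S2569


/-- In GL_n over a finite field of characteristic p, the conjugacy class of a semisimple element (an element of order prime to p) under the special linear group is its whole GL-conjugacy class: for every such x and every invertible g there is h of determinant one with h x h⁻¹ = g x g⁻¹. -/
theorem result {F : Type*} [Field F] [Fintype F] {p : ℕ} [Fact p.Prime] [CharP F p] {n : ℕ} (x g : GL (Fin n) F) (hx : (orderOf x).Coprime p) : ∃ h : GL (Fin n) F, (h : Matrix (Fin n) (Fin n) F).det = 1 ∧ h * x * h⁻¹ = g * x * g⁻¹ := by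
  obtain ⟨m, h1, h2, h3⟩ := H3.RCF.exists_ss (H3.RCF.sqf (F := F) hx)
    (H3.RCF.aeval_pow (A := x.1).2 (by rw [← Units.val_pow_eq_pow_val, pow_orderOf_eq_one]; rfl))
  rcases Multiset.empty_or_exists_mem m with rfl | ⟨P, hP⟩
  · have h4 := congrArg Polynomial.natDegree h3
    rw [LinearMap.charpoly_natDegree] at h4
    obtain rfl : n = 0 := by simpa using h4
    exact ⟨1, by simp, Subsingleton.elim _ _⟩
  obtain ⟨c, h4, h5⟩ := h1.det (fun x hx => (h2 x hx).2) hP (h2 P hP).1
    (Matrix.GeneralLinearGroup.det g)⁻¹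
  obtain ⟨c, rfl⟩ := H4.glEquiv.surjective c
  rw [H4.det_glEquiv] at h4
  have h6 : c * x = x * c := H4.glEquiv.injective (by
    rw [map_mul, map_mul]; exact LinearEquiv.ext h5)
  refine ⟨g * c, congrArg Units.val (show Matrix.GeneralLinearGroup.det (g * c) = 1 by
    rw [map_mul, h4, mul_inv_cancel]), ?_⟩
  rw [mul_assoc g, h6]; group

end Cfsg.Agent.S2569
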