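import Cfsg.Statements.S2572
import Cfsg.Agent.H4.TvC

set_option autoImplicit false
open Cfsg

namespace Cfsg.Agent.S2572


/-- Centraliser of a transvection in GL_n(q), n ≥ 2: if t − 1 has rank one and square zero, the centraliser of t in GL_n(q) has order q^(2n−3) (q − 1) |GL_(n−2)(q)| (a group of order q^(2n−3) extended by GL_1(q) × GL_(n−2)(q)). -/
theorem result {F : Type*} [Field F] [Fintype F] {q n : ℕ} (hF : Fintype.card F = q) (hn : 2 ≤ n) (t : GL (Fin n) F) (ht : Cfsg.IsTransvection (t : Matrix (Fin n) (Fin n) F)) : Nat.card ↥(Subgroup.centralizer ({t} : Set (GL (Fin n) F))) = q ^ (2 * n - 3) * (q - 1) * ∏ i : Fin (n - 2), (q ^ (n - 2) - q ^ (i : ℕ)) := by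
  obtain ⟨n, rfl⟩ := Nat.exists_eq_add_of_le' hn
  obtain ⟨h1, h2⟩ := H4.tv_iff (t := H4.glEquiv t) (fun _ => rfl) ht
  rw [H4.card_cent_congr H4.glEquiv, H4.card_cent_tv h1 h2 (n := n) (by simp),
    Nat.card_eq_fintype_card, hF, ← mul_assoc, show 2 * (n + 2) - 3 = n + 1 + n by omega, pow_add q (n + 1),
    mul_right_comm (q ^ (n + 1)), Nat.mul_sub_one, ← pow_succ]
  rfl

end Cfsg.Agent.S2572
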