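import Cfsg.Statements.S2573
import Cfsg.Agent.H4.RgA

set_option autoImplicit false
open Cfsg

namespace Cfsg.Agent.S2573


/-- The invariant subspaces of a regular unipotent matrix form a chain: over a finite field, if u is an n × n matrix with (u − 1)^n = 0 and rank(u − 1) = n − 1, then every subspace W of F^n with u W ⊆ W is the kernel of (u − 1)^(dim W); so u has at most one invariant subspace of each dimension. -/
theorem result {F : Type*} [Field F] [Finite F] {n : ℕ} (u : Matrix (Fin n) (Fin n) F) (hnil : (u - 1) ^ n = 0) (hreg : (u - 1).rank = n - 1) (W : Submodule F (Fin n → F)) (hW : ∀ v ∈ W, u.mulVec v ∈ W) : W = LinearMap.ker (Matrix.mulVecLin ((u - 1) ^ Module.finrank F W)) := by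
  have h : H4.Reg (u - 1).mulVecLin := by
    have h3 := LinearMap.finrank_range_add_finrank_ker (u - 1).mulVecLin
    rw [Matrix.rank] at hreg
    simp only [Module.finrank_fintype_fun_eq_card, Fintype.card_fin] at h3
    exact ⟨⟨n, by rw [← Matrix.toLin'_apply', ← Matrix.toLin'_pow, hnil, map_zero]⟩, by omega⟩
  have := h.inv_eq (W := W) fun v hv => by simpa [Matrix.sub_mulVec] using W.sub_mem (hW v hv) hv
  rwa [← Matrix.toLin'_apply', ← Matrix.toLin'_pow] at this

end Cfsg.Agent.S2573
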