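import Cfsg.Statements.S2574
import Cfsg.Agent.H4.RgA

set_option autoImplicit false
open Cfsg

namespace Cfsg.Agent.S2574


/-- A regular unipotent element of the symplectic group has totally isotropic small invariant subspaces: over a finite field, if u ∈ Sp_2m(F) satisfies (u − 1)^(2m) = 0 and rank(u − 1) = 2m − 1, and W is a u-invariant subspace with 2 dim W ≤ 2m, then the alternating form vanishes identically on W. -/
theorem result {F : Type*} [Field F] [Finite F] {m : ℕ} (u : Matrix.symplecticGroup (Fin m) F) (hnil : ((u : Matrix (Fin m ⊕ Fin m) (Fin m ⊕ Fin m) F) - 1) ^ (2 * m) = 0) (hreg : ((u : Matrix (Fin m ⊕ Fin m) (Fin m ⊕ Fin m) F) - 1).rank = 2 * m - 1) (W : Submodule F (Fin m ⊕ Fin m → F)) (hW : ∀ v ∈ W, (u : Matrix (Fin m ⊕ Fin m) (Fin m ⊕ Fin m) F).mulVec v ∈ W) (hdim : 2 * Module.finrank F W ≤ 2 * m) : ∀ v ∈ W, ∀ w ∈ W, Cfsg.sympForm m F v w = 0 := by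
  have hf := H4.spForm_ND m F
  let t := H4.spEquiv m F u
  obtain ⟨h1, h2⟩ := H4.rk_eq_rank (t := t.1) (M := u.1) fun _ => rfl
  have h3 := LinearMap.finrank_range_add_finrank_ker (H4.nil t.1)
  have h4 := hf.finrank_perp W
  rw [H4.rk] at h1
  simp only [Module.finrank_fintype_fun_eq_card, Fintype.card_sum, Fintype.card_fin] at h3 h4
  have h : H4.Reg (H4.nil t.1) := ⟨⟨2 * m, by
    rw [h2, ← Matrix.toLin'_apply', ← Matrix.toLin'_pow, hnil, map_zero]⟩, by omega⟩
  have h5 := (H4.spForm m F).mem_stabSub_of_le (g := t) hW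
  have h6 := h.inv_eq (W := W) fun v hv => W.sub_mem (hW v hv) hv
  have h7 := h.inv_eq (W := (H4.spForm m F).perp W) fun v hv =>
    sub_mem (((H4.spForm m F).stabSub_le_perp W h5 v).1 hv) hv
  intro v hv w hw
  have : w ∈ (H4.spForm m F).perp W := by
    obtain ⟨k, hk⟩ := Nat.exists_eq_add_of_le' (show Module.finrank F W ≤
      Module.finrank F ((H4.spForm m F).perp W) by omega)
    rw [h7, hk, pow_add, LinearMap.mem_ker, Module.End.mul_apply, LinearMap.mem_ker.1 (h6.le hw),
      map_zero]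
  rw [← H4.spForm_B]
  exact this v hv

end Cfsg.Agent.S2574
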