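import Cfsg.Statements.S2575
import Mathlib

set_option autoImplicit false
open Cfsg

namespace Cfsg.Agent.S2575

/-- Which diagonal involutions of PGL_n(q) lie in PSL_n(q), q odd: for the diagonal matrix t with i entries −1 and n − i entries 1, some non-zero scalar multiple of t has determinant one if and only if i is even or the 2-part of q − 1 exceeds the 2-part of n (that is, −1 is an n-th power in the field exactly in the latter case). -/
theorem result {F : Type*} [Field F] [Fintype F] {q : ℕ} (hF : Fintype.card F = q) (hq : Odd q) {n : ℕ} (hn : 1 ≤ n) (i : ℕ) (hi : i ≤ n) : (∃ c : F, c ≠ 0 ∧ (c • Matrix.diagonal (fun j : Fin n => if (j : ℕ) < i then (-1 : F) else 1)).det = 1) ↔ (Even i ∨ padicValNat 2 n < padicValNat 2 (q - 1)) := by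
  set_option maxSynthPendingDepth 3 in
  classical
  subst hF
  have q1 := Fintype.one_lt_card (α := F)
  have d : (Matrix.diagonal (fun j : Fin n => if (j : ℕ) < i then (-1 : F) else 1)).det = (-1) ^ i := by
    rw [Matrix.det_diagonal, Finset.prod_ite, Finset.prod_const, Finset.prod_const_one, mul_one, Fin.card_filter_val_lt,
      min_eq_right hi]
  simp only [Matrix.det_smul, d, Fintype.card_fin]
  rcases Nat.even_or_odd i with e | e
  · exact iff_of_true ⟨1, one_ne_zero, by simp [e.neg_one_pow]⟩ (.inl e)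
  rw [e.neg_one_pow, or_iff_right (Nat.not_even_iff_odd.2 e)]
  have h2 : (-1 : F) ≠ 1 := Ring.neg_one_ne_one_of_char_ne_two fun z => by
    have := FiniteField.even_card_of_char_two z
    have := Nat.odd_iff.1 hq
    omega
  refine ⟨fun ⟨c, c0, h⟩ => by_contra fun z => h2 ?_, fun h => ?_⟩
  · obtain ⟨a, k, o, r⟩ := Nat.exists_eq_two_pow_mul_odd (n := Fintype.card F - 1) (by omega)
    have : Fintype.card F - 1 ∣ n * k := r ▸ mul_dvd_mul_right ((pow_dvd_pow 2 (by
      have := (padicValNat_dvd_iff_le (p := 2) (by omega : Fintype.card F - 1 ≠ 0)).1 (Dvd.intro _ r.symm)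
      omega)).trans pow_padicValNat_dvd) k
    obtain ⟨t, ht⟩ := this
    rw [← o.neg_one_pow, ← neg_eq_iff_eq_neg.1 ((mul_neg_one _).symm.trans h), ← pow_mul, ht, pow_mul,
      FiniteField.pow_card_sub_one_eq_one c c0, one_pow]
  · obtain ⟨ω, w⟩ := IsCyclic.exists_ofOrder_eq_natCard (α := Fˣ)
    rw [Nat.card_units, Nat.card_eq_fintype_card] at w
    obtain ⟨a, k, o, r⟩ := Nat.exists_eq_two_pow_mul_odd (n := n) (by omega)
    have va : padicValNat 2 n = a := by
      rw [r, padicValNat.mul (by positivity) o.pos.ne', padicValNat.prime_pow,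
        padicValNat.eq_zero_of_not_dvd o.not_two_dvd_nat, add_zero]
    obtain ⟨t, ht⟩ := (pow_dvd_pow 2 (va ▸ h : a + 1 ≤ _)).trans (pow_padicValNat_dvd (p := 2) (n := Fintype.card F - 1))
    have t0 : t ≠ 0 := fun z => by rw [z] at ht; omega
    have s : (ω.1 ^ t) ^ 2 ^ a = -1 := (sq_eq_one_iff.1 (by
      rw [← pow_mul, ← pow_mul, ← pow_succ, mul_comm, ← ht, FiniteField.pow_card_sub_one_eq_one _ ω.ne_zero])).resolve_left
      fun z => by
        have := Nat.le_of_dvd (by positivity) (orderOf_dvd_of_pow_eq_one (Units.ext (by rw [pow_mul]; exact z) :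
          ω ^ (t * 2 ^ a) = 1))
        rw [w, ht, pow_succ] at this
        have : 0 < t * 2 ^ a := by positivity
        nlinarith
    exact ⟨ω.1 ^ t, pow_ne_zero _ ω.ne_zero, by rw [r, pow_mul, s, o.neg_one_pow]; simp⟩

end Cfsg.Agent.S2575
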