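import Cfsg.Statements.S2576
import Mathlib

set_option autoImplicit false
open Cfsg

namespace Cfsg.Agent.S2576

/-- Which involutions of PGL_2m(q) coming from a scalar of the quadratic extension field lie in PSL_2m(q), q odd: let μ generate the Sylow 2-subgroup of the multiplicative group of the field with q elements (μ has order the 2-part of q − 1) and let t be the block-diagonal matrix with m diagonal blocks [[0, 1], [μ, 0]] (so t² is the scalar μ and t is an involution modulo scalars). Then some non-zero scalar multiple of t has determinant one if and only if q ≡ 3 (mod 4) or the 2-part of q − 1 is less than the 2-part of 2m. -/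
theorem result {F : Type*} [Field F] [Fintype F] {q : ℕ} (hF : Fintype.card F = q) (hq : Odd q) {m : ℕ} (hm : 1 ≤ m) (μ : F) (hμ : orderOf μ = 2 ^ padicValNat 2 (q - 1)) : (∃ c : F, c ≠ 0 ∧ (c • Matrix.blockDiagonal (fun _ : Fin m => !![(0 : F), 1; μ, 0])).det = 1) ↔ (q % 4 = 3 ∨ padicValNat 2 (q - 1) < padicValNat 2 (2 * m)) := by
  set_option maxSynthPendingDepth 3 in
  classical
  subst hF
  have q1 := Fintype.one_lt_card (α := F)
  have o2 := Nat.odd_iff.1 hq
  set s := padicValNat 2 (Fintype.card F - 1) with hs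
  have s1 : 1 ≤ s := one_le_padicValNat_of_dvd (by omega) (by omega)
  have d : (Matrix.blockDiagonal (fun _ : Fin m => !![(0 : F), 1; μ, 0])).det = (-μ) ^ m := by
    simp [Matrix.det_blockDiagonal, Matrix.det_fin_two]
  simp only [Matrix.det_smul, d, Fintype.card_prod, Fintype.card_fin]
  have μ1 : μ ^ 2 ^ s = 1 := hμ ▸ pow_orderOf_eq_one μ
  obtain ⟨a, k, o, r⟩ := Nat.exists_eq_two_pow_mul_odd (n := m) (by omega)
  have va : padicValNat 2 (2 * m) = a + 1 := by
    rw [r, ← mul_assoc, ← pow_succ', padicValNat.mul (by positivity) o.pos.ne', padicValNat.prime_pow,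
      padicValNat.eq_zero_of_not_dvd o.not_two_dvd_nat, add_zero]
  obtain ⟨b, l, ol, rl⟩ := Nat.exists_eq_two_pow_mul_odd (n := Fintype.card F - 1) (by omega)
  obtain rfl : b = s := by
    rw [hs, rl, padicValNat.mul (by positivity) ol.pos.ne', padicValNat.prime_pow,
      padicValNat.eq_zero_of_not_dvd ol.not_two_dvd_nat, add_zero]
  rw [va]
  refine ⟨fun ⟨c, c0, h⟩ => by_contra fun z => ?_, fun h => ⟨1, one_ne_zero, ?_⟩⟩
  · push Not at z
    have s2 : 2 ≤ s := by
      by_contra y
      obtain ⟨t, rfl⟩ := ol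
      rw [show s = 1 by omega] at rl
      omega
    obtain ⟨e, he⟩ := Nat.exists_eq_add_of_le z.2
    have := congrArg (· ^ (2 ^ e * l)) h
    simp only [mul_pow, ← pow_mul] at this
    rw [show 2 * m * (2 ^ e * l) = (Fintype.card F - 1) * k by rw [rl, r, he]; ring, pow_mul c,
      FiniteField.pow_card_sub_one_eq_one c c0, one_pow, one_pow, one_mul,
      show m * (2 ^ e * l) = 2 ^ (a + e) * (k * l) by rw [r]; ring,
      (((Nat.even_pow.2 ⟨even_two, by omega⟩).mul_right _)).neg_pow] at this
    have := hμ ▸ orderOf_dvd_of_pow_eq_one this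
    have := (Nat.pow_dvd_pow_iff_le_right one_lt_two).1
      ((Nat.Coprime.pow_left _ (Nat.coprime_two_left.2 (o.mul ol))).dvd_of_dvd_mul_right this)
    omega
  · rw [one_pow, one_mul]
    rcases le_or_gt 2 s with y | y
    · have : s < a + 1 := h.resolve_left fun z => by
        obtain ⟨e, he⟩ := Nat.exists_eq_add_of_le y
        rw [he, pow_add, mul_assoc] at rl; omega
      obtain ⟨e, he⟩ := Nat.exists_eq_add_of_le (Nat.lt_succ_iff.1 this)
      rw [r, ((Nat.even_pow.2 ⟨even_two, by omega⟩).mul_right _).neg_pow, he, pow_add, mul_assoc, pow_mul, μ1, one_pow]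
    · rw [show s = 1 by omega, pow_one] at hμ μ1
      rw [(sq_eq_one_iff.1 μ1).resolve_left fun z => by simp [z] at hμ, neg_neg, one_pow]

end Cfsg.Agent.S2576
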