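import Cfsg.Statements.S2578
import Cfsg.Agent.H4.RgA

set_option autoImplicit false
open Cfsg

namespace Cfsg.Agent.S2578


/-- Regular unipotent classes of SL_n(q): for n ≥ 2 over the field with q elements, the matrices u of determinant one with (u − 1)^n = 0 and rank(u − 1) = n − 1 form a single GL_n(q)-class which splits into exactly gcd(n, q − 1) conjugacy classes of SL_n(q). -/
theorem result {F : Type*} [Field F] [Fintype F] {q : ℕ} (hF : Fintype.card F = q) {n : ℕ} (hn : 2 ≤ n) : Nat.card {C : ConjClasses (Matrix.SpecialLinearGroup (Fin n) F) // ∃ u : Matrix.SpecialLinearGroup (Fin n) F, ConjClasses.mk u = C ∧ ((u : Matrix (Fin n) (Fin n) F) - 1) ^ n = 0 ∧ ((u : Matrix (Fin n) (Fin n) F) - 1).rank = n - 1} = Nat.gcd n (q - 1) := by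
  haveI : Nonempty (Fin n) := ⟨⟨0, by omega⟩⟩
  obtain ⟨t, ht⟩ := H4.exists_reg (F := F) (Fin n → F)
  obtain ⟨t, rfl⟩ := H4.glEquiv.surjective t
  have h1 := H4.det_unip ht.nilp
  rw [H4.det_glEquiv] at h1
  let u : Matrix.SpecialLinearGroup (Fin n) F := ⟨t.1, congrArg Units.val h1⟩
  have hu : Matrix.SpecialLinearGroup.toGL u = t := Units.ext rfl
  rw [H4.card_split Matrix.SpecialLinearGroup.toGL Matrix.SpecialLinearGroup.toGL_injective
    Matrix.GeneralLinearGroup.det H4.Au.det_surj H4.range_toGL _ u fun s => ?_, hu,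
    show (Subgroup.centralizer {t}).map Matrix.GeneralLinearGroup.det = (powMonoidHom n).range from ?_,
    IsCyclic.index_powMonoidHom_range, Nat.card_units, Nat.card_eq_fintype_card, hF, Nat.gcd_comm]
  · ext c
    constructor
    · rintro ⟨g, hg, rfl⟩
      obtain ⟨a, -, ha⟩ := ht.det_cent (g := H4.glEquiv g) (by simp; omega) (by
        rw [← map_mul, ← map_mul, Subgroup.mem_centralizer_singleton_iff.1 hg])
      rw [H4.det_glEquiv, Module.finrank_fintype_fun_eq_card, Fintype.card_fin] at ha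
      have h0 : a ≠ 0 := by
        rintro rfl; exact Units.ne_zero _ (ha.trans (zero_pow (by omega)))
      exact ⟨Units.mk0 a h0, Units.ext ha.symm⟩
    · rintro ⟨c, rfl⟩
      exact ⟨H4.Au.sc c, Subgroup.mem_centralizer_singleton_iff.2 (H4.Au.sc_comm c t), by
        simp [H4.Au.det_sc]⟩
  · rw [hu, ← H4.isConj_equiv H4.glEquiv, ← H4.reg_iff (M := (s : Matrix (Fin n) (Fin n) F))
      (t := H4.glEquiv (Matrix.SpecialLinearGroup.toGL s)) fun _ => rfl, isConj_iff]
    simp only [mul_inv_eq_iff_eq_mul]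
    exact ⟨ht.conj, fun ⟨g, hg⟩ => ht.of_conj hg⟩

end Cfsg.Agent.S2578
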