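import Cfsg.Statements.S2579
import Cfsg.Agent.H4.TvC

set_option autoImplicit false
open Cfsg

namespace Cfsg.Agent.S2579


/-- In SL_n(F) with n ≥ 3, over a finite field F, any two transvections (matrices t with t − 1 of rank one and square zero) are conjugate by an element of SL_n(F). -/
theorem result {F : Type*} [Field F] [Finite F] {n : ℕ} (hn : 3 ≤ n) (s t : Matrix.SpecialLinearGroup (Fin n) F) (hs : Cfsg.IsTransvection (s : Matrix (Fin n) (Fin n) F)) (ht : Cfsg.IsTransvection (t : Matrix (Fin n) (Fin n) F)) : IsConj s t := by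
  let φ : Matrix.SpecialLinearGroup (Fin n) F →* ((Fin n → F) ≃ₗ[F] (Fin n → F)) :=
    H4.glEquiv.toMonoidHom.comp Matrix.SpecialLinearGroup.toGL
  have hφ : Function.Injective φ := H4.glEquiv.injective.comp Matrix.SpecialLinearGroup.toGL_injective
  obtain ⟨h1, h2⟩ := H4.tv_iff (t := φ s) (fun _ => rfl) hs
  obtain ⟨h3, h4⟩ := H4.tv_iff (t := φ t) (fun _ => rfl) ht
  obtain ⟨g, h5⟩ := H4.gl_conj h2 h4 (h1.trans h3.symm)
  obtain ⟨k, h6, h7⟩ := H4.cent_det_of_lt (t := φ s) (by simp [h1]; omega) (LinearEquiv.det g)⁻¹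
  obtain ⟨a, ha⟩ := H4.glEquiv.surjective (g * k)
  have h8 : Matrix.GeneralLinearGroup.det a = 1 := by
    rw [← H4.det_glEquiv, ha, map_mul, h7, mul_inv_cancel]
  let b : Matrix.SpecialLinearGroup (Fin n) F := ⟨a.1, congrArg Units.val h8⟩
  have hb : φ b = g * k := ha ▸ congrArg H4.glEquiv (Units.ext rfl)
  exact isConj_iff.2 ⟨b, mul_inv_eq_iff_eq_mul.2 (hφ (by
    rw [map_mul, map_mul, hb, mul_assoc, h6, ← mul_assoc, h5, mul_assoc]))⟩

end Cfsg.Agent.S2579
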