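import Cfsg.Statements.S2582
import Cfsg.Agent.H3.Wall8

set_option autoImplicit false
open Cfsg

namespace Cfsg.Agent.S2582

open H3.RCF H3.Wall H4

/-- Which unipotent Jordan types occur in the finite symplectic group: over a finite field, a unipotent matrix with Jordan block sizes d_1, …, d_t (sum 2m, all at least 1) is similar to an element of Sp_2m(F) if and only if every odd block size occurs an even number of times. -/
theorem result {F : Type*} [Field F] [Fintype F] {m t : ℕ} (d : Fin t → ℕ) (hd : ∀ k, 1 ≤ d k) (hsum : ∑ k, d k = 2 * m) : (∃ e : ((k : Fin t) × Fin (d k)) ≃ (Fin m ⊕ Fin m), ∃ A : Matrix.symplecticGroup (Fin m) F, IsConj (Matrix.reindex e e (Cfsg.jordanTypeMatrix d F)) (A : Matrix (Fin m ⊕ Fin m) (Fin m ⊕ Fin m) F)) ↔ ∀ j : ℕ, Odd j → Even (Finset.univ.filter (fun k : Fin t => d k = j)).card := by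
  set_option maxSynthPendingDepth 3 in
  have E : ∀ C, (spEquiv m F C).1.toLinearMap = Matrix.toLin' C.1 := fun C => LinearMap.ext (spEquiv_apply m F C)
  have c : ∀ j, (Finset.univ.filter (fun k => d k = j)).card = (Finset.univ.val.map d).count j := fun j => by
    rw [Multiset.count_map, ← Finset.filter_val]; simp only [eq_comm (a := j)]; rfl
  simp only [c]
  refine ⟨fun ⟨e, A, h⟩ => nec_alt (B := (spForm m F).B) (spForm_ND m F) (spEquiv m F A).2.1 (fun x => (spForm m F).B_self_of_Q rfl)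
    (E A ▸ ((isConj_mat.1 h).symm.trans (sim_reindex e _)).typ (jor_mat d hd)), fun h => ?_⟩
  obtain ⟨a, b, k⟩ := ex_ind (K := altKind F) (fun j => j ≠ 0 ∧ Even j) (.of (spForm_ND 0 F) ⟨1, one_mem _, Sim.typ ⟨.ofSubsingleton _ _, fun _ => Subsingleton.elim _ _⟩ (typ_T (ι := Empty) Empty.elim)⟩)
    (fun j h => by obtain ⟨k, rfl⟩ : ∃ k, j = 2 * k + 1 + 1 := ⟨j / 2 - 1, by have := Nat.even_iff.1 h.2; omega⟩; exact ex_sp k) ex_alt2
    (Finset.univ.val.map d) (by simpa using fun k => Nat.ne_of_gt (hd k)) fun j n => by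
      rcases eq_or_ne j 0 with rfl | j0
      · rw [Multiset.count_eq_zero.2 (by simpa using fun k => Nat.ne_of_gt (hd k))]; simp
      · exact h j (by simpa [j0] using n)
  obtain ⟨_, i⟩ := alt_exists_isIso (2 * m) _ _ _ _ b (spForm_ND m F) ((Module.finrank_fin_fun F).trans hsum) (by simp; omega)
  obtain ⟨g, x, y⟩ := k.iso i
  obtain ⟨A, rfl⟩ : ∃ t, (spEquiv m F t).1 = g := ⟨(spEquiv m F).symm ⟨g, x⟩, by simp⟩
  exact ⟨Fintype.equivOfCardEq (by simp [hsum, two_mul]), A, isConj_mat.2 ((sim_reindex _ _).trans (Typ.sim (jor_mat d hd) (E A ▸ y)))⟩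

end Cfsg.Agent.S2582
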