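import Cfsg.Statements.S2583
import Cfsg.Agent.H3.Wall8

set_option autoImplicit false
open Cfsg

namespace Cfsg.Agent.S2583

open H3.RCF H3.Wall H4

/-- Which unipotent Jordan types occur in a finite orthogonal group in odd characteristic: over a finite field of odd order, a unipotent matrix with Jordan block sizes d_1, …, d_t (sum n, all at least 1) is similar to an isometry of some quadratic form on F^n with non-degenerate polar form if and only if every even block size occurs an even number of times. -/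
theorem result {F : Type*} [Field F] [Fintype F] (h2 : (2 : F) ≠ 0) {n t : ℕ} (d : Fin t → ℕ) (hd : ∀ k, 1 ≤ d k) (hsum : ∑ k, d k = n) : (∃ Q : QuadraticForm F (Fin n → F), (QuadraticMap.polarBilin Q).Nondegenerate ∧ ∃ e : ((k : Fin t) × Fin (d k)) ≃ Fin n, ∃ A : ↥(Cfsg.isometryGroup F ⇑Q), IsConj (Matrix.reindex e e (Cfsg.jordanTypeMatrix d F)) ((A : Matrix.GeneralLinearGroup (Fin n) F) : Matrix (Fin n) (Fin n) F)) ↔ ∀ j : ℕ, Even j → 0 < j → Even (Finset.univ.filter (fun k : Fin t => d k = j)).card := by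
  set_option maxSynthPendingDepth 3 in
  have c : ∀ j, (Finset.univ.filter (fun k => d k = j)).card = (Finset.univ.val.map d).count j := fun j => by
    rw [Multiset.count_map, ← Finset.filter_val]; simp only [eq_comm (a := j)]; rfl
  simp only [c]
  refine ⟨fun ⟨Q, q, e, A, h⟩ => nec_sym (B := (quadForm Q).B) (quadForm_ND q) (isometryEquiv (quadForm Q) A).2.1 h2 (fun x y => QuadraticMap.polar_comm _ _ _)
    (((isConj_mat.1 h).symm.trans (sim_reindex e _)).typ (jor_mat d hd)), fun h => ?_⟩
  obtain ⟨a, b, g, x, y⟩ := ex_ind (K := quadKind F) Odd (.of (plusForm_ND F 0) ⟨1, one_mem _, Sim.typ ⟨.ofSubsingleton _ _, fun _ => Subsingleton.elim _ _⟩ (typ_T (ι := Empty) Empty.elim)⟩)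
    (fun j => ex_o h2) ex_quad2 (Finset.univ.val.map d) (by simpa using fun k => Nat.ne_of_gt (hd k)) fun j n => by
      rcases eq_or_ne j 0 with rfl | j0
      · rw [Multiset.count_eq_zero.2 (by simpa using fun k => Nat.ne_of_gt (hd k))]; simp
      · exact h j (by simpa using n) j0.bot_lt
  subst hsum
  obtain ⟨A, rfl⟩ : ∃ t, (isometryEquiv a t).1 = g := ⟨(isometryEquiv a).symm ⟨g, x⟩, congrArg Subtype.val (MulEquiv.apply_symm_apply _ _)⟩
  let Q : QuadraticForm F _ := ⟨a.Q, fun c v => a.Q_smul c v, a.B, a.Q_add⟩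
  have p : QuadraticMap.polarBilin Q = a.B := LinearMap.ext₂ (polar_eq_B a)
  exact ⟨Q, p ▸ ⟨b, fun y z => b y fun x => Form.refl (z x)⟩, Fintype.equivOfCardEq (by simp), A, isConj_mat.2 ((sim_reindex _ _).trans (Typ.sim (jor_mat d hd) y))⟩

end Cfsg.Agent.S2583
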