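import Cfsg.Statements.S2585
import Cfsg.Agent.H4.MatBridge

set_option autoImplicit false
open Cfsg

namespace Cfsg.Agent.S2585


/-- Over a finite field of characteristic two every element of the symplectic group is orthogonal for a suitable quadratic form: for each A in Sp_2m(F) there is a quadratic form Q on F^(2m) whose polar form is the alternating form defining Sp_2m(F) (so Q is non-degenerate) and which A preserves. Equivalently, for m ≥ 1, Sp_2m(F) is the union of the conjugates of its two orthogonal subgroups O⁺_2m(F) and O⁻_2m(F). -/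
theorem result {F : Type*} [Field F] [Fintype F] [CharP F 2] {m : ℕ} (A : Matrix.symplecticGroup (Fin m) F) : ∃ Q : QuadraticForm F (Fin m ⊕ Fin m → F), (∀ u v : Fin m ⊕ Fin m → F, QuadraticMap.polar ⇑Q u v = Cfsg.sympForm m F u v) ∧ ∀ v : Fin m ⊕ Fin m → F, Q ((A : Matrix (Fin m ⊕ Fin m) (Fin m ⊕ Fin m) F).mulVec v) = Q v := by
  have h2 : (2 : F) = 0 := CharTwo.two_eq_zero
  let β : LinearMap.BilinForm F (Fin m ⊕ Fin m → F) := Matrix.toBilin' (Matrix.fromBlocks 0 1 0 0)
  have hβ : ∀ u v, QuadraticMap.polar β.toQuadraticMap u v = sympForm m F u v := fun u v => by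
    simp [LinearMap.BilinMap.polar_toQuadraticMap, β, Matrix.toBilin'_apply', H4.sympForm_eq,
      Matrix.fromBlocks_mulVec, dotProduct, Finset.sum_add_distrib, CharTwo.sub_eq_add, mul_comm,
      add_comm]
  let a := A.1.mulVecLin
  let D := β.toQuadraticMap.comp a - β.toQuadraticMap
  have hD : ∀ u v, D (u + v) = D u + D v := fun u v => by
    have e1 := hβ u v
    have e2 := (hβ (a u) (a v)).trans (H4.mem_symplecticGroup_iff.1 A.2 u v)
    simp only [QuadraticMap.polar, ← map_add a] at e1 e2
    simp only [D, QuadraticMap.sub_apply, QuadraticMap.comp_apply]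
    linear_combination e2 - e1
  let r := (frobeniusEquiv F 2).symm
  have hr : ∀ c, r c * r c = c := fun c => by
    rw [← sq]; exact (frobeniusEquiv F 2).apply_symm_apply c
  let l : Module.Dual F (Fin m ⊕ Fin m → F) :=
    { toFun := fun v => r (D v)
      map_add' := fun u v => by rw [hD, map_add]
      map_smul' := fun c v => by
        rw [D.map_smul, smul_eq_mul, map_mul, ← sq, show r (c ^ 2) = c from
          (frobeniusEquiv F 2).symm_apply_apply c]; rfl }
  obtain ⟨μ, hμ⟩ : l ∈ LinearMap.range (a - LinearMap.id).dualMap := by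
    rw [LinearMap.range_dualMap_eq_dualAnnihilator_ker, Submodule.mem_dualAnnihilator]
    intro v hv
    have : a v = v := by simpa [sub_eq_zero] using hv
    change r (β.toQuadraticMap (a v) - _) = 0
    rw [this, sub_self, map_zero]
  refine ⟨β.toQuadraticMap + QuadraticMap.linMulLin μ μ, fun u v => ?_, fun v => ?_⟩
  · rw [QuadraticMap.coeFn_add, QuadraticMap.polar_add, hβ]
    simp only [QuadraticMap.polar, QuadraticMap.linMulLin_apply, map_add]
    linear_combination (μ u * μ v) * h2
  · have e1 : μ (a v) - μ v = r (D v) := (map_sub μ _ _).symm.trans (LinearMap.congr_fun hμ v)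
    have e2 := hr (D v)
    rw [← e1] at e2
    change β.toQuadraticMap (a v) + μ (a v) * μ (a v) = β.toQuadraticMap v + μ v * μ v
    change _ = β.toQuadraticMap (a v) - β.toQuadraticMap v at e2
    linear_combination -e2 + (μ (a v) * μ (a v) - μ (a v) * μ v) * h2

end Cfsg.Agent.S2585
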