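import Cfsg.Statements.S2584
import Cfsg.Agent.S2582
import Cfsg.Agent.S2585

set_option autoImplicit false
open Cfsg

namespace Cfsg.Agent.S2584

open H3.RCF H3.Wall H4

/-- Which unipotent Jordan types occur in a finite orthogonal group in characteristic two: over a finite field of characteristic 2 and in even dimension 2m, a unipotent matrix with Jordan block sizes d_1, …, d_t (sum 2m, all at least 1) is similar to an isometry of some quadratic form on F^(2m) with non-degenerate polar form if and only if every odd block size occurs an even number of times (the same condition as for the symplectic group, which contains these orthogonal groups). -/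
theorem result {F : Type*} [Field F] [Fintype F] [CharP F 2] {m t : ℕ} (d : Fin t → ℕ) (hd : ∀ k, 1 ≤ d k) (hsum : ∑ k, d k = 2 * m) : (∃ Q : QuadraticForm F (Fin (2 * m) → F), (QuadraticMap.polarBilin Q).Nondegenerate ∧ ∃ e : ((k : Fin t) × Fin (d k)) ≃ Fin (2 * m), ∃ A : ↥(Cfsg.isometryGroup F ⇑Q), IsConj (Matrix.reindex e e (Cfsg.jordanTypeMatrix d F)) ((A : Matrix.GeneralLinearGroup (Fin (2 * m)) F) : Matrix (Fin (2 * m)) (Fin (2 * m)) F)) ↔ ∀ j : ℕ, Odd j → Even (Finset.univ.filter (fun k : Fin t => d k = j)).card := by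
  set_option maxSynthPendingDepth 3 in
  have c : ∀ j, (Finset.univ.filter (fun k => d k = j)).card = (Finset.univ.val.map d).count j := fun j => by
    rw [Multiset.count_map, ← Finset.filter_val]; simp only [eq_comm (a := j)]; rfl
  refine ⟨fun ⟨Q, q, e, A, h⟩ j o => c j ▸ nec_alt (B := (quadForm Q).B) (quadForm_ND q) (isometryEquiv (quadForm Q) A).2.1
    (fun x => (QuadraticMap.polar_self Q x).trans (by simp [CharTwo.two_eq_zero]))
    (((isConj_mat.1 h).symm.trans (sim_reindex e _)).typ (jor_mat d hd)) j o, fun h => ?_⟩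
  obtain ⟨e, A, h⟩ := (S2582.result (F := F) d hd hsum).2 h
  obtain ⟨Q, a, b⟩ := S2585.result A
  obtain ⟨E⟩ : Nonempty ((Fin (2 * m) → F) ≃ₗ[F] Fin m ⊕ Fin m → F) := FiniteDimensional.nonempty_linearEquiv_of_finrank_eq (by simp [two_mul])
  have i : (quadForm Q).IsIso (quadForm (Q.comp E.toLinearMap)) E.symm := quad_isIso_of_Q fun x => by simp [quadForm]
  have n := i.ND fun x z => spForm_ND m F x fun y => (spForm_B m F x y).trans ((a x y).symm.trans (z y))
  obtain ⟨g, x, y⟩ := AJ.iso i ⟨(spEquiv m F A).1, ⟨fun x y => (a _ _).trans (((spForm_B m F _ _).symm.trans ((spEquiv m F A).2.1 x y)).trans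
    ((spForm_B m F _ _).trans (a _ _).symm)), fun v => spEquiv_apply m F A v ▸ b v⟩, (LinearMap.ext (spEquiv_apply m F A) : _ = Matrix.toLin' A.1) ▸
    ((isConj_mat.1 h).symm.trans (sim_reindex e _)).typ (jor_mat d hd)⟩
  obtain ⟨A, rfl⟩ : ∃ t, (isometryEquiv (quadForm _) t).1 = g := ⟨(isometryEquiv _).symm ⟨g, x⟩, congrArg Subtype.val (MulEquiv.apply_symm_apply _ _)⟩
  exact ⟨_, ⟨n, fun y z => n y fun x => Form.refl (f := quadForm _) (z x)⟩, Fintype.equivOfCardEq (by simp [hsum]), A,
    isConj_mat.2 ((sim_reindex _ _).trans (Typ.sim (jor_mat d hd) y))⟩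

end Cfsg.Agent.S2584
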