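import Cfsg.Statements.S2590
import Cfsg.Agent.H4.WlA

set_option autoImplicit false
open Cfsg

namespace Cfsg.Agent.S2590


/-- Two semisimple elements of odd order of a finite orthogonal group (isometry group of a quadratic form on F^n with non-degenerate polar form, F finite of characteristic p; the elements have odd order prime to p) are conjugate in the orthogonal group if and only if they are conjugate in GL_n(F). -/
theorem result {F : Type*} [Field F] [Fintype F] {p : ℕ} [Fact p.Prime] [CharP F p] {n : ℕ} (Q : QuadraticForm F (Fin n → F)) (hQ : (QuadraticMap.polarBilin Q).Nondegenerate) (A B : ↥(Cfsg.isometryGroup F ⇑Q)) (hodd : Odd (orderOf A)) (hA : (orderOf A).Coprime p) : IsConj A B ↔ IsConj ((A : Matrix.GeneralLinearGroup (Fin n) F) : Matrix (Fin n) (Fin n) F) ((B : Matrix.GeneralLinearGroup (Fin n) F) : Matrix (Fin n) (Fin n) F) := by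
  refine ⟨((Units.coeHom _).comp (Cfsg.isometryGroup F ⇑Q).subtype).map_isConj, fun ⟨g, hg⟩ => ?_⟩
  let e : Cfsg.isometryGroup F ⇑Q ≃* (H4.quadForm Q).Isom := H4.isometryEquiv (H4.quadForm Q)
  refine (H4.isConj_equiv e).1 (H4.conj_odd (H4.quadForm_ND hQ) (g := H4.glEquiv g)
    (LinearEquiv.ext fun v => ?_) (n := orderOf A) ?_ (fun h => ?_) hodd)
  · change g.1.mulVec (A.1.1.mulVec v) = B.1.1.mulVec (g.1.mulVec v)
    rw [Matrix.mulVec_mulVec, Matrix.mulVec_mulVec, hg.eq]
  · rw [← Subgroup.coe_pow, ← map_pow, pow_orderOf_eq_one, map_one, Subgroup.coe_one]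
  · exact (Fact.out : p.Prime).one_lt.ne' (Nat.Coprime.eq_one_of_dvd hA.symm
      ((CharP.cast_eq_zero_iff F p _).1 h))

end Cfsg.Agent.S2590
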