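import Cfsg.Statements.S2591
import Cfsg.Agent.H3.Wall9

set_option autoImplicit false
open Cfsg

namespace Cfsg.Agent.S2591

open H3.RCF H3.Wall H4

/-- Over a finite field of odd order and for m ≥ 1, the regular unipotent elements of Sp_2m(F) (u − 1 nilpotent of rank 2m − 1, a single Jordan block) form exactly two conjugacy classes of Sp_2m(F) (one class under the similarity group, which splits in two). -/
theorem result {F : Type*} [Field F] [Fintype F] {q : ℕ} (hF : Fintype.card F = q) (hq : Odd q) {m : ℕ} (hm : 1 ≤ m) : Nat.card {C : ConjClasses ↥(Matrix.symplecticGroup (Fin m) F) // ∃ u : Matrix.symplecticGroup (Fin m) F, ConjClasses.mk u = C ∧ ((u : Matrix (Fin m ⊕ Fin m) (Fin m ⊕ Fin m) F) - 1) ^ (2 * m) = 0 ∧ ((u : Matrix (Fin m ⊕ Fin m) (Fin m ⊕ Fin m) F) - 1).rank = 2 * m - 1} = 2 := by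
  set_option maxSynthPendingDepth 3 in
  obtain ⟨k, rfl⟩ : ∃ k, m = k + 1 := ⟨m - 1, by omega⟩
  have o : (2 : F) ≠ 0 := fun h => by
    have := FiniteField.even_card_of_char_two (ringChar.eq_iff.2 (CharTwo.of_one_ne_zero_of_two_eq_zero one_ne_zero h))
    have := Nat.odd_iff.1 hq
    omega
  refine reg_cls o (spForm_ND _ F) (spEquiv _ F) _ (k := k) (by simp; omega) fun u => ?_
  rw [show (spEquiv _ F u).1.toLinearMap = Matrix.toLin' u.1 from LinearMap.ext (spEquiv_apply _ F u)]
  exact reg_typ (by simp; omega) (by omega)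

end Cfsg.Agent.S2591
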