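import Cfsg.Statements.S2592
import Cfsg.Agent.H3.Wall9

set_option autoImplicit false
open Cfsg

namespace Cfsg.Agent.S2592

open H3.RCF H3.Wall H4

/-- Over a finite field with q elements, q odd, the centraliser in Sp_2m(F) (m ≥ 1) of a regular unipotent element (u − 1 nilpotent of rank 2m − 1) has order 2 q^m. -/
theorem result {F : Type*} [Field F] [Fintype F] {q : ℕ} (hF : Fintype.card F = q) (hq : Odd q) {m : ℕ} (hm : 1 ≤ m) (u : Matrix.symplecticGroup (Fin m) F) (hnil : ((u : Matrix (Fin m ⊕ Fin m) (Fin m ⊕ Fin m) F) - 1) ^ (2 * m) = 0) (hreg : ((u : Matrix (Fin m ⊕ Fin m) (Fin m ⊕ Fin m) F) - 1).rank = 2 * m - 1) : Nat.card ↥(Subgroup.centralizer ({u} : Set ↥(Matrix.symplecticGroup (Fin m) F))) = 2 * q ^ m := by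
  set_option maxSynthPendingDepth 3 in
  obtain ⟨k, rfl⟩ : ∃ k, m = k + 1 := ⟨m - 1, by omega⟩
  have o : (2 : F) ≠ 0 := fun h => by
    have := FiniteField.even_card_of_char_two (ringChar.eq_iff.2 (CharTwo.of_one_ne_zero_of_two_eq_zero one_ne_zero h))
    have := Nat.odd_iff.1 hq
    omega
  have t : Jor 1 (spEquiv _ F u).1.toLinearMap {2 * k + 1 + 1} := by
    rw [show (spEquiv _ F u).1.toLinearMap = Matrix.toLin' u.1 from LinearMap.ext (spEquiv_apply _ F u)]
    exact (reg_typ (by simp; omega) (by omega)).1 ⟨hnil, hreg⟩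
  rw [← hF, ← Nat.card_eq_fintype_card, ← reg_cent o (spForm_ND _ F) (spEquiv _ F u).2 t rfl]
  exact Nat.card_congr ((spEquiv _ F).toEquiv.subtypeEquiv fun x => by
    simp only [Subgroup.mem_centralizer_singleton_iff, MulEquiv.toEquiv_eq_coe, MulEquiv.coe_toEquiv, Subtype.coe_eta, ← map_mul, EmbeddingLike.apply_eq_iff_eq])

end Cfsg.Agent.S2592
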