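import Cfsg.Statements.S2680
import Cfsg.Agent.H4.InB

set_option autoImplicit false
open Cfsg

namespace Cfsg.Agent.S2680


/-- Centraliser order of an involution t of Sp_2m(q), q even, with s = rank(t − 1) odd (type b_s): |C(t)| = q^(2ms − (3s² − s)/2) · |Sp_(s−1)(q)| · |Sp_(2m−2s)(q)|, where |Sp_2k(q)| = q^(k²) Π_(i=1)^k (q^(2i) − 1). -/
theorem result {F : Type*} [Field F] [Fintype F] [CharP F 2] {q : ℕ} (hF : Fintype.card F = q) {m s : ℕ} (t : Matrix.symplecticGroup (Fin m) F) (ht : t ^ 2 = 1) (hs : ((t : Matrix (Fin m ⊕ Fin m) (Fin m ⊕ Fin m) F) - 1).rank = s) (hodd : Odd s) : Nat.card ↥(Subgroup.centralizer ({t} : Set ↥(Matrix.symplecticGroup (Fin m) F))) = q ^ (2 * m * s - (3 * s ^ 2 - s) / 2) * ((q : ℕ) ^ (((s - 1) / 2) ^ 2) * ∏ i : Fin ((s - 1) / 2), (q ^ (2 * ((i : ℕ) + 1)) - 1)) * ((q : ℕ) ^ ((m - s) ^ 2) * ∏ i : Fin (m - s), (q ^ (2 * ((i : ℕ) + 1)) - 1)) := by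
  have h2 : (2 : F) = 0 := CharTwo.two_eq_zero
  let e := H4.spEquiv m F
  have hf := H4.spForm_ND m F
  have hn : Module.finrank F (Fin m ⊕ Fin m → F) = 2 * m := by simp; omega
  rw [← (H4.rk_eq_rank (t := (e t).1) (M := t.1) fun _ => rfl).1] at hs
  replace ht : e t * e t = 1 := by rw [← map_mul, ← sq, ht, map_one]
  obtain ⟨d, h | h⟩ := H4.cent_na hf (fun _ => rfl) h2 ht fun h => by
    have := h.even hf (fun _ => rfl) h2 ht
    grind
  · rw [H4.card_cent_congr e, h.2, (H4.alt_fix_inv hf h2 hn ht hs).2,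
      show (s - 1) / 2 = d by omega, Nat.card_eq_fintype_card, hF]
    simp only [Finset.prod_range]
    ring
  · grind

end Cfsg.Agent.S2680
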