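import Cfsg.Statements.S2594
import Cfsg.Agent.H4.InB
import Cfsg.Agent.S2680

set_option autoImplicit false
open Cfsg

namespace Cfsg.Agent.S2594


/-- Over a finite field with q elements, q even, an element t of Sp_2m(F) with rank(t − 1) = 1 (a symplectic transvection) has centraliser in Sp_2m(F) of order q^(2m−1) · |Sp_(2m−2)(q)| = q^(2m−1) · q^((m−1)²) · Π_(i=1)^(m−1) (q^(2i) − 1). -/
theorem result {F : Type*} [Field F] [Fintype F] [CharP F 2] {q : ℕ} (hF : Fintype.card F = q) {m : ℕ} (hm : 1 ≤ m) (t : Matrix.symplecticGroup (Fin m) F) (ht : ((t : Matrix (Fin m ⊕ Fin m) (Fin m ⊕ Fin m) F) - 1).rank = 1) : Nat.card ↥(Subgroup.centralizer ({t} : Set ↥(Matrix.symplecticGroup (Fin m) F))) = q ^ (2 * m - 1) * (q ^ ((m - 1) ^ 2) * ∏ i : Fin (m - 1), (q ^ (2 * ((i : ℕ) + 1)) - 1)) := by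
  have h2 : (2 : F) = 0 := CharTwo.two_eq_zero
  let e := H4.spEquiv m F
  have hf := H4.spForm_ND m F
  have h3 := ht
  rw [← (H4.rk_eq_rank (t := (e t).1) (M := t.1) fun _ => rfl).1, H4.rk, finrank_eq_one_iff'] at h3
  obtain ⟨u, hu, h3⟩ := h3
  have h4 : ∀ x, H4.nil (e t).1 (H4.nil (e t).1 x) = 0 := fun x => by
    obtain ⟨c, hc⟩ := h3 ⟨_, x, rfl⟩
    obtain ⟨a, ha⟩ := h3 ⟨_, u, rfl⟩
    have hc' : c • u.1 = H4.nil (e t).1 x := congrArg Subtype.val hc
    have ha' : a • u.1 = H4.nil (e t).1 u := congrArg Subtype.val ha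
    obtain ⟨y, hy⟩ := hf.exists_ne (x := u.1) fun e => hu (Subtype.ext e)
    obtain ⟨b, hb⟩ := h3 ⟨_, y, rfl⟩
    have hb' : b • u.1 = H4.nil (e t).1 y := congrArg Subtype.val hb
    have := H4.Form.Isom_B (e t).2 u y
    rw [show (e t).1 u = _ from eq_add_of_sub_eq ha'.symm,
      show (e t).1 y = _ from eq_add_of_sub_eq hb'.symm] at this
    have h5 : a = 0 := by simpa [H4.alt_B_self, hy] using this
    rw [← hc', map_smul, ← ha', h5, zero_smul, smul_zero]
  have h5 : t ^ 2 = 1 := e.injective (by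
    rw [sq, map_mul, map_one]; exact Subtype.ext (H4.sq_of_nil h2 h4))
  simpa using Cfsg.Agent.S2680.result hF t h5 ht odd_one

end Cfsg.Agent.S2594
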