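import Cfsg.Statements.S2599
import Cfsg.Agent.H4.Count
import Cfsg.Agent.H4.MatBridge

set_option autoImplicit false
open Cfsg

namespace Cfsg.Agent.S2599


/-- An irreducible invariant subspace of a semisimple isometry is non-degenerate or totally singular: let Q be a quadratic form on F^n (F finite of characteristic p) with non-degenerate polar form f, x an isometry of Q of order prime to p, and U a non-zero x-invariant subspace containing no x-invariant subspace other than 0 and U. Then U meets its f-orthogonal trivially, or Q vanishes on U, or p = 2, U is a line spanned by a non-singular vector and x fixes U pointwise. -/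
theorem result {F : Type*} [Field F] [Fintype F] {p : ℕ} [Fact p.Prime] [CharP F p] {n : ℕ} (Q : QuadraticForm F (Fin n → F)) (hQ : (QuadraticMap.polarBilin Q).Nondegenerate) (x : ↥(Cfsg.isometryGroup F ⇑Q)) (hx : (orderOf x).Coprime p) (U : Submodule F (Fin n → F)) (hU0 : U ≠ ⊥) (hUx : ∀ u ∈ U, ((x : Matrix.GeneralLinearGroup (Fin n) F) : Matrix (Fin n) (Fin n) F).mulVec u ∈ U) (hirr : ∀ W : Submodule F (Fin n → F), W ≤ U → (∀ w ∈ W, ((x : Matrix.GeneralLinearGroup (Fin n) F) : Matrix (Fin n) (Fin n) F).mulVec w ∈ W) → W = ⊥ ∨ W = U) : U ⊓ LinearMap.BilinForm.orthogonal (QuadraticMap.polarBilin Q) U = ⊥ ∨ (∀ u ∈ U, Q u = 0) ∨ (p = 2 ∧ Module.finrank F U = 1 ∧ (∃ u ∈ U, Q u ≠ 0) ∧ ∀ u ∈ U, ((x : Matrix.GeneralLinearGroup (Fin n) F) : Matrix (Fin n) (Fin n) F).mulVec u = u) := by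
  let f := H4.quadForm Q
  let e : Cfsg.isometryGroup F ⇑Q ≃* f.Isom := H4.isometryEquiv f
  have h1 := f.stabSub_le_perp U (f.mem_stabSub_of_le (g := e x) hUx)
  have hQx : ∀ v, Q (x.1.1.mulVec v) = Q v := fun v => x.2 v v
  rcases hirr (U ⊓ f.perp U) inf_le_left fun w hw => ⟨hUx w hw.1, (h1 w).1 hw.2⟩ with h | h
  · exact .inl h
  have hB : ∀ u ∈ U, ∀ v ∈ U, QuadraticMap.polar Q u v = 0 := fun u hu v hv => (h.ge hv).2 u hu
  let Z : Submodule F (Fin n → F) :=
    { carrier := {u | u ∈ U ∧ Q u = 0}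
      add_mem' := fun {a b} ha hb => ⟨U.add_mem ha.1 hb.1, by
        rw [QuadraticMap.map_add Q, ha.2, hb.2, hB a ha.1 b hb.1]; simp⟩
      zero_mem' := ⟨U.zero_mem, map_zero Q⟩
      smul_mem' := fun c a ha => ⟨U.smul_mem c ha.1, by rw [Q.map_smul, ha.2, smul_zero]⟩ }
  rcases hirr Z (fun _ h => h.1) fun w hw => ⟨hUx w hw.1, (hQx w).trans hw.2⟩ with h2 | h2
  swap
  · exact .inr (.inl fun u hu => (h2.ge hu).2)
  obtain ⟨u, hu, hu0⟩ := U.exists_mem_ne_zero_of_ne_bot hU0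
  have h3 : Q u ≠ 0 := fun e => hu0 (h2.le ⟨hu, e⟩)
  have h4 : (2 : F) = 0 := by
    have := hB u hu u hu
    rw [QuadraticMap.polar_self, two_smul, ← two_mul] at this
    exact (mul_eq_zero.1 this).resolve_right h3
  have h5 : ∀ v ∈ U, x.1.1.mulVec v = v := fun v hv => sub_eq_zero.1 (h2.le ⟨U.sub_mem (hUx v hv) hv, by
    rw [sub_eq_add_neg, QuadraticMap.map_add Q, hB _ (hUx v hv) _ (U.neg_mem hv), Q.map_neg, hQx,
      ← two_mul, h4]; simp⟩)
  refine .inr (.inr ⟨((Nat.prime_dvd_prime_iff_eq Fact.out Nat.prime_two).1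
    ((CharP.cast_eq_zero_iff F p 2).1 (by exact_mod_cast h4))), ?_, ⟨u, hu, h3⟩, h5⟩)
  have h6 : (F ∙ u) ≤ U := by simpa
  rcases hirr _ h6 fun w hw => (h5 w (h6 hw)).symm ▸ hw with h7 | h7
  · exact absurd (by simpa using h7) hu0
  · rw [← h7, finrank_span_singleton hu0]

end Cfsg.Agent.S2599
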