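import Cfsg.Statements.S2600
import Cfsg.Agent.H5.GL2
import Cfsg.Agent.H5.GC8
import Cfsg.Agent.H5.GF0

set_option autoImplicit false
open Cfsg

namespace Cfsg.Agent.S2600

open H5.Gen

/-- Outer automorphism group of PSp_4(q) for q = 2^f even: it is cyclic of order 2f, generated by the class of the exceptional (graph-field) automorphism whose square is the Frobenius field automorphism. -/
theorem result {F : Type*} [Field F] [Fintype F] {f : ℕ} (hf : 1 ≤ f) (hF : Fintype.card F = 2 ^ f) : IsCyclic (Cfsg.Out (Cfsg.PSp 2 F)) ∧ Nat.card (Cfsg.Out (Cfsg.PSp 2 F)) = 2 * f := by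
  obtain ⟨a, h1, h2, -, h⟩ := squeeze_C (m := 2) (F := F)
  have h3 := (two_eq_zero_iff hf hF).2 rfl
  rw [gcd_two_card, if_pos h3] at h
  refine ⟨isCyclic_out_C2 (adjPSp le_rfl) h3 ?_, ?_⟩
  · rw [← MonoidHom.range_eq_top, ← Subgroup.index_eq_one, index_chiS, h]
  · rw [(adjPSp le_rfl).card_out, card_range_C2 (adjPSp le_rfl) h3, h, card_ringAut' hf hF]

end Cfsg.Agent.S2600
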