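import Cfsg.Statements.S2601
import Cfsg.Agent.H5.GL1

set_option autoImplicit false
open Cfsg

namespace Cfsg.Agent.S2601

open H5.Gen

/-- Structure of the outer automorphism group of PSL_n(q), n ≥ 3, q = p^f: it has a normal cyclic subgroup of order gcd(n, q − 1) (the diagonal automorphisms) whose quotient is the direct product of a cyclic group of order f (field automorphisms) and a group of order 2 (the inverse-transpose graph automorphism). -/
theorem result {F : Type*} [Field F] [Fintype F] {p f n : ℕ} [Fact p.Prime] (hf : 1 ≤ f) (hF : Fintype.card F = p ^ f) (hn : 3 ≤ n) : ∃ φ : Cfsg.Out (Matrix.ProjectiveSpecialLinearGroup (Fin n) F) →* Multiplicative (ZMod f × ZMod 2), Function.Surjective φ ∧ IsCyclic φ.ker ∧ Nat.card φ.ker = Nat.gcd n (p ^ f - 1) := by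
  obtain ⟨n, rfl⟩ : ∃ k, n = k + 1 := ⟨n - 1, by omega⟩
  have : NeZero n := ⟨by omega⟩
  obtain ⟨a, h1, h2, -, -⟩ := squeeze_A (n := n) (F := F)
  obtain ⟨Ψ, h3, ⟨e⟩⟩ := adjPSL.exists_out_fg (fun _ h => cpA (adjPSL.isDS_of_range h)) h1 h2
  obtain ⟨e1⟩ := exists_ringAut_equiv (card_ringAut' hf hF)
  obtain ⟨e2⟩ := nonempty_equiv_two ((card_range_A (n := n) (F := F)).trans (if_neg (by omega)))
  let e3 := (e1.prodCongr e2).trans (MulEquiv.prodMultiplicative _ _).symm
  refine ⟨e3.toMonoidHom.comp Ψ, e3.surjective.comp h3, ?_⟩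
  rw [MonoidHom.ker_comp_of_injective _ _ e3.injective, Nat.card_congr e.toEquiv, card_PwQ,
    Nat.card_eq_fintype_card, hF]
  exact ⟨isCyclic_of_surjective _ e.symm.surjective, rfl⟩

end Cfsg.Agent.S2601
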