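import Cfsg.Statements.S2602
import Cfsg.Agent.H5.GL1

set_option autoImplicit false
open Cfsg

namespace Cfsg.Agent.S2602

open H5.Gen

/-- Structure of the outer automorphism group of PSL_2(q), q = p^f ≥ 4: it has a normal cyclic subgroup of order gcd(2, q − 1) (diagonal automorphisms) with cyclic quotient of order f (field automorphisms); there is no graph automorphism in dimension 2. -/
theorem result {F : Type*} [Field F] [Fintype F] {p f : ℕ} [Fact p.Prime] (hf : 1 ≤ f) (hF : Fintype.card F = p ^ f) (h4 : 4 ≤ p ^ f) : ∃ φ : Cfsg.Out (Matrix.ProjectiveSpecialLinearGroup (Fin 2) F) →* Multiplicative (ZMod f), Function.Surjective φ ∧ IsCyclic φ.ker ∧ Nat.card φ.ker = Nat.gcd 2 (p ^ f - 1) := by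
  obtain ⟨a, h1, h2, -, -⟩ := squeeze_A (n := 1) (F := F)
  obtain ⟨Ψ, h3, ⟨e⟩⟩ := adjPSL.exists_out_fg (fun _ h => cpA (adjPSL.isDS_of_range h)) h1 h2
  obtain ⟨e1⟩ := exists_ringAut_equiv (card_ringAut' hf hF)
  have : Unique (sysPSL 1 F).sρ.range :=
    ⟨⟨1⟩, fun _ => Subtype.ext (Subsingleton.elim (α := Equiv.Perm (Fin 1)) _ _)⟩
  let e3 := (MulEquiv.prodUnique (N := (sysPSL 1 F).sρ.range)).trans e1
  refine ⟨e3.toMonoidHom.comp Ψ, e3.surjective.comp h3, ?_⟩
  rw [MonoidHom.ker_comp_of_injective _ _ e3.injective, Nat.card_congr e.toEquiv, card_PwQ,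
    Nat.card_eq_fintype_card, hF]
  exact ⟨isCyclic_of_surjective _ e.symm.surjective, rfl⟩

end Cfsg.Agent.S2602
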