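import Cfsg.Statements.S2604
import Cfsg.Agent.H5.GL6

set_option autoImplicit false
open Cfsg

namespace Cfsg.Agent.S2604

open H5.Gen

/-- Outer automorphism group of the simple orthogonal group Ω_(2m+1)(q), m ≥ 3, q = p^f odd: it is the direct product of a group of order 2 (diagonal automorphisms, from SO) and a cyclic group of order f (field automorphisms). -/
theorem result {F : Type*} [Field F] [Fintype F] {p f m : ℕ} [Fact p.Prime] (hf : 1 ≤ f) (hF : Fintype.card F = p ^ f) (hp : p ≠ 2) (hm : 3 ≤ m) : Nonempty (Cfsg.Out (Cfsg.POmega F (Cfsg.quadFormOdd m F)) ≃* Multiplicative (ZMod 2 × ZMod f)) := by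
  have : NeZero m := ⟨by omega⟩
  have h2 : (2 : F) ≠ 0 := fun h => hp ((two_eq_zero_iff hf hF).1 h)
  have : Fact (∃ a : F, a ≠ 0 ∧ a ≠ 1) := ⟨-1, by simp, fun h => h2 (by linear_combination -h)⟩
  obtain ⟨a, h3, h4, -, h⟩ := squeeze_B (m := m) (F := F)
  have hA := adjPOo (F := F) (m := m) (by omega)
  have hr := range_B hA (by omega)
  have hc : Nat.card (PwQ F 2) = 2 := by rw [card_PwQ, gcd_two_card, if_neg h2]
  obtain ⟨e1⟩ := exists_ringAut_equiv (card_ringAut' hf hF)
  obtain ⟨e2⟩ := nonempty_equiv_two hc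
  have h5 : ∀ x y : PwQ F 2, x ≠ 1 → y ≠ 1 → x = y := fun x y hx hy => by
    obtain ⟨z, -, hz⟩ := (Nat.card_eq_two_iff' 1).1 hc
    rw [hz x hx, hz y hy]
  have h6 : ∀ (σ : F ≃+* F) (c : Fin m → Fˣ), a c = 1 → a (fun i => Units.map (σ : F →* F) (c i)) = 1 :=
    fun σ c hc => by
      obtain ⟨d, rfl⟩ : c ∈ (chiS (ambB m).rs F).range := h4 ▸ hc
      rw [← MonoidHom.mem_ker, h4]
      exact ⟨fun i => Units.map (σ : F →* F) (d i), by funext i; simp [chiS, chi]⟩
  have h7 : ∀ (σ : F ≃+* F) (c : Fin m → Fˣ), a c = a (fun i => Units.map (σ : F →* F) (c i)) :=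
    fun σ c => by
      by_cases h7 : a c = 1
      · rw [h7, h6 σ c h7]
      · refine h5 _ _ h7 fun h8 => h7 ?_
        have := h6 σ.symm _ h8
        rwa [show (fun i => _) = c from funext fun i => Units.ext (σ.symm_apply_apply _)] at this
  obtain ⟨e⟩ := hA.out_equiv_prod (P := PwQ F 2) (fun π h => by
      rw [hr, Subgroup.mem_bot] at h; exact h ▸ fun _ _ => rfl) a 1 1
    (fun c => (h4.ge ⟨c, rfl⟩ : _ ∈ a.ker)) (fun σ c => by rw [MonoidHom.one_apply, one_mul, mul_one]; exact h7 σ c) (fun π h c => by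
      rw [hr, Subgroup.mem_bot] at h; simp [h]) (by simp)
    (fun x => (h3 x).imp fun c hc => ⟨1, one_mem _, by simpa using hc⟩)
    (by rw [hr, h, card_PwQ, Subgroup.card_bot, one_mul])
  exact ⟨e.trans ((e2.prodCongr e1).trans (MulEquiv.prodMultiplicative _ _).symm)⟩

end Cfsg.Agent.S2604
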