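import Cfsg.Statements.S2606
import Cfsg.Agent.H4.AuO

set_option autoImplicit false
open Cfsg

namespace Cfsg.Agent.S2606


/-- Outer automorphism group of PΩ⁻_2m(q), m ≥ 4, q = p^f odd: it is dihedral of order 8 times cyclic of order f when q ≡ 3 (mod 4) and m is odd, and otherwise the direct product of a group of order 2 with a cyclic group of order 2f. -/
theorem result {F : Type*} [Field F] [Fintype F] {p f m : ℕ} [Fact p.Prime] (hf : 1 ≤ f) (hF : Fintype.card F = p ^ f) (hp : p ≠ 2) (hm : 4 ≤ m) (a b : F) (hab : ∀ z₁ z₂ : F, z₁ ^ 2 + a * z₁ * z₂ + b * z₂ ^ 2 = 0 → z₁ = 0 ∧ z₂ = 0) : if p ^ f % 4 = 3 ∧ Odd m then Nonempty (Cfsg.Out (Cfsg.POmega F (Cfsg.quadFormMinus (m - 1) F a b)) ≃* DihedralGroup 4 × Multiplicative (ZMod f)) else Nonempty (Cfsg.Out (Cfsg.POmega F (Cfsg.quadFormMinus (m - 1) F a b)) ≃* Multiplicative (ZMod 2 × ZMod (2 * f))) := by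
  obtain ⟨m, rfl⟩ : ∃ k, m = k + 1 := ⟨m - 1, by omega⟩
  have h := H4.Au.disc_minus_iff (m := m) hab (mt (H4.Au.two_ne_iff_p hF).1 hp)
  rw [Nat.card_eq_fintype_card, hF, and_comm, ← Nat.not_odd_iff_even, ← Nat.odd_add_one] at h
  split_ifs with h1
  · exact H4.Au.s2606b hab (by omega) hf hF hp (h.2 h1)
  · exact H4.Au.s2606a hab (by omega) hf hF hp (mt h.1 h1)

end Cfsg.Agent.S2606
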