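import Cfsg.Statements.S2607
import Cfsg.Agent.H5.GL4

set_option autoImplicit false
open Cfsg

namespace Cfsg.Agent.S2607

open H5.Gen

/-- Outer automorphism group of PΩ⁺_2m(q), q = 2^f: for m ≥ 5 it is the direct product of a group of order 2 (graph automorphism, an orthogonal transvection) and a cyclic group of order f (field automorphisms); for m = 4 triality enlarges it to S_3 × C_f. -/
theorem result {F : Type*} [Field F] [Fintype F] {f m : ℕ} (hf : 1 ≤ f) (hF : Fintype.card F = 2 ^ f) (hm : 4 ≤ m) : if m = 4 then Nonempty (Cfsg.Out (Cfsg.POmega F (Cfsg.quadFormPlus m F)) ≃* Equiv.Perm (Fin 3) × Multiplicative (ZMod f)) else Nonempty (Cfsg.Out (Cfsg.POmega F (Cfsg.quadFormPlus m F)) ≃* Multiplicative (ZMod 2 × ZMod f)) := by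
  obtain ⟨n, rfl⟩ : ∃ k, m = k + 2 := ⟨m - 2, by omega⟩
  have : NeZero n := ⟨by omega⟩
  obtain ⟨e⟩ := out_D_two (n := n) ((two_eq_zero_iff hf hF).2 rfl)
  obtain ⟨e1⟩ := exists_ringAut_equiv (card_ringAut' hf hF)
  split_ifs with h
  · obtain rfl : n = 2 := by omega
    obtain ⟨e2⟩ := range_D4_equiv (F := F)
    exact ⟨e.trans (MulEquiv.prodComm.trans (e2.prodCongr e1))⟩
  · obtain ⟨e2⟩ := nonempty_equiv_two (card_range_D (n := n) (F := F) (by omega))
    exact ⟨e.trans (MulEquiv.prodComm.trans ((e2.prodCongr e1).trans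
      (MulEquiv.prodMultiplicative _ _).symm))⟩

end Cfsg.Agent.S2607
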