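import Cfsg.Statements.S2609
import Cfsg.Agent.H4.Orth

set_option autoImplicit false
open Cfsg

namespace Cfsg.Agent.S2609


/-- Spinor norm criterion for Ω over a finite field of odd order: let Q be a quadratic form on F^n, n ≥ 2, with non-degenerate polar form, and let g be an isometry written as a product of reflections in non-singular vectors v_1, …, v_k. Then g lies in Ω (the commutator subgroup of the orthogonal group) if and only if k is even and Q(v_1)⋯Q(v_k) is a square; in particular, for g of determinant one, whether that product is a square does not depend on the chosen factorisation (it is the spinor norm of g). -/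
theorem result {F : Type*} [Field F] [Fintype F] (h2 : (2 : F) ≠ 0) {n : ℕ} (hn : 2 ≤ n) (Q : QuadraticForm F (Fin n → F)) (hQ : (QuadraticMap.polarBilin Q).Nondegenerate) (g : ↥(Cfsg.isometryGroup F ⇑Q)) (vs : List (Fin n → F)) (hvs : ∀ v ∈ vs, Q v ≠ 0) (hg : ((g : Matrix.GeneralLinearGroup (Fin n) F) : Matrix (Fin n) (Fin n) F) = (vs.map (fun v => Cfsg.reflectionMatrix ⇑Q v)).prod) : g ∈ Cfsg.Omega F ⇑Q ↔ (Even vs.length ∧ IsSquare (vs.map (fun v => Q v)).prod) := by
  let f := H4.quadForm Q
  have hf : f.ND := H4.quadForm_ND hQ
  change ↥(isometryGroup F f.Q) at g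
  obtain ⟨a, h1, h3, h4⟩ := H4.dick_spin_list hf vs hvs
  have : H4.isometryEquiv f g = a := by
    refine H4.Form.isom_ext fun y => ?_
    rw [h4, H4.isometryEquiv_apply]
    erw [hg]
    clear h1 h3 h4 hg
    induction vs with
    | nil => simp
    | cons v vs ih =>
      have := ih fun x hx => hvs x (List.mem_cons_of_mem _ hx)
      simp only [List.map_cons, List.prod_cons, List.attach_cons, List.map_map,
        LinearEquiv.mul_apply, ← Matrix.mulVec_mulVec, this]
      exact (H4.reflectionMatrix_mulVec f v _).trans (f.reflx_apply v _ _).symm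
  refine (H4.mem_Omega_iff f).trans ?_
  rw [this, H4.mem_commutator_iff hf (H4.hgen_odd hf h2), h1, h3, H4.chi_eq_one,
    neg_one_pow_eq_one_iff_even (by decide)]
  rfl

end Cfsg.Agent.S2609
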