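import Cfsg.Statements.S2612
import Cfsg.Agent.H4.Orth2

set_option autoImplicit false
open Cfsg

namespace Cfsg.Agent.S2612


/-- For the hyperbolic quadratic form Σ x_i y_i on F^(2m) (F finite, m ≥ 1, excluding m = 2 over the field of two elements), Ω⁺_2m(F) (the commutator subgroup of the orthogonal group) contains an element interchanging the two complementary maximal totally singular subspaces {y = 0} and {x = 0} if and only if m is even (dimension divisible by 4). -/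
theorem result {F : Type*} [Field F] [Fintype F] {m : ℕ} (hm : 1 ≤ m) (h : Fintype.card F ≠ 2 ∨ m ≠ 2) : (∃ g : ↥(Cfsg.isometryGroup F (Cfsg.quadFormPlus m F)), g ∈ Cfsg.Omega F (Cfsg.quadFormPlus m F) ∧ (∀ v : Fin m ⊕ Fin m → F, (∀ i, v (Sum.inr i) = 0) → ∀ i, (((g : Matrix.GeneralLinearGroup (Fin m ⊕ Fin m) F) : Matrix (Fin m ⊕ Fin m) (Fin m ⊕ Fin m) F).mulVec v) (Sum.inl i) = 0) ∧ (∀ v : Fin m ⊕ Fin m → F, (∀ i, v (Sum.inl i) = 0) → ∀ i, (((g : Matrix.GeneralLinearGroup (Fin m ⊕ Fin m) F) : Matrix (Fin m ⊕ Fin m) (Fin m ⊕ Fin m) F).mulVec v) (Sum.inr i) = 0)) ↔ Even m := by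
  let f := H4.plusForm F m
  have hf : f.ND := H4.plusForm_ND F m
  have hgen := H4.hgen_of hf (h.imp (by rw [Nat.card_eq_fintype_card]; exact id) (by simp; omega))
  have key : ∀ g : f.Isom, (∀ v ∈ H4.U0 F m, g.1 v ∈ H4.U1 F m) → (H4.dick g = 1 ↔ Even m) := by
    intro g hg
    rw [H4.dick_eq_one_iff_parity hf hgen (H4.finrank_plus F m) (H4.TS_U0 F m) (H4.finrank_U0 F m),
      eq_bot_iff.2 ((inf_le_inf_left _ (Submodule.map_le_iff_le_comap.2 hg)).trans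
        (H4.U0_inf_U1 F m).le)]
    simp
  constructor
  · rintro ⟨g, h1, h2, -⟩
    exact (key (H4.isometryEquiv f g) fun v hv => H4.mem_U1.2 (h2 v (H4.mem_U0.1 hv))).1
      ((H4.mem_commutator_iff hf hgen).1 ((H4.mem_Omega_iff f).1 h1)).1
  · intro he
    let s : f.Isom := ⟨LinearEquiv.funCongrLeft F F (Equiv.sumComm _ _), (H4.quad_mem_Isom _).2
      fun x => Finset.sum_congr (s₁ := Finset.univ) rfl fun i _ => mul_comm (x (.inr i)) (x (.inl i))⟩
    have hs : ∀ v ∈ H4.U0 F m, s.1 v ∈ H4.U1 F m := fun v hv => H4.mem_U1.2 (H4.mem_U0.1 hv)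
    have hs' : ∀ v ∈ H4.U1 F m, s.1 v ∈ H4.U0 F m := fun v hv => H4.mem_U0.2 (H4.mem_U1.1 hv)
    obtain ⟨t, ht, h1⟩ := H4.exists_mul_mem_omega' hf hgen
      (f.stabSub (H4.U0 F m) ⊓ f.stabSub (H4.U1 F m)) (fun h2 => by
        obtain ⟨c, hc, e⟩ := H4.exists_chi_eq h2 (-1)
        obtain ⟨A, hA⟩ := (haveI : Nonempty (Fin m) := ⟨⟨0, hm⟩⟩;
          H4.gl_det_surjective (ι := Fin m) (Units.mk0 c hc))
        refine ⟨H4.levi F m A, ⟨H4.levi_mem_U0 A, H4.levi_mem_U1 A⟩, H4.dick_levi hgen A, ?_⟩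
        rw [H4.spin_levi hgen, ← e]
        exact congrArg (fun u : Fˣ => H4.chi (u : F)) hA) ((key s hs).2 he)
    refine ⟨(H4.isometryEquiv f).symm (s * t), (H4.mem_Omega_iff f).2 (by simpa using h1),
      fun v hv => ?_, fun v hv => ?_⟩
    · erw [H4.isometryEquiv_symm_mulVec]
      exact H4.mem_U1.1 (hs _ ((ht.1 v).1 (H4.mem_U0.2 hv)))
    · erw [H4.isometryEquiv_symm_mulVec]
      exact H4.mem_U0.1 (hs' _ ((ht.2 v).1 (H4.mem_U1.2 hv)))

end Cfsg.Agent.S2612
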