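import Cfsg.Statements.S2614
import Cfsg.Agent.H4.Orth

set_option autoImplicit false
open Cfsg

namespace Cfsg.Agent.S2614


/-- For the form x_0² + Σ x_j y_j on F^(2m+1), F finite with q elements, q odd, and 1 ≤ i ≤ m: the involution of determinant one negating the first i hyperbolic pairs (and fixing x_0 and the other pairs) lies in Ω_(2m+1)(q) (commutator subgroup of the orthogonal group) if and only if q^i ≡ 1 (mod 4); its (−1)-eigenspace is a hyperbolic 2i-space. -/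
theorem result {F : Type*} [Field F] [Fintype F] {q : ℕ} (hF : Fintype.card F = q) (hq : Odd q) {m : ℕ} (i : ℕ) (hi : 1 ≤ i) (him : i ≤ m) : (∃ g : ↥(Cfsg.isometryGroup F (Cfsg.quadFormOdd m F)), g ∈ Cfsg.Omega F (Cfsg.quadFormOdd m F) ∧ ((g : Matrix.GeneralLinearGroup (Unit ⊕ (Fin m ⊕ Fin m)) F) : Matrix (Unit ⊕ (Fin m ⊕ Fin m)) (Unit ⊕ (Fin m ⊕ Fin m)) F) = Matrix.diagonal (fun k : Unit ⊕ (Fin m ⊕ Fin m) => if (Sum.elim (fun _ : Unit => i) (Sum.elim (fun j : Fin m => (j : ℕ)) (fun j : Fin m => (j : ℕ))) k) < i then (-1 : F) else 1)) ↔ q ^ i % 4 = 1 := by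
  rw [← Nat.card_eq_fintype_card] at hF; subst hF
  have h2 := H4.odd_card_iff.1 hq
  let f := H4.oddForm F m
  have hf : f.ND := H4.oddForm_ND F m h2
  obtain ⟨g, h1, h3, h4⟩ := H4.exists_neg_pairs hf h2
    (Sum.elim (fun _ : Unit => i) (Sum.elim (fun j : Fin m => (j : ℕ)) (fun j : Fin m => (j : ℕ))))
    i fun j hj =>
    ⟨.inr (.inl ⟨j, by omega⟩), .inr (.inr ⟨j, by omega⟩), by simp [f, H4.oddForm_Q, quadFormOdd],
      by simp [f, H4.oddForm_Q, quadFormOdd], by simp [f, H4.oddForm_B, Pi.single_apply],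
      by simp [f, H4.oddForm_B, Pi.single_apply],
      by rintro (k | k | k) <;> simp [Fin.ext_iff]; omega⟩
  refine (H4.exists_omega_eq_iff f (g := g) fun x => ?_).trans ?_
  · ext k; rw [h1, Matrix.mulVec_diagonal]
  rw [H4.mem_commutator_iff hf (H4.hgen_odd hf h2), h3, h4, H4.chi_neg_one_pow_eq_one_iff h2]
  simp

end Cfsg.Agent.S2614
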