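import Cfsg.Statements.S2615
import Cfsg.Agent.H4.Orth

set_option autoImplicit false
open Cfsg

namespace Cfsg.Agent.S2615


/-- For an elliptic form Σ_(j<m−1) x_j y_j + (z₁² + a z₁z₂ + b z₂²) (anisotropic binary part) on F^(2m), F finite with q elements, q odd, and 1 ≤ i ≤ m − 1: the involution negating the first i hyperbolic pairs and fixing the rest lies in Ω⁻_2m(q) (commutator subgroup of the orthogonal group) if and only if q^i ≡ 1 (mod 4). -/
theorem result {F : Type*} [Field F] [Fintype F] {q : ℕ} (hF : Fintype.card F = q) (hq : Odd q) {m : ℕ} (a b : F) (hab : ∀ z₁ z₂ : F, z₁ ^ 2 + a * z₁ * z₂ + b * z₂ ^ 2 = 0 → z₁ = 0 ∧ z₂ = 0) (i : ℕ) (hi : 1 ≤ i) (him : i + 1 ≤ m) : (∃ g : ↥(Cfsg.isometryGroup F (Cfsg.quadFormMinus (m - 1) F a b)), g ∈ Cfsg.Omega F (Cfsg.quadFormMinus (m - 1) F a b) ∧ ((g : Matrix.GeneralLinearGroup ((Fin (m - 1) ⊕ Fin (m - 1)) ⊕ Fin 2) F) : Matrix ((Fin (m - 1) ⊕ Fin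 (m - 1)) ⊕ Fin 2) ((Fin (m - 1) ⊕ Fin (m - 1)) ⊕ Fin 2) F) = Matrix.diagonal (fun k : (Fin (m - 1) ⊕ Fin (m - 1)) ⊕ Fin 2 => if (Sum.elim (Sum.elim (fun j : Fin (m - 1) => (j : ℕ)) (fun j : Fin (m - 1) => (j : ℕ))) (fun _ : Fin 2 => i) k) < i then (-1 : F) else 1)) ↔ q ^ i % 4 = 1 := by
  rw [← Nat.card_eq_fintype_card] at hF; subst hF
  have h2 := H4.odd_card_iff.1 hq
  let f := H4.minusForm F (m - 1) a b
  have hf : f.ND := H4.minusForm_ND _ hab
  obtain ⟨g, h1, h3, h4⟩ := H4.exists_neg_pairs hf h2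
    (Sum.elim (Sum.elim (fun j : Fin (m - 1) => (j : ℕ)) (fun j : Fin (m - 1) => (j : ℕ)))
      (fun _ : Fin 2 => i)) i fun j hj =>
    ⟨.inl (.inl ⟨j, by omega⟩), .inl (.inr ⟨j, by omega⟩),
      by simp [f, H4.minusForm_Q, quadFormMinus],
      by simp [f, H4.minusForm_Q, quadFormMinus], by simp [f, H4.minusForm_B, Pi.single_apply],
      by simp [f, H4.minusForm_B, Pi.single_apply],
      by rintro ((k | k) | k) <;> simp [Fin.ext_iff]; omega⟩
  refine (H4.exists_omega_eq_iff f (g := g) fun x => ?_).trans ?_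
  · ext k; rw [h1, Matrix.mulVec_diagonal]
  rw [H4.mem_commutator_iff hf (H4.hgen_odd hf h2), h3, h4, H4.chi_neg_one_pow_eq_one_iff h2]
  simp

end Cfsg.Agent.S2615
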