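import Cfsg.Statements.S2616
import Cfsg.Agent.H4.Orth2

set_option autoImplicit false
open Cfsg

namespace Cfsg.Agent.S2616


/-- Standard bases of a non-degenerate quadratic space of even dimension 2m over a finite field: either there is a hyperbolic basis e_i, f_i (Q(e_i) = Q(f_i) = 0, B(e_i, f_j) = δ_ij, the e's pairwise orthogonal and the f's pairwise orthogonal, B the polar form), or there is an elliptic basis: hyperbolic pairs e_i, f_i for i < m − 1 together with x, y orthogonal to them with Q(x) = 1, B(x, y) = 1, Q(y) = ζ where t² + t + ζ has no root in the field. -/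
theorem result {F V : Type*} [Field F] [Finite F] [AddCommGroup V] [Module F V] [FiniteDimensional F V] {m : ℕ} (hm : 1 ≤ m) (hV : Module.finrank F V = 2 * m) (Q : QuadraticForm F V) (hQ : (QuadraticMap.polarBilin Q).Nondegenerate) : (∃ b : Module.Basis (Fin m ⊕ Fin m) F V, (∀ i, Q (b (Sum.inl i)) = 0 ∧ Q (b (Sum.inr i)) = 0) ∧ (∀ i j, QuadraticMap.polar ⇑Q (b (Sum.inl i)) (b (Sum.inr j)) = if i = j then 1 else 0) ∧ (∀ i j, QuadraticMap.polar ⇑Q (b (Sum.inl i)) (b (Sum.inl j)) = 0 ∧ QuadraticMap.polar ⇑Q (b (Sum.inr i)) (b (Sum.inr j)) = 0)) ∨ (∃ (b : Module.Basis ((Fin (m - 1) ⊕ Fin (m - 1)) ⊕ Fin 2) F V) (ζ : F), (∀ t : F, t ^ 2 + t + ζ ≠ 0) ∧ (∀ i, Q (b (Sum.inl (Sum.inl i))) = 0 ∧ Q (b (Sum.inl (Sum.inr i))) = 0) ∧ (∀ i j, QuadraticMap.polar ⇑Q (b (Sum.inl (Sum.inl i))) (b (Sum.inl (Sum.inr j))) = if i = j then 1 else 0) ∧ (∀ i j, QuadraticMap.polar ⇑Q (b (Sum.inl (Sum.inl i))) (b (Sum.inl (Sum.inl j)))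 = 0 ∧ QuadraticMap.polar ⇑Q (b (Sum.inl (Sum.inr i))) (b (Sum.inl (Sum.inr j))) = 0) ∧ (∀ i (k : Fin 2), QuadraticMap.polar ⇑Q (b (Sum.inl (Sum.inl i))) (b (Sum.inr k)) = 0 ∧ QuadraticMap.polar ⇑Q (b (Sum.inl (Sum.inr i))) (b (Sum.inr k)) = 0) ∧ Q (b (Sum.inr 0)) = 1 ∧ QuadraticMap.polar ⇑Q (b (Sum.inr 0)) (b (Sum.inr 1)) = 1 ∧ Q (b (Sum.inr 1)) = ζ) := by
  let f := H4.quadForm Q
  have hf : f.ND := H4.quadForm_ND hQ
  by_cases h : f.HasTS m
  · obtain ⟨e, he⟩ := H4.plus_exists_isIso m _ _ _ _ (H4.plusForm_ND F m) hf (H4.finrank_plus F m) hV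
      (H4.plusForm_hasTS m) h
    have hQ : ∀ x, Q (e x) = _ := he.Q
    have hB : ∀ x y, QuadraticMap.polar Q (e x) (e y) = _ := he.B
    refine Or.inl ⟨(Pi.basisFun F _).map e, fun i => ?_, fun i j => ?_, fun i j => ?_⟩ <;>
      simp [hQ, hB, H4.plusForm_Q, H4.plusForm_B, quadFormPlus, Pi.single_apply, eq_comm]
  · obtain ⟨ζ, hζ⟩ : ∃ ζ : F, ∀ t : F, t ^ 2 + t + ζ ≠ 0 := by
      by_contra hc
      push Not at hc
      have := Finite.injective_iff_surjective.2 (show Function.Surjective fun t : F => -(t ^ 2 + t)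
        from fun z => (hc z).imp fun t ht => by linear_combination -ht) (a₁ := 0) (a₂ := -1) (by ring)
      simp at this
    have hab : ∀ z₁ z₂ : F, z₁ ^ 2 + 1 * z₁ * z₂ + ζ * z₂ ^ 2 = 0 → z₁ = 0 ∧ z₂ = 0 := by
      intro x y e
      by_cases hy : y = 0
      · subst hy; simpa using e
      · exact absurd (by field_simp; linear_combination e) (hζ (x / y))
    obtain ⟨e, he⟩ := H4.minus_exists_isIso (m - 1) _ _ _ _ (H4.minusForm_ND _ hab) hf
      (by simp; ring) (by omega) (H4.minusForm_not_hasTS _ hab) (by rwa [Nat.sub_add_cancel hm])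
    have hQ : ∀ x, Q (e x) = _ := he.Q
    have hB : ∀ x y, QuadraticMap.polar Q (e x) (e y) = _ := he.B
    refine Or.inr ⟨(Pi.basisFun F _).map e, ζ, hζ, fun i => ?_, fun i j => ?_, fun i j => ?_,
      fun i k => ?_, ?_, ?_, ?_⟩ <;>
      simp [hQ, hB, H4.minusForm_Q, H4.minusForm_B, quadFormMinus, Pi.single_apply, eq_comm]

end Cfsg.Agent.S2616
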