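import Cfsg.Statements.S2618
import Cfsg.Agent.H4.Orth2

set_option autoImplicit false
open Cfsg

namespace Cfsg.Agent.S2618


/-- Standard (parabolic) basis of a non-degenerate quadratic space of odd dimension 2m + 1 over a finite field (the non-degeneracy of the polar form forces the characteristic to be odd): there is a basis e_i, f_i (i < m), x with Q(e_i) = Q(f_i) = 0, B(e_i, f_j) = δ_ij (B the polar form), the e's pairwise orthogonal and the f's pairwise orthogonal, x orthogonal to all of them and Q(x) ≠ 0. -/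
theorem result {F V : Type*} [Field F] [Finite F] [AddCommGroup V] [Module F V] [FiniteDimensional F V] {m : ℕ} (hV : Module.finrank F V = 2 * m + 1) (Q : QuadraticForm F V) (hQ : (QuadraticMap.polarBilin Q).Nondegenerate) : ∃ b : Module.Basis (Unit ⊕ (Fin m ⊕ Fin m)) F V, Q (b (Sum.inl ())) ≠ 0 ∧ (∀ i, QuadraticMap.polar ⇑Q (b (Sum.inl ())) (b (Sum.inr (Sum.inl i))) = 0 ∧ QuadraticMap.polar ⇑Q (b (Sum.inl ())) (b (Sum.inr (Sum.inr i))) = 0) ∧ (∀ i, Q (b (Sum.inr (Sum.inl i))) = 0 ∧ Q (b (Sum.inr (Sum.inr i))) = 0) ∧ (∀ i j, QuadraticMap.polar ⇑Q (b (Sum.inr (Sum.inl i))) (b (Sum.inr (Sum.inr j))) = if i = j then 1 else 0) ∧ (∀ i j, QuadraticMap.polar ⇑Q (b (Sum.inr (Sum.inl i))) (b (Sum.inr (Sum.inl j))) = 0 ∧ QuadraticMap.polar ⇑Q (b (Sum.inr (Sum.inr i))) (b (Sum.inr (Sum.inr j))) = 0) := by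
  let f := H4.quadForm Q
  have hf : f.ND := H4.quadForm_ND hQ
  have ho : Odd (Module.finrank F V) := ⟨m, hV⟩
  have h2 := H4.quad_two_ne_zero_of_odd hf ho
  obtain ⟨c, hc, e, he⟩ := H4.odd_similar hf (H4.oddForm_ND F m h2) ho (by simp [hV]; ring)
  have hQ : ∀ x, Q (e.symm x) = c⁻¹ * quadFormOdd m F x := fun x => by
    rw [eq_inv_mul_iff_mul_eq₀ hc]; exact he.symm.Q x
  have hB : ∀ x y, QuadraticMap.polar Q (e.symm x) (e.symm y) = c⁻¹ * (H4.oddForm F m).B x y :=
    fun x y => by rw [eq_inv_mul_iff_mul_eq₀ hc]; exact he.symm.B x y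
  refine ⟨((Pi.basisFun F _).map e.symm).unitsSMul
    (Sum.elim 1 (Sum.elim 1 fun _ => Units.mk0 c hc)), ?_, fun i => ?_, fun i => ?_, fun i j => ?_,
    fun i j => ?_⟩ <;>
    simp [Module.Basis.unitsSMul_apply, QuadraticMap.map_smul, hQ, hB, H4.oddForm_B, quadFormOdd,
      Pi.single_apply, eq_comm, hc]

end Cfsg.Agent.S2618
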