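import Cfsg.Statements.S2619
import Cfsg.Agent.H4.Orth2

set_option autoImplicit false
open Cfsg

namespace Cfsg.Agent.S2619


/-- Over a finite field of characteristic two, given an alternating bilinear form B on a finite-dimensional space, a basis (v_i) and scalars (λ_i), there is exactly one quadratic form whose polar form is B and whose value at each v_i is λ_i. -/
theorem result {F V ι : Type*} [Field F] [Finite F] [CharP F 2] [AddCommGroup V] [Module F V] [Fintype ι] (b : Module.Basis ι F V) (B : LinearMap.BilinForm F V) (hB : B.IsAlt) (c : ι → F) : ∃! Q : QuadraticForm F V, QuadraticMap.polarBilin Q = B ∧ ∀ i, Q (b i) = c i := by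
  classical
  obtain ⟨inst⟩ : Nonempty (LinearOrder ι) := ⟨linearOrderOfSTO WellOrderingRel⟩
  obtain ⟨B', hB'⟩ : ∃ B' : LinearMap.BilinForm F V, ∀ i j, B' (b i) (b j) =
      if i < j then B (b i) (b j) else if i = j then c i else 0 :=
    ⟨b.constr F fun i => b.constr F fun j => _, fun i j => by
      rw [Module.Basis.constr_basis, Module.Basis.constr_basis]⟩
  have h2 : (2 : F) = 0 := CharTwo.two_eq_zero
  refine ⟨B'.toQuadraticMap, ⟨?_, fun i => by simp [hB']⟩, ?_⟩
  · rw [LinearMap.BilinMap.polarBilin_toQuadraticMap]
    refine b.ext fun i => b.ext fun j => ?_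
    simp only [hB', LinearMap.add_apply, LinearMap.flip_apply]
    rcases lt_trichotomy i j with h | rfl | h
    · simp [h, h.ne', h.not_gt]
    · simp [hB.self_eq_zero, ← two_mul, h2]
    · simp [h, h.ne', h.not_gt, ← hB.neg_eq (b j), CharTwo.neg_eq]
  · rintro Q ⟨rfl, hc⟩
    refine (Q.toQuadraticMap_toBilin b).symm.trans ?_
    congr 1
    refine b.ext fun i => b.ext fun j => ?_
    rw [hB', QuadraticMap.toBilin_apply]
    rcases lt_trichotomy i j with h | rfl | h
    · simp [h, h.ne]
    · simp [hc]
    · simp [h.ne', h.not_gt]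

end Cfsg.Agent.S2619
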