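import Cfsg.Statements.S2620
import Cfsg.Agent.H4.Orth2

set_option autoImplicit false
open Cfsg

namespace Cfsg.Agent.S2620


/-- Discriminant of the hyperbolic quadratic form Σ_(i<m) x_i y_i over a field with q elements, q odd, m ≥ 1: the determinant of the Gram matrix of its polar form in any basis is a square if and only if m(q − 1)/2 is even (equivalently q^m ≡ 1 (mod 4)). -/
theorem result {F : Type*} [Field F] [Fintype F] {q : ℕ} (hF : Fintype.card F = q) (hq : Odd q) {m : ℕ} (hm : 1 ≤ m) {ι : Type*} [Fintype ι] [DecidableEq ι] (b : Module.Basis ι F (Fin m ⊕ Fin m → F)) : IsSquare (Matrix.of (fun i j : ι => QuadraticMap.polar (Cfsg.quadFormPlus m F) (b i) (b j))).det ↔ Even (m * (q - 1) / 2) := by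
  rw [← Nat.card_eq_fintype_card] at hF; subst hF
  have h2 := H4.odd_card_iff.1 hq
  let f := H4.plusForm F m
  rw [show (Matrix.of fun i j : ι => QuadraticMap.polar (quadFormPlus m F) (b i) (b j)) = f.gram b
    by ext i j; exact H4.polar_eq_B f _ _, ← H4.chi_eq_one, ← H4.disc_eq, H4.disc_plusForm]
  obtain ⟨k, hk⟩ := hq
  rw [show m * (Nat.card F - 1) / 2 = m * k by
    rw [hk, Nat.add_sub_cancel, ← mul_assoc, mul_comm m, mul_assoc, Nat.mul_div_cancel_left _ two_pos],
    Nat.even_mul, Nat.even_iff (n := k), show k % 2 = 0 ↔ Nat.card F % 4 = 1 by omega,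
    ← H4.chi_neg_one_eq_one_iff h2]
  rcases Int.units_eq_one_or (H4.chi (-1 : F)) with h | h <;>
    simp [h, neg_one_pow_eq_one_iff_even]

end Cfsg.Agent.S2620
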