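import Cfsg.Statements.S2621
import Cfsg.Agent.H4.Orth2

set_option autoImplicit false
open Cfsg

namespace Cfsg.Agent.S2621


/-- Discriminant of an elliptic quadratic form Σ_(i<m−1) x_i y_i + z₁² + a z₁z₂ + c z₂² (binary part anisotropic) in dimension 2m over a field with q elements, q odd, m ≥ 1: the determinant of the Gram matrix of its polar form in any basis is a square if and only if m(q − 1)/2 is odd (equivalently q^m ≡ 3 (mod 4)). -/
theorem result {F : Type*} [Field F] [Fintype F] {q : ℕ} (hF : Fintype.card F = q) (hq : Odd q) {m : ℕ} (hm : 1 ≤ m) (a c : F) (hac : ∀ z₁ z₂ : F, z₁ ^ 2 + a * z₁ * z₂ + c * z₂ ^ 2 = 0 → z₁ = 0 ∧ z₂ = 0) {ι : Type*} [Fintype ι] [DecidableEq ι] (b : Module.Basis ι F ((Fin (m - 1) ⊕ Fin (m - 1)) ⊕ Fin 2 → F)) : IsSquare (Matrix.of (fun i j : ι => QuadraticMap.polar (Cfsg.quadFormMinus (m - 1) F a c) (b i) (b j))).det ↔ ¬ Even (m * (q - 1) / 2) := by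
  rw [← Nat.card_eq_fintype_card] at hF; subst hF
  have h2 := H4.odd_card_iff.1 hq
  let f := H4.minusForm F (m - 1) a c
  rw [show (Matrix.of fun i j : ι => QuadraticMap.polar (quadFormMinus (m - 1) F a c) (b i) (b j)) =
    f.gram b by ext i j; exact H4.polar_eq_B f _ _, ← H4.chi_eq_one, ← H4.disc_eq,
    H4.disc_minusForm h2 _ hac, Nat.sub_add_cancel hm]
  obtain ⟨k, hk⟩ := hq
  rw [show m * (Nat.card F - 1) / 2 = m * k by
    rw [hk, Nat.add_sub_cancel, ← mul_assoc, mul_comm m, mul_assoc, Nat.mul_div_cancel_left _ two_pos],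
    Nat.even_mul, Nat.even_iff (n := k), show k % 2 = 0 ↔ Nat.card F % 4 = 1 by omega,
    ← H4.chi_neg_one_eq_one_iff h2]
  rcases Int.units_eq_one_or (H4.chi (-1 : F)) with h | h <;>
    rcases Nat.even_or_odd m with h' | h' <;> simp [h, h', h'.neg_one_pow]

end Cfsg.Agent.S2621
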