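import Cfsg.Statements.S2623
import Cfsg.Agent.H4.Orth2

set_option autoImplicit false
open Cfsg

namespace Cfsg.Agent.S2623


/-- Over a finite field of odd order, two quadratic forms on F^n with non-degenerate polar forms are isometric (related by an invertible linear change of variables) if and only if their discriminants (determinants of the Gram matrices of their polar forms) lie in the same square class. -/
theorem result {F : Type*} [Field F] [Fintype F] (h2 : (2 : F) ≠ 0) {n : ℕ} (Q₁ Q₂ : QuadraticForm F (Fin n → F)) (h₁ : (QuadraticMap.polarBilin Q₁).Nondegenerate) (h₂ : (QuadraticMap.polarBilin Q₂).Nondegenerate) : (∃ g : (Fin n → F) ≃ₗ[F] (Fin n → F), ∀ v, Q₂ (g v) = Q₁ v) ↔ IsSquare ((Matrix.of (fun i j : Fin n => QuadraticMap.polar ⇑Q₁ (Pi.single i 1) (Pi.single j 1))).det * (Matrix.of (fun i j : Fin n => QuadraticMap.polar ⇑Q₂ (Pi.single i 1) (Pi.single j 1))).det) := by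
  let f₁ := H4.quadForm Q₁
  let f₂ := H4.quadForm Q₂
  have n₁ : f₁.ND := H4.quadForm_ND h₁
  have n₂ : f₂.ND := H4.quadForm_ND h₂
  rw [show (Matrix.of fun i j : Fin n => QuadraticMap.polar ⇑Q₁ (Pi.single i 1) (Pi.single j 1)) =
      f₁.gram (Pi.basisFun F _) by ext i j; simp [H4.Form.gram_app, f₁],
    show (Matrix.of fun i j : Fin n => QuadraticMap.polar ⇑Q₂ (Pi.single i 1) (Pi.single j 1)) =
      f₂.gram (Pi.basisFun F _) by ext i j; simp [H4.Form.gram_app, f₂], ← H4.chi_eq_one,
    H4.chi_mul (n₁.gram_det_ne_zero _) (n₂.gram_det_ne_zero _), ← H4.disc_eq, ← H4.disc_eq]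
  constructor
  · rintro ⟨g, hg⟩
    rw [(H4.quad_isIso_of_Q (f := f₁) (f' := f₂) hg).disc_eq, Int.units_mul_self]
  · intro h
    obtain ⟨e, he⟩ := H4.odd_exists_isIso h2 n _ _ f₁ f₂ n₁ n₂ (by simp) (by simp)
      (by rw [← one_mul f₂.disc, ← h, mul_assoc, Int.units_mul_self, mul_one])
    exact ⟨e, he.Q⟩

end Cfsg.Agent.S2623
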