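import Cfsg.Statements.S2624
import Cfsg.Agent.H4.Orth2

set_option autoImplicit false
open Cfsg

namespace Cfsg.Agent.S2624


/-- For a quadratic form Q on F^n with non-degenerate polar form, F finite and n ≥ 2 even, every non-zero scalar c is the multiplier of some similarity: there is an invertible linear map g with Q(g v) = c·Q(v) for all v. -/
theorem result {F : Type*} [Field F] [Fintype F] {n : ℕ} (hn : 2 ≤ n) (he : Even n) (Q : QuadraticForm F (Fin n → F)) (hQ : (QuadraticMap.polarBilin Q).Nondegenerate) (c : F) (hc : c ≠ 0) : ∃ g : (Fin n → F) ≃ₗ[F] (Fin n → F), ∀ v, Q (g v) = c * Q v := by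
  let f := H4.quadForm Q
  have hf : f.ND := H4.quadForm_ND hQ
  have hf' := H4.scaleForm_ND hc hf
  obtain ⟨m, rfl⟩ : ∃ m, n = 2 * m + 2 := by obtain ⟨k, hk⟩ := he; exact ⟨k - 1, by omega⟩
  have hT : (H4.scaleForm c f).HasTS (m + 1) ↔ f.HasTS (m + 1) := by
    simp [H4.Form.HasTS, H4.quad_TS_iff, H4.scaleForm_Q, hc]
  suffices ∃ e, (H4.scaleForm c f).IsIso f e from this.imp fun e he => he.Q
  by_cases h : f.HasTS (m + 1)
  · exact H4.plus_exists_isIso (m + 1) _ _ _ _ hf' hf (by simp; ring) (by simp; ring) (hT.2 h) h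
  · exact H4.minus_exists_isIso m _ _ _ _ hf' hf (by simp) (by simp) (hT.not.2 h) h

end Cfsg.Agent.S2624
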