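import Cfsg.Statements.S2626
import Cfsg.Agent.H4.Orth2

set_option autoImplicit false
open Cfsg

namespace Cfsg.Agent.S2626


/-- Ω of an orthogonal direct sum contains the product of the Ω's: for quadratic forms Q₁ on F^k and Q₂ on F^l with non-degenerate polar forms (F finite) and Q = Q₁ ⊕ Q₂ on F^(k+l), if g₁ lies in Ω(Q₁) and g₂ in Ω(Q₂) (commutator subgroups of the orthogonal groups) then the block-diagonal isometry diag(g₁, g₂) lies in Ω(Q). -/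
theorem result {F : Type*} [Field F] [Fintype F] {k l : ℕ} (Q₁ : QuadraticForm F (Fin k → F)) (Q₂ : QuadraticForm F (Fin l → F)) (h₁ : (QuadraticMap.polarBilin Q₁).Nondegenerate) (h₂ : (QuadraticMap.polarBilin Q₂).Nondegenerate) (g₁ : ↥(Cfsg.isometryGroup F ⇑Q₁)) (g₂ : ↥(Cfsg.isometryGroup F ⇑Q₂)) (hg₁ : g₁ ∈ Cfsg.Omega F ⇑Q₁) (hg₂ : g₂ ∈ Cfsg.Omega F ⇑Q₂) : ∃ g : ↥(Cfsg.isometryGroup F (fun v : Fin k ⊕ Fin l → F => Q₁ (v ∘ Sum.inl) + Q₂ (v ∘ Sum.inr))), g ∈ Cfsg.Omega F (fun v : Fin k ⊕ Fin l → F => Q₁ (v ∘ Sum.inl) + Q₂ (v ∘ Sum.inr)) ∧ ((g : Matrix.GeneralLinearGroup (Fin k ⊕ Fin l) F) : Matrix (Fin k ⊕ Fin l) (Fin k ⊕ Fin l) F) = Matrix.fromBlocks ((g₁ : Matrix.GeneralLinearGroup (Fin k) F) : Matrix (Fin k) (Fin k) F) 0 0 ((g₂ : Matrix.GeneralLinearGroup (Fin l) F) : Matrix (Fin l) (Fin l) F) := by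
  let f₁ := H4.quadForm Q₁
  let f₂ := H4.quadForm Q₂
  refine (H4.exists_omega_eq_iff (H4.sumForm f₁ f₂) (H4.blockHom_mulVec f₁ f₂ g₁ g₂)).2 ?_
  have h1 := (H4.mem_Omega_iff f₁).1 hg₁
  have h2 := (H4.mem_Omega_iff f₂).1 hg₂
  rw [← Prod.fst_mul_snd (H4.isometryEquiv f₁ g₁, H4.isometryEquiv f₂ g₂), map_mul]
  have key : ∀ {G H : Type _} [Group G] [Group H] (φ : G →* H) (g : G), g ∈ commutator G →
      φ g ∈ commutator H := fun φ g hg =>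
    (Subgroup.map_commutator _ _ φ).le.trans (Subgroup.commutator_mono le_top le_top) ⟨g, hg, rfl⟩
  exact mul_mem (key ((H4.blockHom f₁ f₂).comp (MonoidHom.inl _ _)) _ h1)
    (key ((H4.blockHom f₁ f₂).comp (MonoidHom.inr _ _)) _ h2)

end Cfsg.Agent.S2626
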