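import Cfsg.Statements.S2628
import Cfsg.Agent.H4.Orth2

set_option autoImplicit false
open Cfsg

namespace Cfsg.Agent.S2628


/-- For the orthogonal direct sum Q ⊕ Q of two copies of a quadratic form Q with non-degenerate polar form on F^k (F finite), every isometry g of Q acting diagonally, diag(g, g), lies in Ω(Q ⊕ Q), the commutator subgroup of the orthogonal group of Q ⊕ Q. (Excluded: k = 2 over the field of two elements, where Q ⊕ Q is the hyperbolic 4-space whose orthogonal group's commutator subgroup is smaller than the group usually called Ω.) -/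
theorem result {F : Type*} [Field F] [Fintype F] {k : ℕ} (h : Fintype.card F ≠ 2 ∨ k ≠ 2) (Q : QuadraticForm F (Fin k → F)) (hQ : (QuadraticMap.polarBilin Q).Nondegenerate) (g : ↥(Cfsg.isometryGroup F ⇑Q)) : ∃ x : ↥(Cfsg.isometryGroup F (fun v : Fin k ⊕ Fin k → F => Q (v ∘ Sum.inl) + Q (v ∘ Sum.inr))), x ∈ Cfsg.Omega F (fun v : Fin k ⊕ Fin k → F => Q (v ∘ Sum.inl) + Q (v ∘ Sum.inr)) ∧ ((x : Matrix.GeneralLinearGroup (Fin k ⊕ Fin k) F) : Matrix (Fin k ⊕ Fin k) (Fin k ⊕ Fin k) F) = Matrix.fromBlocks ((g : Matrix.GeneralLinearGroup (Fin k) F) : Matrix (Fin k) (Fin k) F) 0 0 ((g : Matrix.GeneralLinearGroup (Fin k) F) : Matrix (Fin k) (Fin k) F) := by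
  let f := H4.quadForm Q
  have n : f.ND := H4.quadForm_ND hQ
  rw [← Nat.card_eq_fintype_card] at h
  refine (H4.exists_omega_eq_iff (H4.sumForm f f) (H4.blockHom_mulVec f f g g)).2 ?_
  have hf := H4.sumForm_ND n n
  have hgen := H4.hgen_of hf (h.imp id (by simp; omega))
  rw [← Prod.fst_mul_snd (H4.isometryEquiv f g, H4.isometryEquiv f g), map_mul,
    H4.mem_commutator_iff hf hgen, H4.dick_mul hf hgen, H4.spin_mul hf hgen,
    (H4.dick_spin_block_left n n _).1, (H4.dick_spin_block_left n n _).2,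
    (H4.dick_spin_block_right n n _).1, (H4.dick_spin_block_right n n _).2]
  exact ⟨Int.units_mul_self _, Int.units_mul_self _⟩

end Cfsg.Agent.S2628
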