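import Cfsg.Statements.S2630
import Cfsg.Agent.H4.Orth2

set_option autoImplicit false
open Cfsg

namespace Cfsg.Agent.S2630


/-- For the hyperbolic form Σ x_i y_i on F^(2m) over a finite field of characteristic two (m ≥ 1, excluding m = 2 over the field of two elements), an isometry g preserves the class of the maximal totally singular subspace U₀ = {y = 0} (m − dim(U₀ ∩ gU₀) even) if and only if g lies in Ω (the commutator subgroup of the orthogonal group): the stabiliser of each class is Ω. -/
theorem result {F : Type*} [Field F] [Fintype F] [CharP F 2] {m : ℕ} (hm : 1 ≤ m) (h : Fintype.card F ≠ 2 ∨ m ≠ 2) (g : ↥(Cfsg.isometryGroup F (Cfsg.quadFormPlus m F))) : Even (m - Module.finrank F ↥(LinearMap.ker (LinearMap.funLeft F F (Sum.inr : Fin m → Fin m ⊕ Fin m)) ⊓ (LinearMap.ker (LinearMap.funLeft F F (Sum.inr : Fin m → Fin m ⊕ Fin m))).map (Matrix.mulVecLin ((g : Matrix.GeneralLinearGroup (Fin m ⊕ Fin m) F) : Matrix (Fin m ⊕ Fin m) (Fin m ⊕ Fin m) F)))) ↔ g ∈ Cfsg.Omega F (Cfsg.quadFormPlus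 m F) := by
  let f := H4.plusForm F m
  have hf : f.ND := H4.plusForm_ND F m
  have hgen := H4.hgen_of hf (h.imp (by rw [Nat.card_eq_fintype_card]; exact id) (by simp; omega))
  change ↥(isometryGroup F f.Q) at g
  rw [← H4.isometryEquiv_toLin f g]
  refine (H4.dick_eq_one_iff_parity hf hgen (H4.finrank_plus F m) (H4.TS_U0 F m)
    (H4.finrank_U0 F m) _).symm.trans (Iff.trans ?_ (H4.mem_Omega_iff f).symm)
  rw [H4.mem_commutator_iff hf hgen, H4.spin_eq_one_of_two CharTwo.two_eq_zero]
  simp

end Cfsg.Agent.S2630
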