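import Cfsg.Statements.S2631
import Cfsg.Agent.H4.Orth2

set_option autoImplicit false
open Cfsg

namespace Cfsg.Agent.S2631


/-- For the hyperbolic form Σ x_i y_i on F^(2m) over a finite field (m ≥ 1, excluding m = 2 over the field of two elements), Ω (the commutator subgroup of the orthogonal group) acts transitively on each of the two classes of maximal totally singular subspaces: if U and W are m-dimensional totally singular subspaces with m − dim(U ∩ W) even, some element of Ω carries U to W. -/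
theorem result {F : Type*} [Field F] [Fintype F] {m : ℕ} (hm : 1 ≤ m) (h : Fintype.card F ≠ 2 ∨ m ≠ 2) (U W : Submodule F (Fin m ⊕ Fin m → F)) (hU : Module.finrank F U = m) (hW : Module.finrank F W = m) (hU0 : ∀ u ∈ U, Cfsg.quadFormPlus m F u = 0) (hW0 : ∀ w ∈ W, Cfsg.quadFormPlus m F w = 0) (he : Even (m - Module.finrank F ↥(U ⊓ W))) : ∃ g : ↥(Cfsg.isometryGroup F (Cfsg.quadFormPlus m F)), g ∈ Cfsg.Omega F (Cfsg.quadFormPlus m F) ∧ U.map (Matrix.mulVecLin ((g : Matrix.GeneralLinearGroup (Fin m ⊕ Fin m) F) : Matrix (Fin m ⊕ Fin m) (Fin m ⊕ Fin m) F)) = W := by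
  let f := H4.plusForm F m
  have hf : f.ND := H4.plusForm_ND F m
  have hgen := H4.hgen_of hf (h.imp (by rw [Nat.card_eq_fintype_card]; exact id) (by simp; omega))
  have tU := (H4.quad_TS_iff f).2 hU0
  have tW := (H4.quad_TS_iff f).2 hW0
  obtain ⟨g, hg, e⟩ := tU.exists_map_eq hf tW (hU.trans hW.symm)
  obtain ⟨s, hs, h1⟩ := H4.exists_mul_mem_omega' hf hgen (f.stabSub U) (fun h2 => by
      obtain ⟨c, hc, e⟩ := H4.exists_chi_eq h2 (-1)
      obtain ⟨u, hu, hu0⟩ := U.exists_mem_ne_zero_of_ne_bot (by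
        rintro rfl; rw [finrank_bot] at hU; omega)
      obtain ⟨w, hw⟩ := hf.exists_hyp hu0 (hU0 u hu)
      exact ⟨H4.hscale hw hc, f.mem_stabSub_of_le fun v hv => H4.hscale_mem hw hc (Or.inl hu)
        (Or.inr (tU.2 u hu)) hv, H4.dick_hscale hf hw hc, (H4.spin_hscale hf hw hc).trans e⟩)
    (g := ⟨g, hg⟩) ((H4.dick_eq_one_iff_parity hf hgen (H4.finrank_plus F m) tU hU _).2 (e ▸ he))
  refine (H4.exists_omega_iff f fun M => U.map (Matrix.mulVecLin M) = W).2 ⟨_, h1, ?_⟩
  rw [← Matrix.toLin'_apply', Matrix.toLin'_toMatrix', H4.map_isom_mul,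
    (f.mem_stabSub_iff_map).1 hs, e]

end Cfsg.Agent.S2631
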