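import Cfsg.Statements.S2632
import Cfsg.Agent.H4.Orth2

set_option autoImplicit false
open Cfsg

namespace Cfsg.Agent.S2632


/-- Ω is transitive on non-degenerate subspaces of each isometry type: for a quadratic form Q on F^n, n ≥ 3, with non-degenerate polar form (F finite; excluding dimension 4 over the field of two elements), if U and W are subspaces on which the polar form is non-degenerate and there is a Q-preserving linear isomorphism U → W, then some element of Ω (the commutator subgroup of the orthogonal group) carries U to W. (In dimension 2 this fails: Ω can be {±1}, which fixes every line.) -/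
theorem result {F : Type*} [Field F] [Fintype F] {n : ℕ} (hn : 3 ≤ n) (h : Fintype.card F ≠ 2 ∨ n ≠ 4) (Q : QuadraticForm F (Fin n → F)) (hQ : (QuadraticMap.polarBilin Q).Nondegenerate) (U W : Submodule F (Fin n → F)) (hU : U ⊓ LinearMap.BilinForm.orthogonal (QuadraticMap.polarBilin Q) U = ⊥) (hW : W ⊓ LinearMap.BilinForm.orthogonal (QuadraticMap.polarBilin Q) W = ⊥) (e : U ≃ₗ[F] W) (he : ∀ u : U, Q (e u : Fin n → F) = Q (u : Fin n → F)) : ∃ g : ↥(Cfsg.isometryGroup F ⇑Q), g ∈ Cfsg.Omega F ⇑Q ∧ U.map (Matrix.mulVecLin ((g : Matrix.GeneralLinearGroup (Fin n) F) : Matrix (Fin n) (Fin n) F)) = W := by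
  let f := H4.quadForm Q
  have hf : f.ND := H4.quadForm_ND hQ
  have hgen := H4.hgen_of hf (h.imp (by rw [Nat.card_eq_fintype_card]; exact id) (by simp))
  have nU : f.NDOn U := f.NDOn_iff_disjoint.2 (disjoint_iff.2 hU)
  obtain ⟨g, hg, hge⟩ := H4.Form.witt hf f.full_Isom U.subtype (W.subtype.comp e.toLinearMap)
    U.injective_subtype (W.injective_subtype.comp e.injective) (fun x => (he x).symm) fun x y => by
      rw [H4.quad_B_eq, H4.quad_B_eq, ← map_add, ← map_add]
      exact congrArg₂ _ (congrArg₂ _ (he (x + y)).symm (he x).symm) (he y).symm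
  obtain ⟨X, nX, dX, hX⟩ : ∃ X, f.NDOn X ∧ 2 ≤ Module.finrank F X ∧
      ∀ v ∈ X, ∀ hv, f.reflx v hv ∈ f.stabSub U := by
    by_cases h2 : 2 ≤ Module.finrank F U
    · exact ⟨U, nU, h2, fun v hv hv' => f.mem_stabSub_of_le fun x hx => by
        rw [f.reflx_apply]; exact sub_mem hx (U.smul_mem _ hv)⟩
    · refine ⟨_, nU.perp hf, ?_, fun v hv hv' => f.mem_stabSub_of_le fun x hx => by
        rwa [H4.reflx_fix hv' (H4.Form.refl (hv x hx))]⟩
      have := hf.finrank_perp U
      rw [Module.finrank_fin_fun] at this; omega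
  obtain ⟨a, ha, ha1⟩ := H4.quad_exists_Q_eq nX dX one_ne_zero
  have ha0 : f.Q a ≠ 0 := ha1 ▸ one_ne_zero
  obtain ⟨s, hs, h1⟩ := H4.exists_mul_mem_omega hf hgen (f.stabSub U)
    ⟨_, hX a ha ha0, H4.dick_reflx hf ha0⟩ (fun h2 => by
      obtain ⟨c, hc, e⟩ := H4.exists_chi_eq h2 (-1)
      obtain ⟨b, hb, hb1⟩ := H4.quad_exists_Q_eq nX dX hc
      have hb0 : f.Q b ≠ 0 := hb1 ▸ hc
      refine ⟨_, mul_mem (hX b hb hb0) (hX a ha ha0), ?_, ?_⟩
      · rw [H4.dick_reflx_mul hf, H4.dick_reflx hf, neg_neg]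
      · rw [H4.spin_reflx_mul hf, H4.spin_reflx hf, ha1, hb1, e, H4.chi_one, mul_one]) ⟨g, hg⟩
  refine (H4.exists_omega_iff f fun M => U.map (Matrix.mulVecLin M) = W).2 ⟨_, h1, ?_⟩
  rw [← Matrix.toLin'_apply', Matrix.toLin'_toMatrix', H4.map_isom_mul,
    (f.mem_stabSub_iff_map).1 hs]
  ext y
  constructor
  · rintro ⟨x, hx, rfl⟩
    exact (hge ⟨x, hx⟩).symm ▸ (e ⟨x, hx⟩).2
  · intro hy
    exact ⟨_, (e.symm ⟨y, hy⟩).2, (hge _).trans (by simp)⟩

end Cfsg.Agent.S2632
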