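import Cfsg.Statements.S2633
import Cfsg.Agent.H4.Orth2

set_option autoImplicit false
open Cfsg

namespace Cfsg.Agent.S2633


/-- Ω is transitive on totally singular subspaces of each dimension less than half the dimension: for a quadratic form Q on F^n with non-degenerate polar form (F finite; excluding dimension 4 over the field of two elements), if U and W are subspaces of the same dimension k with 2k < n on which Q vanishes, then some element of Ω (the commutator subgroup of the orthogonal group) carries U to W. -/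
theorem result {F : Type*} [Field F] [Fintype F] {n : ℕ} (h : Fintype.card F ≠ 2 ∨ n ≠ 4) (Q : QuadraticForm F (Fin n → F)) (hQ : (QuadraticMap.polarBilin Q).Nondegenerate) (U W : Submodule F (Fin n → F)) {k : ℕ} (hk : 2 * k < n) (hU : Module.finrank F U = k) (hW : Module.finrank F W = k) (hU0 : ∀ u ∈ U, Q u = 0) (hW0 : ∀ w ∈ W, Q w = 0) : ∃ g : ↥(Cfsg.isometryGroup F ⇑Q), g ∈ Cfsg.Omega F ⇑Q ∧ U.map (Matrix.mulVecLin ((g : Matrix.GeneralLinearGroup (Fin n) F) : Matrix (Fin n) (Fin n) F)) = W := by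
  let f := H4.quadForm Q
  have hf : f.ND := H4.quadForm_ND hQ
  have hgen := H4.hgen_of hf (h.imp (by rw [Nat.card_eq_fintype_card]; exact id) (by simp))
  have tU := (H4.quad_TS_iff f).2 hU0
  have tW := (H4.quad_TS_iff f).2 hW0
  refine (H4.exists_omega_iff f fun M => U.map (Matrix.mulVecLin M) = W).2 ?_
  by_cases h0 : U = ⊥
  · subst h0
    rw [finrank_bot] at hU
    exact ⟨1, one_mem _, by rw [Submodule.map_bot, Submodule.finrank_eq_zero.1 (hW.trans hU.symm)]⟩
  obtain ⟨g, hg, e⟩ := tU.exists_map_eq hf tW (hU.trans hW.symm)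
  obtain ⟨v, hvU, hv⟩ : ∃ v ∈ f.perp U, f.Q v ≠ 0 := by
    by_contra h
    push Not at h
    have h1 := ((H4.quad_TS_iff f).2 h).two_mul_finrank_le hf
    have := hf.finrank_perp U
    rw [Module.finrank_fin_fun] at *
    omega
  obtain ⟨s, hs, h1⟩ := H4.exists_mul_mem_omega hf hgen (f.stabSub U)
    ⟨_, f.mem_stabSub_of_le fun x hx => by
        rwa [H4.reflx_fix hv (H4.Form.refl (hvU x hx))], H4.dick_reflx hf hv⟩ (fun h2 => by
      obtain ⟨c, hc, e⟩ := H4.exists_chi_eq h2 (-1)
      obtain ⟨u, hu, hu0⟩ := U.exists_mem_ne_zero_of_ne_bot h0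
      obtain ⟨w, hw⟩ := hf.exists_hyp hu0 (hU0 u hu)
      exact ⟨H4.hscale hw hc, f.mem_stabSub_of_le fun v hv => H4.hscale_mem hw hc (Or.inl hu)
        (Or.inr (tU.2 u hu)) hv, H4.dick_hscale hf hw hc, (H4.spin_hscale hf hw hc).trans e⟩)
    ⟨g, hg⟩
  refine ⟨_, h1, ?_⟩
  rw [← Matrix.toLin'_apply', Matrix.toLin'_toMatrix', H4.map_isom_mul,
    (f.mem_stabSub_iff_map).1 hs, e]

end Cfsg.Agent.S2633
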