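import Cfsg.Statements.S2634
import Cfsg.Agent.H4.Orth2

set_option autoImplicit false
open Cfsg

namespace Cfsg.Agent.S2634


/-- Over a finite field of characteristic two, Ω (the commutator subgroup of the orthogonal group of a quadratic form Q on F^n with non-degenerate polar form; excluding dimension 4 over the field of two elements) acts transitively on the non-singular 1-spaces: for u, v with Q(u) ≠ 0 and Q(v) ≠ 0 some element of Ω carries the line through u to the line through v. -/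
theorem result {F : Type*} [Field F] [Fintype F] [CharP F 2] {n : ℕ} (h : Fintype.card F ≠ 2 ∨ n ≠ 4) (Q : QuadraticForm F (Fin n → F)) (hQ : (QuadraticMap.polarBilin Q).Nondegenerate) (u v : Fin n → F) (hu : Q u ≠ 0) (hv : Q v ≠ 0) : ∃ g : ↥(Cfsg.isometryGroup F ⇑Q), g ∈ Cfsg.Omega F ⇑Q ∧ (F ∙ ((g : Matrix.GeneralLinearGroup (Fin n) F) : Matrix (Fin n) (Fin n) F).mulVec u) = F ∙ v := by
  let f := H4.quadForm Q
  have hf : f.ND := H4.quadForm_ND hQ
  have hgen := H4.hgen_of hf (h.imp (by rw [Nat.card_eq_fintype_card]; exact id) (by simp))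
  have h2 : (2 : F) = 0 := CharTwo.two_eq_zero
  obtain ⟨r, hr⟩ := H4.exists_sq_of_two_eq_zero h2 (Q u / Q v)
  have hr0 : r ≠ 0 := by rintro rfl; exact div_ne_zero hu hv (by simpa using hr.symm)
  have hv0 : v ≠ 0 := by rintro rfl; simp at hv
  obtain ⟨g, hg, e⟩ := H4.Form.witt_one hf (x := u) (x' := r • v) (by rintro rfl; simp at hu)
    (smul_ne_zero hr0 hv0) (by rw [H4.quad_Q_smul, hr]; exact (div_mul_cancel₀ _ hv).symm)
  obtain ⟨s, hs, h1⟩ := H4.exists_mul_mem_omega hf hgen (f.fixSub (F ∙ u))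
    ⟨f.reflx u hu, fun x hx => H4.reflx_fix hu (by
      obtain ⟨c, rfl⟩ := Submodule.mem_span_singleton.1 hx
      rw [map_smul, H4.quad_B_self, h2]; simp), H4.dick_reflx hf hu⟩ (fun h => absurd h2 h) ⟨g, hg⟩
  refine (H4.exists_omega_iff f fun M => (F ∙ M.mulVec u) = F ∙ v).2 ⟨_, h1, ?_⟩
  rw [← Matrix.toLin'_apply, Matrix.toLin'_toMatrix']
  erw [H4.Form.isom_mul_apply, hs u (Submodule.mem_span_singleton_self u), e]
  exact Submodule.span_singleton_smul_eq hr0.isUnit v

end Cfsg.Agent.S2634
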