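import Cfsg.Statements.S2635
import Cfsg.Agent.H4.Orth2

set_option autoImplicit false
open Cfsg

namespace Cfsg.Agent.S2635


/-- Over a finite field of characteristic two, for a quadratic form Q on F^n with non-degenerate polar form, n ≥ 2, other than dimension 4 over the field of two elements, Ω (the commutator subgroup of the orthogonal group) is exactly the subgroup generated by the products of two reflections (orthogonal transvections) x ↦ x − Q(v)⁻¹ f(x, v) v, Q(v) ≠ 0: the products of an even number of reflections. -/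
theorem result {F : Type*} [Field F] [Fintype F] [CharP F 2] {n : ℕ} (hn : 2 ≤ n) (h : Fintype.card F ≠ 2 ∨ n ≠ 4) (Q : QuadraticForm F (Fin n → F)) (hQ : (QuadraticMap.polarBilin Q).Nondegenerate) : Cfsg.Omega F ⇑Q = Subgroup.closure {g : ↥(Cfsg.isometryGroup F ⇑Q) | ∃ u v : Fin n → F, Q u ≠ 0 ∧ Q v ≠ 0 ∧ ((g : Matrix.GeneralLinearGroup (Fin n) F) : Matrix (Fin n) (Fin n) F) = Cfsg.reflectionMatrix ⇑Q u * Cfsg.reflectionMatrix ⇑Q v} := by
  let f := H4.quadForm Q
  have hf : f.ND := H4.quadForm_ND hQ
  have hgen := H4.hgen_of hf (h.imp (by rw [Nat.card_eq_fintype_card]; exact id) (by simp))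
  have h2 : (2 : F) = 0 := CharTwo.two_eq_zero
  have hm : ∀ u v (hu : f.Q u ≠ 0) (hv : f.Q v ≠ 0) (g : isometryGroup F f.Q),
      g.1.1 = reflectionMatrix f.Q u * reflectionMatrix f.Q v ↔
        H4.isometryEquiv f g = f.reflx u hu * f.reflx v hv := fun u v hu hv g => by
    rw [← (H4.isometryEquiv_eq_reflx f hu).1 ((H4.isometryEquiv f).apply_symm_apply _),
      ← (H4.isometryEquiv_eq_reflx f hv).1 ((H4.isometryEquiv f).apply_symm_apply _),
      ← MulEquiv.eq_symm_apply, map_mul, Subtype.ext_iff, Units.ext_iff]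
    rfl
  apply le_antisymm
  · intro g hg
    generalize hN : (Subgroup.closure _ : Subgroup (isometryGroup F Q)) = N
    change Subgroup (isometryGroup F f.Q) at N
    have key : ∀ a ∈ Subgroup.closure f.reflSet, (H4.dick a = 1 → (H4.isometryEquiv f).symm a ∈ N) ∧
        (H4.dick a = -1 → ∀ v hv, (H4.isometryEquiv f).symm (f.reflx v hv * a) ∈ N) := by
      have step : ∀ u hu a, ((H4.dick a = 1 → (H4.isometryEquiv f).symm a ∈ N) ∧
          (H4.dick a = -1 → ∀ v hv, (H4.isometryEquiv f).symm (f.reflx v hv * a) ∈ N)) →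
          (H4.dick (f.reflx u hu * a) = 1 → (H4.isometryEquiv f).symm (f.reflx u hu * a) ∈ N) ∧
          (H4.dick (f.reflx u hu * a) = -1 → ∀ v hv,
            (H4.isometryEquiv f).symm (f.reflx v hv * (f.reflx u hu * a)) ∈ N) := by
        intro u hu a ih
        rw [H4.dick_reflx_mul hf]
        refine ⟨fun h => ih.2 (neg_eq_iff_eq_neg.1 h) u hu, fun h v hv => ?_⟩
        rw [← mul_assoc, map_mul]
        exact mul_mem (hN.le <| Subgroup.subset_closure ⟨v, u, hv, hu,
          (hm v u hv hu _).2 (MulEquiv.apply_symm_apply _ _)⟩) (ih.1 (neg_injective h))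
      intro a ha
      induction ha using Subgroup.closure_induction_left with
      | one => exact ⟨fun _ => by rw [map_one]; exact one_mem _,
          fun h => absurd (H4.dick_one.symm.trans h) (by decide)⟩
      | mul_left r hr g _ ih => obtain ⟨v, hv, rfl⟩ := hr; exact step v hv g ih
      | inv_mul_cancel r hr g _ ih =>
        obtain ⟨v, hv, rfl⟩ := hr
        rw [f.reflx_inv]; exact step v hv g ih
    have := (key _ (hgen ▸ Subgroup.mem_top _)).1
      ((H4.mem_commutator_iff hf hgen).1 ((H4.mem_Omega_iff f).1 hg)).1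
    exact (H4.isometryEquiv f).symm_apply_apply g ▸ this
  · rw [Subgroup.closure_le]
    rintro g ⟨u, v, hu, hv, hg⟩
    refine (H4.mem_Omega_iff f).2 ((H4.mem_commutator_iff hf hgen).2
      ⟨?_, H4.spin_eq_one_of_two h2 _⟩)
    erw [(hm u v hu hv g).1 hg]
    erw [H4.dick_reflx_mul hf, H4.dick_reflx hf, neg_neg]

end Cfsg.Agent.S2635
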