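import Cfsg.Statements.S2637
import Cfsg.Agent.H4.RsB
import Cfsg.Agent.H4.InB

set_option autoImplicit false
open Cfsg

namespace Cfsg.Agent.S2637


/-- Centraliser of a fixed-point-free element of order three in Sp_2m(q) when q ≡ 2 (mod 3): if x ∈ Sp_2m(F) (|F| = q, m ≥ 1) satisfies x³ = 1 and x − 1 is invertible, then its centraliser in Sp_2m(F) has the order of the unitary group GU_m(q), namely q^(m(m−1)/2) Π_(i=1)^m (q^i − (−1)^i) (x lies in the centre of a subgroup GU_m(q) of Sp_2m(q)). -/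
theorem result {F : Type*} [Field F] [Fintype F] {q : ℕ} (hF : Fintype.card F = q) (hq : q % 3 = 2) {m : ℕ} (hm : 1 ≤ m) (x : Matrix.symplecticGroup (Fin m) F) (hx3 : x ^ 3 = 1) (hfpf : IsUnit ((x : Matrix (Fin m ⊕ Fin m) (Fin m ⊕ Fin m) F) - 1)) : (Nat.card ↥(Subgroup.centralizer ({x} : Set ↥(Matrix.symplecticGroup (Fin m) F))) : ℤ) = (q : ℤ) ^ (m * (m - 1) / 2) * ∏ i : Fin m, ((q : ℤ) ^ ((i : ℕ) + 1) - (-1) ^ ((i : ℕ) + 1)) := by
  have h1 : x.1 * x.1 = -1 - x.1 := by
    have h := congrArg Subtype.val hx3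
    rw [SubmonoidClass.coe_pow, OneMemClass.coe_one] at h
    refine hfpf.mul_left_cancel (sub_eq_zero.1 ?_)
    rw [← sub_eq_zero.2 h]; noncomm_ring
  rw [H4.card_cent_congr (H4.spEquiv m F), H4.cent_three hF hq (H4.spForm_ND m F) (m := m)
    (by simp [two_mul]) _ fun v => by
      change x.1.mulVec (x.1.mulVec v) = -v - x.1.mulVec v
      simp [h1, Matrix.sub_mulVec, Matrix.neg_mulVec], ← Fin.prod_univ_eq_prod_range]
  push_cast
  refine congrArg _ (Finset.prod_congr rfl fun i _ => ?_)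
  split_ifs with h
  · simp [h.add_one.neg_one_pow]
  · rw [Nat.cast_sub (Nat.one_le_pow _ _ (by omega)), (Nat.not_even_iff_odd.1 h).add_one.neg_one_pow]
    simp

end Cfsg.Agent.S2637
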