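import Cfsg.Statements.S2638
import Cfsg.Agent.H4.DsA

set_option autoImplicit false
open Cfsg

namespace Cfsg.Agent.S2638


/-- If an element x of GL_n(q), n ≥ 1, has prime order r and the multiplicative order of q modulo r is n (r is a primitive prime divisor of q^n − 1, so x acts irreducibly), then the centraliser of x in GL_n(q) is cyclic of order q^n − 1 (the multiplicative group of the field with q^n elements, a Singer cycle). -/
theorem result {F : Type*} [Field F] [Fintype F] {p q : ℕ} [Fact p.Prime] [CharP F p] (hF : Fintype.card F = q) {n r : ℕ} (hn : 1 ≤ n) (hr : r.Prime) (hrp : r ≠ p) (hi : orderOf (q : ZMod r) = n) (x : GL (Fin n) F) (hx : orderOf x = r) : IsCyclic ↥(Subgroup.centralizer ({x} : Set (GL (Fin n) F))) ∧ Nat.card ↥(Subgroup.centralizer ({x} : Set (GL (Fin n) F))) = q ^ n - 1 := by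
  have h0 := (H3.RCF.aeval_pow (A := x.1) (k := r)).2 (by
    rw [← Units.val_pow_eq_pow_val, ← hx, pow_orderOf_eq_one]; rfl)
  obtain ⟨m, h1, h2, h3⟩ := H3.RCF.exists_ss (H3.RCF.sqf (F := F) (p := p)
    ((Nat.coprime_primes hr Fact.out).2 hrp)) h0
  rw [Matrix.charpoly_toLin'] at h3
  obtain ⟨P, hP, h4⟩ : ∃ P ∈ m, ¬ P ∣ Polynomial.X ^ 1 - 1 := by
    by_contra! e
    have := H3.RCF.aeval_pow.1 ((h1.zero _).2 e)
    rw [pow_one, Units.val_eq_one] at this
    rw [this, orderOf_one] at hx; exact hr.one_lt.ne hx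
  haveI := Fact.mk (h2 P hP).1
  have h5 := H3.RCF.card_adj (h2 P hP).2
  rw [Nat.card_eq_fintype_card (α := F), hF] at h5
  have hq : 0 < q := hF ▸ Fintype.card_pos
  haveI : Finite (AdjoinRoot P) := Nat.finite_of_card_ne_zero (by rw [h5]; positivity)
  haveI := Fintype.ofFinite (AdjoinRoot P)
  haveI := Fact.mk hr
  have h6 : orderOf (AdjoinRoot.root P) = r := orderOf_eq_prime
    (by simpa [sub_eq_zero] using AdjoinRoot.mk_eq_zero.2 ((h1.zero _).1 h0 P hP))
    fun e => h4 (AdjoinRoot.mk_eq_zero.1 (by simp [e]))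
  have h7 : r ∣ q ^ P.natDegree - 1 := by
    rw [← h6, ← h5, Nat.card_eq_fintype_card]
    refine orderOf_dvd_of_pow_eq_one (FiniteField.pow_card_sub_one_eq_one _ fun e => ?_)
    rw [e, orderOf_zero] at h6; exact hr.ne_zero h6.symm
  have h8 : n ∣ P.natDegree := hi ▸ orderOf_dvd_of_pow_eq_one (by
    have := (ZMod.natCast_eq_zero_iff _ _).2 h7
    rwa [Nat.cast_sub (Nat.one_le_pow _ _ hq), sub_eq_zero, Nat.cast_pow, Nat.cast_one] at this)
  have h9 := Polynomial.eq_of_monic_of_dvd_of_natDegree_le (h2 P hP).2 x.1.charpoly_monic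
    (h3 ▸ Multiset.dvd_prod hP) (by simpa using Nat.le_of_dvd (h2 P hP).1.natDegree_pos h8)
  obtain ⟨K, _, h10, ⟨e⟩⟩ := H4.Au.cent_irr x (h9 ▸ (h2 P hP).1)
  rw [Nat.card_eq_fintype_card (α := F), hF, Fintype.card_fin] at h10
  haveI : Finite K := Nat.finite_of_card_ne_zero (by rw [h10]; positivity)
  exact ⟨isCyclic_of_surjective e e.surjective, by rw [← Nat.card_congr e.toEquiv, Nat.card_units, h10]⟩

end Cfsg.Agent.S2638
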