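import Cfsg.Statements.S2640
import Cfsg.Agent.H4.RsA

set_option autoImplicit false
open Cfsg

namespace Cfsg.Agent.S2640


/-- For m even, the unitary group GU_m(q) (over the field with q² elements) embeds in the orthogonal group O⁺_2m(q) of the hyperbolic form Σ x_i y_i over the field with q elements (there is an injective homomorphism). -/
theorem result {K F : Type*} [Field K] [Fintype K] [Field F] [Fintype F] {q : ℕ} (hK : Fintype.card K = q ^ 2) (hF : Fintype.card F = q) (m : ℕ) (hm : Even m) : ∃ φ : ↥(Cfsg.GU m K q) →* ↥(Cfsg.isometryGroup F (Cfsg.quadFormPlus m F)), Function.Injective φ := by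
  obtain ⟨φ, h⟩ := H4.u_res_quad hK hF m (H4.plusForm_ND F m) (by simp [two_mul])
    (iff_of_true (H4.plusForm_hasTS m) hm)
  let e : Cfsg.isometryGroup F (Cfsg.quadFormPlus m F) ≃* (H4.plusForm F m).Isom := H4.isometryEquiv (H4.plusForm F m)
  exact ⟨e.symm.toMonoidHom.comp (φ.comp (H4.guEquiv hK m).toMonoidHom),
    e.symm.injective.comp (h.comp (H4.guEquiv hK m).injective)⟩

end Cfsg.Agent.S2640
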