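import Cfsg.Statements.S2642
import Cfsg.Agent.H3.Wall6

set_option autoImplicit false
open Cfsg

namespace Cfsg.Agent.S2642

open H3.RCF H3.Wall H4

/-- Number of conjugacy classes of elements of order p in the general unitary group GU_n(q), q a power of p: every unipotent Jordan type occurs and the classes correspond to the partitions of n with all parts at most p other than the all-ones partition, exactly as in GL_n; so there are (number of partitions of n with parts ≤ p) − 1 classes. -/
theorem result {K : Type*} [Field K] [Fintype K] {p q n : ℕ} [Fact p.Prime] [CharP K p] (hK : Fintype.card K = q ^ 2) : Nat.card {C : ConjClasses ↥(Cfsg.GU n K q) // ∃ g : ↥(Cfsg.GU n K q), ConjClasses.mk g = C ∧ orderOf g = p} = (Finset.univ.filter (fun μ : Nat.Partition n => ∀ a ∈ μ.parts, a ≤ p)).card - 1 := by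
  set_option maxSynthPendingDepth 3 in
  have u := fun g : GU n K q => uni (p := p) (g := g.1) 1
  simp only [pow_one, ← Subgroup.coe_pow, OneMemClass.coe_eq_one] at u
  have z : ∀ μ : n.Partition, 0 ∉ μ.parts := fun μ b => (μ.parts_pos b).false
  rw [card_ord Fact.out, ← Fintype.card_subtype, ← Nat.card_eq_fintype_card]
  congr 1
  refine card_cls _ (fun g μ => Jor 1 g.1.1.toLin' μ.1.parts) (fun μ => ?_) (fun g q => ?_) fun g g' μ ν _ _ a b => ?_
  · obtain ⟨g, a⟩ := exists_jor_gl (F := K) one_ne_zero μ.1.parts_sum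
    obtain ⟨B, h⟩ := exists_gu hK (jor_tw _ a (z _))
    have b : Jor 1 B.1.1.toLin' _ := (isConj_gl.1 h).symm.typ a
    exact ⟨B, (u B).1 ((b.zero _).2 μ.2), b⟩
  · obtain ⟨s, s0, a⟩ := exists_jor ((u g).2 q)
    exact ⟨⟨⟨s, fun b => Nat.pos_of_ne_zero fun e => s0 (e ▸ b), a.sum.trans (Module.finrank_fin_fun K)⟩, (a.zero _).1 ((u g).2 q)⟩, a⟩
  · rw [S2587.result hK, isConj_gl, a.sim_iff b (z _) (z _), Subtype.ext_iff, Nat.Partition.ext_iff]

end Cfsg.Agent.S2642
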