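import Cfsg.Statements.S2643
import Cfsg.Agent.H4.RgA
import Cfsg.Agent.H4.AuM

set_option autoImplicit false
open Cfsg

namespace Cfsg.Agent.S2643


/-- Regular unipotent classes of SU_n(q), n ≥ 2: the elements u of the special unitary group (isometries of Σ u_i v_i^q of determinant one over the field with q² elements) with (u − 1)^n = 0 and rank(u − 1) = n − 1 form exactly gcd(n, q + 1) conjugacy classes of SU_n(q). -/
theorem result {K : Type*} [Field K] [Fintype K] {q n : ℕ} (hK : Fintype.card K = q ^ 2) (hn : 2 ≤ n) : Nat.card {C : ConjClasses ↥(Cfsg.SU n K q) // ∃ u : ↥(Cfsg.SU n K q), ConjClasses.mk u = C ∧ (((u : GL (Fin n) K) : Matrix (Fin n) (Fin n) K) - 1) ^ n = 0 ∧ (((u : GL (Fin n) K) : Matrix (Fin n) (Fin n) K) - 1).rank = n - 1} = Nat.gcd n (q + 1) := by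
  haveI : NeZero n := ⟨by omega⟩
  haveI : Nontrivial (Fin n → K) := Module.nontrivial_of_finrank_pos (R := K) (by simp; omega)
  have hf := H4.uForm_ND hK n
  obtain ⟨A, G, hA, h⟩ := H4.exists_inv_form hf
  obtain ⟨e, t, he⟩ := H4.u_exists_conj hf h
  have ht := hA.of_conj he
  obtain ⟨t, rfl⟩ := (H4.guEquiv hK n).surjective t
  have hg : ∀ g : GU n K q, (H4.guEquiv hK n g).1 = H4.glEquiv g.1 := fun _ => rfl
  have h1 := H4.det_unip ht.nilp
  rw [hg, H4.det_glEquiv] at h1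
  let j : SU n K q →* GU n K q := (Matrix.SpecialLinearGroup.toGL.comp (SU n K q).subtype).codRestrict
    _ fun g => g.2
  let u : SU n K q := ⟨⟨t.1.1, congrArg Units.val h1⟩, t.2⟩
  have hu : j u = t := Subtype.ext (Units.ext rfl)
  rw [H4.card_split j (fun a b e => Subtype.ext (Matrix.SpecialLinearGroup.toGL_injective
    (congrArg Subtype.val e))) (H4.Au.detU hK n) (fun c => ⟨⟨H4.Au.dg1 0 c, (H4.Au.mem_GU hK).2
      (H4.Au.tw_dg1_of hK c.2 _)⟩, Subtype.ext (H4.Au.det_dg1 _ _)⟩) ?_ _ u fun s => ?_, hu,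
    show (Subgroup.centralizer {t}).map (H4.Au.detU hK n) = (powMonoidHom n).range from ?_,
    H4.Au.index_pow_nrm1 (hF := hK)]
  · ext c
    constructor
    · rintro ⟨g, hc, rfl⟩
      obtain ⟨a, h2, ha⟩ := ht.det_cent (g := (H4.guEquiv hK n g).1) (by simp; omega) (by
        rw [← Subgroup.coe_mul, ← map_mul, Subgroup.mem_centralizer_singleton_iff.1 hc]; simp)
      have h3 := H4.norm_of_nilp hf h2
      rw [hg, H4.det_glEquiv, Module.finrank_fintype_fun_eq_card, Fintype.card_fin] at ha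
      exact ⟨⟨Units.mk0 a (left_ne_zero_of_mul_eq_one h3), Units.ext
        ((pow_succ' a q).trans h3)⟩, Subtype.ext (Units.ext ha.symm)⟩
    · rintro ⟨c, rfl⟩
      exact ⟨⟨H4.Au.sc c.1, (H4.Au.sc_mem_GU (hF := hK)).2 c.2⟩,
        Subgroup.mem_centralizer_singleton_iff.2 (Subtype.ext (H4.Au.sc_comm c.1 t.1)),
        Subtype.ext ((H4.Au.det_sc c.1).trans (by simp))⟩
  · ext g
    exact ⟨fun ⟨s, e⟩ => e ▸ Subtype.ext (Units.ext s.1.2), fun e =>
      ⟨⟨⟨g.1.1, congrArg (fun c => c.1.1) e⟩, g.2⟩, Subtype.ext (Units.ext rfl)⟩⟩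
  · rw [hu, ← H4.isConj_equiv (H4.guEquiv hK n), ← H4.reg_iff (t := (H4.guEquiv hK n (j s)).1)
      (M := ((s : GL (Fin n) K) : Matrix (Fin n) (Fin n) K)) fun _ => rfl]
    refine ⟨fun h => let ⟨g, hg⟩ := ht.conj h; H4.u_conj hf hg, fun h => ?_⟩
    obtain ⟨g, hg⟩ := isConj_iff.1 h
    exact ht.of_conj (congrArg Subtype.val (mul_inv_eq_iff_eq_mul.1 hg))

end Cfsg.Agent.S2643
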