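import Cfsg.Statements.S2665
import Mathlib

set_option autoImplicit false
open scoped MatrixGroups
open Cfsg

namespace Cfsg.Agent.S2665

open Polynomial Submodule Finset
section
variable {K V : Type*} [Field K] [IsAlgClosed K] [AddCommGroup V] [Module K V] [FiniteDimensional K V] {σ : K →+* K} {q : ℕ}
  (hq : 2 ≤ q) (hσ : ∀ x, σ x = x ^ q) (φ : V →ₛₗ[σ] V) (i : Function.Injective φ)
include hq hσ i

theorem fix1 {v : V} (h : v ≠ 0) : ∃ w, w ≠ 0 ∧ φ w = w := by
  classical
  have ex : ∃ m, φ^[m] v ∈ span K ((φ^[·] v) '' (range m : Set ℕ)) := by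
    obtain ⟨m, k⟩ := monotone_stabilizes_iff_noetherian.2 inferInstance ⟨fun m => span K ((φ^[·] v) '' (range m : Set ℕ)),
      fun _ _ h => span_mono (Set.image_mono (coe_subset.2 (range_mono h)))⟩
    exact ⟨m, (k (m + 1) m.le_succ).ge (subset_span ⟨m, by simp, rfl⟩)⟩
  obtain ⟨m, e⟩ := Nat.exists_eq_succ_of_ne_zero (n := Nat.find ex) fun z => h (by simpa using (z ▸ Nat.find_spec ex : φ^[0] v ∈ span K ((φ^[·] v) '' (range 0 : Set ℕ))))
  have k' := Nat.find_min ex (e ▸ m.lt_succ_self)
  have k := Nat.find_spec ex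
  rw [e, Nat.succ_eq_add_one, mem_span_image_finset_iff_exists_fun'] at k
  obtain ⟨a, ha⟩ := k
  let P : ℕ → K[X] := Nat.rec 0 fun i P => P ^ q + C (a i) * X ^ q
  have s : ∀ i, P (i + 1) = P i ^ q + C (a i) * X ^ q := fun _ => rfl
  have d : ∀ i, X ^ 2 ∣ P i := fun i => i.rec (dvd_zero _) fun i k => s i ▸ dvd_add (k.pow (by omega)) ((pow_dvd_pow _ hq).mul_left _)
  have z : ∀ j, P j = 0 → ∀ i < j, a i = 0 := fun j => j.rec (by simp) fun j k z => by
    have : a j = 0 := by
      have := X_pow_dvd_iff.1 (pow_mul (X : K[X]) 2 q ▸ pow_dvd_pow_of_dvd (d j) q) q (by omega)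
      simpa [s, this] using congrArg (coeff · q) z
    intro i l
    rcases Nat.lt_succ_iff_lt_or_eq.1 l with l | rfl
    exacts [k (pow_eq_zero_iff (show q ≠ 0 by omega) |>.1 (by simpa only [s, this, map_zero, zero_mul, add_zero] using z)) i l, this]
  obtain ⟨S, hS⟩ := d (m + 1)
  obtain ⟨t, ht⟩ := IsAlgClosed.exists_root (X * S - 1) fun c => by
    have c := eq_C_of_degree_eq_zero c
    have : S = 0 := Polynomial.ext fun n => by simpa [coeff_one] using congrArg (coeff · (n + 1)) c
    refine h ((i.iterate (m + 1)) (ha.symm.trans ?_))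
    rw [Function.iterate_fixed (map_zero φ)]
    exact sum_eq_zero fun j l => by simp [z _ (by simp [hS, this]) j (mem_range.1 l)]
  have ht : t * S.eval t = 1 := by simpa [sub_eq_zero] using ht
  have pt : (P (m + 1)).eval t = t := by simp [hS, sq, mul_assoc, ht]
  refine ⟨∑ i ∈ range (m + 1), (P (i + 1)).eval t • φ^[i] v, fun c => k' ?_, ?_⟩
  · rw [sum_range_succ, pt, add_eq_zero_iff_neg_eq] at c
    exact (smul_mem_iff _ (left_ne_zero_of_mul_eq_one ht)).1 (c ▸ neg_mem (sum_mem fun j l => smul_mem _ _ (subset_span ⟨j, l, rfl⟩)))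
  · simp only [map_sum, map_smulₛₗ, hσ, ← Function.iterate_succ_apply' φ]
    rw [sum_range_succ, pt, ← ha]
    simp only [s, eval_add, eval_pow, eval_mul, eval_C, eval_X, add_smul, sum_add_distrib, smul_sum, smul_smul, mul_comm (a _)]
    rw [sum_range_succ' (fun i => eval t (P i) ^ q • φ^[i] v)]
    simp [s, show P 0 = 0 from rfl, show q ≠ 0 by omega, mul_comm (a _)]

theorem fix_span : span K {w | φ w = w} = ⊤ := by
  by_contra n
  have := Submodule.Quotient.nontrivial_iff.2 n
  obtain ⟨v, h⟩ := exists_ne (0 : V ⧸ span K {w | φ w = w})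
  have A : ∀ c : K, ∀ w ∈ span K {w | φ w = w}, ∃ u ∈ span K {w | φ w = w}, φ u - c • u = w := fun c w k => by
    induction k using closure_induction with
    | zero => exact ⟨0, zero_mem _, by simp⟩
    | add _ _ _ _ a b => obtain ⟨x, a, rfl⟩ := a; obtain ⟨y, b, rfl⟩ := b; exact ⟨x + y, add_mem a b, by simp; abel⟩
    | smul_mem r x k =>
      obtain ⟨t, ht⟩ := IsAlgClosed.exists_root (X ^ q - (C c * X + C r)) (by
        rw [degree_sub_eq_left_of_degree_lt (degree_linear_le.trans_lt ?_)] <;> simp <;> omega)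
      exact ⟨t • x, smul_mem _ _ (subset_span k), by
        rw [map_smulₛₗ, hσ, k, smul_smul, ← sub_smul]; congr 1; simpa [sub_eq_zero, sub_eq_iff_eq_add, add_comm] using ht⟩
  obtain ⟨w, a, b⟩ := fix1 hq hσ (mapQ _ _ φ (span_le.2 fun w (k : φ w = w) => show φ w ∈ span K {w | φ w = w} from subset_span (congrArg φ k))) ((injective_iff_map_eq_zero _).2 fun x k => by
    obtain ⟨x, rfl⟩ := Submodule.Quotient.mk_surjective _ x
    obtain ⟨u, a, b⟩ := A 0 _ ((Submodule.Quotient.mk_eq_zero _).1 k)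
    exact (Submodule.Quotient.mk_eq_zero _).2 (i (by simpa using b) ▸ a)) h
  obtain ⟨w, rfl⟩ := Submodule.Quotient.mk_surjective _ w
  obtain ⟨u, c, e⟩ := A 1 _ ((Submodule.Quotient.eq _).1 b)
  have : w - u ∈ span K {w | φ w = w} := subset_span (show φ (w - u) = w - u by
    rw [one_smul, sub_eq_sub_iff_sub_eq_sub] at e; rw [map_sub, ← neg_sub, e, neg_sub])
  exact a ((Submodule.Quotient.mk_eq_zero _).2 (sub_add_cancel w u ▸ add_mem this c))
end

/-- The Lang–Steinberg Theorem for the general linear group. Let `K` be an algebraically closed field of prime characteristic `p`, let `q = p^f` with `f ≥ 1`, and let `σ` be the endomorphism of GL_n(K) raising every matrix entry to the `q`-th power. Then every element `g` of GL_n(K) can be written `g = x · σ(x)⁻¹` for some `x` in GL_n(K): the map `x ↦ x σ(x)⁻¹` is surjective. -/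
theorem result {K : Type*} [Field K] [IsAlgClosed K] (p : ℕ) [Fact p.Prime] [CharP K p]
    (f : ℕ) (hf : 1 ≤ f) (n : ℕ) (g : GL (Fin n) K) :
    ∃ x : GL (Fin n) K, g = x * (Matrix.GeneralLinearGroup.map (iterateFrobenius K p f) x)⁻¹ := by
  set_option maxSynthPendingDepth 3 in
  let φ : (Fin n → K) →ₛₗ[iterateFrobenius K p f] Fin n → K := ⟨⟨fun v => g.1.mulVec (iterateFrobenius K p f ∘ v), fun u v => by
    rw [← Matrix.mulVec_add]; congr 1; ext; simp⟩, fun c v => (congrArg g.1.mulVec (by ext; simp)).trans (Matrix.mulVec_smul _ _ _)⟩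
  obtain ⟨s, a, b, c⟩ := exists_linearIndependent K {w | φ w = w}
  rw [fix_span (Nat.one_lt_pow (by omega) (Fact.out : p.Prime).one_lt) (iterateFrobenius_def p f) φ fun u v e =>
    (iterateFrobenius K p f).injective.comp_left (Matrix.mulVec_injective_of_isUnit g.isUnit e)] at b
  let B := Module.Basis.mk c (by simp [b])
  let B' := B.reindex (B.indexEquiv (Pi.basisFun K (Fin n)))
  have := (Pi.basisFun K (Fin n)).invertibleToMatrix B'
  refine ⟨unitOfInvertible ((Pi.basisFun K (Fin n)).toMatrix B'), eq_mul_inv_of_mul_eq (Units.ext (Matrix.ext fun i j => congrFun (show φ (B' j) = B' j from a ?_) i))⟩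
  simp [B', B]

end Cfsg.Agent.S2665
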