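import Cfsg.Statements.S2666
import Cfsg.Agent.H3.Shin

set_option autoImplicit false
open Cfsg

namespace Cfsg.Agent.S2666

open H3.Shin

/-- Shintani descent, in an abstract form. Let `σ` be an automorphism of a group `X` such that the maps `a ↦ a·σ(a)⁻¹` and `a ↦ a·σᵉ(a)⁻¹` are surjective on `X` (the Lang–Steinberg property, which holds when `X` is a connected algebraic group and `σ` a Steinberg endomorphism), where `e ≥ 1`. Write `G` for the subgroup of fixed points of `σᵉ` and `H` for the subgroup of fixed points of `σ`. The `G`-conjugacy classes in the coset `G σ` of the semidirect product of `G` by `σ` correspond to the orbits of `G` on itself under twisted conjugation `g ↦ k g σ(k)⁻¹`, and the `e`-th power of `g σ` has `G`-part the norm `g σ(g) ⋯ σ^(e-1)(g)`. For `g` in `G` and any `a` with `g = a σ(a)⁻¹`, put `x = σᵉ(a)⁻¹ a`. Then: (1) `x` lies in `H`, and `a⁻¹ · (g σ(g) ⋯ σ^(e-1)(g)) · a = x`; (2) for `g, g'` in `G` with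 such elements `a, b` and `x, x'`, the elements `g, g'` are twisted-conjugate under `G` if and only if `x, x'` are conjugate in `H`; (3) every element of `H` arises as such an `x`. So `g ↦ x` induces a well-defined bijection from the twisted `G`-classes of `G` onto the conjugacy classes of `H` (the Shintani map). -/
theorem result {X : Type*} [Group X] (σ : MulAut X) (e : ℕ) (he : 1 ≤ e)
    (hL : ∀ g : X, ∃ a : X, g = a * (σ a)⁻¹) (hLe : ∀ g : X, ∃ a : X, g = a * ((σ ^ e) a)⁻¹) :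
    (∀ g ∈ (MulEquiv.toMonoidHom (σ ^ e)).eqLocus (MonoidHom.id X), ∀ a : X, g = a * (σ a)⁻¹ →
        ((σ ^ e) a)⁻¹ * a ∈ (MulEquiv.toMonoidHom σ).eqLocus (MonoidHom.id X) ∧
          a⁻¹ * ((List.range e).map (fun i => (σ ^ i) g)).prod * a = ((σ ^ e) a)⁻¹ * a) ∧
    (∀ g ∈ (MulEquiv.toMonoidHom (σ ^ e)).eqLocus (MonoidHom.id X), ∀ g' ∈ (MulEquiv.toMonoidHom (σ ^ e)).eqLocus (MonoidHom.id X), ∀ a b : X,
        g = a * (σ a)⁻¹ → g' = b * (σ b)⁻¹ →
          ((∃ k ∈ (MulEquiv.toMonoidHom (σ ^ e)).eqLocus (MonoidHom.id X), g' = k * g * (σ k)⁻¹) ↔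
            (∃ h ∈ (MulEquiv.toMonoidHom σ).eqLocus (MonoidHom.id X), ((σ ^ e) b)⁻¹ * b = h * (((σ ^ e) a)⁻¹ * a) * h⁻¹))) ∧
    (∀ x ∈ (MulEquiv.toMonoidHom σ).eqLocus (MonoidHom.id X), ∃ g ∈ (MulEquiv.toMonoidHom (σ ^ e)).eqLocus (MonoidHom.id X), ∃ a : X,
        g = a * (σ a)⁻¹ ∧ ((σ ^ e) a)⁻¹ * a = x) := by
  set_option maxSynthPendingDepth 3 in
  refine ⟨fun g m a h => ?_, fun g m g' m' a b h h' => ⟨fun ⟨k, mk, r⟩ => ?_, fun ⟨k, mk, r⟩ => ?_⟩, fun x m => ?_⟩
  · subst h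
    exact ⟨(fx σ a e).1 m, by rw [key]; group⟩
  · have mk : (σ ^ e) k = k := mk
    have t : σ (b⁻¹ * k * a) = b⁻¹ * k * a := by
      rw [map_mul, map_mul, map_inv]
      rw [h, h'] at r
      calc _ = b⁻¹ * (b * (σ b)⁻¹) * σ k * σ a := by group
        _ = _ := by rw [r]; group
    refine ⟨b⁻¹ * k * a, t, ?_⟩
    have v := fix_pow t e
    rw [map_mul, map_mul, map_inv, mk] at v
    nth_rewrite 1 [← v]
    group
  · have mk : σ k = k := mk
    refine ⟨b * k * a⁻¹, ?_, by rw [h, h', map_mul, map_mul, map_inv, mk]; group⟩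
    show (σ ^ e) _ = b * k * a⁻¹
    rw [map_mul, map_mul, map_inv, fix_pow mk]
    rw [inv_mul_eq_iff_eq_mul] at r
    nth_rewrite 2 [r]
    group
  · obtain ⟨a, h⟩ := hLe x⁻¹
    have t : ((σ ^ e) a⁻¹)⁻¹ * a⁻¹ = x := by rw [← inv_inv x, h, map_inv]; group
    exact ⟨_, (fx σ _ e).2 (by rw [t]; exact m), _, rfl, t⟩

end Cfsg.Agent.S2666
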