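import Cfsg.Statements.S2668
import Cfsg.Agent.H3.Shin

set_option autoImplicit false
open Cfsg

namespace Cfsg.Agent.S2668

open H3.Shin

/-- Shintani descent and powers (abstract form). Let `σ` be an automorphism of a group `X`, `e ≥ 1` and `d ≥ 1`, let `g` be fixed by `σᵉ` and let `a` satisfy `g = a σ(a)⁻¹`, so that the Shintani map of `(X, σ, e)` sends the class of `g σ` to the class of `x = σᵉ(a)⁻¹ a`. Put `h = g σ(g) ⋯ σ^(d-1)(g)`, the part in `X` of the `d`-th power `(g σ)^d = h σ^d`. Then `h = a σ^d(a)⁻¹` (so `a` also serves for `h` with respect to `σ^d`), `h` is fixed by `(σ^d)ᵉ`, and `(σ^d)ᵉ(a)⁻¹ a = x^d`: the Shintani map of `(X, σ^d, e)` sends the class of `(g σ)^d` to the class of `x^d`. (When `d` divides `e`, the Shintani map of `(X, σ^d, e/d)` sends it to the class of `x` itself, since `(σ^d)^(e/d) = σᵉ`.) -/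
theorem result {X : Type*} [Group X] (σ : MulAut X) (e d : ℕ) (he : 1 ≤ e) (hd : 1 ≤ d)
    (g : X) (hg : g ∈ (MulEquiv.toMonoidHom (σ ^ e)).eqLocus (MonoidHom.id X)) (a : X) (ha : g = a * (σ a)⁻¹) :
    ((List.range d).map (fun i => (σ ^ i) g)).prod = a * ((σ ^ d) a)⁻¹ ∧
      ((List.range d).map (fun i => (σ ^ i) g)).prod ∈ (MulEquiv.toMonoidHom ((σ ^ d) ^ e)).eqLocus (MonoidHom.id X) ∧
      (((σ ^ d) ^ e) a)⁻¹ * a = (((σ ^ e) a)⁻¹ * a) ^ d := by
  set_option maxSynthPendingDepth 3 in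
  subst ha
  have x := (fx σ a e).1 hg
  have c : ∀ n : ℕ, ((σ ^ (e * n)) a)⁻¹ * a = (((σ ^ e) a)⁻¹ * a) ^ n := fun n => by
    induction n with
    | zero => simp
    | succ n ih =>
      have := fix_pow x (e * n)
      rw [map_mul, map_inv, ← MulAut.mul_apply, ← pow_add] at this
      rw [pow_succ', ← ih, ← this, mul_add, mul_one]; group
  have t : (((σ ^ d) ^ e) a)⁻¹ * a = (((σ ^ e) a)⁻¹ * a) ^ d := by rw [← pow_mul, mul_comm, c]
  refine ⟨key .., ?_, t⟩
  rw [key]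
  exact (fx (σ ^ d) a e).2 (by rw [t, map_pow, fix_pow x])

end Cfsg.Agent.S2668
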