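import Cfsg.Statements.S2669
import Cfsg.Agent.H3.Shin

set_option autoImplicit false
open Cfsg

namespace Cfsg.Agent.S2669

open H3.Shin

theorem cnt {X : Type*} [Group X] (P Q Y : Subgroup X) (a : X) :
    Nat.card {t : P × Q // (t.1 : X)⁻¹ * a * t.2 ∈ Y} =
      Nat.card {k : P // ∃ h ∈ Q, (k : X)⁻¹ * a * h ∈ Y} * Nat.card ↥(Y ⊓ Q) := by
  rw [← Nat.card_prod]
  symm
  have c : ∀ k : {k : P // ∃ h ∈ Q, (k : X)⁻¹ * a * h ∈ Y}, ∃ h ∈ Q, (k.1 : X)⁻¹ * a * h ∈ Y := fun k => k.2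
  choose f f1 f2 using c
  refine Nat.card_congr (Equiv.ofBijective (fun s => ⟨(s.1.1, ⟨f s.1 * s.2, Q.mul_mem (f1 _) s.2.2.2⟩), by
    have := Y.mul_mem (f2 s.1) s.2.2.1
    simpa only [mul_assoc] using this⟩) ⟨?_, ?_⟩)
  · rintro ⟨k, y⟩ ⟨k', y'⟩ e
    have e1 : k = k' := Subtype.ext (congrArg (fun t => t.1.1) e)
    subst e1
    have e2 : f k * y = f k * y' := congrArg (fun t => (t.1.2 : X)) e
    rw [Subtype.ext (mul_left_cancel e2)]
  · rintro ⟨⟨k, h⟩, e⟩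
    refine ⟨(⟨k, h, h.2, e⟩, ⟨(f ⟨k, h, h.2, e⟩)⁻¹ * h, ?_, Q.mul_mem (Q.inv_mem (f1 _)) h.2⟩), ?_⟩
    · have := Y.mul_mem (Y.inv_mem (f2 ⟨k, h, h.2, e⟩)) e
      have e3 : ∀ u v w : X, (u * v)⁻¹ * (u * w) = v⁻¹ * w := fun u v w => by group
      rw [e3] at this; exact this
    · ext <;> simp

/-- Shintani descent preserves numbers of fixed points on coset spaces (abstract form). Let `σ` be an automorphism of a group `X` and `e ≥ 1`; write `G` for the fixed points of `σᵉ` and `H` for the fixed points of `σ`, and assume `G` is finite. Let `Y` be a `σ`-stable subgroup of `X` on which the maps `a ↦ a σ(a)⁻¹` and `a ↦ a σᵉ(a)⁻¹` are surjective (as for a closed connected `σ`-stable subgroup of an algebraic group). Let `g ∈ G`, let `a ∈ X` satisfy `g = a σ(a)⁻¹` and put `x = σᵉ(a)⁻¹ a` (the Shintani image, an element of `H`). The element `g σ` of the semidirect product acts on the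 cosets of `Y ∩ G` in `G` by `k (Y ∩ G) ↦ g σ(k) (Y ∩ G)`, fixing that coset exactly when `k⁻¹ g σ(k) ∈ Y`; and `x` fixes the coset `h (Y ∩ H)` of `H` exactly when `h⁻¹ x h ∈ Y`. Then the two numbers of fixed cosets agree; in cross-multiplied form, `#{k ∈ G : k⁻¹ g σ(k) ∈ Y} · |Y ∩ H| = #{h ∈ H : h⁻¹ x h ∈ Y} · |Y ∩ G|`. -/
theorem result {X : Type*} [Group X] (σ : MulAut X) (e : ℕ) (he : 1 ≤ e)
    [Finite ↥((MulEquiv.toMonoidHom (σ ^ e)).eqLocus (MonoidHom.id X))]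
    (Y : Subgroup X) (hY : ∀ y : X, y ∈ Y ↔ σ y ∈ Y)
    (hYL : ∀ y ∈ Y, ∃ a ∈ Y, y = a * (σ a)⁻¹) (hYLe : ∀ y ∈ Y, ∃ a ∈ Y, y = a * ((σ ^ e) a)⁻¹)
    (g : X) (hg : g ∈ (MulEquiv.toMonoidHom (σ ^ e)).eqLocus (MonoidHom.id X)) (a : X) (ha : g = a * (σ a)⁻¹) :
    Nat.card {k : ↥((MulEquiv.toMonoidHom (σ ^ e)).eqLocus (MonoidHom.id X)) // (k : X)⁻¹ * g * σ k ∈ Y} *
        Nat.card ↥(Y ⊓ (MulEquiv.toMonoidHom σ).eqLocus (MonoidHom.id X)) =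
      Nat.card {h : ↥((MulEquiv.toMonoidHom σ).eqLocus (MonoidHom.id X)) // (h : X)⁻¹ * (((σ ^ e) a)⁻¹ * a) * h ∈ Y} *
        Nat.card ↥(Y ⊓ (MulEquiv.toMonoidHom (σ ^ e)).eqLocus (MonoidHom.id X)) := by
  set_option maxSynthPendingDepth 3 in
  set P := (MulEquiv.toMonoidHom (σ ^ e)).eqLocus (MonoidHom.id X) with hP
  set Q := (MulEquiv.toMonoidHom σ).eqLocus (MonoidHom.id X) with hQ
  have mP : ∀ x, x ∈ P ↔ (σ ^ e) x = x := fun _ => Iff.rfl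
  have mQ : ∀ x, x ∈ Q ↔ σ x = x := fun _ => Iff.rfl
  have hYn : ∀ n : ℕ, ∀ y ∈ Y, (σ ^ n) y ∈ Y := fun n => by
    induction n with
    | zero => exact fun y h => h
    | succ n ih => exact fun y h => by rw [pow_succ, MulAut.mul_apply]; exact ih _ ((hY y).1 h)
  have e1 : Nat.card {k : P // (k : X)⁻¹ * g * σ k ∈ Y} = Nat.card {k : P // ∃ h ∈ Q, (k : X)⁻¹ * a * h ∈ Y} := by
    refine Nat.card_congr (Equiv.subtypeEquivRight fun k => ⟨fun h => ?_, ?_⟩)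
    · obtain ⟨y, hy, e⟩ := hYL _ h
      refine ⟨a⁻¹ * k * y, (mQ _).2 ?_, by simpa [mul_assoc] using hy⟩
      have : (σ y) = (y⁻¹ * ((k : X)⁻¹ * g * σ k))⁻¹ := by rw [e]; group
      rw [map_mul, map_mul, map_inv, this, ha]; group
    · rintro ⟨h, hh, e⟩
      have := Y.mul_mem e (Y.inv_mem ((hY _).1 e))
      rw [map_mul, map_mul, map_inv, (mQ h).1 hh] at this
      convert this using 1; rw [ha]; group
  have e2 : Nat.card {h : Q // (h : X)⁻¹ * (((σ ^ e) a)⁻¹ * a) * h ∈ Y} = Nat.card {h : Q // ∃ k ∈ P, (h : X)⁻¹ * a⁻¹ * k ∈ Y} := by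
    refine Nat.card_congr (Equiv.subtypeEquivRight fun h => ⟨fun hh => ?_, ?_⟩)
    · obtain ⟨y, hy, e'⟩ := hYLe _ (Y.inv_mem hh)
      refine ⟨a * h * y, (mP _).2 ?_, by simpa [mul_assoc] using hy⟩
      have : ((σ ^ e) y) = (y⁻¹ * ((h : X)⁻¹ * (((σ ^ e) a)⁻¹ * a) * h)⁻¹)⁻¹ := by rw [e']; group
      rw [map_mul, map_mul, this, fix_pow ((mQ _).1 h.2)]; group
    · rintro ⟨k, hk, e'⟩
      have := Y.mul_mem (hYn e _ e') (Y.inv_mem e')
      rw [map_mul, map_mul, map_inv, map_inv, (mP k).1 hk, fix_pow ((mQ _).1 h.2)] at this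
      convert this using 1; group
  rw [e1, e2, ← cnt, ← cnt]
  refine Nat.card_congr ((Equiv.prodComm _ _).subtypeEquiv fun t => ?_)
  rw [← Y.inv_mem_iff]; simp [mul_assoc]

end Cfsg.Agent.S2669
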