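import Cfsg.Statements.S2671
import Cfsg.Agent.H3.Wall5

set_option autoImplicit false
open Cfsg

namespace Cfsg.Agent.S2671

open H3.RCF H3.Wall H4

/-- Number of conjugacy classes of elements of odd prime order r in the general unitary group GU_n(q), for r not dividing q(q + 1): let i be the multiplicative order of q modulo r, b = i if i is odd and b = i/2 if i is even, and s = (r − 1)/b. If i ≢ 2 (mod 4) the eigenvalue orbits pair off into dual pairs of totally isotropic blocks and there are C(⌊n/(2b)⌋ + s/2, s/2) − 1 classes; if i ≡ 2 (mod 4) each orbit gives a non-degenerate block of dimension i/2 and there are C(⌊2n/i⌋ + s, s) − 1 classes. -/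
theorem result {K : Type*} [Field K] [Fintype K] {p q n r i b s : ℕ} [Fact p.Prime] [CharP K p] (hK : Fintype.card K = q ^ 2) (hr : r.Prime) (hr2 : r ≠ 2) (hrp : r ≠ p) (hi : i = orderOf (q : ZMod r)) (hi2 : i ≠ 2) (hb : b = if Odd i then i else i / 2) (hs : s * b = r - 1) : Nat.card {C : ConjClasses ↥(Cfsg.GU n K q) // ∃ g : ↥(Cfsg.GU n K q), ConjClasses.mk g = C ∧ orderOf g = r} = if i % 4 = 2 then Nat.choose (2 * n / i + s) s - 1 else Nat.choose (n / (2 * b) + s / 2) (s / 2) - 1 := by
  set_option maxSynthPendingDepth 3 in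
  classical
  haveI := Fact.mk hr
  have c := (Nat.coprime_primes hr Fact.out).2 hrp
  obtain ⟨k, e⟩ := exists_pow_eq_of_card_sq hK
  rw [ringChar.eq K p] at e
  have o : orderOf (Fintype.card K : ZMod r) = b := by
    rw [hK, Nat.cast_pow, orderOf_pow' _ two_ne_zero, ← hi, hb]
    split_ifs with h
    · rw [Nat.coprime_two_right.2 h, Nat.div_one]
    · rw [Nat.gcd_eq_right (even_iff_two_dvd.1 (Nat.not_odd_iff_even.1 h))]
  have b0 := o ▸ ord_pos (F := K) c
  have i0 : 0 < i := by split_ifs at hb <;> omega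
  have t : (∃ j, (Fintype.card K : ZMod r) ^ j = -p ^ k) ↔ i % 4 = 2 := by
    rw [hK, ← Nat.cast_pow, ← e]
    refine ⟨fun ⟨j, h⟩ => ?_, fun h => ⟨i / 4 + 1, ?_⟩⟩
    · have : (q : ZMod r) ^ (2 * j + (i - 1)) = -1 := by
        rw [pow_add, pow_mul, ← Nat.cast_pow q 2, h, neg_mul, ← pow_succ', Nat.sub_add_cancel i0, hi, pow_orderOf_eq_one]
      have := neg_pow hr2 this
      rw [← hi] at this
      obtain ⟨⟨l, a⟩, b⟩ := this
      rcases Nat.even_or_odd' i with ⟨x, rfl | rfl⟩
      · rcases Nat.even_or_odd' x with ⟨x, rfl | rfl⟩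
        · rw [mul_assoc, mul_assoc] at a; omega
        · omega
      · exact (b ((Nat.coprime_two_right.2 ⟨x, rfl⟩).dvd_of_dvd_mul_left ⟨l, a⟩)).elim
    · rw [Nat.cast_pow, ← pow_mul, show 2 * (i / 4 + 1) = i / 2 + 1 by omega, pow_succ, half_pow (by omega) (by omega), neg_one_mul]
  have H := fun h y hh hy => card_r (uForm_ND hK n) (guEquiv hK n) (k := k) (h := h) (y := y) (fun c => e ▸ rfl) c hr2 o.symm hh hy True (N := n) (by simp)
    fun R a b d e k => iff_of_true (ach_u hK c (a.mul ((Polynomial.monic_X_sub_C 1).pow e)) (fun x i l => Polynomial.cyclotomic_prime_mul_X_sub_one K r ▸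
      (i.prime.dvd_mul.1 l).elim (fun l => (b x i l).mul_right _) fun l => (i.prime.dvd_of_dvd_pow l).mul_left _)
      (by rw [st_mul, st_pow, st_lin _ (by simp)]; exact congrArg (· * _) d)
      (by rw [a.natDegree_mul ((Polynomial.monic_X_sub_C 1).pow e), Polynomial.natDegree_pow, Polynomial.natDegree_X_sub_C, mul_one, k])) fun _ => trivial
  split_ifs with h
  · rw [if_neg (by rw [Nat.odd_iff]; omega)] at hb
    rw [H b s (if_pos (t.2 h)).symm hs, show i = 2 * b by omega, Nat.mul_div_mul_left _ _ two_pos]; simp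
  · rw [H (2 * b) (s / 2) (if_neg (mt t.1 h)).symm]
    · simp
    obtain ⟨s, rfl⟩ : 2 ∣ s := by
      split_ifs at hb with h'
      · exact even_iff_two_dvd.1 ((Nat.even_mul.1 (hs ▸ hr.even_sub_one hr2)).resolve_right (hb ▸ Nat.not_even_iff_odd.2 h'))
      · have := ZMod.orderOf_dvd_card_sub_one (a := (q : ZMod r)) (fun z => by rw [z, orderOf_zero] at hi; omega)
        rw [← hi, ← hs, show i = 2 * b by rw [Nat.odd_iff] at h'; omega] at this
        exact Nat.dvd_of_mul_dvd_mul_right b0 this
    rw [← hs, Nat.mul_div_cancel_left _ two_pos]; ring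

end Cfsg.Agent.S2671
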