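import Cfsg.Statements.S2672
import Cfsg.Agent.H3.Wall7
import Cfsg.Agent.H4.AuM

set_option autoImplicit false
open Cfsg

namespace Cfsg.Agent.S2672

open H3.RCF H3.Wall H4 Au Polynomial

/-- Number of conjugacy classes of elements of odd prime order r in PGU_n(q) = GU_n(q)/scalars (n ≥ 3) when r divides q + 1: as in the linear case with q − 1 replaced by q + 1, the classes correspond to the rotation orbits on r-tuples of eigenvalue multiplicities summing to n with every entry < n, plus r − 1 further classes when r divides n; in all (C(n+r−1, r−1) − r − [r ∣ n])/r + r·[r ∣ n]. -/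
theorem result {K : Type*} [Field K] [Fintype K] {q n r : ℕ} (hK : Fintype.card K = q ^ 2) (hn : 3 ≤ n) (hr : r.Prime) (hr2 : r ≠ 2) (hrq : r ∣ q + 1) : Nat.card {C : ConjClasses (↥(Cfsg.GU n K q) ⧸ Subgroup.center ↥(Cfsg.GU n K q)) // ∃ g : ↥(Cfsg.GU n K q) ⧸ Subgroup.center ↥(Cfsg.GU n K q), ConjClasses.mk g = C ∧ orderOf g = r} = (Nat.choose (n + r - 1) (r - 1) - r - (if r ∣ n then 1 else 0)) / r + r * (if r ∣ n then 1 else 0) := by
  set_option maxSynthPendingDepth 3 in
  haveI : NeZero n := ⟨by omega⟩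
  haveI := Fact.mk hr
  have h2 := two_le_of_card_sq hK
  have c := card_nrm1 hK ▸ hrq
  obtain ⟨ζ, hζ⟩ := exists_prime_orderOf_dvd_card' r c
  have hζ : IsPrimitiveRoot ζ.1.1 r := by rw [← hζ, ← Subgroup.orderOf_coe, ← orderOf_units]; exact .orderOf _
  have h1 : ∀ a ∈ nrm1 (q := q), ∀ c : K, c ^ r = a.1 → c ^ (q + 1) = 1 := fun a b c e => by
    have c0 : c ≠ 0 := by rintro rfl; exact a.ne_zero (by simp [← e, hr.ne_zero])
    have := (pow_gcd_eq_one (a := c ^ (q + 1)) (m := r) (n := q - 1)).2 ⟨by rw [pow_right_comm, e]; exact congrArg Units.val b,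
      by rw [← pow_mul, ← Nat.sq_sub_sq, ← hK]; exact FiniteField.pow_card_sub_one_eq_one c c0⟩
    rwa [show r.gcd (q - 1) = 1 from hr.coprime_iff_not_dvd.2 fun d => hr2 ((Nat.prime_dvd_prime_iff_eq hr Nat.prime_two).1 (by
      convert Nat.dvd_sub hrq d using 1; omega)), pow_one] at this
  refine card_pg (GU n K q).subtype Subtype.val_injective nrm1 hr c (by omega) (fun g => ⟨fun z => ?_, fun ⟨a, _, e⟩ =>
    Subgroup.mem_center_iff.2 fun h => Subtype.ext ((congrArg _ e).trans ((sc_comm _ _).symm.trans (congrArg (· * _) e.symm)))⟩)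
    (fun a b => ⟨⟨_, (sc_mem_GU (hF := hK)).2 b⟩, rfl⟩) (fun a b c e => ⟨Units.mk0 c (by rintro rfl; exact a.ne_zero (by simp [← e, hr.ne_zero])),
      Units.ext (h1 a b c e), Units.ext e⟩) (fun g h => (S2587.result hK g h).2) fun a b P m d k e => ?_
  · obtain ⟨u, w, h⟩ := u_exists_hyp (uForm_ND hK n) (by simp; omega)
    obtain ⟨c, e⟩ := u_wrich.centralizer_E (uForm_ND hK n) h (z := guEquiv hK n g) fun e _ => by
      obtain ⟨e, rfl⟩ := (guEquiv hK n).surjective e
      rw [← map_mul, ← map_mul, Subgroup.mem_center_iff.1 z]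
    obtain ⟨a, e⟩ := mem_sc.1 (mem_sc_of (g := g.1) (c := c) (matrix_ext_mulVec fun v => (e v).trans (by simp [Matrix.smul_mulVec])))
    exact ⟨a, (sc_mem_GU (hF := hK)).1 (e ▸ g.2), e⟩
  obtain ⟨g, x, y⟩ := root_gl hr.ne_zero a m d e
  have sq := (separable_X_pow_sub_C _ hζ.neZero'.out a.ne_zero).squarefree
  have s : st (frobq hK) P = P := by
    obtain ⟨M, u, v, w⟩ := exists_ss sq (ae_sc.2 y)
    rw [← x, ← Matrix.charpoly_toLin', w]
    refine Multiset.prod_induction (fun P => st (frobq hK) P = P) _ (fun a b c d => by rw [st_mul, c, d]) (st_one _) fun z k => ?_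
    rcases ir_lam hr hζ (v z k).1 (v z k).2 ((u.zero _).1 (ae_sc.2 y) z k) with ⟨c, e, rfl⟩ | rfl
    · exact st_lin _ ((pow_succ' c q).symm.trans (h1 a b c e))
    · exact st_X_pow _ hr.ne_zero ((pow_succ' _ q).symm.trans (congrArg Units.val b))
  obtain ⟨B, h⟩ := exists_gu hK (a := g) (isConj_gl.2 (sim_of_cp sq sq (ae_sc.2 y) (ae_sc.2 (by
    rw [← map_pow, y]; exact (mem_GU hK).1 ((sc_mem_GU (hF := hK)).2 b))) (by
    rw [Matrix.charpoly_toLin', Matrix.charpoly_toLin', ← inv_inv (tw _ g), Matrix.coe_units_inv, tw_inv_coe]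
    exact (x.trans s.symm).trans ((congrArg _ x.symm).trans (cp_tw (frobq hK) g.isUnit).symm))))
  obtain ⟨t, h'⟩ := isConj_iff.1 (h.pow r)
  exact ⟨B, (isConj_gl.1 h).cp.symm.trans x, h'.symm.trans (by rw [y, ← sc_comm]; simp)⟩

end Cfsg.Agent.S2672
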