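import Cfsg.Statements.S2673
import Cfsg.Agent.H3.Wall5

set_option autoImplicit false
open Cfsg

namespace Cfsg.Agent.S2673

open H3.RCF H3.Wall H4

/-- Number of conjugacy classes of elements of odd prime order r ≠ p in the orthogonal group O_(2m+1)(q) of x_0² + Σ x_j y_j, q odd: with i the multiplicative order of q mod r and t = (r − 1)/i, there are C(⌊m/i⌋ + t/2, t/2) − 1 classes if i is odd (dual pairs of totally singular i-blocks) and C(⌊(2m+1)/i⌋ + t, t) − 1 if i is even (elliptic i-blocks). -/
theorem result {F : Type*} [Field F] [Fintype F] {p q : ℕ} [Fact p.Prime] [CharP F p] (hF : Fintype.card F = q) (hq : Odd q) (m r i t : ℕ) (hr : r.Prime) (hr2 : r ≠ 2) (hrp : r ≠ p) (hi : i = orderOf (q : ZMod r)) (ht : t * i = r - 1) : Nat.card {C : ConjClasses ↥(Cfsg.isometryGroup F (Cfsg.quadFormOdd m F)) // ∃ g : ↥(Cfsg.isometryGroup F (Cfsg.quadFormOdd m F)), ConjClasses.mk g = C ∧ orderOf g = r} = if Odd i then Nat.choose (m / i + t / 2) (t / 2) - 1 else Nat.choose ((2 * m + 1) / i + t) t - 1 := by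
  set_option maxSynthPendingDepth 3 in
  subst hF
  haveI := Fact.mk hr
  have c := (Nat.coprime_primes hr Fact.out).2 hrp
  have o : (2 : F) ≠ 0 := fun h => by
    have := FiniteField.even_card_of_char_two (ringChar.eq_iff.2 (CharTwo.of_one_ne_zero_of_two_eq_zero one_ne_zero h))
    have := Nat.odd_iff.1 hq
    omega
  exact (card_r' (oddForm_ND F m o) (isometryEquiv (oddForm F m)) rfl c hr2 hi ht True (N := 2 * m + 1) (by simp; omega)
    fun R a b d e k => iff_of_true (ach_odd c hr2 a b d e o k) fun _ => trivial).trans (by simp [show (2 * m + 1) / 2 = m by omega])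

end Cfsg.Agent.S2673
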