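import Cfsg.Statements.S2674
import Cfsg.Agent.H3.Wall5

set_option autoImplicit false
open Cfsg

namespace Cfsg.Agent.S2674

open H3.RCF H3.Wall H4

/-- Number of conjugacy classes of elements of odd prime order r ≠ p in the orthogonal group O⁺_2m(q) of Σ x_j y_j (m ≥ 1): with i the multiplicative order of q mod r and t = (r − 1)/i — if i is odd, C(⌊m/i⌋ + t/2, t/2) − 1; if i is even, C(⌊2m/i⌋ + t, t) − 1 minus, when i divides 2m with odd quotient, the C(2m/i + t − 1, t − 1) tuples using the whole space (an odd number of elliptic i-blocks fills an elliptic, not a hyperbolic, space). -/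
theorem result {F : Type*} [Field F] [Fintype F] {p q : ℕ} [Fact p.Prime] [CharP F p] (hF : Fintype.card F = q) (m r i t : ℕ) (hm : 1 ≤ m) (hr : r.Prime) (hr2 : r ≠ 2) (hrp : r ≠ p) (hi : i = orderOf (q : ZMod r)) (ht : t * i = r - 1) : Nat.card {C : ConjClasses ↥(Cfsg.isometryGroup F (Cfsg.quadFormPlus m F)) // ∃ g : ↥(Cfsg.isometryGroup F (Cfsg.quadFormPlus m F)), ConjClasses.mk g = C ∧ orderOf g = r} = if Odd i then Nat.choose (m / i + t / 2) (t / 2) - 1 else Nat.choose (2 * m / i + t) t - 1 - (if i ∣ 2 * m ∧ Odd (2 * m / i) then Nat.choose (2 * m / i + t - 1) (t - 1) else 0) := by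
  set_option maxSynthPendingDepth 3 in
  subst hF
  haveI := Fact.mk hr
  have c := (Nat.coprime_primes hr Fact.out).2 hrp
  have i0 := hi ▸ ord_pos (F := F) c
  refine (card_r' (plusForm_ND F m) (isometryEquiv (plusForm F m)) rfl c hr2 hi ht (i ∣ m) (N := 2 * m) (by simp; omega)
    fun R a b d e k => ?_).trans ?_
  · rw [ach_even c hr2 a b d e (plusForm_ND F m) (by simp; omega) k, hi, orderOf_dvd_iff_pow_eq_one]
    simp [plusForm_hasTS]
  rw [Nat.mul_div_cancel_left _ two_pos, if_neg (c := 2 * i ∣ 2 * m ∧ ¬i ∣ m) fun h => h.2 (Nat.dvd_of_mul_dvd_mul_left two_pos h.1)]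
  rw [Nat.sub_zero]
  congr 3
  refine propext (and_congr_right ?_)
  rintro ⟨k, e⟩
  rw [e, Nat.mul_div_cancel_left _ i0, ← Nat.not_even_iff_odd, not_iff_not, even_iff_two_dvd, ← Nat.mul_dvd_mul_iff_left (b := 2) i0, ← e, mul_comm i,
    Nat.mul_dvd_mul_iff_left two_pos]

end Cfsg.Agent.S2674
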