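import Cfsg.Statements.S2677
import Cfsg.Agent.H4.DsA

set_option autoImplicit false
open Cfsg

namespace Cfsg.Agent.S2677


/-- Centraliser of a field automorphism of odd prime order in PGU_n(q): let q = q₀^r with r an odd prime, K the field with q² elements and σ a field automorphism of K of order r (fixed field of order q₀²). The elements g of GU_n(q) whose entrywise image under σ is a scalar multiple of g — those whose coset modulo the q + 1 unitary scalars is fixed by σ — number (q + 1)/(q₀ + 1) · |GU_n(q₀)|; equivalently the centraliser in PGU_n(q) of the induced automorphism has the order of PGU_n(q₀). -/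
theorem result {K : Type*} [Field K] [Fintype K] {q₀ q r n : ℕ} (hr : r.Prime) (hr2 : r ≠ 2) (hn : 1 ≤ n) (hq : q = q₀ ^ r) (hK : Fintype.card K = q ^ 2) (σ : K ≃+* K) (hσ : orderOf σ = r) : (Nat.card {g : ↥(Cfsg.GU n K q) // ∃ c : K, c ≠ 0 ∧ ((g : GL (Fin n) K) : Matrix (Fin n) (Fin n) K).map σ = c • ((g : GL (Fin n) K) : Matrix (Fin n) (Fin n) K)} : ℤ) = ((q + 1) / (q₀ + 1) : ℕ) * ((q₀ : ℤ) ^ (n * (n - 1) / 2) * ∏ i : Fin n, ((q₀ : ℤ) ^ ((i : ℕ) + 1) - (-1) ^ ((i : ℕ) + 1))) := by
  rw [H4.Au.s2677 hr hr2 hn hq hK σ hσ, ← Fin.prod_univ_eq_prod_range, Nat.cast_mul]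
  have h0 : 1 ≤ q₀ := Nat.pos_of_ne_zero (by
    rintro rfl; have := H4.two_le_of_card_sq hK; rw [zero_pow hr.ne_zero] at hq; omega)
  congr 1
  push_cast
  refine congrArg _ (Finset.prod_congr rfl fun i _ => ?_)
  split_ifs with h
  · simp [h.add_one.neg_one_pow]
  · rw [Nat.cast_sub (Nat.one_le_pow _ _ h0), (Nat.not_even_iff_odd.1 h).add_one.neg_one_pow]
    simp

end Cfsg.Agent.S2677
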