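import Cfsg.Statements.S2678
import Cfsg.Agent.H4.RsA

set_option autoImplicit false
open Cfsg

namespace Cfsg.Agent.S2678


/-- Field-extension embedding of symplectic groups: for a field K with q² elements and a field F with q elements there is an injective homomorphism Sp_2a(K) → Sp_4a(F). -/
theorem result {K F : Type*} [Field K] [Fintype K] [Field F] [Fintype F] {q : ℕ} (hK : Fintype.card K = q ^ 2) (hF : Fintype.card F = q) (a : ℕ) : ∃ φ : ↥(Matrix.symplecticGroup (Fin a) K) →* ↥(Matrix.symplecticGroup (Fin (2 * a)) F), Function.Injective φ := by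
  obtain ⟨j, -⟩ := H4.exists_sub hK hF
  letI := j.toAlgebra
  obtain ⟨τ, -, h4⟩ := H4.exists_dual_eq (Z := ⊥) (x := (1 : K)) (by simp) (1 : F)
  obtain ⟨φ, h⟩ := H4.res_alt (fun _ => rfl) τ (H4.spForm_ND a K) (fun e => by simp [e] at h4)
    (fun x => by rw [H4.Form.B_self_of_Q (H4.alt_Q _ _), map_zero]) (H4.spForm_ND (2 * a) F)
    (by rw [← Module.finrank_mul_finrank F K, H4.finrank_two hK hF]; simp [two_mul])
  exact ⟨(H4.spEquiv _ F).symm.toMonoidHom.comp (φ.comp (H4.spEquiv a K).toMonoidHom),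
    (H4.spEquiv _ F).symm.injective.comp (h.comp (H4.spEquiv a K).injective)⟩

end Cfsg.Agent.S2678
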