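import Cfsg.Statements.S2679
import Cfsg.Agent.H4.RsA

set_option autoImplicit false
open Cfsg

namespace Cfsg.Agent.S2679


/-- An elliptic orthogonal group embeds in the hyperbolic orthogonal group of the same dimension over the quadratic extension: for a field F with q elements and a field K with q² elements there is an injective homomorphism from O⁻_2m(F) (isometries of Σ_(j<m−1) x_j y_j + z₁² + a z₁z₂ + c z₂², binary part anisotropic) to O⁺_2m(K) (isometries of Σ_(j<m) x_j y_j over K). -/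
theorem result {F K : Type*} [Field F] [Fintype F] [Field K] [Fintype K] {q : ℕ} (hF : Fintype.card F = q) (hK : Fintype.card K = q ^ 2) {m : ℕ} (hm : 1 ≤ m) (a c : F) (hac : ∀ z₁ z₂ : F, z₁ ^ 2 + a * z₁ * z₂ + c * z₂ ^ 2 = 0 → z₁ = 0 ∧ z₂ = 0) : ∃ φ : ↥(Cfsg.isometryGroup F (Cfsg.quadFormMinus (m - 1) F a c)) →* ↥(Cfsg.isometryGroup K (Cfsg.quadFormPlus m K)), Function.Injective φ := by
  obtain ⟨m, rfl⟩ := Nat.exists_eq_add_of_le' hm
  obtain ⟨j, -⟩ := H4.exists_sub hK hF
  letI := j.toAlgebra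
  have t := H4.Au.tr_gm (H4.Au.minus_bc (m := m) j a c)
  obtain ⟨z, hz⟩ := H4.Au.exists_root hac K (H4.finrank_two hK hF)
  obtain ⟨φ, h⟩ := H4.plus_exists_isIso (m + 1) _ _ _ _ (t.nd (H4.minusForm_ND m hac))
    (H4.plusForm_ND K (m + 1)) (by simp; ring) (by simp [two_mul]) (H4.Au.minus_hasTS hz)
    (H4.plusForm_hasTS _)
  let e : Cfsg.isometryGroup K (Cfsg.quadFormPlus (m + 1) K) ≃* (H4.plusForm K (m + 1)).Isom :=
    H4.isometryEquiv (H4.plusForm K (m + 1))
  let e' := ((H4.isometryEquiv _).trans h.isomEquiv).trans e.symm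
  exact ⟨e'.toMonoidHom.comp (((H4.Au.gm j).comp (Subgroup.subtype _)).codRestrict _ fun g => t.iso g.2),
    e'.injective.comp fun x y k => Subtype.ext (H4.Au.gm_inj (congrArg Subtype.val k))⟩

end Cfsg.Agent.S2679
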