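import Cfsg.Statements.S2682
import Cfsg.Agent.H4.InB

set_option autoImplicit false
open Cfsg

namespace Cfsg.Agent.S2682


/-- Centraliser order of an involution t of Sp_2m(q), q even, with s = rank(t − 1) even and f(v, tv) ≠ 0 for some v, f the symplectic form (type c_s): |C(t)| = q^(2ms − (3s² − 3s)/2 − 1) · |Sp_(s−2)(q)| · |Sp_(2m−2s)(q)|. -/
theorem result {F : Type*} [Field F] [Fintype F] [CharP F 2] {q : ℕ} (hF : Fintype.card F = q) {m s : ℕ} (t : Matrix.symplecticGroup (Fin m) F) (ht : t ^ 2 = 1) (hs : ((t : Matrix (Fin m ⊕ Fin m) (Fin m ⊕ Fin m) F) - 1).rank = s) (heven : Even s) (hna : ∃ v : Fin m ⊕ Fin m → F, Cfsg.sympForm m F v ((t : Matrix (Fin m ⊕ Fin m) (Fin m ⊕ Fin m) F).mulVec v) ≠ 0) : Nat.card ↥(Subgroup.centralizer ({t} : Set ↥(Matrix.symplecticGroup (Fin m) F))) = q ^ (2 * m * s - (3 * s ^ 2 - 3 * s) / 2 - 1) * ((q : ℕ) ^ (((s - 2) / 2) ^ 2) * ∏ i : Fin ((s - 2) / 2), (q ^ (2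 * ((i : ℕ) + 1)) - 1)) * ((q : ℕ) ^ ((m - s) ^ 2) * ∏ i : Fin (m - s), (q ^ (2 * ((i : ℕ) + 1)) - 1)) := by
  have h2 : (2 : F) = 0 := CharTwo.two_eq_zero
  let e := H4.spEquiv m F
  have hf := H4.spForm_ND m F
  have hn : Module.finrank F (Fin m ⊕ Fin m → F) = 2 * m := by simp; omega
  rw [← (H4.rk_eq_rank (t := (e t).1) (M := t.1) fun _ => rfl).1] at hs
  replace ht : e t * e t = 1 := by rw [← map_mul, ← sq, ht, map_one]
  obtain ⟨v, hv⟩ := hna
  obtain ⟨d, h | h⟩ := H4.cent_na hf (fun _ => rfl) h2 ht fun h => hv (by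
    have := h v
    rwa [H4.nil_apply, map_sub, LinearMap.sub_apply, H4.alt_B_self, sub_zero,
      H4.Form.B_eq_zero_comm, H4.spForm_B] at this)
  · grind
  obtain ⟨h3, h4⟩ := H4.alt_fix_inv hf h2 hn ht hs
  obtain rfl : s = 2 * d + 2 := by omega
  obtain ⟨k, rfl⟩ := Nat.exists_eq_add_of_le h3
  rw [H4.card_cent_congr e, h.2, h4, show (2 * d + 2 - 2) / 2 = d by omega,
    Nat.card_eq_fintype_card, hF,
    show 3 * (2 * d + 2) ^ 2 - (2 * d + 2) = 2 * ((d + 1) * (6 * d + 5)) from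
      Nat.sub_eq_of_eq_add (by ring),
    show 3 * (2 * d + 2) ^ 2 - 3 * (2 * d + 2) = 2 * ((d + 1) * (6 * d + 3)) from
      Nat.sub_eq_of_eq_add (by ring), Nat.mul_div_cancel_left _ two_pos,
    Nat.mul_div_cancel_left _ two_pos,
    show 2 * (2 * d + 2 + k) * (2 * d + 2) - (d + 1) * (6 * d + 5) = (d + 1) * (2 * d + 3 + 4 * k) from
      Nat.sub_eq_of_eq_add (by ring),
    show 2 * (2 * d + 2 + k) * (2 * d + 2) - (d + 1) * (6 * d + 3) = (d + 1) * (2 * d + 5 + 4 * k) from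
      Nat.sub_eq_of_eq_add (by ring),
    show (d + 1) * (2 * d + 5 + 4 * k) - 1 = (d + 1) * (2 * d + 3 + 4 * k) + (2 * d + 1) from
      Nat.sub_eq_of_eq_add (by ring)]
  simp only [Finset.prod_range]
  ring

end Cfsg.Agent.S2682
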