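import Cfsg.Statements.S2683
import Cfsg.Agent.H4.InC

set_option autoImplicit false
open Cfsg

namespace Cfsg.Agent.S2683


/-- For the hyperbolic form Σ x_j y_j on F^(2m) over a finite field with q elements, q even (excluding m = 2 over the field of two elements), and an involution x of the orthogonal group with s = rank(x − 1) odd (type b_s; such x lie outside Ω): the elements of Ω (the commutator subgroup of the orthogonal group) commuting with x number q^(2m(s−1) − (3s² − 3s)/2) · |Sp_(s−1)(q)| · |Sp_(2m−2s)(q)|, where |Sp_2k(q)| = q^(k²) Π_(i=1)^k (q^(2i) − 1). -/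
theorem result {F : Type*} [Field F] [Fintype F] [CharP F 2] {q : ℕ} (hF : Fintype.card F = q) {m s : ℕ} (h : Fintype.card F ≠ 2 ∨ m ≠ 2) (x : ↥(Cfsg.isometryGroup F (Cfsg.quadFormPlus m F))) (hx : x ^ 2 = 1) (hs : (((x : Matrix.GeneralLinearGroup (Fin m ⊕ Fin m) F) : Matrix (Fin m ⊕ Fin m) (Fin m ⊕ Fin m) F) - 1).rank = s) (hodd : Odd s) : Nat.card {g : ↥(Cfsg.Omega F (Cfsg.quadFormPlus m F)) // (g : ↥(Cfsg.isometryGroup F (Cfsg.quadFormPlus m F))) * x = x * (g : ↥(Cfsg.isometryGroup F (Cfsg.quadFormPlus m F)))} = q ^ (2 * m * (s - 1) - (3 * s ^ 2 - 3 * s) / 2) * ((q : ℕ) ^ (((s - 1) / 2) ^ 2) * ∏ i : Fin ((s - 1) / 2), (q ^ (2 * ((i : ℕ) + 1)) - 1)) * ((q : ℕ) ^ ((m - s) ^ 2) * ∏ i : Fin (m - s), (q ^ (2 * ((i : ℕ) + 1)) - 1)) := by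
  have h2 : (2 : F) = 0 := CharTwo.two_eq_zero
  let f := H4.plusForm F m
  have hf : f.ND := H4.plusForm_ND F m
  let e : Cfsg.isometryGroup F (Cfsg.quadFormPlus m F) ≃* f.Isom := H4.isometryEquiv f
  have hn : Module.finrank F (Fin m ⊕ Fin m → F) = 2 * m := by simp; omega
  have hgen := H4.hgen_of hf (h.imp (by rw [Nat.card_eq_fintype_card]; exact id) (by omega))
  rw [← (H4.rk_eq_rank (t := (e x).1) (M := x.1.1) fun _ => rfl).1] at hs
  replace hx : e x * e x = 1 := by rw [← map_mul, ← sq, hx, map_one]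
  have ha : ¬ H4.Al (e x) := fun h => by
    have := h.even hf (fun _ => rfl) h2 hx
    grind
  obtain ⟨c, h3, h4⟩ := H4.exists_refl hf h2 hx fun a => ha a.1
  have h5 := H4.omega_card hf h2 hgen h3 h4
  rw [Nat.card_congr ((H4.commutatorEquiv e).toEquiv.subtypeEquiv
    (q := fun g => g.1 * e x = e x * g.1) fun g => by
      change _ ↔ e g * _ = _ * e g
      rw [← map_mul, ← map_mul, e.apply_eq_iff_eq])]
  obtain ⟨d, h | h⟩ := H4.cent_na hf (fun _ => rfl) h2 hx ha
  · rw [h.2, H4.quad_fix_na hf h2 hn hx ha hs, Nat.card_eq_fintype_card, hF] at h5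
    simp only [Finset.prod_range] at h5
    rw [show (s - 1) / 2 = d by omega]
    refine Nat.eq_of_mul_eq_mul_left two_pos (h5.symm.trans (by ring))
  · grind

end Cfsg.Agent.S2683
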