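import Cfsg.Statements.S2685
import Cfsg.Agent.H4.InC

set_option autoImplicit false
open Cfsg

namespace Cfsg.Agent.S2685


/-- For the hyperbolic form Q = Σ x_j y_j on F^(2m) over a finite field with q elements, q even (excluding m = 2 over the field of two elements), and an involution x of the orthogonal group with s = rank(x − 1) even and Q not vanishing on the image of x − 1 (f(v, xv) ≠ 0 for some v, where f(u, w) = Q(u + w) − Q(u) − Q(w) is the bilinear form of Q; type c_s, which lies in Ω): its centraliser in Ω (the commutator subgroup of the orthogonal group) has order q^(2m(s−1) − (3s² − 5s)/2 − 1) · |Sp_(s−2)(q)| · |Sp_(2m−2s)(q)|. -/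
theorem result {F : Type*} [Field F] [Fintype F] [CharP F 2] {q : ℕ} (hF : Fintype.card F = q) {m s : ℕ} (h : Fintype.card F ≠ 2 ∨ m ≠ 2) (x : ↥(Cfsg.isometryGroup F (Cfsg.quadFormPlus m F))) (hx : x ^ 2 = 1) (hs : (((x : Matrix.GeneralLinearGroup (Fin m ⊕ Fin m) F) : Matrix (Fin m ⊕ Fin m) (Fin m ⊕ Fin m) F) - 1).rank = s) (heven : Even s) (hna : ∃ v : Fin m ⊕ Fin m → F, Cfsg.quadFormPlus m F ((((x : Matrix.GeneralLinearGroup (Fin m ⊕ Fin m) F) : Matrix (Fin m ⊕ Fin m) (Fin m ⊕ Fin m) F) - 1).mulVec v) ≠ 0) : Nat.card {g : ↥(Cfsg.Omega F (Cfsg.quadFormPlus m F)) // (g : ↥(Cfsg.isometryGroup F (Cfsg.quadFormPlus m F))) * x = x * (g : ↥(Cfsg.isometryGroup F (Cfsg.quadFormPlus m F)))} = q ^ (2 * m * (s - 1) - (3 * s ^ 2 - 5 * s) / 2 - 1) * ((q : ℕ) ^ (((s - 2) / 2) ^ 2) * ∏ i : Fin ((s - 2) / 2), (q ^ (2 * ((i : ℕ) + 1)) - 1)) * ((q : ℕ) ^ ((m - s) ^ 2) * ∏ i : Fin (m - s), (q ^ (2 * ((i : ℕ) + 1)) - 1)) := by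
  have h2 : (2 : F) = 0 := CharTwo.two_eq_zero
  let f := H4.plusForm F m
  have hf : f.ND := H4.plusForm_ND F m
  let e : Cfsg.isometryGroup F (Cfsg.quadFormPlus m F) ≃* f.Isom := H4.isometryEquiv f
  have hn : Module.finrank F (Fin m ⊕ Fin m → F) = 2 * m := by simp; omega
  have hgen := H4.hgen_of hf (h.imp (by rw [Nat.card_eq_fintype_card]; exact id) (by omega))
  have h0 := H4.rk_eq_rank (t := (e x).1) (M := x.1.1) fun _ => rfl
  rw [← h0.1] at hs
  replace hx : e x * e x = 1 := by rw [← map_mul, ← sq, hx, map_one]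
  have ha : ¬ H4.Al (e x) := fun h => by
    obtain ⟨v, hv⟩ := hna
    have := (H4.al_iff_Q h2).1 h v
    rw [h0.2] at this
    exact hv this
  obtain ⟨c, h3, h4⟩ := H4.exists_refl hf h2 hx fun a => ha a.1
  have h5 := H4.omega_card hf h2 hgen h3 h4
  rw [Nat.card_congr ((H4.commutatorEquiv e).toEquiv.subtypeEquiv
    (q := fun g => g.1 * e x = e x * g.1) fun g => by
      change _ ↔ e g * _ = _ * e g
      rw [← map_mul, ← map_mul, e.apply_eq_iff_eq])]
  obtain ⟨d, h | h⟩ := H4.cent_na hf (fun _ => rfl) h2 hx ha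
  · grind
  have h6 := H4.two_rk_le hf h2 hx
  rw [h.2, H4.quad_fix_na hf h2 hn hx ha hs, Nat.card_eq_fintype_card, hF] at h5
  obtain rfl : s = 2 * d + 2 := by omega
  obtain ⟨k, rfl⟩ := Nat.exists_eq_add_of_le (show 2 * d + 2 ≤ m by omega)
  rw [show 3 * (2 * d + 2) ^ 2 - 3 * (2 * d + 2) = 2 * ((d + 1) * (6 * d + 3)) from
      Nat.sub_eq_of_eq_add (by ring), Nat.mul_div_cancel_left _ two_pos,
    show 2 * d + 2 - 1 = 2 * d + 1 from rfl,
    show 2 * (2 * d + 2 + k) * (2 * d + 1) - (d + 1) * (6 * d + 3) = (2 * d + 1) * (d + 1 + 2 * k) from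
      Nat.sub_eq_of_eq_add (by ring)] at h5
  rw [show (2 * d + 2 - 2) / 2 = d by omega,
    show 3 * (2 * d + 2) ^ 2 - 5 * (2 * d + 2) = 2 * ((d + 1) * (6 * d + 1)) from
      Nat.sub_eq_of_eq_add (by ring), Nat.mul_div_cancel_left _ two_pos,
    show 2 * d + 2 - 1 = 2 * d + 1 from rfl,
    show 2 * (2 * d + 2 + k) * (2 * d + 1) - (d + 1) * (6 * d + 1) =
      (2 * d + 1) * (d + 1 + 2 * k) + (2 * d + 1) + 1 from Nat.sub_eq_of_eq_add (by ring),
    Nat.add_sub_cancel]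
  simp only [Finset.prod_range] at h5
  refine Nat.eq_of_mul_eq_mul_left two_pos (h5.symm.trans (by ring))

end Cfsg.Agent.S2685
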