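import Cfsg.Statements.S2689
import Cfsg.Agent.H5.GL1

set_option autoImplicit false
open Cfsg

namespace Cfsg.Agent.S2689

open H5.Gen

/-- The automorphism group of a simple projective special linear group PSL_n(F) over a finite field (n ≥ 2; |F| ≥ 4 when n = 2) is generated by the automorphisms induced by invertible semilinear maps of F^n (the image of the projective semilinear group) together with the inverse-transpose automorphism. -/
theorem result {F : Type*} [Field F] [Fintype F] {p f : ℕ} [Fact p.Prime] (hF : Fintype.card F = p ^ f) (hf : 1 ≤ f) {n : ℕ} (hn : 2 ≤ n) (hs : n = 2 → 4 ≤ Fintype.card F) :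
    Cfsg.gammaPSL n F ⊔ Cfsg.autSubgroupOf (fun β : Matrix.ProjectiveSpecialLinearGroup (Fin n) F ≃* Matrix.ProjectiveSpecialLinearGroup (Fin n) F => Cfsg.IsInverseTransposeAutPSL β) = ⊤ := by
  obtain ⟨n, rfl⟩ : ∃ k, n = k + 1 := ⟨n - 1, by omega⟩
  have : NeZero n := ⟨by omega⟩
  refine eq_top_iff.2 fun β _ => ?_
  obtain ⟨g, σ, δ, φ, γ, h1, h2, h3, rfl⟩ := decomp_PSL β
  refine mul_mem (Subgroup.mem_sup_left (mul_mem
    (Subgroup.subset_closure ⟨g, _, fun s s' h => h1.eq slι_injective s s' h⟩)
    (Subgroup.subset_closure ⟨1, σ, fun s s' h => h2.eq slι_injective s s' h⟩)))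
    (Subgroup.mem_sup_right ?_)
  rcases h3 with rfl | rfl
  · exact one_mem _
  · exact Subgroup.subset_closure fun s s' h => congrArg _ (Subtype.ext h.symm)

end Cfsg.Agent.S2689
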