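import Cfsg.Statements.S2690
import Cfsg.Agent.H5.GL1

set_option autoImplicit false
open Cfsg

namespace Cfsg.Agent.S2690

open H5.Gen

/-- Every automorphism of a simple projective special linear group PSL_n(F) over a finite field (n ≥ 2; |F| ≥ 4 when n = 2) is a product δ φ γ of an inner-diagonal automorphism δ (induced by an invertible matrix), a standard field automorphism φ (one automorphism of F applied to every entry, possibly the identity) and γ either the identity or the inverse-transpose automorphism. -/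
theorem result {F : Type*} [Field F] [Fintype F] {p f : ℕ} [Fact p.Prime] (hF : Fintype.card F = p ^ f) (hf : 1 ≤ f) {n : ℕ} (hn : 2 ≤ n) (hs : n = 2 → 4 ≤ Fintype.card F) (β : MulAut (Matrix.ProjectiveSpecialLinearGroup (Fin n) F)) :
    ∃ (δ φ γ : MulAut (Matrix.ProjectiveSpecialLinearGroup (Fin n) F)) (σ : F ≃+* F), Cfsg.IsInnerDiagonalAutPSL δ ∧ Cfsg.IsStdFieldAutPSL σ φ ∧ (γ = 1 ∨ Cfsg.IsInverseTransposeAutPSL γ) ∧ β = δ * φ * γ := by
  obtain ⟨n, rfl⟩ : ∃ k, n = k + 1 := ⟨n - 1, by omega⟩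
  have : NeZero n := ⟨by omega⟩
  obtain ⟨g, σ, δ, φ, γ, h1, h2, h3, rfl⟩ := decomp_PSL β
  refine ⟨δ, φ, γ, σ, ⟨g, fun s s' h => h1.eq slι_injective s s' (h.trans (slin_refl _ _).symm)⟩,
    fun s s' h => h2.eq slι_injective s s' (by simpa [slin_apply] using h), h3.imp id ?_, rfl⟩
  rintro rfl s s' h
  exact congrArg _ (Subtype.ext h.symm)

end Cfsg.Agent.S2690
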