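import Cfsg.Statements.S2703
import Cfsg.Agent.H4.GrD

set_option autoImplicit false
open Cfsg

namespace Cfsg.Agent.S2703


/-- Let T = PSL_n(F) over the field with q elements, q odd, n = 2m ≥ 4 even, and ι the inverse-transpose automorphism. Its centralizer in G = Inndiag(T) (the image of PGL_n(F)) is isomorphic to the projective conformal orthogonal group of the plus-type form Σ xᵢ yᵢ in dimension n when n(q − 1)/4 is even, and to that of a minus-type form (Σ xᵢ yᵢ + z₁² + a z₁ z₂ + b z₂² with anisotropic binary part) when n(q − 1)/4 is odd. -/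
theorem result {F : Type*} [Field F] [Fintype F] (hodd : Odd (Fintype.card F)) {n m : ℕ} (hm : 2 ≤ m) (hnm : n = 2 * m) (ι : MulAut (Matrix.ProjectiveSpecialLinearGroup (Fin n) F)) (hι : Cfsg.IsInverseTransposeAutPSL ι) :
    (Even (n * (Fintype.card F - 1) / 4) → Nonempty (↥(Cfsg.inndiagPSL n F ⊓ Subgroup.centralizer {ι}) ≃* Cfsg.PGO F (Cfsg.quadFormPlus m F))) ∧ (¬ Even (n * (Fintype.card F - 1) / 4) → ∃ a b : F, (∀ z₁ z₂ : F, z₁ ^ 2 + a * z₁ * z₂ + b * z₂ ^ 2 = 0 → z₁ = 0 ∧ z₂ = 0) ∧ Nonempty (↥(Cfsg.inndiagPSL n F ⊓ Subgroup.centralizer {ι}) ≃* Cfsg.PGO F (Cfsg.quadFormMinus (m - 1) F a b))) := by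
  have h2 := H4.Au.two_ne_odd.2 hodd
  have D := H4.Au.gdL (F := F) (n := n) (hn := by omega) (hs := by omega) (by omega)
  have r := (H4.Au.repSL_it (hn := by omega) (hs := by omega) hι).congr
    (show _ = MulAut.conj 1⁻¹ * H4.Au.it by simp)
  have key : H4.chi (-1 : F) ^ m = 1 ↔ Even (n * (Fintype.card F - 1) / 4) := by
    obtain ⟨k, hk⟩ := hodd
    rw [H4.chi_neg_one_pow_eq_one_iff h2, Nat.card_eq_fintype_card, hk, hnm, Nat.add_sub_cancel,
      show 2 * m * (2 * k) = 4 * (m * k) by ring, Nat.mul_div_cancel_left _ (by omega), Nat.even_mul]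
    rcases Nat.even_or_odd' k with ⟨k, rfl | rfl⟩
    · simp [Nat.pow_mod, show (2 * (2 * k) + 1) % 4 = 1 by omega]
    · rw [Nat.pow_mod, show (2 * (2 * k + 1) + 1) % 4 = 3 by omega]
      rcases Nat.even_or_odd' m with ⟨m, rfl | rfl⟩
      · simp [pow_mul, Nat.pow_mod]
      · simp [pow_succ, pow_mul, Nat.mul_mod, Nat.pow_mod, parity_simps]
  exact ⟨fun h => D.plus h2 hnm r (key.2 h), fun h => D.minus h2 hnm r (mt key.1 h)⟩

end Cfsg.Agent.S2703
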