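import Cfsg.Statements.S2718
import Cfsg.Agent.H4.GrE

set_option autoImplicit false
open Cfsg

namespace Cfsg.Agent.S2718


/-- Let T = PΩ⁺_{2m}(F) with m ≥ 4 and |F| = q odd, G = Inndiag(T), and γ an involutory graph automorphism of T induced by a similarity (one interchanging the two classes of maximal totally singular subspaces). Then the G-class of γ is either a single T-class or the union of exactly two T-classes, and it is the union of two unless m is odd and q ≡ 3 (mod 4). -/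
theorem result {F : Type*} [Field F] [Fintype F] (hodd : Odd (Fintype.card F)) {m : ℕ} (hm : 4 ≤ m) (γ : MulAut (Cfsg.POmega F (Cfsg.quadFormPlus m F))) (hγ : Cfsg.IsSimilarityGraphAutPOmegaPlus m γ) (hγ2 : orderOf γ = 2) :
    (Cfsg.splitClassCount (Cfsg.inndiagPOmegaPlus m F) (Cfsg.Inn (Cfsg.POmega F (Cfsg.quadFormPlus m F))) γ = 1 ∨ Cfsg.splitClassCount (Cfsg.inndiagPOmegaPlus m F) (Cfsg.Inn (Cfsg.POmega F (Cfsg.quadFormPlus m F))) γ = 2) ∧ (¬ (Odd m ∧ Fintype.card F % 4 = 3) → Cfsg.splitClassCount (Cfsg.inndiagPOmegaPlus m F) (Cfsg.Inn (Cfsg.POmega F (Cfsg.quadFormPlus m F))) γ = 2) := by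
  have h2 := H4.Au.two_ne_of_odd hodd
  have hn : 5 ≤ Fintype.card (Fin m ⊕ Fin m) := by rw [H4.Au.card_pm]; omega
  have hf := H4.plusForm_ND F m
  obtain ⟨g, h0, h1, h3⟩ := hγ
  have r := (H4.Au.rep_slin (hf := hf) (hn := hn) (σ := RingEquiv.refl F) h0 h3).congr
    (show _ = MulAut.conj g from (congrArg _ (map_one H4.Au.fm)).trans (mul_one _))
  have := H4.Au.split_inv hf hn (H4.Au.card_pm m) h2 ((H4.plusForm_hasTS m).mono (by omega)) h0
    (mt (H4.Au.psc_iff hf hn (H4.Au.card_pm m) (H4.plusForm_hasTS m) h0).2 h1) r hγ2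
  rw [H4.Au.inndiagP_eq hn]
  refine ⟨this.1, fun h => this.2 (.inl (not_not.1 fun e => h ?_))⟩
  rwa [← Nat.card_eq_fintype_card, ← H4.Au.disc_plus_iff h2]

end Cfsg.Agent.S2718
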