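import Cfsg.Statements.S2723
import Cfsg.Agent.H4.AuN

set_option autoImplicit false
open Cfsg

namespace Cfsg.Agent.S2723


/-- Let T = PΩ⁺_{2m}(F) with m ≥ 4 and |F| = q odd. The image of the special orthogonal group in Aut(T) contains the inner automorphism group T with index 1 (they coincide) when m is odd and q ≡ 3 (mod 4), and with index 2 otherwise (the index is 2 exactly when the discriminant of the form is a square). -/
theorem result {F : Type*} [Field F] [Fintype F] (hodd : Odd (Fintype.card F)) {m : ℕ} (hm : 4 ≤ m) :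
    ((Odd m ∧ Fintype.card F % 4 = 3) → (Cfsg.Inn (Cfsg.POmega F (Cfsg.quadFormPlus m F))).relIndex (Cfsg.psoAut F (Cfsg.quadFormPlus m F)) = 1) ∧ (¬ (Odd m ∧ Fintype.card F % 4 = 3) → (Cfsg.Inn (Cfsg.POmega F (Cfsg.quadFormPlus m F))).relIndex (Cfsg.psoAut F (Cfsg.quadFormPlus m F)) = 2) := by
  open H4 H4.Au H4.As Cfsg.Geo in
  have h2 := two_ne_of_odd hodd
  open H4 H4.Au H4.As Cfsg.Geo in
  have h := idx_pso (plusForm_ND F m) (by simp; omega) (card_pm m) h2
  have h3 := H4.Au.disc_plus_iff (m := m) h2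
  rw [Nat.card_eq_fintype_card] at h3
  exact ⟨fun e => h.trans (if_neg (h3.2 e)), fun e => h.trans (if_pos (not_not.1 (mt h3.1 e)))⟩

end Cfsg.Agent.S2723
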