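import Cfsg.Statements.S2725
import Cfsg.Agent.H4.AuN

set_option autoImplicit false
open Cfsg

namespace Cfsg.Agent.S2725


/-- Let T = PΩ⁺_{2m}(F) with m ≥ 4 and |F| = q odd. The inner-diagonal group G = Inndiag(T) (image of the class-preserving similarities) taken modulo the inner automorphism group T is cyclic of order 2 when m is odd and q ≡ 3 (mod 4), cyclic of order 4 when m is odd and q ≡ 1 (mod 4), and elementary abelian of order 4 when m is even. -/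
theorem result {F : Type*} [Field F] [Fintype F] (hodd : Odd (Fintype.card F)) {m : ℕ} (hm : 4 ≤ m) :
    ((Odd m ∧ Fintype.card F % 4 = 3) → (∃ φ : ↥(Cfsg.inndiagPOmegaPlus m F) →* Multiplicative (ZMod 2), Function.Surjective φ ∧ φ.ker = (Cfsg.Inn (Cfsg.POmega F (Cfsg.quadFormPlus m F))).subgroupOf (Cfsg.inndiagPOmegaPlus m F))) ∧ ((Odd m ∧ Fintype.card F % 4 = 1) → (∃ φ : ↥(Cfsg.inndiagPOmegaPlus m F) →* Multiplicative (ZMod 4), Function.Surjective φ ∧ φ.ker = (Cfsg.Inn (Cfsg.POmega F (Cfsg.quadFormPlus m F))).subgroupOf (Cfsg.inndiagPOmegaPlus m F))) ∧ (Even m → (∃ φ : ↥(Cfsg.inndiagPOmegaPlus m F) →* Multiplicative (ZMod 2 × ZMod 2), Function.Surjective φ ∧ φ.ker = (Cfsg.Inn (Cfsg.POmega F (Cfsg.quadFormPlus m F))).subgroupOf (Cfsg.inndiagPOmegaPlus m F))) := by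
  have h2 := H4.Au.two_ne_of_odd hodd
  have h3 := H4.Au.disc_plus_iff (m := m) h2
  rw [Nat.card_eq_fintype_card] at h3
  have hn : 5 ≤ Fintype.card (Fin m ⊕ Fin m) := by simp; omega
  rw [H4.Au.inndiagP_eq hn]
  open H4 H4.Au H4.As Cfsg.Geo in
  refine ⟨fun e => g0_two (plusForm_ND F m) hn (card_pm m) h2 (h3.2 e), fun e => ?_, fun e => ?_⟩
  · have h4 := not_not.1 (mt h3.1 (by omega))
    obtain ⟨d, h5, -, h6⟩ := H4.Au.plus_dl h2 hn h4
    exact H4.Au.g0_four _ hn (H4.Au.card_pm m) h2 h4 h5 (mt h6.1 (Nat.not_even_iff_odd.2 e.1))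
  · have h4 := not_not.1 (mt h3.1 fun h => Nat.not_even_iff_odd.2 h.1 e)
    obtain ⟨d, h5, h7, h6⟩ := H4.Au.plus_dl h2 hn h4
    exact H4.Au.g0_klein _ hn (H4.Au.card_pm m) h2 h4 h5 (h6.2 e) h7

end Cfsg.Agent.S2725
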