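import Cfsg.Statements.S2729
import Cfsg.Agent.H4.AuN

set_option autoImplicit false
open Cfsg

namespace Cfsg.Agent.S2729


/-- Let T = PΩ⁻_{2m+2}(F) with m ≥ 3 and |F| = q odd (form with anisotropic binary part). The inner-diagonal group G = Inndiag(T) (image of the class-preserving similarities) taken modulo the inner automorphism group T is cyclic of order 4 when m is even and q ≡ 3 (mod 4), and of order 2 otherwise. -/
theorem result {F : Type*} [Field F] [Fintype F] (hodd : Odd (Fintype.card F)) {m : ℕ} (hm : 3 ≤ m) (a b : F) (hab : (∀ z₁ z₂ : F, z₁ ^ 2 + a * z₁ * z₂ + b * z₂ ^ 2 = 0 → z₁ = 0 ∧ z₂ = 0)) :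
    ((Even m ∧ Fintype.card F % 4 = 3) → (∃ φ : ↥(Cfsg.inndiagPOmegaMinus m F a b) →* Multiplicative (ZMod 4), Function.Surjective φ ∧ φ.ker = (Cfsg.Inn (Cfsg.POmega F (Cfsg.quadFormMinus m F a b))).subgroupOf (Cfsg.inndiagPOmegaMinus m F a b))) ∧ (¬ (Even m ∧ Fintype.card F % 4 = 3) → (∃ φ : ↥(Cfsg.inndiagPOmegaMinus m F a b) →* Multiplicative (ZMod 2), Function.Surjective φ ∧ φ.ker = (Cfsg.Inn (Cfsg.POmega F (Cfsg.quadFormMinus m F a b))).subgroupOf (Cfsg.inndiagPOmegaMinus m F a b))) := by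
  have h2 := H4.Au.two_ne_of_odd hodd
  have h3 := H4.Au.disc_minus_iff (m := m) hab h2
  rw [Nat.card_eq_fintype_card] at h3
  have hn := H4.Au.five_le hm
  rw [H4.Au.inndiagM_eq hab hn]
  refine ⟨fun e => ?_, fun e => H4.Au.g0_two _ hn (H4.Au.card_mm m) h2 (mt h3.1 e)⟩
  obtain ⟨d, h5, h6⟩ := H4.Au.minus_dl hab h2 hn (h3.2 e)
  exact H4.Au.g0_four _ hn (H4.Au.card_mm m) h2 (h3.2 e) h5 h6

end Cfsg.Agent.S2729
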