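import Cfsg.Statements.S2734
import Cfsg.Agent.H5.Fold2

set_option autoImplicit false
open Cfsg

namespace Cfsg.Agent.S2734

open H5.Chev Cfsg.Lie

/-- In the Chevalley group of type D₄ over a finite field F (the matrix group generated by the root elements), a graph automorphism attached to a symmetry π of the Dynkin diagram (sending each fundamental root element x_p(t) to x_{π(p)}(t) and each x_{−p}(t) to x_{−π(p)}(t)) that has order 3 — a standard triality graph automorphism, π being a 3-cycle of the three outer nodes — has fixed-point subgroup isomorphic to the Chevalley group of type G₂ over F. -/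
theorem result {F : Type*} [Field F] [Fintype F] (τ : MulAut ↥(Cfsg.Lie.chevD4.group F)) (hτ : Cfsg.Lie.chevD4.IsGraphAut τ) (hτ3 : orderOf τ = 3) :
    Nonempty (↥(MonoidHom.eqLocus τ.toMonoidHom (MonoidHom.id ↥(Cfsg.Lie.chevD4.group F))) ≃* ↥(Cfsg.Lie.chevG2.group F)) := by
  obtain ⟨π, hπ, h⟩ := isGraphAut_iff.1 hτ
  simp only [graphExp_of_chk (D := chevD4) sl_D4, pow_one] at h
  obtain ⟨Θ, a1, a2, a3, a4, a5⟩ := exists_twD_D4a (RingEquiv.refl F)
  obtain ⟨T, rfl⟩ := Θ.exists_tw grpSys_top grpSys_π_injective (a5 _)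
  have hT : IsD4 T 1 := ⟨a1, fun r t => by rw [a2, pow_one]; rfl, by simp, a3, a4⟩
  obtain ⟨f⟩ := hT.fix_equiv grpSys_top grpSys_π_injective
  have h2 : ∀ i t, (τ ^ 2) ((grpSys chevD4 F).x (simple i) t) = (grpSys chevD4 F).x (simple ((π ^ 2) i)) t ∧
      (τ ^ 2) ((grpSys chevD4 F).x (neg (simple i)) t) = (grpSys chevD4 F).x (neg (simple ((π ^ 2) i))) t :=
    fun i t => by simp [sq, h]
  have h3 : π ^ 2 ≠ 1 := fun e => by
    rw [e] at h2
    have : τ ^ 2 = 1 := MulEquiv.toMonoidHom_injective (StSys.hom_ext_simple grpSys_top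
      (fun i t => (h2 i t).1) fun i t => (h2 i t).2)
    exact absurd (hτ3 ▸ orderOf_dvd_of_pow_eq_one this) (by decide)
  have h4 : π = grD4aτ ∨ π ^ 2 = grD4aτ := by
    have := sym_D4 hπ
    simp only [List.mem_cons, List.not_mem_nil, or_false] at this
    rcases this with e | e | e | e | e | e
    · exact absurd (by rw [perm_eq_of_ofFn (π' := 1) e]; rfl) h3
    · exact Or.inl (perm_eq_of_ofFn e)
    · exact Or.inr (by rw [perm_eq_of_ofFn (D := chevD4) (π := π) (π' := grD4bτ) e]; decide)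
    · exact absurd (by rw [perm_eq_of_ofFn (D := chevD4) (π := π) (π' := grD4cτ) e]; decide) h3
    · exact absurd (by rw [perm_eq_of_ofFn (D := chevD4) (π := π) (π' := grD4aτ * grD4cτ) e]; decide) h3
    · exact absurd (by rw [perm_eq_of_ofFn (D := chevD4) (π := π) (π' := grD4bτ * grD4cτ) e]; decide) h3
  refine ⟨(MulEquiv.subgroupCongr (Subgroup.ext fun g => ?_)).trans f⟩
  rw [T.mem_Fix]
  rcases h4 with e | e
  · rw [← T.σ_eq grpSys_top (f := τ.toMonoidHom) fun i t => by rw [a1, ← e, hT.θ, pow_one]; exact h i t]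
    rfl
  · rw [← T.σ_eq grpSys_top (f := (τ ^ 2).toMonoidHom) fun i t => by
      rw [a1, ← e, hT.θ, pow_one]; exact h2 i t]
    change τ g = g ↔ τ (τ g) = g
    refine ⟨fun e => by rw [e, e], fun e => ?_⟩
    have : τ (τ (τ g)) = g := DFunLike.congr_fun (hτ3 ▸ pow_orderOf_eq_one τ : τ ^ 3 = 1) g
    rwa [e] at this

end Cfsg.Agent.S2734
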