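import Cfsg.Statements.S2738
import Cfsg.Agent.H4.SLBasic

set_option autoImplicit false
open Cfsg

namespace Cfsg.Agent.S2738

/-- The special linear group SL(3, 4) has centre of order 3 and does not split over it: no subgroup is a complement to the centre (so SL(3, 4) is a non-split central extension of PSL(3, 4) by a group of order 3). -/
theorem result (F : Type*) [Field F] [Fintype F] (hF : Fintype.card F = 4) : Nat.card ↥(Subgroup.center (Matrix.SpecialLinearGroup (Fin 3) F)) = 3 ∧ ¬ ∃ K : Subgroup (Matrix.SpecialLinearGroup (Fin 3) F), Subgroup.IsComplement' (Subgroup.center (Matrix.SpecialLinearGroup (Fin 3) F)) K := by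
  set_option maxSynthPendingDepth 3 in
  have a : Nat.card (Subgroup.center (Matrix.SpecialLinearGroup (Fin 3) F)) = 3 := by
    rw [H4.card_center_sl, Nat.card_eq_fintype_card, hF]; rfl
  refine ⟨a, fun ⟨K, h⟩ => ?_⟩
  have : K = ⊤ := eq_top_iff.2 ((H4.sl_commutator_eq_top (by simp)).ge.trans (Subgroup.commutator_le.2 fun x _ y _ => by
    obtain ⟨⟨⟨z, m⟩, k⟩, rfl⟩ := h.2 x
    obtain ⟨⟨⟨w, n⟩, l⟩, rfl⟩ := h.2 y
    have m := Subgroup.mem_center_iff.1 m
    have n := Subgroup.mem_center_iff.1 n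
    have : z * k.1 * (w * l.1) * (z * k.1)⁻¹ * (w * l.1)⁻¹ = k.1 * (l.1 * k.1⁻¹ * l.1⁻¹) :=
      calc _ = z * (k * (w * l) * k.1⁻¹) * z⁻¹ * (w * l)⁻¹ := by group
        _ = k * (w * (l * k.1⁻¹ * l.1⁻¹) * w⁻¹) := by rw [← m, mul_inv_cancel_right]; group
        _ = _ := by rw [← n, mul_inv_cancel_right]
    exact (this ▸ K.mul_mem k.2 (K.mul_mem (K.mul_mem l.2 (K.inv_mem k.2)) (K.inv_mem l.2)) :
      z * k.1 * (w * l.1) * (z * k.1)⁻¹ * (w * l.1)⁻¹ ∈ K)))
  have b := h.disjoint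
  rw [this, disjoint_top] at b
  simp [b] at a

end Cfsg.Agent.S2738
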