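import Cfsg.Statements.S2739
import Cfsg.Agent.H0.IL34
import Cfsg.Agent.H0.CL34.Main


set_option autoImplicit false
open scoped Pointwise
open Cfsg

namespace Cfsg.Agent.S2739

/-- In the projective special linear group PSL(3, 4) all subgroups of order 3 are conjugate. -/
theorem result (F : Type*) [Field F] [Fintype F] (hF : Fintype.card F = 4) (X Y : Subgroup (Matrix.ProjectiveSpecialLinearGroup (Fin 3) F)) (hX : Nat.card ↥X = 3) (hY : Nat.card ↥Y = 3) : ∃ g : Matrix.ProjectiveSpecialLinearGroup (Fin 3) F, MulAut.conj g • X = Y := by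
  have := H0.ML34.fin (H0.Pres.pg _ _)
  obtain ⟨e⟩ := H0.IL34.iso
  have k : ∀ X : Subgroup (Matrix.ProjectiveSpecialLinearGroup (Fin 3) F), Nat.card X = 3 → ∃ x, orderOf x = 3 ∧ Subgroup.zpowers x = X := fun X h => by
    have : Fact (Nat.Prime 3) := ⟨by decide⟩
    obtain ⟨x, rfl⟩ := (Subgroup.isCyclic_iff_exists_zpowers_eq_top X).1 (isCyclic_of_prime_card h)
    exact ⟨x, (Nat.card_zpowers x).symm.trans h, rfl⟩
  obtain ⟨x, hx, rfl⟩ := k X hX
  obtain ⟨y, hy, rfl⟩ := k Y hY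
  obtain ⟨g, rfl⟩ := isConj_iff.1 (H0.conj_equiv (e.trans (H0.cenEquiv (H0.slEquiv (H0.fe H0.G4 hF H0.c4)))) (H0.CL34.bone (H0.ML34.m (H0.Pres.pg _ _)) (H0.ML34.mR (H0.Pres.pg _ _)) (H0.ML34.base (H0.Pres.pg _ _)) (H0.ML34.card (H0.Pres.pg _ _))) x y hx hy)
  exact ⟨g, MonoidHom.map_zpowers _ x⟩

end Cfsg.Agent.S2739
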