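import Cfsg.Statements.S2758
import Cfsg.Agent.H1.V2
import Cfsg.Agent.H1.Sid
import Cfsg.Agent.H1.Two4
import Cfsg.Agent.H2.Mod3
import Cfsg.Agent.H8.Dihedral
import Cfsg.Agent.H7.Tk1

set_option autoImplicit false
open Cfsg

namespace Cfsg.Agent.S2758

open H7 H1B Subgroup
open scoped commutatorElement
theorem odd' {p : ℕ} [Fact p.Prime] (hp : p ≠ 2) {Γ : Type*} [Group Γ] {y : Γ} (a : y ^ p = 1) (b : y * y = 1) : y = 1 := by
  rw [← pow_two] at b
  exact (pow_eq_one_iff_of_coprime ((Nat.coprime_primes Fact.out Nat.prime_two).2 hp)).1 ⟨a, b⟩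

/-- For an odd prime p and a finite group G the following are equivalent: the dihedral group of order 2p is involved in G; some element of 2-power order normalizes but does not centralize some p-subgroup of G; some element of 2-power order inverts some nonidentity element of p-power order. -/
theorem result {G : Type*} [Group G] [Finite G] {p : ℕ} [Fact p.Prime] (hp : p ≠ 2) : (Cfsg.Involves (DihedralGroup p) G ↔ ∃ (x : G) (P : Subgroup G), (∃ k : ℕ, orderOf x = 2 ^ k) ∧ IsPGroup p ↥P ∧ x ∈ Subgroup.normalizer (P : Set G) ∧ x ∉ Subgroup.centralizer (P : Set G)) ∧ (Cfsg.Involves (DihedralGroup p) G ↔ ∃ x y : G, (∃ k : ℕ, orderOf x = 2 ^ k) ∧ (∃ k : ℕ, orderOf y = p ^ k) ∧ y ≠ 1 ∧ x * y * x⁻¹ = y⁻¹) := by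
  have pp : p.Prime := Fact.out
  have ab : Involves (DihedralGroup p) G → ∃ (x : G) (P : Subgroup G), (∃ k : ℕ, orderOf x = 2 ^ k) ∧ IsPGroup p P ∧ x ∈ nrm P ∧ x ∉ cen P := fun h => by
    obtain ⟨K, φ, s⟩ := H2.involves_iff.1 h
    haveI := NeZero.mk pp.ne_zero
    have i := index_r p
    set C := zpowers (DihedralGroup.r 1 : DihedralGroup p) with hC
    haveI := normal_of_index_eq_two i
    have t := im_dom_of_surj s
    obtain ⟨P, hP⟩ := H2.exists_isSylowIn (p := p) (pre φ C)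
    have e := syl_frattini hP (pre_le φ C) (le_nrm_pre le_rfl (le_nrm_of_normal _ _))
    have s1 := syl_im hP (pre_le φ C) φ
    rw [im_pre_of_le (t ▸ le_top)] at s1
    have s2 := s1.eq_of_le (IsPGroup.of_card (n := 1) (by rw [Nat.card_zpowers, DihedralGroup.orderOf_r_one, pow_one])) s1.1 le_rfl
    obtain ⟨y, y1, y2, y3⟩ := mem_im.1 (s2.le (mem_zpowers _))
    obtain ⟨u, u1, u2⟩ : ∃ u ∈ K ⊓ nrm P, ev φ u ∉ C := by
      by_contra! k
      have := (im_le_iff le_rfl).2 (e.ge.trans (sup_le (fun u hu => mem_pre.2 ⟨hu.1, k u hu⟩) le_rfl))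
      rw [t, top_le_iff, ← index_eq_one, i] at this
      omega
    obtain ⟨j, hj⟩ : ∃ j, ev φ u = DihedralGroup.sr j := by
      rcases hu : ev φ u with j | j
      · exact absurd ⟨j.cast, by simp [hu]⟩ u2
      · exact ⟨j, rfl⟩
    refine ⟨u ^ ordCompl[2] (Nat.card G), P, (Nat.dvd_prime_pow Nat.prime_two).1 (orderOf_dvd_of_pow_eq_one (pow_oddpart_pow u)) |>.imp fun _ a => a.2,
      hP.2, pow_mem u1.2 _, fun c => ?_⟩
    have := congrArg (ev φ) (mem_cen.1 c y y1)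
    obtain ⟨m, hm⟩ := odd_oddpart (G := G)
    rw [ev_mul y2 (pow_mem u1.1 _), ev_mul (pow_mem u1.1 _) y2, ev_pow u1.1, y3, hj, hm, pow_succ, pow_mul, pow_two,
      DihedralGroup.sr_mul_self, one_pow, one_mul, DihedralGroup.r_mul_sr, DihedralGroup.sr_mul_r, DihedralGroup.sr.injEq] at this
    have q := odd' hp (DihedralGroup.r_one_pow_n (n := p)) (by
      rw [DihedralGroup.r_mul_r, DihedralGroup.one_def]; congr 1; linear_combination -this)
    rw [← orderOf_eq_one_iff, DihedralGroup.orderOf_r_one] at q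
    exact pp.one_lt.ne' q
  have bc : (∃ (x : G) (P : Subgroup G), (∃ k : ℕ, orderOf x = 2 ^ k) ∧ IsPGroup p P ∧ x ∈ nrm P ∧ x ∉ cen P) →
      ∃ x y : G, (∃ k : ℕ, orderOf x = 2 ^ k) ∧ (∃ k : ℕ, orderOf y = p ^ k) ∧ y ≠ 1 ∧ x * y * x⁻¹ = y⁻¹ := by
    rintro ⟨x, P, ⟨k, hk⟩, a, b, c⟩
    induction k generalizing x with
    | zero => exact absurd (by rw [pow_zero, orderOf_eq_one_iff] at hk; rw [hk]; exact one_mem _) c
    | succ k ih =>
    by_cases d : x ^ 2 ∈ cen P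
    · obtain ⟨y, hy, e⟩ : ∃ y ∈ P, y * x ≠ x * y := by simpa [mem_cen] using c
      have m := comm_le_left (zpowers_le.2 b) (commutator_mem_commutator hy (mem_zpowers x))
      obtain ⟨n, hn⟩ := IsPGroup.iff_orderOf.1 a ⟨_, m⟩
      refine ⟨x, ⁅y, x⁆, ⟨_, hk⟩, ⟨n, by rwa [← Subgroup.orderOf_coe] at hn⟩, fun q => e (commutatorElement_eq_one_iff_mul_comm.1 q), ?_⟩
      have := mem_cen.1 d _ (inv_mem hy)
      rw [commutatorElement_def]
      calc _ = x * y * x⁻¹ * (x ^ 2 * y⁻¹) * (x ^ 2)⁻¹ := by group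
        _ = _ := by rw [← this]; group
    · exact ih (x ^ 2) (by rw [orderOf_pow_of_dvd two_ne_zero (hk ▸ dvd_pow_self 2 k.succ_ne_zero), hk, pow_succ,
        Nat.mul_div_cancel _ two_pos]) (pow_mem b 2) d
  refine ⟨⟨ab, fun h => ?_⟩, fun h => bc (ab h), fun h => ?_⟩
  on_goal 1 => replace h := bc h
  all_goals
    obtain ⟨x, w, ⟨k, hk⟩, ⟨n, hn⟩, a, b⟩ := h
    obtain ⟨n, rfl⟩ : ∃ m, n = m + 1 := Nat.exists_eq_succ_of_ne_zero fun e => a (by rwa [e, pow_zero, orderOf_eq_one_iff] at hn)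
    set y := w ^ p ^ n with hy
    have oy : orderOf y = p := by
      rw [hy, orderOf_pow_of_dvd (pow_pos pp.pos n).ne' (hn ▸ pow_dvd_pow p n.le_succ), hn, pow_succ', Nat.mul_div_cancel _ (pow_pos pp.pos n)]
    have i : x * y * x⁻¹ = y⁻¹ := by rw [hy, ← conj_pow, b, inv_pow]
    have c : y ∈ cen1 (x * x) := mem_cen1.2 (by
      rw [eq_comm, ← mul_inv_eq_iff_eq_mul, conj_conj', i, ← conj_inv, i, inv_inv])
    have n1 : x ∈ nrm (zpowers (x * x)) := cen_le_nrm _ (by rw [cen_zpowers]; exact mem_cen1.2 (mul_assoc _ _ _).symm)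
    have n2 : y ∈ nrm (zpowers (x * x)) := cen_le_nrm _ (by rwa [cen_zpowers])
    have y1 : ev (qm (zpowers (x * x))) y ≠ 1 := fun e => by
      rw [ev_eq_one_iff n2, kr_qm] at e
      have := (orderOf_dvd_of_mem_zpowers ((zpowers_le.2 (mul_mem (mem_zpowers x) (mem_zpowers x))) e))
      rw [oy, hk] at this
      exact hp ((Nat.prime_dvd_prime_iff_eq pp Nat.prime_two).1 (pp.dvd_of_dvd_pow this))
    have y2 : ev (qm (zpowers (x * x))) y ^ p = 1 := by rw [← ev_pow n2, ← oy, pow_orderOf_eq_one, ev_one]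
    have y3 := congrArg (ev (qm (zpowers (x * x)))) i
    rw [ev_conj n1 n2, ev_inv n2] at y3
    obtain ⟨e⟩ := H8.nonempty_equiv_dihedral (by rw [← ev_mul n1 n1, ev_eq_one_iff (mul_mem n1 n1), kr_qm]; exact mem_zpowers _) y3
      (fun ⟨j, q⟩ => y1 (odd' hp y2 (by
        simp only at q
        rw [← q, ← (Commute.self_zpow _ j).eq, mul_inv_cancel_right] at y3
        exact mul_eq_one_iff_eq_inv.2 y3))) _ rfl
    rw [orderOf_eq_prime y2 y1] at e
    exact H2.inv_trans (H2.inv_of_equiv e) (H2.inv_trans (H2.inv_subgroup _) (H2.inv_quot (nrm (zpowers (x * x))) _))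

end Cfsg.Agent.S2758
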