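import Cfsg.Statements.S2759
import Cfsg.Agent.H7.PP

set_option autoImplicit false
open Cfsg

namespace Cfsg.Agent.S2759
open H7
open scoped commutatorElement

section
open Subgroup

def mt (σ : Equiv.Perm (Fin 3)) : Matrix (Fin 2) (Fin 2) (ZMod 2) := fun i j => (![![1, 0], ![0, 1], ![1, 1]] : Fin 3 → Fin 2 → ZMod 2) (σ j.castSucc) i
theorem s3_sl : Involves (Equiv.Perm (Fin 3)) (Matrix.SpecialLinearGroup (Fin 2) (ZMod 2)) := by
  have h1 : ∀ σ, mt σ 0 0 * mt σ 1 1 - mt σ 0 1 * mt σ 1 0 = 1 := by decide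
  have h2 : ∀ i j σ τ, mt (σ * τ) i j = mt σ i 0 * mt τ 0 j + mt σ i 1 * mt τ 1 j := fun i j => by
    fin_cases i <;> fin_cases j <;> decide
  have h3 : ∀ σ, mt σ 0 0 = 1 → mt σ 1 0 = 0 → mt σ 0 1 = 0 → σ = 1 := by decide
  refine H2.inv_of_inj (MonoidHom.mk' (fun σ => ⟨mt σ, by rw [Matrix.det_fin_two, h1]⟩) fun σ τ => Subtype.ext ?_)
    ((injective_iff_map_eq_one _).2 fun σ h => ?_)
  · ext i j
    show mt (σ * τ) i j = (mt σ * mt τ) i j
    rw [h2, Matrix.mul_apply, Fin.sum_univ_two]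
  have k : mt σ = 1 := congrArg Subtype.val h
  exact h3 σ (by simp [k]) (by simp [k]) (by simp [k])

end

/-- For a finite group G, the symmetric group of degree 4 is involved in G if and only if there is a 2-subgroup T of G such that the symmetric group of degree 3 is involved in N(T)/C(T). -/
theorem result {G : Type*} [Group G] [Finite G] : Cfsg.Involves (Equiv.Perm (Fin 4)) G ↔ ∃ T : Subgroup G, IsPGroup 2 ↥T ∧ Cfsg.Involves (Equiv.Perm (Fin 3)) (↥(Subgroup.normalizer (T : Set G)) ⧸ (Subgroup.centralizer (T : Set G)).subgroupOf (Subgroup.normalizer (T : Set G))) := by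
  open Subgroup in
  haveI : Fact (Nat.Prime 3) := ⟨Nat.prime_three⟩
  refine ⟨fun h => ?_, fun ⟨T, pT, h⟩ => ?_⟩
  · obtain ⟨B, -, pB, k⟩ := H2.exists_natSec (H := ⊤) (H2.inv_trans (H2.inv_qd_two.2 h) H2.inv_top)
    rw [top_inf_eq] at k
    obtain ⟨K, l, f, f1, f2, f3⟩ := k.exists_hom
    refine ⟨B, pB, H2.inv_trans s3_sl ?_⟩
    obtain ⟨g, hg⟩ := H2.exists_factor (X := (K : Set G)) (θ := ev (QuotientGroup.mk' ((cen B).subgroupOf (nrm B)))) (k := f)
      fun x hx y hy e => by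
        have := (ev_eq_iff (l hx) (l hy)).1 e
        rw [kr_mk'_subgroupOf] at this
        have := (f3 _ ⟨this.2, this.1⟩).2
        rwa [f1.inv_mul hx hy, inv_mul_eq_one] at this
    have hm : H2.HomOn (im (QuotientGroup.mk' ((cen B).subgroupOf (nrm B))) K) g := fun x hx y hy => by
      obtain ⟨a, ha, rfl⟩ := (mem_im_of_le l).1 hx
      obtain ⟨b, hb, rfl⟩ := (mem_im_of_le l).1 hy
      rw [← ev_mul (l ha) (l hb), hg _ (mul_mem ha hb), hg a ha, hg b hb, f1 a ha b hb]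
    exact H2.inv_trans (H2.inv_of_surj hm.toHom fun M => let ⟨a, ha, e⟩ := f2 M; ⟨⟨_, ev_mem_im ha⟩, (hg a ha).trans e⟩)
      (H2.inv_subgroup _)
  obtain ⟨K, L, _, ⟨e⟩⟩ := h
  let ψ := (e.toMonoidHom.comp (QuotientGroup.mk' _)).comp ((QuotientGroup.mk' ((cen T).subgroupOf (nrm T))).subgroupComap K)
  have sψ : Function.Surjective ψ := (e.surjective.comp (QuotientGroup.mk'_surjective _)).comp
    (MonoidHom.subgroupComap_surjective_of_surjective _ _ (QuotientGroup.mk'_surjective _))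
  obtain ⟨d, hd, t, ht, pd, pt, i, j⟩ := exists_inv3 sψ
  have := natSec_inv3 (X := ⊤ ⊓ nrm T) (d := (d : G)) (t := (t : G)) pT inf_le_right ⟨trivial, d.2⟩ ⟨trivial, t.2⟩
    (by have := pd.map (nrm T).subtype; rwa [MonoidHom.map_zpowers] at this)
    (by have := pt.map (nrm T).subtype; rwa [MonoidHom.map_zpowers] at this) (congrArg Subtype.val i) fun k => j (by
      rw [← ev_eq_one_iff hd, ev_eq hd]
      have : (QuotientGroup.mk' ((cen T).subgroupOf (nrm T))).subgroupComap K ⟨d, hd⟩ = 1 :=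
        Subtype.ext ((QuotientGroup.eq_one_iff _).2 k)
      simp [ψ, this])
  exact H2.inv_trans (inv_s4_of_natSec this le_top le_top) (H2.inv_subgroup _)

end Cfsg.Agent.S2759
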