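import Cfsg.Statements.S2762
import Cfsg.Agent.H2.Qd2

set_option autoImplicit false
open Cfsg

namespace Cfsg.Agent.S2762

open Subgroup H2 Cfsg.FusionSystem


/-- Structure of Qd over a finite field F of characteristic p (the affine subgroup of SL₃(F)): its largest normal p-subgroup is the group of translations (matrices with upper-left block the identity), the block-diagonal matrices form a complement isomorphic to SL₂(F), and the translation subgroup is a natural SL₂(F)-module for that complement. -/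
theorem result {F : Type*} [Field F] [Fintype F] {p : ℕ} [Fact p.Prime] [CharP F p] : (∀ M : ↥(Cfsg.qdOver F), M ∈ Cfsg.pCore p ↥(Cfsg.qdOver F) ↔ ((M : Matrix.SpecialLinearGroup (Fin 3) F) : Matrix (Fin 3) (Fin 3) F) 0 0 = 1 ∧ ((M : Matrix.SpecialLinearGroup (Fin 3) F) : Matrix (Fin 3) (Fin 3) F) 0 1 = 0 ∧ ((M : Matrix.SpecialLinearGroup (Fin 3) F) : Matrix (Fin 3) (Fin 3) F) 1 0 = 0 ∧ ((M : Matrix.SpecialLinearGroup (Fin 3) F) : Matrix (Fin 3) (Fin 3) F) 1 1 = 1) ∧ ∃ K : Subgroup ↥(Cfsg.qdOver F), (∀ M : ↥(Cfsg.qdOver F), M ∈ K ↔ ((M : Matrix.SpecialLinearGroup (Fin 3) F) : Matrix (Fin 3) (Fin 3) F) 0 2 = 0 ∧ ((M : Matrix.SpecialLinearGroup (Fin 3) F) : Matrix (Fin 3) (Fin 3) F) 1 2 = 0) ∧ K ⊓ Cfsg.pCore p ↥(Cfsg.qdOver F) = ⊥ ∧ K ⊔ Cfsg.pCore p ↥(Cfsg.qdOver F) = ⊤ ∧ Nonempty (↥K ≃* Matrix.SpecialLinearGroup (Fin 2) F) ∧ Cfsg.IsNaturalSL2Module F (Cfsg.pCore p ↥(Cfsg.qdOver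 F)) K := by
  have e : pCore p (qdOver F) = qV F := by rw [H7.pCore_eq, Op_qd]
  rw [e]
  have hq : ∀ (M : Matrix.SpecialLinearGroup (Fin 2) F) v, ((qa M v : qdOver F) :
    Matrix.SpecialLinearGroup (Fin 3) F).1 = !![M 0 0, M 0 1, v 0; M 1 0, M 1 1, v 1; 0, 0, 1] :=
    fun _ _ => rfl
  let ι : Matrix.SpecialLinearGroup (Fin 2) F →* qdOver F :=
    MonoidHom.mk' (fun M => qa M 0) fun M N => by rw [qa_mul, mv_zero, add_zero]
  have hι : Function.Injective ι := fun _ _ h => (qa_inj.1 h).1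
  have hK : ∀ M v, qa M v ∈ ι.range ↔ v = 0 := fun M v =>
    ⟨fun ⟨_, h⟩ => (qa_inj.1 h).2.symm, fun h => ⟨M, h ▸ rfl⟩⟩
  have hb : ι.range ⊓ qV F = ⊥ := eq_bot_iff.2 fun g hg => by
    obtain ⟨M, v, rfl⟩ := qa_surj g
    exact qa_eq_one.2 ⟨qa_mem_qV.1 hg.2, (hK _ _).1 hg.1⟩
  refine ⟨fun g => ?_, ι.range, fun g => ?_, hb, eq_top_iff.2 fun g _ => ?_,
    ⟨(MonoidHom.ofInjective hι).symm⟩, H7.le_nrm_of_normal _ _, qlin.comp ι.range.subtype,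
    ⟨⟨fun x => qtr (x.toMul : qV F).1, fun v => Additive.ofMul ⟨qa 1 v, qa_mem_qV.2 rfl⟩,
      fun x => ?_, fun v => qtr_qa _ _⟩, fun x y => ?_⟩, fun M => ⟨⟨_, M, rfl⟩, qlin_qa _ _⟩,
    ?_, fun l v => ⟨⟨_, (inferInstance : (qV F).Normal).conj_mem _ v.2 l⟩, rfl, ?_⟩⟩
  · obtain ⟨M, v, rfl⟩ := qa_surj g
    rw [qa_mem_qV, hq]
    refine ⟨fun h => by subst h; simp, fun ⟨h1, h2, h3, h4⟩ => ?_⟩
    refine Matrix.SpecialLinearGroup.ext _ _ fun i j => ?_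
    fin_cases i <;> fin_cases j <;> simpa using (by assumption)
  · obtain ⟨M, v, rfl⟩ := qa_surj g
    rw [hK, hq]
    refine ⟨fun h => by subst h; simp, fun ⟨h1, h2⟩ => funext fun i => ?_⟩
    fin_cases i <;> simpa using (by assumption)
  · obtain ⟨M, v, rfl⟩ := qa_surj g
    have : qa M v = qa 1 v * qa M 0 := by rw [qa_mul, mv_zero, add_zero, one_mul]
    rw [this]
    exact Subgroup.mul_mem _ (mem_sup_right (qa_mem_qV.2 rfl)) (mem_sup_left ⟨M, rfl⟩)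
  · obtain ⟨v, hv⟩ := mem_qV.1 (x.toMul : qV F).2
    refine Additive.toMul.injective (Subtype.ext ?_)
    show qa 1 (qtr _) = _
    rw [← hv, qtr_qa]
  · obtain ⟨v, hv⟩ := mem_qV.1 (x.toMul : qV F).2
    show qtr (x.toMul.1 * y.toMul.1) = qtr _ + qtr _
    rw [qtr_mul, ← hv, qlin_qa, mv_one]
  · ext ⟨g, hg⟩
    have := cen_qV (F := F)
    rw [mem_subgroupOf, MonoidHom.mem_ker, this]
    rfl
  · obtain ⟨_, M, rfl⟩ := l
    obtain ⟨w, hw⟩ := mem_qV.1 v.2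
    show qtr (qa M 0 * v.1 * (qa M 0)⁻¹) = (qlin (qa M 0)).1.mulVec (qtr v.1)
    rw [← hw, qa_conj, qtr_qa, qtr_qa, qlin_qa]
    rfl

end Cfsg.Agent.S2762
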