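import Cfsg.Statements.S2763
import Cfsg.Agent.H2.FS17

set_option autoImplicit false
open Cfsg

namespace Cfsg.Agent.S2763

open Subgroup H2 Cfsg.FusionSystem


/-- In the group Qd(p) (p prime; the natural semidirect product of an elementary abelian group of order p² by SL₂(p)), the normalizer of every nontrivial characteristic subgroup of a Sylow p-subgroup S equals the normalizer of S, which is a proper subgroup; in particular no such characteristic subgroup is normal. -/
theorem result {p : ℕ} [Fact p.Prime] (S : Sylow p ↥(Cfsg.qd p)) (T : Subgroup ↥(S : Subgroup ↥(Cfsg.qd p))) (hT : T ≠ ⊥) (hTc : T.Characteristic) : Subgroup.normalizer ((T.map (S : Subgroup ↥(Cfsg.qd p)).subtype : Subgroup ↥(Cfsg.qd p)) : Set ↥(Cfsg.qd p)) = Subgroup.normalizer ((S : Subgroup ↥(Cfsg.qd p)) : Set ↥(Cfsg.qd p)) ∧ Subgroup.normalizer ((S : Subgroup ↥(Cfsg.qd p)) : Set ↥(Cfsg.qd p)) ≠ ⊤ := by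
  revert S
  rw [qd_eq]
  intro S T hT hTc
  have hS := sylow_isSylowIn_top S
  obtain ⟨g, -, e⟩ := (syl_qS (p := p) (F := ZMod p)).exists_cj_eq hS
  have hc : Chr (S : Subgroup (qdOver (ZMod p))) (T.map (S : Subgroup (qdOver (ZMod p))).subtype) :=
    chr_of_characteristic (map_subtype_le T) (characteristic_map_subtype T)
  have hne : normalizer ((S : Subgroup (qdOver (ZMod p))) : Set (qdOver (ZMod p))) ≠ ⊤ := by
    rw [← e, normalizer_cj]
    exact fun h => nrm_qS_ne (H7.cj_eq_top.1 h)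
  refine ⟨le_antisymm ?_ hc.le_nrm, hne⟩
  have h1 := le_normalizer.trans hc.le_nrm
  rcases nrm_qS_max (cj_le_iff_le_cj_inv.1 (e.le.trans h1)) with h | h
  · have := H7.le_cj_iff.2 h
    rwa [← normalizer_cj, e] at this
  · obtain ⟨f, k1, k2, k3, k4⟩ := qd_aut (MulEquiv.refl _) hS
    refine (k4 _ hc.1 (H7.normal_iff_top_le_nrm.2 (H7.cj_eq_top.1 h).ge) (fun h => hT ?_)
      (hc.2 f k1 k2 k3)).elim
    exact (Subgroup.map_eq_bot_iff_of_injective _ (subtype_injective _)).1 h

end Cfsg.Agent.S2763
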