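import Cfsg.Statements.S2779
import Cfsg.Agent.H1.NatM

set_option autoImplicit false
open Cfsg

namespace Cfsg.Agent.S2779

open H7 H1B Subgroup
open scoped commutatorElement

/-- Let L act on the elementary abelian p-group V (inside a finite group, by conjugation, faithfully) as SL₂(F) on its natural module, F a field with p^n elements, and let S be a Sylow p-subgroup of L. Then [V, S, S] = 1; |V| = p^(2n) and |C_V(S)| = p^n; and for every nonidentity s ∈ S and every v ∈ V outside C_V(S): C_V(s) = C_V(S) = [V, S] = [V, s] = the subgroup generated by the commutators [v, t], t ∈ S. -/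
theorem result {G : Type*} [Group G] [Finite G] {p : ℕ} [Fact p.Prime] {F : Type*} [Field F] [Fintype F] (n : ℕ) (hF : Fintype.card F = p ^ n) (V L : Subgroup G) (hnat : Cfsg.IsNaturalSL2Module F V L) (hf : L ⊓ Subgroup.centralizer (V : Set G) = ⊥) (S : Sylow p ↥L) (T : Subgroup G) (hT : T = ((S : Subgroup ↥L).map L.subtype)) : ⁅⁅V, T⁆, T⁆ = ⊥ ∧ Nat.card V = p ^ (2 * n) ∧ Nat.card ↥(V ⊓ Subgroup.centralizer ((T : Subgroup G) : Set G)) = p ^ n ∧ ∀ s ∈ T, s ≠ 1 → (V ⊓ Subgroup.centralizer ({s} : Set G)) = (V ⊓ Subgroup.centralizer ((T : Subgroup G) : Set G)) ∧ ⁅V, T⁆ = (V ⊓ Subgroup.centralizer ((T : Subgroup G) : Set G)) ∧ ⁅V, Subgroup.zpowers s⁆ = (V ⊓ Subgroup.centralizer ((T : Subgroup G) : Set G)) ∧ ∀ v ∈ V, v ∉ Subgroup.centralizer (T : Set G) → Subgroup.closure {x : G | ∃ t ∈ T, x = v * t * v⁻¹ * t⁻¹} = (V ⊓ Subgroup.centralizer ((T : Subgroup G) : Set G)) := by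
  haveI := charP_of_card_eq_prime_pow hF
  obtain ⟨π, r, h⟩ := exists_NM hnat hf (hT ▸ syl_sub S : IsSylowIn p T L)
  have c := Nat.card_eq_fintype_card.trans hF
  refine ⟨comm_eq_bot.2 (h.comm_le.trans inf_le_right), by rw [h.card_V, c, ← pow_mul, mul_comm], h.card_C.trans c, fun s hs h1 => ?_⟩
  have z := zpowers_le.2 hs
  have a : V ⊓ cen T ≤ ⁅V, zpowers s⁆ := fun w hw => by
    obtain ⟨d, e⟩ := (h.mem s (h.le hs)).1 hs
    have : d ≠ 0 := fun k => h1 (h.ker s (h.le hs) (by rw [← e, k, H4.slUp_zero]))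
    obtain ⟨v, hv, k⟩ := h.sur ![0, -(π w 0 / d)]
    rw [h.inj _ hw.1 _ (h.comm_mem (h.le hs) hv) (by
      rw [h.pi_comm (h.le hs) hv e.symm, k]
      exact vec_ext (by simp; field_simp) (h.mem_C.1 hw).2)]
    exact commutator_mem_commutator hv (mem_zpowers s)
  have b := commutator_mono (le_refl V) z
  refine ⟨Subgroup.ext fun v => ?_, le_antisymm h.comm_le (a.trans b), le_antisymm (b.trans h.comm_le) a, fun v hv k =>
    le_antisymm ((closure_le _).2 ?_) fun w hw => subset_closure ?_⟩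
  · rw [h.mem_C]
    exact and_congr_right fun hv => h.cen1_iff hs h1 hv
  · rintro _ ⟨t, ht, rfl⟩
    exact h.comm_le (commutator_mem_commutator hv ht)
  · have : π v 1 ≠ 0 := fun e => k (h.mem_C.2 ⟨hv, e⟩).2
    obtain ⟨t, ht, e⟩ := h.exT (-(π w 0 / π v 1))
    refine ⟨t, ht, h.inj _ hw.1 _ (h.comm_mem (h.le ht) hv) ?_⟩
    rw [← commutatorElement_def, h.pi_comm (h.le ht) hv e]
    exact vec_ext (by simp; field_simp) (h.mem_C.1 hw).2

end Cfsg.Agent.S2779
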