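import Cfsg.Statements.S2780
import Cfsg.Agent.H1.NatM
import Cfsg.Agent.H7.Tk1

set_option autoImplicit false
open Cfsg

namespace Cfsg.Agent.S2780

open H7 H1B Subgroup
open scoped commutatorElement

/-- Let L act on the elementary abelian p-group V (inside a finite group, faithfully) as SL₂(F) on its natural module, F a field with p^n elements, S a Sylow p-subgroup of L. Then: for every g ∈ L not normalizing S, V is the internal direct product of C_V(S) and C_V(gSg⁻¹); every nonidentity element of L of order prime to p acts on V without nonidentity fixed points; and C_V(S) and V/C_V(S) are irreducible for N_L(S): the only N_L(S)-invariant subgroups of C_V(S) are 1 and C_V(S), and the only N_L(S)-invariant subgroups between C_V(S) and V are those two. -/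
theorem result {G : Type*} [Group G] [Finite G] {p : ℕ} [Fact p.Prime] {F : Type*} [Field F] [Fintype F] (n : ℕ) (hF : Fintype.card F = p ^ n) (V L : Subgroup G) (hnat : Cfsg.IsNaturalSL2Module F V L) (hf : L ⊓ Subgroup.centralizer (V : Set G) = ⊥) (S : Sylow p ↥L) (T : Subgroup G) (hT : T = ((S : Subgroup ↥L).map L.subtype)) : (∀ g ∈ L, g ∉ Subgroup.normalizer (T : Set G) → Cfsg.IsInternalDirectProduct (V ⊓ Subgroup.centralizer ((T : Subgroup G) : Set G)) (V ⊓ Subgroup.centralizer ((T.map (MulAut.conj g).toMonoidHom : Subgroup G) : Set G)) V) ∧ (∀ x ∈ L, x ≠ 1 → (orderOf x).Coprime p → (V ⊓ Subgroup.centralizer ({x} : Set G)) = ⊥) ∧ (∀ U : Subgroup G, U ≤ (V ⊓ Subgroup.centralizer ((T : Subgroup G) : Set G)) → L ⊓ Subgroup.normalizer (T : Set G) ≤ Subgroup.normalizer (U : Set G) → U = ⊥ ∨ U = (V ⊓ Subgroup.centralizer ((T : Subgroup G) : Set G))) ∧ (∀ U : Subgroup G, (V ⊓ Subgroup.centralizer ((T : Subgroup G) : Set G)) ≤ U → U ≤ V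 → L ⊓ Subgroup.normalizer (T : Set G) ≤ Subgroup.normalizer (U : Set G) → U = (V ⊓ Subgroup.centralizer ((T : Subgroup G) : Set G)) ∨ U = V) := by
  haveI := charP_of_card_eq_prime_pow hF
  have s : IsSylowIn p T L := hT ▸ syl_sub S
  obtain ⟨π, r, h⟩ := exists_NM hnat hf s
  refine ⟨fun g gL gN => ?_, fun x xL x1 xc => eq_bot_iff.2 fun v hv => by_contra fun v1 => ?_, fun U a b => ?_, fun U a b c => ?_⟩
  · have g0 : r g 1 0 ≠ 0 := fun e => gN (h.mem_nrm gL e)
    have e : V ⊓ cen (cj g T) = cj g (V ⊓ cen T) := by rw [H7.cj_inf, cj_cen, cj_of_mem_nrm (h.norm gL)]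
    rw [← H7.cj_def]
    refine ⟨inf_le_left, inf_le_left, fun a x b y => h.comm x.1 y.1, eq_bot_iff.2 fun v hv => ?_,
      le_antisymm (sup_le inf_le_left inf_le_left) fun v hv => ?_⟩
    · obtain ⟨w, hw, rfl⟩ := mem_cj'.1 (e.le hv.2)
      have k := (h.mem_C.1 hv.1).2
      have k2 := (h.mem_C.1 hw).2
      rw [h.act g gL w hw.1, H2.mv_apply, k2, mul_zero, add_zero, mul_eq_zero] at k
      rw [h.eq_one hw.1 (vec_ext (k.resolve_left g0) k2), mul_one, mul_inv_cancel]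
      exact one_mem _
    · obtain ⟨w, hw, k⟩ := h.sur ![π v 1 / r g 1 0, 0]
      have m := conj_mem h.norm gL hw
      rw [← mul_inv_cancel_right v (g * w * g⁻¹)⁻¹, inv_inv, e]
      refine mul_mem_sup (h.mem_C.2 ⟨mul_mem hv (inv_mem m), ?_⟩) (H7.conj_mem_cj.2 (h.mem_C.2 ⟨hw, by rw [k]; rfl⟩))
      rw [h.add _ hv _ (inv_mem m), h.inv m, h.act g gL w hw, k, Pi.add_apply, Pi.neg_apply, H2.mv_apply]
      simp; field_simp; simp
  · obtain ⟨M, hM⟩ : ∃ M : Matrix.SpecialLinearGroup (Fin 2) F, H2.mv M ![1, 0] = π v := by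
      by_cases e : π v 0 = 0
      · have : π v 1 ≠ 0 := fun k => v1 (h.eq_one hv.1 (vec_ext e k))
        exact ⟨H4.sl2 0 (-(π v 1)⁻¹) (π v 1) 0 (by simp [this]), vec_ext (by rw [H2.mv_apply]; simp [H4.sl2, e])
          (by rw [H2.mv_apply]; simp [H4.sl2])⟩
      · exact ⟨H4.sl2 (π v 0) 0 (π v 1) (π v 0)⁻¹ (by simp [e]), vec_ext (by rw [H2.mv_apply]; simp [H4.sl2])
          (by rw [H2.mv_apply]; simp [H4.sl2])⟩
    obtain ⟨l, hl, rfl⟩ := h.rsur M
    have m := conj_mem' (le_nrm_self L) hl xL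
    have k : H2.mv (r (l⁻¹ * x * l)) ![1, 0] = ![1, 0] := by
      rw [h.rmul _ (mul_mem (inv_mem hl) xL) _ hl, h.rmul _ (inv_mem hl) _ xL, H2.mv_mul, H2.mv_mul, hM, (h.fix_iff xL hv.1).1 hv.2,
        ← hM, ← H2.mv_mul, h.rinv hl, inv_mul_cancel, H2.mv_one]
    have t := (h.mem _ m).2 (mem_slU.2 ⟨by simpa [H2.mv_apply] using congrFun k 0, by simpa [H2.mv_apply] using congrFun k 1⟩)
    have := eq_bot_of_isPGroup_of_coprime (s.2.to_le (zpowers_le.2 t)) (by rwa [Nat.card_zpowers, oconj'])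
    rw [zpowers_eq_bot, ← orderOf_eq_one_iff, oconj', orderOf_eq_one_iff] at this
    exact x1 this
  · refine or_iff_not_imp_left.2 fun ne => le_antisymm a fun w hw => ?_
    obtain ⟨u, hu, u1⟩ := exists_ne_one ne
    obtain ⟨uV, u2⟩ := h.mem_C.1 (a hu)
    obtain ⟨wV, w2⟩ := h.mem_C.1 hw
    have u3 : π u 0 ≠ 0 := fun e => u1 (h.eq_one uV (vec_ext e u2))
    by_cases e : π w 0 = 0
    · rw [h.eq_one wV (vec_ext e w2)]; exact one_mem _
    obtain ⟨l, hl, k⟩ := h.ex_diag (div_ne_zero e u3)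
    rw [h.inj _ wV _ (conj_mem h.norm hl.1 uV) (by rw [k u uV]; exact vec_ext (by simp [u3]) (by simp [u2, w2]))]
    exact conj_mem b hl hu
  · refine or_iff_not_imp_left.2 fun ne => le_antisymm b fun w hw => ?_
    obtain ⟨u, hu, u1⟩ := SetLike.exists_of_lt (lt_of_le_of_ne a (Ne.symm ne))
    have u3 : π u 1 ≠ 0 := fun e => u1 (h.mem_C.2 ⟨b hu, e⟩)
    by_cases e : π w 1 = 0
    · exact a (h.mem_C.2 ⟨hw, e⟩)
    obtain ⟨l, hl, k⟩ := h.ex_diag (div_ne_zero u3 e)
    have m := conj_mem c hl hu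
    refine (mul_mem_cancel_right (inv_mem m)).1 (a (h.mem_C.2 ⟨mul_mem hw (inv_mem (b m)), ?_⟩))
    rw [h.add _ hw _ (inv_mem (b m)), h.inv (b m), k u (b hu)]
    simp [u3]

end Cfsg.Agent.S2780
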