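import Cfsg.Statements.S2781
import Cfsg.Agent.H1.LS3

set_option autoImplicit false
open Cfsg

namespace Cfsg.Agent.S2781

open H7 H1B Subgroup

/-- Let H act faithfully by conjugation on the elementary abelian p-subgroup V of a finite group, let O^p(H) be the subgroup of H generated by its elements of order prime to p, and T a Sylow p-subgroup of O^p(H). If V is generated by the H-conjugates of C_V(T) (V is the smallest H-invariant subgroup containing C_V(T)), then V = [V, O^p(H)]·C_V(O^p(H)). -/
theorem result {G : Type*} [Group G] [Finite G] {p : ℕ} [Fact p.Prime] (V H : Subgroup G) (hV : Cfsg.IsElementaryAbelian p V) (hHV : H ≤ Subgroup.normalizer (V : Set G)) (hf : H ⊓ Subgroup.centralizer (V : Set G) = ⊥) (R : Subgroup G) (hR : R = (Cfsg.pResidual p ↥H).map H.subtype) (S : Sylow p ↥R) (T : Subgroup G) (hT : T = ((S : Subgroup ↥R).map R.subtype)) (hgen : ∀ W : Subgroup G, H ≤ Subgroup.normalizer (W : Set G) → (V ⊓ Subgroup.centralizer ((T : Subgroup G) : Set G)) ≤ W → V ≤ W) : ⁅V, R⁆ ⊔ (V ⊓ Subgroup.centralizer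 ((R : Subgroup G) : Set G)) = V := by
  rw [H2.map_pResidual_subtype] at hR
  have n : H ≤ nrm R := hR ▸ nrm_pRes' p H
  have l : R ≤ nrm V := (hR.le.trans (H2.pRes_le H)).trans hHV
  exact le_antisymm (sup_le (comm_le_left l) inf_le_left) (hgen _ (nrm_sup (nrm_commutator hHV n) (nrm_inf hHV (nrm_cen n)))
    ((cen_syl_le (EA.comm hV) (EA.isPGroup hV) l (hT ▸ syl_sub S)).trans (sup_le_sup_right inf_le_left _)))

end Cfsg.Agent.S2781
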