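import Cfsg.Statements.S2792
import Cfsg.Agent.H7.Tk7

set_option autoImplicit false
open Cfsg

namespace Cfsg.Agent.S2792
open H7
open scoped commutatorElement

section
open Subgroup

open Cfsg
open H2 (IsSylowIn)
open scoped H2
variable {G : Type*} [Group G] [Finite G] {Q : Subgroup G} {p : ℕ}

/-- **Hall-Wielandt.** -/
theorem hall_wielandt' [hp : Fact p.Prime] (P : Sylow p G) (hQ : IsWeaklyClosed Q P)
    (h : ∀ u ∈ (P : Subgroup G), ∀ z ∈ Q, ∀ W : Subgroup Q, IsCoatom W →
      (fun y : G => y⁻¹ * z⁻¹ * y * z)^[p - 1] u ∈ W.map Q.subtype →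
      (fun y : G => y⁻¹ * z⁻¹ * y * z)^[p - 1] u ∈ (Phi W).map Q.subtype) :
    nrm Q ⊓ pResidual p G = pRes p (nrm Q) := by
  classical
  have hP := H2.sylow_isSylowIn_top P
  have lH : (P : Subgroup G) ≤ nrm Q := (le_nrm_self _).trans (H2.IsWeaklyClosed.normalizer_le hQ)
  have sP := hP.mono lH le_top
  haveI := Fintype.ofFinite (G ⧸ nrm Q)
  have key : ∀ φ : nrm Q →* Multiplicative (ZMod p), trf φ = 1 → φ = 1 := fun φ hφ => by
    refine hom_eq_one_of_syl sP φ (by_contra fun l2 => ?_)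
    push Not at l2
    obtain ⟨x, ⟨xP, hx⟩, hmin⟩ := Set.exists_min_image {x | x ∈ (P : Subgroup G) ∧ ev φ x ≠ 1} orderOf (Set.toFinite _) l2
    obtain ⟨κ, dκ⟩ : ∃ κ : G → G ⧸ nrm Q → Multiplicative (ZMod p), ∀ g t, κ g t = ev φ ((g • t).out⁻¹ * g * t.out) :=
      ⟨_, fun _ _ => rfl⟩
    have hκ : ∀ u v y, κ (u * v) y = κ u (v • y) * κ v y := fun u v y => by
      simp only [dκ]
      rw [mul_smul, ← ev_mul (out_mem _ _) (out_mem _ _)]
      congr 1; group
    have cn : ∀ g ∈ nrm Q, ∀ w ∈ nrm Q, ev φ (g * w * g⁻¹) = ev φ w := fun g a w b => by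
      rw [ev_conj a b, mul_inv_cancel_comm]
    have orderOf_conj : ∀ g w : G, orderOf (g * w * g⁻¹) = orderOf w := fun g w => (MulAut.conj g).orderOf_eq w
    have sm : ∀ w ∈ (P : Subgroup G), orderOf w < orderOf x → ∀ y, w • y = y → κ w y = 1 := fun w a b y c => by
      have m := out_mem w y
      rw [dκ]
      rw [c] at m ⊢
      have o : orderOf (y.out⁻¹ * w * y.out) = orderOf w := by simpa using orderOf_conj y.out⁻¹ w
      obtain ⟨g, hg, l⟩ := sP.exists_cj_le (Q := zpowers (y.out⁻¹ * w * y.out)) (by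
        rw [← inv_inv y.out, inv_inv y.out⁻¹, ← cj_zpowers]
        exact isPGroup_cj.2 (hP.isPGroup.to_le (zpowers_le.2 a))) (zpowers_le.2 m)
      rw [cj_zpowers, zpowers_le] at l
      by_contra k
      exact (hmin _ ⟨l, by rwa [cn g hg _ m]⟩).not_gt (by rwa [orderOf_conj, o])
    have lT : Q ⊔ zpowers x ≤ P := sup_le hQ.1 (zpowers_le.2 xP)
    have xT : x ∈ Q ⊔ zpowers x := mem_sup_right (mem_zpowers x)
    have gT : ∀ R : Subgroup (Q ⊔ zpowers x : Subgroup G), (⟨x, xT⟩ : (Q ⊔ zpowers x : Subgroup G)) ∈ R →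
        (∀ z : (Q ⊔ zpowers x : Subgroup G), (z : G) ∈ Q → z ∈ R) → R = ⊤ := fun R a b => by
      rw [eq_top_iff, ← map_le_map_iff_of_injective (subtype_injective _), ← MonoidHom.range_eq_map, range_subtype]
      exact sup_le (fun z hz => ⟨⟨z, mem_sup_left hz⟩, b _ hz, rfl⟩) (zpowers_le.2 ⟨_, a, rfl⟩)
    have lQ : Q ≤ Q ⊔ zpowers x := le_sup_left
    generalize Q ⊔ zpowers x = T at *
    have pT := hP.isPGroup.to_le lT
    obtain ⟨o, t, -, h2, h3, h4⟩ := H2.exists_reps (⊤ : Subgroup T) (G ⧸ nrm Q)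
    have fx : ∀ y : G ⧸ nrm Q, (∀ s : T, s • y = y) ↔ y = (1 : G) := fun y => ⟨fun k => by
      have : cj y.out⁻¹ Q = Q := H2.weaklyClosed_eq_of_isPGroup hQ (isPGroup_sup (fun a ha => by
          simpa [mul_assoc] using smul_eq_iff_out.1 (k ⟨_, lQ (mem_cj_inv.1 ha)⟩)) (isPGroup_cj.2
        (hP.isPGroup.to_le hQ.1)) (hP.isPGroup.to_le hQ.1))
      rw [← y.out_eq', QuotientGroup.eq, mul_one]
      exact mem_nrm_of_cj_le this.le, fun k s => by
        rw [k]; exact QuotientGroup.eq.2 (by simpa using lH (lT s.2))⟩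
    have e : ∏ y, κ x y = 1 := by simp only [dκ]; exact DFunLike.congr_fun hφ x
    rw [← Finset.prod_filter_mul_prod_filter_not _ fun y => y = ((1 : G) : G ⧸ nrm Q), Finset.filter_eq',
      if_pos (Finset.mem_univ _), Finset.prod_singleton, ← Finset.prod_fiberwise _ o, Finset.prod_eq_one, mul_one] at e
    · refine hx ?_
      have m : ((1 : G) : G ⧸ nrm Q).out⁻¹ ∈ nrm Q := by
        simpa using QuotientGroup.eq.1 ((1 : G) : G ⧸ nrm Q).out_eq'
      rw [dκ, show x • ((1 : G) : G ⧸ nrm Q) = (1 : G) from (fx _).2 rfl ⟨x, xT⟩] at e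
      rw [← cn _ m _ (lH xP), inv_inv, e]
    intro j _
    set Z := (Finset.univ.filter fun y => ¬ y = ((1 : G) : G ⧸ nrm Q)).filter (o · = j)
    rcases Z.eq_empty_or_nonempty with hZ | ⟨y₀, hy₀⟩
    · rw [hZ, Finset.prod_empty]
    have mZ : ∀ y, y ∈ Z ↔ (¬ ∀ s : T, s • y = y) ∧ o y = j := fun y => by rw [fx]; simp [Z]
    have hZ : ∀ s : T, ∀ y ∈ Z, s • y ∈ Z := fun s y hy => (mZ _).2 ⟨fun k => ((mZ y).1 hy).1
      fun a => by simpa [mul_smul] using k (s * a * s⁻¹), (h3 s trivial y).trans ((mZ y).1 hy).2⟩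
    obtain ⟨R, _, r2, r3⟩ := H2.exists_normal_index_prime pT (H := MulAction.stabilizer T j) fun k =>
      ((mZ y₀).1 hy₀).1 fun a => by
        have k' : ∀ a : T, a • j = j := fun a => k.ge (mem_top a)
        rw [← h2 y₀, ((mZ y₀).1 hy₀).2, k', k']
    have r4 : ∀ s, ∀ y ∈ Z, (t (s • y))⁻¹ * s * t y ∈ R := fun s y hy =>
      r3 (((mZ y).1 hy).2 ▸ h4 s trivial y :)
    by_cases huR : (⟨x, xT⟩ : T) ∈ R
    · obtain ⟨z, zQ, hz⟩ : ∃ z : T, (z : G) ∈ Q ∧ z ∉ R := by
        by_contra! k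
        rw [gT R huR k, index_top] at r2
        exact hp.out.one_lt.ne r2
      have r5 : ∀ s ∈ R, ∀ y ∈ Z.filter (t · ∈ R), s • y ∈ Z.filter (t · ∈ R) := by
        simp only [Finset.mem_filter (s := Z)]
        refine fun s hs y hy => ⟨hZ s y hy.1, ?_⟩
        simpa [R.mul_mem_cancel_right, hy.2, hs] using r4 s y hy.1
      have hν : H2.HomOn R fun w => ∏ y ∈ Z with t y ∈ R, κ w y := fun a _ b hb => by
        simp only [coe_mul, hκ, Finset.prod_mul_distrib]
        rw [← H2.prod_smul r5 hb fun y => κ a y]; rfl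
      have i1 : ∀ k, (((fun y => y⁻¹ * z⁻¹ * y * z)^[k] ⟨x, xT⟩ : T) : G) =
          (fun y : G => y⁻¹ * (z : G)⁻¹ * y * z)^[k] x := fun k => by
        induction k with
        | zero => rfl
        | succ k ih => simp only [Function.iterate_succ_apply', ← ih, coe_mul, coe_inv]
      have := prod_conj_eq_iter hν (z := z) (le_nrm_of_normal ⊤ R trivial) huR
      have k0 : ∏ y ∈ Z with t y ∈ R, κ ((fun y => y⁻¹ * z⁻¹ * y * z)^[p - 1] ⟨x, xT⟩ : T) y = 1 := by
        have m2 : ∀ k, (fun y => y⁻¹ * z⁻¹ * y * z)^[k] ⟨x, xT⟩ ∈ R := fun k => by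
          induction k with
          | zero => exact huR
          | succ k ih =>
            rw [Function.iterate_succ_apply', mul_assoc, mul_assoc, ← mul_assoc z⁻¹]
            exact mul_mem (inv_mem ih) (nconj_mem' (le_nrm_of_normal ⊤ R trivial) ih)
        have m3 : (fun y : G => y⁻¹ * (z : G)⁻¹ * y * z)^[p - 1] x ∈ Q := by
          obtain ⟨j, hj⟩ := Nat.exists_eq_add_of_le' hp.out.two_le
          rw [show p - 1 = j + 1 by omega, Function.iterate_succ_apply', ← i1]
          exact mul_mem (nconj_mem' (lH (lT (Subtype.prop _))) (inv_mem zQ)) zQ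
        have co : IsCoatom (R.comap (inclusion lQ)) := by
          refine H2.isCoatom_of_index_prime (p := p) ?_
          have d := R.relIndex_dvd_index_of_normal (inclusion lQ).range
          rw [index_comap]
          rw [r2, Nat.dvd_prime hp.out] at d
          exact d.resolve_left fun e => hz (relIndex_eq_one.1 e ⟨⟨z, zQ⟩, rfl⟩)
        have e0 : inclusion lQ ⟨_, m3⟩ = (fun y => y⁻¹ * z⁻¹ * y * z)^[p - 1] ⟨x, xT⟩ := Subtype.ext (i1 _).symm
        obtain ⟨c, hc, e⟩ := h x xP z zQ _ co ⟨⟨_, m3⟩, (by rw [SetLike.mem_coe, mem_comap, e0]; exact m2 _), rfl⟩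
        have l2 : Phi (R.comap (inclusion lQ)) ≤ (hν.pre ⊥).comap (inclusion lQ) := by
          refine Phi_le_of_elem hp.out (commutator_le.2 fun a ha b hb => ?_) fun a ha => ?_
          · rw [mem_comap, map_commutatorElement]
            refine ⟨comm_le_of_le le_rfl le_rfl (commutator_mem_commutator ha hb), ?_⟩
            exact (map_commutatorElement hν.toHom ⟨_, ha⟩ ⟨_, hb⟩).trans
              (commutatorElement_eq_one_iff_mul_comm.2 (mul_comm _ _))
          · rw [mem_comap, map_pow]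
            exact ⟨pow_mem ha p, (hν.pow ha p).trans (Multiplicative.toAdd.injective (by simp))⟩
        rw [← e0, show (⟨_, m3⟩ : Q) = c from Subtype.ext e.symm]
        exact (l2 hc).2
      rw [k0] at this
      rw [H2.prod_blocks r2 hz t hZ r4, ← this]
      refine Finset.prod_congr rfl fun i _ => ?_
      generalize z ^ i = s
      have m : s⁻¹ * ⟨x, xT⟩ * s ∈ R := nconj_mem' (le_nrm_of_normal ⊤ R trivial) huR
      have e : x * s = s * (s⁻¹ * ⟨x, xT⟩ * s : T) := by simp [mul_assoc]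
      generalize s⁻¹ * ⟨x, xT⟩ * s = w at *
      have k : ∀ y, κ x (s • y) * κ s y = κ s (w • y) * κ w y := fun y =>
        (hκ x s y).symm.trans (e ▸ hκ s w y)
      have := Finset.prod_congr (s₁ := Z.filter (t · ∈ R)) rfl fun y _ => k y
      rw [Finset.prod_mul_distrib, Finset.prod_mul_distrib, H2.prod_smul r5 m fun y => κ s y, mul_comm] at this
      exact mul_left_cancel this
    · refine H2.prod_cob (K := zpowers (⟨x, xT⟩ : T)) (κ := fun w y => κ w y)
        (fun a _ b _ y => hκ a b y) (fun s _ => hZ s) (fun w hw y hy k => sm w (lT w.2) ?_ y k) (mem_zpowers _)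
      have k1 := r4 w y hy
      rw [k, ← inv_inv (t y), Normal.mem_comm_iff inferInstance] at k1
      rw [Subgroup.orderOf_coe, ← Subgroup.orderOf_mk x xT, ← Nat.card_zpowers, ← Nat.card_zpowers]
      exact card_lt_of_lt (lt_of_le_not_ge (zpowers_le.2 hw) fun e =>
        huR (zpowers_le.2 (by simpa using k1) (e (mem_zpowers _))))
  refine H2.tate (fun d => hP.not_dvd (by rw [relIndex_top_right]; exact d.trans (index_dvd_of_le lH))) fun M _ hM => ?_
  have inj : Function.Injective fun φ : nrm Q →* Multiplicative (ZMod p) => trf φ := fun φ ψ e => by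
    refine div_eq_one.1 (key _ (MonoidHom.ext fun g => ?_))
    have := div_eq_one.2 (DFunLike.congr_fun e g)
    simp only [trf, MonoidHom.mk'_apply, ← Finset.prod_div_distrib] at this ⊢
    refine (Finset.prod_congr rfl fun t _ => ?_).trans this
    simp only [ev_eq (out_mem g t), MonoidHom.div_apply]
  have inj2 : Function.Injective fun ψ : G →* Multiplicative (ZMod p) => ψ.comp (nrm Q).subtype := fun φ ψ e => by
    have := hom_eq_one_of_syl hP ((φ / ψ).comp (⊤ : Subgroup G).subtype) fun x hx => by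
      rw [ev_eq (mem_top x)]; exact div_eq_one.2 (DFunLike.congr_fun e ⟨x, lH hx⟩)
    exact MonoidHom.ext fun g => div_eq_one.1 (DFunLike.congr_fun this ⟨g, trivial⟩)
  haveI : Finite (nrm Q →* Multiplicative (ZMod p)) := DFunLike.finite _
  obtain ⟨l, hl⟩ := H2.exists_hom_zmod hM
  obtain ⟨ψ, rfl⟩ := (Finite.injective_iff_surjective.1 (inj2.comp inj)).of_comp l
  exact fun x hx => (hl x).1 (H2.pResidual_le_ker (IsPGroup.of_card (n := 1) (by simp)) ψ hx)

end

/-- Let S be a Sylow p-subgroup of the finite group G and W a subgroup of S weakly closed in S with respect to G. If S ∩ G' ≠ S ∩ (N_G(W))', then there are x ∈ S, z ∈ W and a maximal subgroup W₀ of W such that the iterated commutator [x, z; p−1] (with [x, z] = x⁻¹z⁻¹xz and [x, z; i+1] = [[x, z; i], z]) lies in W₀ but not in the Frattini subgroup of W₀; in particular [x, z; p−1] ≠ 1. -/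
theorem result {G : Type*} [Group G] [Finite G] {p : ℕ} [Fact p.Prime] (S : Sylow p G) (W : Subgroup G) (hW : Cfsg.IsWeaklyClosed W (S : Subgroup G)) (h : (S : Subgroup G) ⊓ commutator G ≠ (S : Subgroup G) ⊓ ⁅Subgroup.normalizer (W : Set G), Subgroup.normalizer (W : Set G)⁆) : ∃ x ∈ (S : Subgroup G), ∃ z ∈ W, ∃ W₀ : Subgroup ↥W, IsCoatom W₀ ∧ (fun y : G => y⁻¹ * z⁻¹ * y * z)^[p - 1] x ∈ W₀.map W.subtype ∧ (fun y : G => y⁻¹ * z⁻¹ * y * z)^[p - 1] x ∉ ((frattini ↥W₀).map W₀.subtype).map W.subtype := by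
  open Subgroup in
  by_contra! hc
  have e := hall_wielandt' S hW hc
  have lH : (S : Subgroup G) ≤ normalizer (W : Set G) := (le_nrm_self _).trans (H2.IsWeaklyClosed.normalizer_le hW)
  generalize normalizer (W : Set G) = H at *
  have hS := H2.sylow_isSylowIn_top S
  have e2 := H2.pResidual_sup_sylow S
  have nN : ∀ A : Subgroup G, A ≤ normalizer (pResidual p G : Set G) := fun A => le_nrm_of_normal _ _
  generalize pResidual p G = N at *
  have l1 : commutator G ≤ ⁅H, H⁆ ⊔ N := by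
    rw [← im_qm_le (nN _) (nN _), commutator_def, ← e2, im_commutator (nN _) (nN _), im_commutator (nN _) (nN _),
      im_sup (nN _) (nN _), (im_qm_eq_bot (nN _)).2 le_rfl, bot_sup_eq]
    exact commutator_mono (im_mono _ lH) (im_mono _ lH)
  have l2 : (S : Subgroup G) ⊓ commutator G ≤ ⁅H, H⁆ ⊔ H2.pRes p H := fun x hx => by
    obtain ⟨a, ha, b, hb, rfl⟩ := (mem_sup_nrm (nN _)).1 (l1 hx.2)
    exact mul_mem (mem_sup_left ha) (mem_sup_right (e ▸ ⟨(Subgroup.mul_mem_cancel_left _ (der_le H ha)).1 (lH hx.1), hb⟩))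
  have n := le_nrm_der H
  refine h (le_antisymm (le_inf inf_le_left ?_) (inf_le_inf_left _ (commutator_mono le_top le_top)))
  have l3 := im_mono (qm ⁅H, H⁆) l2
  rw [im_sup (le_nrm_self _) ((H2.pRes_le H).trans n), (im_qm_eq_bot (le_nrm_self _)).2 le_rfl, bot_sup_eq,
    im_pRes n] at l3
  refine (im_qm_eq_bot ((inf_le_left.trans lH).trans n)).1 (eq_bot_of_isPGroup_of_coprime
    (isPGroup_im _ S.2.to_inf_left) (coprime_of_le l3 (npc_iff_coprime.1 (npc_of_nilp (nilp_of_comm (isComm_of_der ?_))))))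
  rw [← im_commutator n n, im_qm_eq_bot (le_nrm_self _)]

end Cfsg.Agent.S2792
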