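import Cfsg.Statements.S2794
import Cfsg.Agent.H2.FS20

set_option autoImplicit false
open Cfsg

namespace Cfsg.Agent.S2794

open Subgroup H2 Cfsg.FusionSystem


/-- For an odd prime p and a finite group G, the group Qd(p) is not involved in G if and only if in every section K/R of G, for every Sylow p-subgroup S* of K/R, the centre of J(S*) (J generated by the abelian subgroups of largest order) controls strong fusion in K/R. -/
theorem result {G : Type*} [Group G] [Finite G] {p : ℕ} [Fact p.Prime] (hp : p ≠ 2) : ¬ Cfsg.Involves ↥(Cfsg.qd p) G ↔ ∀ (K R : Subgroup G) [hR : (R.subgroupOf K).Normal], ∀ T : Sylow p (K ⧸ R.subgroupOf K), Cfsg.ControlsStrongFusion p (Cfsg.centerThompsonAOf (T : Subgroup (K ⧸ R.subgroupOf K))) := by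
  refine ⟨fun h K R _ T => ?_, fun h ⟨K, R, _, ⟨e⟩⟩ => ?_⟩
  · have hS := sylow_isSylowIn_top T
    have hG := isGF_group (T : Subgroup (K ⧸ R.subgroupOf K))
    rw [centerThompsonA_eq_zero]
    exact controlsStrongFusion_of_normal T (normal_ZJ hp (Or.inl rfl) (secCl_free (qd p))
      (pst_qdfree hp) hS.isPGroup (hG.saturated hS) (hG.loc hS (secCl_free _) fun k =>
        h (inv_trans (inv_trans k (inv_subgroup _)) (inv_quot K R))))
  · rw [qd_eq] at e
    obtain ⟨T⟩ : Nonempty (Sylow p (K ⧸ R.subgroupOf K)) := inferInstance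
    obtain ⟨T', hT⟩ := normal_of_controlsStrongFusion (h K R T)
    rw [centerThompsonA_eq_zero] at hT
    exact (charF_ZJ (p := p) (Or.inl rfl)).pf.not_normal e (sylow_isSylowIn_top T)
      (H7.normal_iff_top_le_nrm.2 ((isGF_group _).le_nrm_of_normal (sylow_isSylowIn_top T')
        (chP_of_equiv_qd e) hT))

end Cfsg.Agent.S2794
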