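import Cfsg.Statements.S2799
import Cfsg.Agent.H2.FS17

set_option autoImplicit false
open Cfsg

namespace Cfsg.Agent.S2799

open Subgroup H2 Cfsg.FusionSystem


/-- Let S be a Sylow p-subgroup of the finite group G, J(S) the subgroup generated by the abelian subgroups of S of largest order, and x an element of S lying in the centre of N_G(J(S)). Assume that p is odd, or that x is a p-th power of an element of Z(S), or that the symmetric group of degree 4 is not involved in G. Then x is weakly closed in S with respect to G: every G-conjugate of x that lies in S equals x. -/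
theorem result {G : Type*} [Group G] [Finite G] {p : ℕ} [Fact p.Prime] (S : Sylow p G) (x : G) (hxS : x ∈ (S : Subgroup G)) (hxZ : x ∈ (Subgroup.center ↥(Subgroup.normalizer ((Cfsg.thompsonSubgroupAOf (S : Subgroup G)) : Set G))).map (Subgroup.normalizer ((Cfsg.thompsonSubgroupAOf (S : Subgroup G)) : Set G)).subtype) (h : p ≠ 2 ∨ (∃ z ∈ (S : Subgroup G) ⊓ Subgroup.centralizer ((S : Subgroup G) : Set G), z ^ p = x) ∨ ¬ Cfsg.Involves (Equiv.Perm (Fin 4)) G) : ∀ g : G, g * x * g⁻¹ ∈ (S : Subgroup G) → g * x * g⁻¹ = x := by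
  have hS := sylow_isSylowIn_top S
  rw [H7.center_map_subtype, thompsonA_eq_zero] at hxZ
  have hW := (charF_J (p := p) (Or.inl rfl)).pf.isConjugacyFunctor (G := G)
  have hZ : ∀ P : Subgroup G, IsPGroup p P → P ⊓ centralizer (P : Set G) ≤ JJ 0 P :=
    fun P _ => center_le_J P
  have hn := inf_le_right.trans (H7.le_cen1_iff.2 hxZ.2) (a := ⊤ ⊓ _)
  have hx : x ∈ (S : Subgroup G) ⊓ centralizer ((S : Subgroup G) : Set G) :=
    ⟨hxS, H7.cen_anti (nrm_J (H7.le_nrm_self _)) hxZ.2⟩
  have key : TH p G → ∀ g : G, g * x * g⁻¹ ∈ (S : Subgroup G) → g * x * g⁻¹ = x := fun h g =>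
    gf_weakly_closed_elt (U := id) hW hZ monotone_id (fun _ => le_rfl)
      (fun R L _ k1 k2 k3 k4 => central_TH k1 k2 k3 k4 (h.inv (inv_subgroup _))) hS hx hn g trivial
  rcases h with h | ⟨z, hz, rfl⟩ | h
  · exact key (Or.inl h)
  · refine fun g => gf_weakly_closed_elt (U := mho p) hW hZ (fun _ _ => mho_mono) (mho_le p)
      (fun R L _ k1 k2 k3 k4 y hy => ?_) hS (pow_mem_mho hz) hn g trivial
    obtain ⟨a, ha, b, hb, rfl⟩ := fac_of_quad k1 k2 (quadL_J k1) y hy
    exact Subgroup.mul_mem _ (H7.cen_le_cen1 k3 ha) (k4 hb)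
  · exact key (Or.inr h)

end Cfsg.Agent.S2799
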