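import Cfsg.Statements.S2807
import Cfsg.Agent.H2.TrF

set_option autoImplicit false
open Cfsg

namespace Cfsg.Agent.S2807

open Subgroup H2 Cfsg.FusionSystem


/-- Let S be a Sylow p-subgroup of the finite group G. If S ∩ G' ≠ S ∩ (N_G(S))' (derived subgroups), then the wreath product Z_p ≀ Z_p — realised as a Sylow p-subgroup of the symmetric group of degree p² — is a homomorphic image of S. -/
theorem result {G : Type*} [Group G] [Finite G] {p : ℕ} [Fact p.Prime] (S : Sylow p G) (h : (S : Subgroup G) ⊓ commutator G ≠ (S : Subgroup G) ⊓ ⁅Subgroup.normalizer ((S : Subgroup G) : Set G), Subgroup.normalizer ((S : Subgroup G) : Set G)⁆) : ∃ (P : Sylow p (Equiv.Perm (Fin (p ^ 2)))) (f : ↥(S : Subgroup G) →* ↥(P : Subgroup (Equiv.Perm (Fin (p ^ 2))))), Function.Surjective f := by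
  have hS := sylow_isSylowIn_top S
  have hG := isGF_group (S : Subgroup G)
  refine yoshida_fs S.isPGroup' (hG.saturated hS) (le_inf (H7.comm_le_of_le le_rfl le_rfl)
    (commutator_mono le_normalizer le_normalizer)) (lt_of_le_of_ne ?_ ?_) fun f hf x hx => ?_
  · rw [hG.focal_eq hS]; exact inf_le_inf_left _ (commutator_mono le_top le_top)
  · rw [hG.focal_eq hS]; exact h.symm
  · obtain ⟨g, -, e⟩ := hG.exists_conj hf
    refine ⟨Subgroup.mul_mem _ (Subgroup.inv_mem _ hx) (hf.mem hx), ?_⟩
    rw [e x hx]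
    exact inv_mul_conj_mem_commutator (le_normalizer hx)
      (mem_normalizer_of_conj_mem fun y hy => e y hy ▸ hf.mem hy)

end Cfsg.Agent.S2807
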