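import Cfsg.Statements.S2947
import Cfsg.Agent.H1.LS4

set_option autoImplicit false
open Cfsg

namespace Cfsg.Agent.S2947

open H7 H1B Subgroup

/-- Let G be a finite group of characteristic 2 type in which every 2-local subgroup is solvable and the centralizer of Ω₁(Z(S)) lies in N_G(S) for every Sylow 2-subgroup S; suppose O₂(G) = 1, fix a Sylow 2-subgroup S and a 2-local subgroup M containing N_G(J(S)) (J the Thompson subgroup generated by the elementary abelian 2-subgroups of largest order). Then M is strongly embedded in G (a proper subgroup of even order whose intersection with each conjugate by an element outside M has odd order) if and only if no nontrivial 2-subgroup of M lies in a 2-local subgroup of G not contained in M. -/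
theorem result {G : Type*} [Group G] [Finite G] (hL : Cfsg.IsCharacteristicTwoType G) (hN : ∀ N : Subgroup G, Cfsg.IsTwoLocal N → Group.IsSolvable ↥N)
    (hZ : ∀ S : Sylow 2 G, Subgroup.centralizer (Cfsg.omegaCenterOf (S : Subgroup G) : Set G) ≤ Subgroup.normalizer ((S : Subgroup G) : Set G)) (hO : Cfsg.pCore 2 G = ⊥) (S : Sylow 2 G) (M : Subgroup G) (hM : Cfsg.IsTwoLocal M)
    (hMJ : Subgroup.normalizer (Cfsg.thompsonSubgroupOf 2 (S : Subgroup G) : Set G) ≤ M) :
    Cfsg.IsStronglyEmbedded M ↔ Cfsg.straddlingTwoSubgroups M = ∅ := by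
  obtain ⟨R, h1, h2, rfl⟩ := hM
  rw [se_spe, Set.eq_empty_iff_forall_notMem]
  refine ⟨fun h T ⟨h3, h4, h5, _, ⟨U, h6, h7, rfl⟩, h8, h9⟩ => h9 (h.le_of_Op le_top (fun e => h7 (eq_bot_iff.2
    (e ▸ le_Op (le_nrm_self U) le_rfl h6))) ((dvd_card_of_isPGroup h3 h4).trans (card_dvd_of_le (le_inf h8 h5)))),
    fun h => spe_of_nrm (lt_top_iff_ne_top.2 fun e => h2 (eq_bot_iff.2 ((le_Op le_top e.ge h1).trans
      ((pCore_eq 2).symm.trans hO).le))) ((dvd_card_of_isPGroup h1 h2).trans (card_dvd_of_le (le_nrm_self R)))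
      fun D h3 h4 h5 => inf_le_right.trans (by_contra fun c => h D ⟨h4, h5, h3, _, ⟨D, h4, h5, rfl⟩, le_nrm_self D, c⟩)⟩

end Cfsg.Agent.S2947
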