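import Cfsg.Statements.S3103
import Cfsg.Agent.H1.GL2
import Cfsg.Agent.H1.Fitting
import Cfsg.Agent.S0029
import Cfsg.Agent.S0256
-- import your own Cfsg.Agent.* helpers here

set_option autoImplicit false
open Cfsg

namespace Cfsg.Agent.S3103

open Subgroup

theorem toA8 (V : Type*) [CommGroup V] [Finite V] (he : ∀ v : V, v ^ 2 = 1) (hc : Nat.card V = 2 ^ 4) :
    ∃ f : MulAut V →* alternatingGroup (Fin 8), Function.Injective f := by
  obtain ⟨ρ, e, h⟩ := H1B.exists_matrix_rep V he hc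
  have hρ : Function.Injective ρ := fun a b hab => MulEquiv.ext fun v =>
    Additive.ofMul.injective (e.injective (by rw [h, h, hab]))
  have hd : ∀ a, (ρ a).det = 1 := fun a => (by decide : ∀ x y : ZMod 2, x * y = 1 → x = 1) _ (ρ a⁻¹).det
    (by rw [← Matrix.det_mul, ← map_mul, mul_inv_cancel, map_one, Matrix.det_one])
  let s : MulAut V →* Matrix.SpecialLinearGroup (Fin 4) (ZMod 2) :=
    { toFun := fun a => ⟨ρ a, hd a⟩
      map_one' := Subtype.ext (map_one ρ)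
      map_mul' := fun a b => Subtype.ext (map_mul ρ a b) }
  obtain ⟨i⟩ := Cfsg.Agent.S0256.result (F := ZMod 2) (ZMod.card 2)
  refine ⟨i.toMonoidHom.comp ((QuotientGroup.mk' _).comp s), i.injective.comp ((injective_iff_map_eq_one
    ((QuotientGroup.mk' _).comp s)).2 fun a ha => ?_)⟩
  obtain ⟨r, h1, h2⟩ := Matrix.SpecialLinearGroup.mem_center_iff.1 ((QuotientGroup.eq_one_iff (s a)).1 ha)
  obtain rfl : r = 1 := (by decide : ∀ x : ZMod 2, x ^ 4 = 1 → x = 1) r (by simpa using h1)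
  exact hρ ((show ρ a = _ from h2.symm).trans (by simp))

theorem toA8' (Q : Type*) [Group Q] [Finite Q] (hQ : IsPGroup 2 Q) (h4 : Cfsg.SectionalPRankLE 2 4 Q) :
    ∃ f : MulAut Q →* alternatingGroup (Fin 8), ∀ a, f a = 1 ↔ ∀ q, a q * q⁻¹ ∈ frattini Q := by
  have := hQ.isNilpotent
  have hcm : ∀ a b : Q, (a * b)⁻¹ * (b * a) ∈ frattini Q := fun a b => H1.commutator_le_frattini_of_isNilpotent
    (by simpa [commutatorElement_def, mul_assoc, _root_.commutator_def] using commutator_mem_commutator (mem_top b⁻¹) (mem_top a⁻¹))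
  have hp := H1.pow_mem_frattini_of_isPGroup hQ
  let _ : CommGroup (Q ⧸ frattini Q) := { (inferInstance : Group (Q ⧸ frattini Q)) with
    mul_comm := by rintro ⟨a⟩ ⟨b⟩; exact QuotientGroup.eq.2 (hcm a b) }
  have h5 := h4 ⊤ ((frattini Q).subgroupOf ⊤) ⊤ ⟨⟨by
    rintro ⟨⟨a⟩, _⟩ ⟨⟨b⟩, _⟩; exact Subtype.ext (QuotientGroup.eq.2 (hcm a.1 b.1))⟩⟩ (by
    rintro ⟨a⟩ -; exact (QuotientGroup.eq_one_iff (a ^ 2)).2 (hp a.1))
  rw [card_top, ← index_eq_card, ← relIndex, relIndex_top_right, index_eq_card] at h5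
  obtain ⟨n, hn⟩ := IsPGroup.iff_card.1 (hQ.to_quotient (frattini Q))
  have hn4 : n ≤ 4 := (Nat.pow_le_pow_iff_right (by decide)).1 (hn ▸ h5)
  obtain ⟨f, hf⟩ := toA8 ((Q ⧸ frattini Q) × Multiplicative (Fin (4 - n) → ZMod 2)) (by
    rintro ⟨⟨a⟩, w⟩
    refine Prod.ext ((QuotientGroup.eq_one_iff (a ^ 2)).2 (hp a)) ?_
    show w ^ 2 = 1
    ext i
    simp [two_mul, CharTwo.add_self_eq_zero]) (by
    rw [Nat.card_prod, hn, Nat.card_congr Multiplicative.toAdd, Nat.card_fun, Nat.card_zmod, Nat.card_fin, ← pow_add,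
      Nat.add_sub_cancel' hn4])
  let θ : MulAut Q →* MulAut ((Q ⧸ frattini Q) × Multiplicative (Fin (4 - n) → ZMod 2)) :=
    { toFun := fun a => (QuotientGroup.congr _ _ a (characteristic_iff_map_eq.1 inferInstance a)).prodCongr (MulEquiv.refl _)
      map_one' := by refine MulEquiv.ext ?_; rintro ⟨⟨q⟩, w⟩; rfl
      map_mul' := fun a b => by refine MulEquiv.ext ?_; rintro ⟨⟨q⟩, w⟩; rfl }
  refine ⟨f.comp θ, fun a => ?_⟩
  rw [MonoidHom.comp_apply, map_eq_one_iff f hf]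
  have k : ∀ q, ((a q : Q ⧸ frattini Q) = q) ↔ a q * q⁻¹ ∈ frattini Q := fun q => by
    rw [← QuotientGroup.eq_one_iff, QuotientGroup.mk_mul, QuotientGroup.mk_inv, mul_inv_eq_one]
  constructor
  · intro h q
    exact (k q).1 (congrArg (fun t => (t ((q : Q ⧸ frattini Q), 1)).1) h)
  · intro h
    refine MulEquiv.ext ?_
    rintro ⟨⟨q⟩, w⟩
    exact Prod.ext ((k q).2 (h q)) rfl

/-- Let X be a finite 2-constrained group with no nontrivial normal subgroup of odd order such that O₂(X) has sectional 2-rank at most 4. Then X/O₂(X) is isomorphic to a subgroup of the alternating group of degree 8. -/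
theorem result {X : Type*} [Group X] [Finite X] (hc : Cfsg.IsPConstrained 2 X) (hO : Cfsg.oddCore X = ⊥)
    (h4 : Cfsg.SectionalPRankLE 2 4 ↥(Cfsg.pCore 2 X)) :
    ∃ f : X ⧸ Cfsg.pCore 2 X →* ↥(alternatingGroup (Fin 8)), Function.Injective f := by
  have hQ : IsPGroup 2 (Cfsg.pCore 2 X) := H1.isPGroup_pCore
  have := hQ.isNilpotent
  have hR : Cfsg.pPrimePCore 2 X ≤ Cfsg.pCore 2 X := by
    have : (Cfsg.pPrimePCore 2 X).Normal := Normal.comap inferInstance _
    exact H1.le_pCore (H1.isPGroup_pCore.comap_of_injective _ (by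
      rw [← MonoidHom.ker_eq_bot_iff, QuotientGroup.ker_mk']; exact hO))
  have hC : centralizer (Cfsg.pCore 2 X : Set X) ≤ Cfsg.pCore 2 X := by
    obtain ⟨P⟩ : Nonempty (Sylow 2 (Cfsg.pPrimePCore 2 X)) := inferInstance
    exact (centralizer_le (show _ ⊆ (Cfsg.pCore 2 X : Set X) from (map_subtype_le _).trans hR)).trans ((hc P).trans hR)
  obtain ⟨f, hf⟩ := toA8' _ hQ h4
  let Φ := f.comp (MulAut.conjNormal (H := Cfsg.pCore 2 X))
  have hk : Φ.ker = Cfsg.pCore 2 X := by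
    refine le_antisymm (H1.le_pCore fun x => ?_) fun x hx => (hf _).2 fun q => ?_
    · obtain ⟨k, m, hm, h1⟩ := Nat.exists_eq_two_pow_mul_odd (orderOf_pos x.1).ne'
      have h2 : orderOf (x.1 ^ 2 ^ k) ∣ m := orderOf_dvd_of_pow_eq_one (by rw [← pow_mul, ← h1, pow_orderOf_eq_one])
      obtain ⟨j, hj⟩ := IsPGroup.iff_card.1 (hQ.to_subgroup (frattini _))
      have h3 := Cfsg.Agent.S0029.result (zpowers (x.1 ^ 2 ^ k)) (Cfsg.pCore 2 X) le_normalizer_of_normal (by
        rw [Nat.card_zpowers, hj]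
        exact (Nat.Coprime.coprime_dvd_left h2 (Nat.coprime_two_right.2 hm)).pow_right j) fun a ha q hq =>
        ⟨_, (hf _).1 ((zpowers_le.2 (pow_mem x.2 _) : _ ≤ Φ.ker) ha) ⟨q, hq⟩, rfl⟩
      obtain ⟨l, hl⟩ := hQ ⟨_, hC (h3 (mem_zpowers _))⟩
      exact ⟨k + l, Subtype.ext (by rw [pow_add, pow_mul]; have := congrArg Subtype.val hl; exact this)⟩
    · exact H1.commutator_le_frattini_of_isNilpotent (commutator_mem_commutator (mem_top (⟨x, hx⟩ : Cfsg.pCore 2 X)) (mem_top q))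
  exact ⟨(QuotientGroup.kerLift Φ).comp (QuotientGroup.quotientMulEquivOfEq hk.symm).toMonoidHom,
    (QuotientGroup.kerLift_injective Φ).comp (MulEquiv.injective _)⟩

end Cfsg.Agent.S3103
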