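import Cfsg.Statements.S3110
import Cfsg.Agent.H7.Sf4

set_option autoImplicit false
open Cfsg

namespace Cfsg.Agent.S3110
open H7
open scoped commutatorElement

/-- Let G be a finite group in which every 2-local subgroup is 2-constrained and some Sylow 2-subgroup has a self-centralizing abelian normal subgroup of 2-rank at least 3, and let S be any Sylow 2-subgroup of G. Then there is a subgroup W of G of odd order such that, for every subgroup B of S of 2-rank at least 2, W is generated by the largest normal odd-order subgroups O(C_G(b)) of the centralizers of the non-identity elements b of B, and W is normalized by the normalizer of every such B. -/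
theorem result {G : Type*} [Group G] [Finite G]
    (h2c : ∀ T : Subgroup G, IsPGroup 2 T → T ≠ ⊥ → Cfsg.IsPConstrained 2 ↥(Subgroup.normalizer (T : Set G)))
    (S : Sylow 2 G) (A : Subgroup ↥(S : Subgroup G)) (hAn : A.Normal) (hAab : IsMulCommutative ↥A)
    (hAC : Subgroup.centralizer (A : Set ↥(S : Subgroup G)) = A) (hA3 : ¬ Cfsg.PRankLE 2 2 ↥A) (S' : Sylow 2 G) :
    ∃ W : Subgroup G, Odd (Nat.card ↥W) ∧
      ∀ B : Subgroup G, B ≤ (S' : Subgroup G) → ¬ Cfsg.PRankLE 2 1 ↥B →
        W = (⨆ b : {b : G // b ∈ B ∧ b ≠ 1}, Cfsg.centralizerPPrimeCore 2 (b : G)) ∧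
        Subgroup.normalizer (B : Set G) ≤ Subgroup.normalizer (W : Set G) := by
  open Subgroup in
    obtain ⟨E, e1, e2, e3, e4⟩ := exists_normal_ea_of_scn S A hAn hAab hA3 S'
    have k : ∀ t : G, IsPGroup 2 (zpowers t) → t ≠ 1 → PLay 2 (centralizer {t}) = ⊥ := fun t h1 h2 =>
      pcon_cen1 h1 (isPConstrained_iff.1 (h2c _ h1 (zpowers_ne_bot' h2)))
    have f : ∀ E : Subgroup G, EA 2 E → IsSignalizerFunctor 2 E fun a => Op' 2 (centralizer {a}) := fun E h =>
      sigFun_core h fun a h1 => k a (h.isPGroup.to_le (zpowers_le.2 h1))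
    have w : ∀ V ≤ (S' : Subgroup G), EA 2 V → 2 ^ 2 ≤ Nat.card V → signalizerClosure V (fun a => Op' 2 (centralizer {a})) =
        signalizerClosure E fun a => Op' 2 (centralizer {a}) := fun V a b c =>
      sigCl_eq_of_cc (fun E h _ => sigF_of h (f E h)) (cc_two_of_eight S'.isPGroup' e1 e2 e3 e4 a b c)
    refine ⟨_, odd_iff_coprime.2 (coprime_iff_not_dvd.2 (two_sig e3 e4 (f E e3)).cop), fun B h1 h2 => ?_⟩
    simp only [centralizerPPrimeCore_eq]
    have e : signalizerClosure E (fun a => Op' 2 (centralizer {a})) =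
        signalizerClosure B fun a => Op' 2 (centralizer {a}) := by
      obtain ⟨V, a, b, c⟩ := not_rk_iff.1 (mt pRankLE_iff.2 h2)
      refine le_antisymm ((w V (a.trans h1) b c).ge.trans (sigCl_mono a)) (sigCl_le.2 fun x h3 h4 => ?_)
      have pz := S'.isPGroup'.to_le ((zpowers_le.2 h3).trans h1)
      obtain ⟨t, ht, o⟩ := exists_orderOf_of_pgroup pz (zpowers_ne_bot' h4)
      have t1 := ne_one_of_orderOf o
      obtain ⟨U, u1, u2, u3, u4⟩ := exists_p2_ge S'.isPGroup' (not_rk_iff.2 ⟨V, a.trans h1, b, c⟩)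
        ((zpowers_le.2 ht).trans ((zpowers_le.2 h3).trans h1)) (by rw [card_zpowers_eq, o])
      have l : centralizer {x} ≤ centralizer {t} := (cen_zpowers x).ge.trans (cen_le_cen1 ht)
      refine le_trans ?_ ((le_sigCl (u1 (mem_zpowers t)) t1).trans (w U u2 u3 u4.ge).le)
      exact (le_inf le_rfl ((Opi_le _ _).trans l)).trans (Op'_inf_cen1_le (k t (pz.to_le (zpowers_le.2 ht)) t1) pz
        (l (self_mem_cen1 x)))
    refine ⟨e, fun g hg => cj_eq_self_iff.1 ?_⟩
    rw [e, cj_sigCl fun a _ _ => cj_core g a, cj_of_mem_nrm hg]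

end Cfsg.Agent.S3110
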