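import Cfsg.Statements.S3116
import Mathlib
import Cfsg.Agent.H8.Dihedral
import Cfsg.Agent.H1.Basic

set_option autoImplicit false
open Cfsg

namespace Cfsg.Agent.S3116

open Subgroup

theorem core {X : Type*} [Group X] [Finite X] (h2 : IsPGroup 2 X) (r : X) (hi : (zpowers r).index = 2)
    (hc : ∀ α : MulAut X, α r ∈ zpowers r) : IsPGroup 2 (MulAut X) := by
  classical
  intro α
  obtain ⟨n, hn⟩ := h2.exists_card_eq
  obtain ⟨k, hk⟩ := IsPGroup.iff_orderOf.1 h2 r
  obtain ⟨a, -, ha⟩ := (mem_zpowers_iff_mem_range_orderOf).1 (hc α) |> Finset.mem_image.1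
  have h1 : ∀ j : ℕ, (α ^ j) r = r ^ (a ^ j) := by
    intro j
    induction j with
    | zero => simp
    | succ j ih => rw [pow_succ', MulAut.mul_apply, ih, map_pow, ← ha, ← pow_mul, pow_succ']
  have hcop : a.Coprime (2 ^ k) := by
    have := α.orderOf_eq r
    rw [← ha, orderOf_pow, hk] at this
    have h3 := Nat.div_mul_cancel (Nat.gcd_dvd_left (2 ^ k) a)
    rw [this] at h3
    exact Nat.Coprime.symm (by simpa using h3)
  obtain ⟨m, hm⟩ : ∃ m, (α ^ 2 ^ m) r = r := by
    have h3 := Nat.ModEq.pow_totient hcop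
    rcases k with _ | k
    · have : r = 1 := orderOf_eq_one_iff.1 hk
      exact ⟨0, by simp [this]⟩
    · rw [Nat.totient_prime_pow_succ Nat.prime_two] at h3
      refine ⟨k, ?_⟩
      rw [h1]
      nth_rewrite 2 [← pow_one r]
      rw [pow_eq_pow_iff_modEq, hk]
      simpa using h3
  set β := α ^ 2 ^ m with hβ
  have hfix : ∀ x ∈ zpowers r, β x = x := by
    rintro _ ⟨j, rfl⟩; simp only [map_zpow, hm]
  have h3 : ∀ x, x⁻¹ * β x ∈ zpowers r := by
    intro x
    rw [mul_mem_iff_of_index_two hi, inv_mem_iff]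
    refine ⟨fun h => (hfix x h).symm ▸ h, fun h => ?_⟩
    rwa [← β.injective (hfix _ h)]
  have h4 : ∀ (k : ℕ) x, (β ^ k) x = x * (x⁻¹ * β x) ^ k := by
    intro k x
    induction k with
    | zero => simp
    | succ k ih =>
      rw [pow_succ', MulAut.mul_apply, ih, map_mul, hfix _ (pow_mem (h3 x) k), pow_succ',
        ← mul_assoc, mul_inv_cancel_left]
  refine ⟨m + n, ?_⟩
  ext x
  rw [pow_add, pow_mul, ← hβ, h4, ← hn, pow_card_eq_one', mul_one]; rfl

/-- The automorphism group of a dihedral 2-group of order at least 8, or of a quasi-dihedral (semidihedral) 2-group of order at least 16, is a 2-group. -/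
theorem result {X : Type*} [Group X] [Finite X] (h2 : IsPGroup 2 X)
    (h : (∃ n : ℕ, 4 ≤ n ∧ Nonempty (X ≃* DihedralGroup n)) ∨ Cfsg.IsQuasiDihedral X) : IsPGroup 2 (MulAut X) := by
  classical
  rcases h with ⟨n, hn, ⟨e⟩⟩ | ⟨n, hn, hc, x, y, hx, hy, hxy⟩
  · haveI : NeZero n := ⟨by omega⟩
    have ho : orderOf (e.symm (.r 1)) = n := by rw [MulEquiv.orderOf_eq, DihedralGroup.orderOf_r_one]
    refine core h2 (e.symm (.r 1)) ?_ fun α => ?_
    · have := card_mul_index (zpowers (e.symm (.r 1)))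
      rw [Nat.card_zpowers, ho, Nat.card_congr e.toEquiv, DihedralGroup.nat_card, mul_comm 2] at this
      exact Nat.eq_of_mul_eq_mul_left (by omega) this
    · have h1 := α.orderOf_eq (e.symm (.r 1))
      rw [ho] at h1
      obtain ⟨z, hz⟩ := e.symm.surjective (α (e.symm (.r 1)))
      rw [← hz] at h1 ⊢
      rcases z with i | i
      · refine ⟨i.val, ?_⟩
        simp only [zpow_natCast, ← map_pow, DihedralGroup.r_one_pow, ZMod.natCast_zmod_val]
      · rw [MulEquiv.orderOf_eq, DihedralGroup.orderOf_sr] at h1; omega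
  · have hi : (zpowers x).index = 2 := by
      have := card_mul_index (zpowers x)
      rw [Nat.card_zpowers, hx, hc, pow_succ] at this
      exact Nat.eq_of_mul_eq_mul_left (by positivity) this
    obtain ⟨m, rfl⟩ : ∃ m, n = m + 3 := ⟨n - 3, by omega⟩
    have hx1 : x ^ (2 ^ (m + 3)) = 1 := hx ▸ pow_orderOf_eq_one x
    have hy2 : y * y = 1 := by rw [← sq, ← hy, pow_orderOf_eq_one]
    have hpos : 1 ≤ 2 ^ (m + 2) := Nat.one_le_two_pow
    have hyx : y ∉ zpowers x := by
      rintro ⟨k, rfl⟩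
      simp only at hxy
      rw [((Commute.refl x).zpow_left k).eq, mul_inv_cancel_right] at hxy
      nth_rewrite 1 [← pow_one x] at hxy
      rw [pow_eq_pow_iff_modEq, hx] at hxy
      have := hxy.eq_of_lt_of_lt (Nat.one_lt_two_pow (by omega)) (by
        show 2 ^ (m + 2) - 1 < 2 ^ (m + 2 + 1); omega)
      have h4 : 2 ^ (m + 2) = 4 * 2 ^ m := by ring
      have : 1 ≤ 2 ^ m := Nat.one_le_two_pow
      simp only [Nat.add_succ_sub_one] at *
      omega
    refine core h2 x hi fun α => ?_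
    by_contra hα
    have h1 : y * α x ∈ zpowers x := by rw [mul_mem_iff_of_index_two hi]; tauto
    obtain ⟨k, -, hk⟩ := (mem_zpowers_iff_mem_range_orderOf).1 h1 |> Finset.mem_image.1
    have h3 : α x = y * x ^ k := by rw [hk, ← mul_assoc, hy2, one_mul]
    have h4 : α x ^ 2 = x ^ (2 ^ (m + 2) * k) := by
      have hyi : y⁻¹ = y := inv_eq_of_mul_eq_one_right hy2
      have : y * x ^ k * y = x ^ ((2 ^ (m + 2) - 1) * k) := by
        nth_rewrite 2 [← hyi]
        rw [← conj_pow, hxy, ← pow_mul]; rfl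
      rw [h3, sq, ← mul_assoc, this, ← pow_add]
      congr 1
      zify [hpos]; ring
    have h5 : α x ^ 4 = 1 := by
      rw [show 4 = 2 * 2 from rfl, pow_mul, h4, ← pow_mul,
        show 2 ^ (m + 2) * k * 2 = 2 ^ (m + 3) * k by ring, pow_mul, hx1, one_pow]
    have h6 := orderOf_dvd_of_pow_eq_one h5
    rw [α.orderOf_eq, hx] at h6
    have := Nat.le_of_dvd (by norm_num) h6
    have h4 : 2 ^ (m + 3) = 8 * 2 ^ m := by ring
    have : 1 ≤ 2 ^ m := Nat.one_le_two_pow
    omega

end Cfsg.Agent.S3116
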