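import Cfsg.Statements.S3362
import Cfsg.Agent.H6.More
import Cfsg.Agent.H6.Iso

set_option autoImplicit false
open Cfsg

namespace Cfsg.Agent.S3362
open H6 Finset MulAction
open scoped Pointwise
set_option maxRecDepth 100000
def f (i : Fin 12) : GolayPt := pt (lane 5 0x435328198418820 i)
theorem f_inj : Function.Injective f := by decide +kernel
theorem f_mem : ∀ i, f i ∈ D0 := by decide +kernel
theorem f_sur : ∀ p ∈ D0, ∃ i, f i = p := by decide +kernel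
noncomputable def e : Fin 12 ≃ D0 := Equiv.ofBijective (fun i => ⟨f i, f_mem i⟩)
  ⟨fun _ _ h => f_inj (congrArg Subtype.val h), fun p => (f_sur p.1 p.2).imp fun _ h => Subtype.ext h⟩
noncomputable def φ : stabilizer M24 D0 →* Equiv.Perm (Fin 12) :=
  e.symm.permCongrHom.toMonoidHom.comp (resHom _ D0 le_rfl)
theorem φ_app (g : stabilizer M24 D0) (i : Fin 12) : f (φ g i) = g.1 • f i :=
  congrArg Subtype.val (e.apply_symm_apply (resHom _ D0 le_rfl g (e i)))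
theorem φ_inj : Function.Injective φ := (injective_iff_map_eq_one _).2 fun g h => Subtype.ext
  (eq_one_of_fix_dodecad D0_mem fun p hp => by obtain ⟨i, rfl⟩ := f_sur p hp; rw [← φ_app, h]; rfl)
noncomputable def R (t : ℕ) (σ : Equiv.Perm (Fin 12)) : Prop := fxS inM 0x5335f t = true ∧ ∀ i, f (σ i) = pt (ap t (idx (f i)))
theorem R.eq {t σ} (h : R t σ) : ∃ h', φ ⟨E t, h'⟩ = σ := ⟨(ckS _ t h.1).2, Equiv.ext fun i => f_inj (by
  rw [φ_app, h.2, ← (ckS _ t h.1).1.idx_smul, pt_idx])⟩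
theorem gen {K : Subgroup M24} (hK : K ≤ stabilizer M24 D0) (ps : List (ℕ × Equiv.Perm (Fin 12))) (h : ∀ z ∈ ps, R z.1 z.2 ∧ E z.1 ∈ K)
    (prog : List (ℕ × ℕ)) (ls : List (ℕ × List ℕ)) (hc : Nat.card K ≤ chain ls (inL (slp prog (ps.map (·.1))))) :
    Subgroup.closure {σ | σ ∈ ps.map (·.2)} = (K.subgroupOf _).map φ := by
  apply le_antisymm
  · rw [Subgroup.closure_le]
    intro σ hσ
    obtain ⟨z, hz, rfl⟩ := List.mem_map.1 hσ
    obtain ⟨h', e⟩ := (h z hz).1.eq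
    exact ⟨_, (h z hz).2, e⟩
  · have := le_of_chain (K := K) (L := ((Subgroup.closure {σ | σ ∈ ps.map (·.2)}).comap φ).map (Subgroup.subtype _))
      (l := ps.map (·.1)) (fun t ht => by
        obtain ⟨z, hz, rfl⟩ := List.mem_map.1 ht
        obtain ⟨h', e⟩ := (h z hz).1.eq
        exact ⟨(ckS _ _ (h z hz).1.1).1, (h z hz).2, ⟨_, h'⟩, by
          show φ _ ∈ Subgroup.closure _
          rw [e]; exact Subgroup.subset_closure (List.mem_map.2 ⟨z, hz, rfl⟩), rfl⟩) prog ls hc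
    rintro _ ⟨g, hg, rfl⟩
    obtain ⟨g', h1, h2⟩ := this hg
    rwa [← Subtype.ext h2]
theorem card_eq {K : Subgroup M24} (hK : K ≤ stabilizer M24 D0) : Nat.card ((K.subgroupOf _).map φ) = Nat.card K := by
  rw [Subgroup.card_map_of_injective φ_inj]
  exact Nat.card_congr (Subgroup.subgroupOfEquivOfLe hK).toEquiv
def fe : Fin 12 ↪ GolayPt := ⟨f, f_inj⟩

/-- An explicit construction of the Mathieu groups of degrees 11 and 12. On the points 0, …, 11 let s = (3 4 5)(6 7 8)(9 10 11), t = (3 6 9)(4 7 10)(5 8 11), u = (4 6 5 9)(7 8 11 10), v = (4 7 5 11)(6 10 9 8), w = (4 10 5 8)(6 11 9 7), x₁ = (0 3)(6 7)(8 10)(9 11), x₂ = (0 1)(6 9)(7 10)(8 11), x₃ = (1 2)(6 11)(7 9)(8 10) (each written as a product of transpositions). Then the group M₁₂ generated by all eight permutations is sharply 5-transitive on the 12 points and has order 95040, and the group M₁₁ generated by the first seven has order 7920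 and is the stabilizer of the point 2 in M₁₂. -/
theorem result
    (s t u v w x₁ x₂ x₃ : Equiv.Perm (Fin 12))
    (hs : s = Equiv.swap (3 : Fin 12) 5 * Equiv.swap (3 : Fin 12) 4 * Equiv.swap (6 : Fin 12) 8 * Equiv.swap (6 : Fin 12) 7 * Equiv.swap (9 : Fin 12) 11 * Equiv.swap (9 : Fin 12) 10) (ht : t = Equiv.swap (3 : Fin 12) 9 * Equiv.swap (3 : Fin 12) 6 * Equiv.swap (4 : Fin 12) 10 * Equiv.swap (4 : Fin 12) 7 * Equiv.swap (5 : Fin 12) 11 * Equiv.swap (5 : Fin 12) 8)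
    (hu : u = Equiv.swap (4 : Fin 12) 9 * Equiv.swap (4 : Fin 12) 5 * Equiv.swap (4 : Fin 12) 6 * Equiv.swap (7 : Fin 12) 10 * Equiv.swap (7 : Fin 12) 11 * Equiv.swap (7 : Fin 12) 8) (hv : v = Equiv.swap (4 : Fin 12) 11 * Equiv.swap (4 : Fin 12) 5 * Equiv.swap (4 : Fin 12) 7 * Equiv.swap (6 : Fin 12) 8 * Equiv.swap (6 : Fin 12) 9 * Equiv.swap (6 : Fin 12) 10) (hw : w = Equiv.swap (4 : Fin 12) 8 * Equiv.swap (4 : Fin 12) 5 * Equiv.swap (4 : Fin 12) 10 * Equiv.swap (6 : Fin 12) 7 * Equiv.swap (6 : Fin 12) 9 * Equiv.swap (6 : Fin 12) 11)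
    (hx₁ : x₁ = Equiv.swap (0 : Fin 12) 3 * Equiv.swap (6 : Fin 12) 7 * Equiv.swap (8 : Fin 12) 10 * Equiv.swap (9 : Fin 12) 11) (hx₂ : x₂ = Equiv.swap (0 : Fin 12) 1 * Equiv.swap (6 : Fin 12) 9 * Equiv.swap (7 : Fin 12) 10 * Equiv.swap (8 : Fin 12) 11)
    (hx₃ : x₃ = Equiv.swap (1 : Fin 12) 2 * Equiv.swap (6 : Fin 12) 11 * Equiv.swap (7 : Fin 12) 9 * Equiv.swap (8 : Fin 12) 10)
    (M₁₂ M₁₁ : Subgroup (Equiv.Perm (Fin 12))) (hM₁₂ : M₁₂ = Subgroup.closure {s, t, u, v, w, x₁, x₂, x₃})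
    (hM₁₁ : M₁₁ = Subgroup.closure {s, t, u, v, w, x₁, x₂}) :
    MulAction.IsMultiplyPretransitive M₁₂ (Fin 12) 5 ∧ (∀ y : Fin 5 ↪ Fin 12, MulAction.stabilizer M₁₂ y = ⊥) ∧
    Nat.card M₁₂ = 95040 ∧ Nat.card M₁₁ = 7920 ∧
    M₁₁ = M₁₂ ⊓ MulAction.stabilizer (Equiv.Perm (Fin 12)) (2 : Fin 12) := by
  have r1 : R 0x5de8e29a329d503b29a93c1ec20820 s := hs ▸ ⟨by decide +kernel, by decide +kernel⟩
  have r2 : R 0xbda8e7a0ed2d4925c46c5267030820 t := ht ▸ ⟨by decide +kernel, by decide +kernel⟩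
  have r3 : R 0x8aa6fa22f2a96093ac8db31c618820 u := hu ▸ ⟨by decide +kernel, by decide +kernel⟩
  have r4 : R 0x75576518ac3dd28a3e449b63018820 v := hv ▸ ⟨by decide +kernel, by decide +kernel⟩
  have r5 : R 0x2bd47b11c65c5929d209aa2ed18820 w := hw ▸ ⟨by decide +kernel, by decide +kernel⟩
  have r6 : R 0xbbeb45b5c6b464c99d09540a400823 x₁ := hx₁ ▸ ⟨by decide +kernel, by decide +kernel⟩
  have r7 : R 0xbd9f3a222da960c59cd2525c418801 x₂ := hx₂ ▸ ⟨by decide +kernel, by decide +kernel⟩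
  have r8 : R 0x2ceb4b36295ba4c79e06522e418440 x₃ := hx₃ ▸ ⟨by decide +kernel, by decide +kernel⟩
  have ck := (ckS 0x5335f).fxP 2
  have c11 : Nat.card ↥(stabilizer M24 D0 ⊓ stabilizer M24 (pt 2)) = 7920 := card_M11 D0_mem (by decide +kernel)
  have h1 := gen le_rfl [(_, s), (_, t), (_, u), (_, v), (_, w), (_, x₁), (_, x₂), (_, x₃)] (by
    simp only [List.forall_mem_cons, List.not_mem_nil, false_imp_iff, implies_true, and_true]
    exact ⟨⟨r1, r1.eq.1⟩, ⟨r2, r2.eq.1⟩, ⟨r3, r3.eq.1⟩, ⟨r4, r4.eq.1⟩, ⟨r5, r5.eq.1⟩, ⟨r6, r6.eq.1⟩, ⟨r7, r7.eq.1⟩, r8, r8.eq.1⟩)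
    [(1, 1), (0, 3), (9, 9), (0, 3), (5, 8), (0, 10), (0, 12), (0, 12), (11, 12), (0, 16), (0, 0), (1, 3), (0, 2), (0, 0), (0, 1), (0, 4), (0, 3), (0, 6), (0, 7), (0, 8), (0, 3), (0, 4), (11, 11)]
    [(0, [0x2ceb4b36295ba4c79e06522e418440, 0xbd9f3a222da960c59cd2525c418801, 0xbbeb45b5c6b464c99d09540a400823, 0x2bd47b11c65c5929d209aa2ed18820, 0x75576518ac3dd28a3e449b63018820, 0x8aa6fa22f2a96093ac8db31c618820, 0xbda8e7a0ed2d4925c46c5267030820, 0x5de8e29a329d503b29a93c1ec20820]), (1, [0x51cb3acaec73c868adb0b228348820, 0x5de8e29a329d503b29a93c1ec20820, 0x9c4afb32e359da855249742a4088c0, 0x755f33a2ec51606a2da4b4a2918440]), (3, [0x2bd47b11c65c5929d209aa2ed18820, 0xb46952b4e49bc6c52e09b99c814820]), (2, [0x2bd47b11c65c5929d209aa2ed18820, 0x7162b3b292ba9a2abcc9992c81c020, 0x2bd47b11c65c5929d209aa2ed18820]), (4, [0x2bd47b11c65c5929d209aa2ed18820, 0x89df3ac2eda150655992591c918820, 0xbae957b6289ba44b1cd0524ac18820])]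
    (by rw [card_stab_dodecad D0_mem]; simp only [List.map_cons, List.map_nil]; decide +kernel)
  have h2 := gen (K := stabilizer M24 D0 ⊓ stabilizer M24 (pt 2)) inf_le_left
    [(_, s), (_, t), (_, u), (_, v), (_, w), (_, x₁), (_, x₂)] (by
    simp only [List.forall_mem_cons, List.not_mem_nil, false_imp_iff, implies_true, and_true]
    exact ⟨⟨r1, (ck _ (by decide +kernel)).2⟩, ⟨r2, (ck _ (by decide +kernel)).2⟩, ⟨r3, (ck _ (by decide +kernel)).2⟩,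
      ⟨r4, (ck _ (by decide +kernel)).2⟩, ⟨r5, (ck _ (by decide +kernel)).2⟩, ⟨r6, (ck _ (by decide +kernel)).2⟩,
      r7, (ck _ (by decide +kernel)).2⟩)
    [(3, 3), (0, 2), (8, 7), (0, 6), (0, 10), (7, 8), (0, 4), (2, 2), (1, 0), (0, 2), (0, 3)]
    [(0, [0xbd9f3a222da960c59cd2525c418801, 0xbbeb45b5c6b464c99d09540a400823, 0x2bd47b11c65c5929d209aa2ed18820, 0x75576518ac3dd28a3e449b63018820, 0x8aa6fa22f2a96093ac8db31c618820, 0xbda8e7a0ed2d4925c46c5267030820, 0x5de8e29a329d503b29a93c1ec20820]), (1, [0xbaeae9c1522d18db4464399e848820, 0x8bceaa91d2a15869ad0db42e908860, 0x2ccea5b1c9b448d7d506a42f218820]), (3, [0x2bcf15a6acba9a49b872a42c640820, 0x752cb3a4a455cd0acdac7ca2818820]), (4, [0x8aa6fa22f2a96093ac8db31c618820, 0x752cb3a4a455cd0acdac7ca2818820])]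
    (by rw [c11]; simp only [List.map_cons, List.map_nil]; decide +kernel)
  have e1 : M₁₂ = ((stabilizer M24 D0).subgroupOf _).map φ := by
    rw [hM₁₂, ← h1]; congr 1; ext; simp
  have e2 : M₁₁ = ((stabilizer M24 D0 ⊓ stabilizer M24 (pt 2)).subgroupOf _).map φ := by
    rw [hM₁₁, ← h2]; congr 1; ext; simp
  clear h1 h2 hM₁₂ hM₁₁
  subst e1 e2
  refine ⟨⟨fun x y => ?_⟩, fun y => ?_, by rw [card_eq le_rfl, card_stab_dodecad D0_mem], by rw [card_eq inf_le_left, c11], ?_⟩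
  · obtain ⟨g, hg, e⟩ := (M12_sharp D0_mem (x.trans fe) (y.trans fe) (fun i => f_mem _) fun i => f_mem _).1
    refine ⟨⟨φ ⟨g, hg⟩, Subgroup.mem_map_of_mem _ (Subgroup.mem_subgroupOf.2 hg)⟩, Function.Embedding.ext fun i => f_inj ?_⟩
    have h1 : g • f (x i) = f (y i) := DFunLike.congr_fun e i
    exact (φ_app ⟨g, hg⟩ (x i)).trans h1
  · rw [eq_bot_iff]
    rintro ⟨_, g, hg, rfl⟩ h
    have := (M12_sharp D0_mem (y.trans fe) (y.trans fe) (fun i => f_mem _) fun i => f_mem _).2.le (x := g.1)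
      ⟨g.2, Function.Embedding.ext fun i => by
        have h1 : φ g (y i) = y i := DFunLike.congr_fun (mem_stabilizer_iff.1 h) i
        exact (φ_app g (y i)).symm.trans (congrArg f h1)⟩
    exact Subtype.ext (show φ g = 1 by rw [show g = 1 from Subtype.ext this, map_one])
  · have f2 : f 2 = pt 2 := by decide +kernel
    ext σ
    constructor
    · rintro ⟨g, hg, rfl⟩
      have h0 : g.1 • pt 2 = pt 2 := (Subgroup.mem_inf.1 (Subgroup.mem_subgroupOf.1 hg)).2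
      have h' : f (φ g 2) = f 2 := by rw [φ_app, f2, h0]
      exact Subgroup.mem_inf.2 ⟨Subgroup.mem_map_of_mem _ (Subgroup.mem_subgroupOf.2 g.2), mem_stabilizer_iff.2 (f_inj h')⟩
    · intro h
      obtain ⟨⟨g, -, rfl⟩, h⟩ := Subgroup.mem_inf.1 h
      have h' : f (φ g 2) = f 2 := congrArg f (mem_stabilizer_iff.1 h)
      rw [φ_app, f2] at h'
      exact Subgroup.mem_map_of_mem _ (Subgroup.mem_subgroupOf.2 (Subgroup.mem_inf.2 ⟨g.2, h'⟩))

end Cfsg.Agent.S3362
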