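import Cfsg.Statements.S3370
import Cfsg.Agent.H7.GK
import Cfsg.Agent.H1.Two2

set_option autoImplicit false
open Cfsg

namespace Cfsg.Agent.S3370
open H7
open scoped commutatorElement

section
open Subgroup

theorem odd_fac {x : ℤ} (hx : Odd x) (k n : ℕ) (h : x ^ (2 * k + 1) - 1 ∣ 2 ^ n) : (x ^ (2 * k + 1) - 1).natAbs = (x - 1).natAbs := by
  have : ∃ S : ℤ, Odd S ∧ x ^ (2 * k + 1) - 1 = (x - 1) * S := by
    clear h
    induction k with
    | zero => exact ⟨1, odd_one, by ring⟩
    | succ k ih =>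
      obtain ⟨S, h1, h2⟩ := ih
      exact ⟨x ^ 2 * S + (x + 1), (hx.pow.mul h1).add_even hx.add_one, by linear_combination x ^ 2 * h2⟩
  obtain ⟨S, h1, h2⟩ := this
  have h3 : S.natAbs ∣ 2 ^ n := by
    have := Int.natAbs_dvd_natAbs.2 ((Dvd.intro_left _ h2.symm).trans h)
    rwa [Int.natAbs_pow] at this
  have h4 : S.natAbs = 1 := Nat.Coprime.eq_one_of_dvd (Nat.Coprime.pow_right n ((Nat.coprime_two_right).2 (Int.natAbs_odd.2 h1))) h3
  rw [h2, Int.natAbs_mul, h4, mul_one]

theorem nt1 {p a n : ℕ} (hp : p.Prime) (ha : a ≠ 0) (h : p ^ a + 1 = 2 ^ n) : a = 1 := by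
  have hn : 2 ≤ n := by
    by_contra hlt
    have := Nat.one_lt_pow ha hp.one_lt
    have : 2 ^ n ≤ 2 ^ 1 := Nat.pow_le_pow_right two_pos (by omega)
    omega
  obtain ⟨m, rfl⟩ : ∃ m, n = m + 2 := ⟨n - 2, by omega⟩
  rcases Nat.even_or_odd a with ⟨k, rfl⟩ | ⟨k, rfl⟩
  · exfalso
    rw [pow_add, pow_add] at h
    generalize p ^ k = x at h
    have : x % 4 = 0 ∨ x % 4 = 1 ∨ x % 4 = 2 ∨ x % 4 = 3 := by omega
    have h2 : (x * x + 1) % 4 = 0 := by rw [h]; simp
    rcases this with e | e | e | e <;> simp [Nat.add_mod, Nat.mul_mod, e] at h2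
  · have hp2 : Odd p := by
      refine hp.odd_of_ne_two ?_
      rintro rfl
      have : 2 ∣ 2 ^ (2 * k + 1) + 1 := h ▸ dvd_pow_self 2 (by omega)
      have := (Nat.dvd_add_right (dvd_pow_self 2 ha)).1 this
      omega
    have e : (-(p : ℤ)) ^ (2 * k + 1) - 1 = -((p ^ (2 * k + 1) + 1 : ℕ) : ℤ) := by
      rw [Odd.neg_pow ⟨k, rfl⟩]; push_cast; ring
    have := odd_fac (x := -(p : ℤ)) (by simpa using hp2) k (m + 2) (by rw [e, h]; simp)
    rw [e, Int.natAbs_neg, Int.natAbs_natCast] at this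
    have h2 : p ^ (2 * k + 1) = p ^ 1 := by rw [pow_one]; omega
    exact Nat.pow_right_injective hp.two_le h2

theorem nt2 {q a n : ℕ} (hq : q.Prime) (h2 : q ≠ 2) (hn : n ≠ 0) (h : 2 ^ a + 1 = q ^ n) : n = 1 ∨ (q = 3 ∧ n = 2) := by
  rcases Nat.even_or_odd n with ⟨k, rfl⟩ | ⟨k, rfl⟩
  · right
    have hk : k ≠ 0 := by omega
    have h1 := Nat.one_lt_pow hk hq.one_lt
    have e : 2 ^ a = (q ^ k + 1) * (q ^ k - 1) := by
      rw [← Nat.sq_sub_sq, one_pow, pow_two, ← pow_add, ← h, Nat.add_sub_cancel]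
    obtain ⟨i, -, hi⟩ := (Nat.dvd_prime_pow Nat.prime_two).1 (Dvd.intro _ e.symm)
    obtain ⟨j, -, hj⟩ := (Nat.dvd_prime_pow Nat.prime_two).1 (Dvd.intro_left _ e.symm)
    have ho : Odd (q ^ k) := (hq.odd_of_ne_two h2).pow
    have h3 : q ^ k = 3 := by
      obtain ⟨t, ht⟩ := ho
      match i, j with
      | 0, _ => omega
      | 1, _ => omega
      | _, 0 => omega
      | _, 1 => omega
      | i + 2, j + 2 => rw [pow_add] at hi hj; omega
    have := (Nat.Prime.pow_eq_iff Nat.prime_three).1 h3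
    omega
  · left
    have e : (q : ℤ) ^ (2 * k + 1) - 1 = ((2 ^ a : ℕ) : ℤ) := by
      have := congrArg (Nat.cast : ℕ → ℤ) h
      push_cast at this ⊢; linear_combination -this
    have := odd_fac (x := (q : ℤ)) (by simpa using hq.odd_of_ne_two h2) k a (by rw [e]; simp)
    rw [e, Int.natAbs_natCast] at this
    have := hq.two_le
    have h3 : q ^ (2 * k + 1) = q ^ 1 := by rw [pow_one]; omega
    exact Nat.pow_right_injective hq.two_le h3
theorem gl23 : ∃ x0 y0 : GL (Fin 2) (ZMod 3), orderOf x0 = 2 ^ 3 ∧ orderOf y0 = 2 ∧ y0 * x0 * y0⁻¹ = x0 ^ 3 := by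
  refine ⟨⟨!![0, 1; 1, 1], !![2, 1; 1, 0], by decide, by decide⟩, ⟨!![1, 0; 1, 2], !![1, 0; 1, 2], by decide, by decide⟩, ?_, ?_, ?_⟩
  · exact orderOf_eq_prime_pow (fun h => absurd (congrArg Units.val h) (by decide)) (Units.ext (by decide))
  · exact orderOf_eq_prime (Units.ext (by decide)) (fun h => absurd (congrArg Units.val h) (by decide))
  · exact Units.ext (by decide)

end

/-- Let q be a prime, V a non-trivial finite vector space over the field with q elements, and G a non-trivial finite p-group (p prime) acting faithfully and linearly on V and transitively on the non-zero vectors. Then either q = 2 and G has prime order p = |V| − 1; or p = 2, V has q elements with q = 2^m + 1 and G is cyclic of order 2^m; or p = 2, q = 3, V has 9 elements and G is cyclic of order 8, quaternion of order 8, or semidihedral of order 16. -/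
theorem result (q : ℕ) [Fact q.Prime] {V : Type*} [AddCommGroup V] [Module (ZMod q) V] [Finite V] [Nontrivial V]
    {G : Type*} [Group G] [Finite G] [Nontrivial G] (p : ℕ) [Fact p.Prime] (hG : IsPGroup p G)
    (ρ : G →* (V ≃ₗ[ZMod q] V)) (hρ : Function.Injective ρ)
    (htrans : ∀ v w : V, v ≠ 0 → w ≠ 0 → ∃ g : G, ρ g v = w) :
    (q = 2 ∧ p = Nat.card V - 1 ∧ Nat.card G = p) ∨
    (p = 2 ∧ Nat.card V = q ∧ (∃ m : ℕ, q = 2 ^ m + 1 ∧ Nat.card G = 2 ^ m) ∧ IsCyclic G) ∨
    (p = 2 ∧ q = 3 ∧ Nat.card V = 9 ∧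
      ((IsCyclic G ∧ Nat.card G = 8) ∨ Nonempty (G ≃* QuaternionGroup 2) ∨ (Cfsg.IsQuasiDihedral G ∧ Nat.card G = 16))) := by
  open Subgroup in
  classical
  have hq : q.Prime := Fact.out
  have hp : p.Prime := Fact.out
  letI : MulAction G V := MulAction.compHom V ρ
  have hsm : ∀ (g : G) (v : V), g • v = ρ g v := fun _ _ => rfl
  have hfaith : ∀ g : G, (∀ v, ρ g v = v) → g = 1 := by
    intro g hg
    apply hρ
    rw [map_one]; ext v; exact hg v
  have horb : ∀ v : V, v ≠ 0 → MulAction.orbit G v = {0}ᶜ := by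
    intro v hv
    ext w
    constructor
    · rintro ⟨g, rfl⟩ h
      exact hv ((ρ g).map_eq_zero_iff.1 h)
    · exact fun hw => htrans v w hv hw
  have hc0 : Nat.card ({0}ᶜ : Set V) = Nat.card V - 1 := by
    rw [Nat.card_coe_set_eq, Set.ncard_compl, Set.ncard_singleton]
  have hst : ∀ v : V, v ≠ 0 → (MulAction.stabilizer G v).index = Nat.card V - 1 := by
    intro v hv
    rw [MulAction.index_stabilizer, horb v hv, ← hc0, Nat.card_coe_set_eq]
  obtain ⟨v0, hv0⟩ := exists_ne (0 : V)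
  obtain ⟨a, ha⟩ := hG.index (MulAction.stabilizer G v0)
  rw [hst v0 hv0] at ha
  set n := Module.finrank (ZMod q) V with hn
  have hcV : Nat.card V = q ^ n := by rw [Module.natCard_eq_pow_finrank (K := ZMod q), Nat.card_zmod]
  have hn0 : n ≠ 0 := Module.finrank_pos.ne'
  have hV0 : 0 < Nat.card V := Nat.card_pos
  have e1 : p ^ a + 1 = q ^ n := by omega
  have hdv : Nat.card V - 1 ∣ Nat.card G := hst v0 hv0 ▸ Subgroup.index_dvd_card _
  have ha0 : a ≠ 0 := by
    rintro rfl
    obtain ⟨g, hg⟩ := exists_ne (1 : G)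
    refine hg (hfaith g fun v => ?_)
    by_cases hv : v = 0
    · simp [hv]
    · have := hst v hv
      rw [ha, pow_zero, Subgroup.index_eq_one] at this
      have h2 : g ∈ MulAction.stabilizer G v := by rw [this]; trivial
      exact h2
  let b := Module.finBasis (ZMod q) V
  let φ : G →* GL (Fin n) (ZMod q) := ((LinearMap.GeneralLinearGroup.generalLinearEquiv (ZMod q) V).symm.trans
    (Matrix.GeneralLinearGroup.toLin' b).symm).toMonoidHom.comp ρ
  have hφ : Function.Injective φ := fun x y h => hρ (((LinearMap.GeneralLinearGroup.generalLinearEquiv (ZMod q) V).symm.trans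
    (Matrix.GeneralLinearGroup.toLin' b).symm).injective h)
  by_cases h2 : q = 2
  · left
    subst h2
    obtain rfl := nt1 hp ha0 e1
    rw [pow_one] at ha
    refine ⟨rfl, ha.symm, ?_⟩
    obtain ⟨z, hz, oz⟩ := H7.exists_orderOf_of_pgroup (hG.to_subgroup (Subgroup.center G))
      ((Subgroup.nontrivial_iff_ne_bot _).1 hG.center_nontrivial)
    have hzf : ∀ y ∈ Subgroup.zpowers z, ρ y v0 = v0 → y = 1 := by
      intro y hy h
      refine hfaith y fun w => ?_
      by_cases hw : w = 0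
      · simp [hw]
      obtain ⟨g, rfl⟩ := htrans v0 w hv0 hw
      rw [← LinearEquiv.mul_apply, ← map_mul, ← Subgroup.mem_center_iff.1 (Subgroup.zpowers_le.2 hz hy) g, map_mul,
        LinearEquiv.mul_apply, h]
    have hsurj : ∀ w : V, w ≠ 0 → ∃ y ∈ Subgroup.zpowers z, ρ y v0 = w := by
      let f : Subgroup.zpowers z → ({0}ᶜ : Set V) := fun y => ⟨ρ y v0, fun h => hv0 ((ρ y).map_eq_zero_iff.1 h)⟩
      have hf : Function.Injective f := by
        intro x y h
        have h' : ρ x v0 = ρ y v0 := congrArg Subtype.val h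
        have := hzf ((y : G)⁻¹ * x) (mul_mem (inv_mem y.2) x.2) (by
          rw [map_mul, LinearEquiv.mul_apply, h', ← LinearEquiv.mul_apply, ← map_mul, inv_mul_cancel, map_one]; rfl)
        exact Subtype.ext (inv_mul_eq_one.1 this).symm
      have := (hf.bijective_of_nat_card_le (by rw [hc0, Nat.card_zpowers, oz, ha])).2
      intro w hw
      obtain ⟨y, hy⟩ := this ⟨w, hw⟩
      exact ⟨y, y.2, congrArg Subtype.val hy⟩
    have : MulAction.stabilizer G v0 = ⊥ := by
      rw [eq_bot_iff]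
      intro g hg
      refine hfaith g fun w => ?_
      by_cases hw : w = 0
      · simp [hw]
      obtain ⟨y, hy, rfl⟩ := hsurj w hw
      rw [← LinearEquiv.mul_apply, ← map_mul, Subgroup.mem_center_iff.1 (Subgroup.zpowers_le.2 hz hy) g, map_mul,
        LinearEquiv.mul_apply]
      exact congrArg _ hg
    rw [← ha, ← hst v0 hv0, this, Subgroup.index_bot]
  right
  have hp2 : p = 2 := by
    by_contra h
    have o1 : Odd (p ^ a) := (hp.odd_of_ne_two h).pow
    have o2 : Odd (q ^ n) := (hq.odd_of_ne_two h2).pow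
    rw [← e1] at o2
    exact (Nat.not_odd_iff_even.2 o1.add_one) o2
  subst hp2
  have hcG : Nat.card G ∣ ∏ i : Fin n, (q ^ n - q ^ (i : ℕ)) := by
    have := Subgroup.card_dvd_of_injective φ hφ
    rwa [Matrix.card_GL_field, ZMod.card] at this
  clear_value φ n
  rcases nt2 hq h2 hn0 e1 with rfl | ⟨rfl, rfl⟩
  · left
    rw [pow_one] at hcV e1
    refine ⟨rfl, hcV, ⟨a, e1.symm, ?_⟩, ?_⟩
    · rw [← ha]
      refine Nat.dvd_antisymm ?_ hdv
      simpa [hcV] using hcG
    · refine isCyclic_of_injective_ringHom ((Matrix.detMonoidHom.comp (Units.coeHom _)).comp φ) fun x y h => hφ ?_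
      ext i j
      rw [Subsingleton.elim i 0, Subsingleton.elim j 0]
      simpa [Matrix.det_fin_one] using h
  right
  refine ⟨rfl, rfl, hcV, ?_⟩
  obtain ⟨k, hk⟩ := hG.exists_card_eq
  rw [hcV, hk] at hdv
  have h48 : Nat.card G ∣ 48 := by simpa using hcG
  have hk3 : 3 ≤ k := (Nat.pow_dvd_pow_iff_le_right one_lt_two).1 (show 2 ^ 3 ∣ 2 ^ k from hdv)
  have hk4 : k ≤ 4 := by
    by_contra h
    have := (pow_dvd_pow 2 (show 5 ≤ k by omega)).trans (hk ▸ h48)
    norm_num at this
  rcases (show k = 3 ∨ k = 4 by omega) with rfl | rfl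
  · have hneg : ∀ s : G, s ≠ 1 → s ^ 2 = 1 → ∀ v, ρ s v = -v := by
      intro s hs h v
      by_contra hne
      have hw : v + ρ s v ≠ 0 := fun e => hne (eq_neg_of_add_eq_zero_right e)
      have := (MulAction.stabilizer G (v + ρ s v)).index_mul_card
      rw [hst _ hw, hcV, hk] at this
      have h1 : MulAction.stabilizer G (v + ρ s v) = ⊥ := Subgroup.eq_bot_of_card_eq _ (by omega)
      apply hs
      rw [← Subgroup.mem_bot, ← h1, MulAction.mem_stabilizer_iff, hsm, map_add, ← LinearEquiv.mul_apply, ← map_mul, ← pow_two, h,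
        map_one, add_comm]
      rfl
    rcases H1B.quat_of_ui (P := (⊤ : Subgroup G)) (hG.to_subgroup _) (fun s _ t _ s1 t1 s2 t2 _ => hρ (by
      ext v; rw [hneg s s1 s2, hneg t t1 t2])) with h | ⟨m, ⟨e⟩⟩
    · exact Or.inl ⟨isCyclic_of_surjective _ Subgroup.topEquiv.surjective, hk⟩
    · have := Nat.card_congr e.toEquiv
      rw [Subgroup.card_top, hk, Nat.card_eq_fintype_card, QuaternionGroup.card] at this
      have hm : m = 0 := by
        rw [pow_succ] at this
        exact (Nat.pow_eq_one.1 (show 2 ^ m = 1 by omega)).resolve_left (by norm_num)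
      subst hm
      exact Or.inr (Or.inl ⟨Subgroup.topEquiv.symm.trans e⟩)
  · refine Or.inr (Or.inr ⟨?_, hk⟩)
    obtain ⟨x0, y0, ox, oy, rel⟩ := gl23
    have hT : IsPGroup 2 (Subgroup.zpowers y0 ⊔ Subgroup.zpowers x0 : Subgroup _) :=
      IsPGroup.to_sup_of_normal_right' (IsPGroup.of_card (n := 1) (by rw [Nat.card_zpowers, oy, pow_one]))
        (IsPGroup.of_card (by rw [Nat.card_zpowers, ox])) (Subgroup.zpowers_le.2 (H2.mem_normalizer_of_conj_mem (by
          rintro _ ⟨k, rfl⟩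
          show y0 * x0 ^ k * y0⁻¹ ∈ _
          rw [← conj_zpow, rel]
          exact zpow_mem (pow_mem (Subgroup.mem_zpowers _) _) _)))
    have hcr : Nat.card φ.range = 16 := by rw [← Nat.card_congr (MonoidHom.ofInjective hφ).toEquiv, hk]; rfl
    have hS : H2.IsSylowIn 2 φ.range ⊤ := by
      refine ⟨le_top, IsPGroup.of_card (n := 4) hcr, ?_⟩
      have := H2.card_mul_relIndex (le_top : φ.range ≤ ⊤)
      rw [hcr, Subgroup.card_top, Matrix.card_GL_field] at this
      have h3 : 16 * φ.range.relIndex ⊤ = 48 := by simpa using this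
      omega
    obtain ⟨g, -, hg⟩ := hS.exists_cj_le hT le_top
    obtain ⟨x, hx⟩ := hg (H2.conj_mem_cj (Subgroup.mem_sup_right (Subgroup.mem_zpowers x0)))
    obtain ⟨y, hy⟩ := hg (H2.conj_mem_cj (Subgroup.mem_sup_left (Subgroup.mem_zpowers y0)))
    refine ⟨3, le_rfl, hk, x, y, ?_, ?_, hφ ?_⟩
    · rw [← orderOf_injective φ hφ, hx, ← ox]; exact (MulAut.conj g).orderOf_eq x0
    · rw [← orderOf_injective φ hφ, hy]; exact ((MulAut.conj g).orderOf_eq y0).trans oy
    · rw [map_mul, map_mul, map_inv, map_pow, hx, hy, conj_pow]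
      show _ = g * x0 ^ 3 * g⁻¹
      rw [← rel]; group

end Cfsg.Agent.S3370
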