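import Cfsg.Statements.S3375
import Mathlib

set_option autoImplicit false
open Cfsg

namespace Cfsg.Agent.S3375

theorem part1 {H : Type*} [Group H] [Finite H] (γ : MulAut H) (hγ : γ * γ = 1) (A : Subgroup H)
    (hA : ∀ a ∈ A, γ a ∈ A) (hf : ∀ h ∈ A, γ h = h → h = 1) :
    (∀ a ∈ A, γ a = a⁻¹) ∧ ∀ a ∈ A, ∀ b ∈ A, a * b = b * a := by
  have h2 : ∀ x, γ (γ x) = x := fun x => by rw [← MulAut.mul_apply, hγ]; rfl
  let f : A → A := fun a => ⟨(a : H)⁻¹ * γ a, mul_mem (inv_mem a.2) (hA _ a.2)⟩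
  have hinj : Function.Injective f := by
    intro a b hab
    have e : (a : H)⁻¹ * γ a = (b : H)⁻¹ * γ b := congrArg Subtype.val hab
    have := hf (b * a⁻¹) (mul_mem b.2 (inv_mem a.2)) (by
      show γ ((b : H) * (a : H)⁻¹) = (b : H) * (a : H)⁻¹
      rw [map_mul, map_inv, mul_inv_eq_iff_eq_mul, mul_assoc, e]; group)
    exact Subtype.ext (mul_inv_eq_one.1 this).symm
  have hsurj := Finite.surjective_of_injective hinj
  have h1 : ∀ a ∈ A, γ a = a⁻¹ := by
    intro a ha
    obtain ⟨b, hb⟩ := hsurj ⟨a, ha⟩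
    have e : (b : H)⁻¹ * γ b = a := congrArg Subtype.val hb
    rw [← e, map_mul, map_inv, h2]; group
  refine ⟨h1, fun a ha b hb => ?_⟩
  have := h1 _ (mul_mem ha hb)
  rw [map_mul, h1 a ha, h1 b hb, ← mul_inv_rev, inv_inj] at this
  exact this.symm

/-- Let γ be an automorphism of order 2 of a finite group H. (i) If γ fixes only the identity, then H is abelian and γ inverts every element. (ii) If γ has exactly two fixed points and H has a subgroup of index 2, then H has a γ-invariant abelian subgroup of index 2 on which γ acts by inversion. -/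
theorem result {H : Type*} [Group H] [Finite H] (γ : MulAut H) (hγ : orderOf γ = 2) :
    ((∀ h : H, γ h = h → h = 1) → (∀ a b : H, a * b = b * a) ∧ ∀ h : H, γ h = h⁻¹) ∧
    ((Nat.card {h : H // γ h = h} = 2 ∧ ∃ M : Subgroup H, M.index = 2) →
      ∃ A : Subgroup H, A.index = 2 ∧ IsMulCommutative A ∧ (∀ a ∈ A, γ a ∈ A) ∧ ∀ a ∈ A, γ a = a⁻¹) := by
  have hγ2 : γ * γ = 1 := by rw [← sq, ← hγ, pow_orderOf_eq_one]
  have h2 : ∀ x, γ (γ x) = x := fun x => by rw [← MulAut.mul_apply, hγ2]; rfl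
  refine ⟨fun hf => ?_, fun ⟨hc, M, hM⟩ => ?_⟩
  · have := part1 γ hγ2 ⊤ (by simp) (fun h _ => hf h)
    exact ⟨fun a b => this.2 a trivial b trivial, fun h => this.1 h trivial⟩
  classical
  haveI := Fintype.ofFinite H
  -- the set of inverted elements has at least half of the elements
  obtain ⟨z, hz1, hz, hzu⟩ : ∃ z : H, z ≠ 1 ∧ γ z = z ∧ ∀ h, γ h = h → h = 1 ∨ h = z := by
    obtain ⟨x, y, hxy, hu⟩ := Nat.card_eq_two_iff.1 hc
    have hu' : ∀ h : {h : H // γ h = h}, h = x ∨ h = y := fun h => by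
      have : h ∈ ({x, y} : Set _) := hu ▸ Set.mem_univ h
      simpa using this
    rcases hu' ⟨1, map_one γ⟩ with h | h
    · refine ⟨y, fun e => hxy (by rw [← h]; exact Subtype.ext e.symm), y.2, fun k hk => ?_⟩
      rcases hu' ⟨k, hk⟩ with h' | h'
      · left; exact congrArg Subtype.val (h'.trans h.symm)
      · right; exact congrArg Subtype.val h'
    · refine ⟨x, fun e => hxy (by rw [← h]; exact Subtype.ext e), x.2, fun k hk => ?_⟩
      rcases hu' ⟨k, hk⟩ with h' | h'
      · right; exact congrArg Subtype.val h'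
      · left; exact congrArg Subtype.val (h'.trans h.symm)
  -- a γ-invariant subgroup of index 2
  obtain ⟨A, hA2, hAγ⟩ : ∃ A : Subgroup H, A.index = 2 ∧ ∀ a, γ a ∈ A ↔ a ∈ A := by
    by_cases h : ∀ a, γ a ∈ M ↔ a ∈ M
    · exact ⟨M, hM, h⟩
    push Not at h
    obtain ⟨a, ha⟩ := h
    have hmul := fun x y => Subgroup.mul_mem_iff_of_index_two hM (a := x) (b := y)
    refine ⟨{ carrier := {x | γ x ∈ M ↔ x ∈ M}
              one_mem' := by simp
              mul_mem' := fun {x y} hx hy => by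
                simp only [Set.mem_ofPred_eq, map_mul, hmul] at *; tauto
              inv_mem' := fun {x} hx => by simpa using hx }, ?_, fun x => ?_⟩
    · rw [Subgroup.index_eq_two_iff]
      refine ⟨a, fun b => ?_⟩
      show Xor (γ (b * a) ∈ M ↔ b * a ∈ M) (γ b ∈ M ↔ b ∈ M)
      simp only [map_mul, hmul, Xor]; tauto
    · show (γ (γ x) ∈ M ↔ γ x ∈ M) ↔ (γ x ∈ M ↔ x ∈ M)
      rw [h2]; tauto
  have hmul := fun x y => Subgroup.mul_mem_iff_of_index_two hA2 (a := x) (b := y)
  by_cases hzA : z ∈ A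
  swap
  · have := part1 γ hγ2 A (fun a ha => (hAγ a).2 ha) (fun h hh e => (hzu h e).resolve_right (by
      rintro rfl; exact hzA hh))
    exact ⟨A, hA2, ⟨⟨fun a b => Subtype.ext (this.2 _ a.2 _ b.2)⟩⟩, fun a ha => (hAγ a).2 ha, this.1⟩
  -- the map x ↦ x⁻¹ γ x lands in A and has fibres of size at most 2
  have hinv : ∀ a ∈ A, γ a = a⁻¹ := by
    let f : H → H := fun x => x⁻¹ * γ x
    have hfA : ∀ x, f x ∈ A := fun x => by
      show x⁻¹ * γ x ∈ A
      rw [hmul, inv_mem_iff, hAγ]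
    have hle : (Finset.univ : Finset H).card ≤ 2 * (Finset.univ.image f).card := by
      apply Finset.card_le_mul_card_image
      intro y hy
      obtain ⟨x, -, rfl⟩ := Finset.mem_image.1 hy
      refine le_trans (Finset.card_le_card (t := {x, z * x}) fun u hu => ?_) Finset.card_le_two
      have e : u⁻¹ * γ u = x⁻¹ * γ x := (Finset.mem_filter.1 hu).2
      rcases hzu (u * x⁻¹) (by rw [map_mul, map_inv, mul_inv_eq_iff_eq_mul, mul_assoc, ← e]; group) with h | h
      · simp [mul_inv_eq_one.1 h]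
      · simp [← h]
    have hsub : Finset.univ.image f ⊆ Finset.univ.filter (· ∈ A) := fun y hy => by
      obtain ⟨x, -, rfl⟩ := Finset.mem_image.1 hy
      simpa using hfA x
    have hcard : (Finset.univ.filter (· ∈ A)).card * 2 = (Finset.univ : Finset H).card := by
      have := A.card_mul_index
      rw [hA2, Nat.card_eq_fintype_card, Nat.card_eq_fintype_card, Fintype.card_subtype] at this
      exact this
    have heq := Finset.eq_of_subset_of_card_le hsub (by omega)
    intro a ha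
    obtain ⟨x, -, rfl⟩ := Finset.mem_image.1 (heq ▸ (by simpa using ha) : a ∈ Finset.univ.image f)
    show γ (x⁻¹ * γ x) = (x⁻¹ * γ x)⁻¹
    rw [map_mul, map_inv, h2]; group
  refine ⟨A, hA2, ⟨⟨fun a b => Subtype.ext ?_⟩⟩, fun a ha => (hAγ a).2 ha, hinv⟩
  have := hinv _ (mul_mem a.2 b.2)
  rw [map_mul, hinv a a.2, hinv b b.2, ← mul_inv_rev, inv_inj] at this
  exact this.symm

end Cfsg.Agent.S3375
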