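import Cfsg.Statements.S3377
import Mathlib
import Cfsg.Agent.H4.Tri

set_option autoImplicit false
open Cfsg

namespace Cfsg.Agent.S3377

open Subgroup

theorem aux {G : Type*} [Group G] [Finite G] {a b : G} (r1 : a * a = 1) (r2 : b ^ 3 = 1)
    (r3 : (a * b) ^ 5 = 1) (gen : ∀ S : Subgroup G, a ∈ S → b ∈ S → S = ⊤) (hc : Nat.card G = 60) :
    Nonempty (PresentedGroup ({FreeGroup.of (0 : Fin 2) ^ 3, FreeGroup.of (1 : Fin 2) ^ 5,
        (FreeGroup.of (0 : Fin 2) * FreeGroup.of 1) ^ 2} : Set (FreeGroup (Fin 2))) ≃* G) := by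
  set R := ({FreeGroup.of (0 : Fin 2) ^ 3, FreeGroup.of (1 : Fin 2) ^ 5,
        (FreeGroup.of (0 : Fin 2) * FreeGroup.of 1) ^ 2} : Set (FreeGroup (Fin 2))) with hR
  have ia : a⁻¹ = a := inv_eq_of_mul_eq_one_right r1
  let f : PresentedGroup R →* G :=
    PresentedGroup.toGroup (f := ![b, (a * b)⁻¹]) (by
      rintro _ (rfl | rfl | rfl)
      · simpa using r2
      · simpa [-mul_inv_rev] using r3
      · simp [sq, ia, r1])
  have f0 : f (PresentedGroup.of 0) = b := PresentedGroup.toGroup.of _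
  have f1 : f (PresentedGroup.of 1) = (a * b)⁻¹ := PresentedGroup.toGroup.of _
  set x : PresentedGroup R := PresentedGroup.of 0 with hx
  set y : PresentedGroup R := PresentedGroup.of 1 with hy
  have rel : ∀ r ∈ R, PresentedGroup.mk R r = 1 := fun r hr => PresentedGroup.one_of_mem hr
  have e1 : x ^ 3 = 1 := rel _ (.inl rfl)
  have e2 : y ^ 5 = 1 := rel _ (.inr (.inl rfl))
  have e3 : x * y * (x * y) = 1 := by rw [← sq]; exact rel _ (.inr (.inr rfl))
  have e4 : x * y * x = y⁻¹ := by rw [eq_inv_iff_mul_eq_one, mul_assoc, e3]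
  obtain ⟨φ, p1, p2⟩ := H4.exists_hom_of_pair (a := x * y) (b := x) gen (by
    rw [hc]
    exact H4.tri5_card (Prod.ext r1 e3) (Prod.ext r2 e1) (Prod.ext r3 (by
      show (x * y * x) ^ 5 = 1
      rw [e4, inv_pow, e2, inv_one])))
  refine ⟨MonoidHom.toMulEquiv f φ (PresentedGroup.ext ?_) ?_⟩
  · rw [Fin.forall_fin_two]
    refine ⟨?_, ?_⟩
    · show φ (f x) = x
      rw [f0, p2]
    · show φ (f y) = y
      rw [f1, map_inv, map_mul, p1, p2, e4, inv_inv]
  · have := gen ((f.comp φ).eqLocus (MonoidHom.id _))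
      (show f (φ _) = a by rw [p1, map_mul, f0, f1, mul_inv_rev, mul_inv_cancel_left, ia])
      (show f (φ _) = b by rw [p2, f0])
    exact MonoidHom.ext fun g => this.ge (mem_top g)

/-- The alternating group of degree 5 has the presentation ⟨x, y | x³ = 1, y⁵ = 1, (xy)² = 1⟩: the group so presented is isomorphic to Alt(5). -/
theorem result :
    Nonempty (PresentedGroup ({FreeGroup.of (0 : Fin 2) ^ 3, FreeGroup.of (1 : Fin 2) ^ 5,
        (FreeGroup.of (0 : Fin 2) * FreeGroup.of 1) ^ 2} : Set (FreeGroup (Fin 2))) ≃* alternatingGroup (Fin 5)) := by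
  exact aux H4.a5_rel.1 H4.a5_rel.2.1 H4.a5_rel.2.2 H4.a5_gen H4.card_alt5

end Cfsg.Agent.S3377
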