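import Cfsg.Statements.S3379
import Mathlib

set_option autoImplicit false
open Cfsg

namespace Cfsg.Agent.S3379

open Subgroup

/-- Let G be a finite group all of whose Sylow subgroups are cyclic. Then G is generated by two elements x and y of coprime orders n and m with x⁻¹yx = y^r, where gcd(r − 1, m) = 1 and r^n ≡ 1 (mod m). -/
theorem result {G : Type*} [Group G] [Finite G]
    (hZ : ∀ (p : ℕ) [Fact p.Prime] (P : Sylow p G), IsCyclic (P : Subgroup G)) :
    ∃ (x y : G) (n m r : ℕ), Subgroup.closure {x, y} = ⊤ ∧ orderOf x = n ∧ orderOf y = m ∧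
      x⁻¹ * y * x = y ^ r ∧ Nat.Coprime (r - 1) m ∧ Nat.Coprime n m ∧ 1 ≤ r ∧ r ^ n % m = 1 % m := by
  set_option maxSynthPendingDepth 3 in
  haveI : IsZGroup G := ⟨fun p hp P => by haveI := Fact.mk hp; exact hZ p P⟩
  obtain ⟨H, hH⟩ := exists_right_complement'_of_coprime (IsZGroup.coprime_commutator_index G)
  have h1 : Abelianization G ≃* H := hH.symm.QuotientMulEquiv
  obtain ⟨x, hx⟩ := (Subgroup.isCyclic_iff_exists_zpowers_eq_top H).1 (isCyclic_of_surjective _ h1.surjective)
  obtain ⟨y, hy⟩ := (Subgroup.isCyclic_iff_exists_zpowers_eq_top _).1 (IsZGroup.isCyclic_commutator G)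
  have cl : closure {x, y} = ⊤ := by
    rw [← Set.singleton_union, Subgroup.closure_union, ← zpowers_eq_closure, ← zpowers_eq_closure, hx, hy, sup_comm, hH.sup_eq_top]
  have yc : y ∈ commutator G := hy ▸ mem_zpowers y
  have cj : ∀ g : G, ∃ k : ℕ, y ^ k = g * y * g⁻¹ := fun g =>
    (mem_powers_iff_mem_zpowers.2 (hy ▸ (inferInstance : (commutator G).Normal).conj_mem _ yc g))
  obtain ⟨k, hk⟩ := cj x⁻¹
  rw [inv_inv] at hk
  have o := orderOf_pos y
  have hr : x⁻¹ * y * x = y ^ (k + orderOf y) := by rw [pow_add, pow_orderOf_eq_one, mul_one, hk]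
  refine ⟨x, y, _, _, k + orderOf y, cl, rfl, rfl, hr, ?_, ?_, by omega, ?_⟩
  · set r := k + orderOf y
    haveI : (zpowers (y ^ (r - 1))).Normal := ⟨by
      rintro _ ⟨j, rfl⟩ g
      obtain ⟨i, hi⟩ := cj g
      rw [← conj_zpow, ← conj_pow, ← hi, ← pow_mul, mul_comm i, pow_mul]
      exact zpow_mem (pow_mem (mem_zpowers _) _) _⟩
    set f := QuotientGroup.mk' (zpowers (y ^ (r - 1)))
    have c : Commute (f x) (f y) := by
      have : f (y ^ (r - 1)) = 1 := (QuotientGroup.eq_one_iff _).2 (mem_zpowers _)
      have e : y * x = x * y * y ^ (r - 1) := by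
        rw [mul_assoc, ← pow_succ', show r - 1 + 1 = r by omega, ← hr]; group
      show _ = _
      rw [← map_mul, ← map_mul, e, map_mul f _ (y ^ _), this, mul_one]
    have z : ∀ a ∈ ({x, y} : Set G), ∀ g, Commute (f a) (f g) := fun a ha g => by
      have : g ∈ closure {x, y} := cl ▸ mem_top g
      induction this using closure_induction with
      | mem b hb => rcases ha with rfl | rfl <;> rcases hb with rfl | rfl <;> first | exact c | exact c.symm | rfl
      | one => simp
      | mul b d _ _ h1 h2 => rw [map_mul]; exact h1.mul_right h2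
      | inv b _ h => rw [map_inv]; exact h.inv_right
    have z2 : ∀ a g, Commute (f a) (f g) := fun a g => by
      have : a ∈ closure {x, y} := cl ▸ mem_top a
      induction this using closure_induction with
      | mem b hb => exact z b hb g
      | one => simp
      | mul b d _ _ h1 h2 => rw [map_mul]; exact h1.mul_left h2
      | inv b _ h => rw [map_inv]; exact h.inv_left
    have : commutator G ≤ zpowers (y ^ (r - 1)) := by
      rw [_root_.commutator_def, commutator_le]
      intro a _ b _
      rw [← QuotientGroup.eq_one_iff]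
      show f _ = 1
      rw [map_commutatorElement, commutatorElement_eq_one_iff_commute]; exact z2 a b
    have h := orderOf_dvd_of_mem_zpowers (this yc)
    rw [orderOf_pow] at h
    have g1 := Nat.gcd_dvd_left (orderOf y) (r - 1)
    have := Nat.le_of_dvd (Nat.div_pos (Nat.le_of_dvd o g1) (Nat.gcd_pos_of_pos_left _ o)) h
    rw [Nat.coprime_comm]
    by_contra hc
    have := Nat.div_lt_self o (show 1 < (orderOf y).gcd (r - 1) by
      have := Nat.gcd_pos_of_pos_left (r - 1) o; unfold Nat.Coprime at hc; omega)
    omega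
  · rw [← Nat.card_zpowers, ← Nat.card_zpowers, hx, hy, ← hH.symm.index_eq_card]
    exact (IsZGroup.coprime_commutator_index G).symm
  · have : ∀ i : ℕ, (x ^ i)⁻¹ * y * x ^ i = y ^ (k + orderOf y) ^ i := fun i => by
      induction i with
      | zero => simp
      | succ i ih =>
        rw [pow_succ (k + _), pow_mul, ← ih, pow_succ' x, mul_inv_rev]
        have := conj_pow (a := (x ^ i)⁻¹) (b := y) (i := k + orderOf y)
        rw [inv_inv] at this
        rw [this, ← hr]; group
    have h := this (orderOf x)
    rw [pow_orderOf_eq_one, inv_one, one_mul, mul_one] at h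
    exact pow_eq_pow_iff_modEq.1 (h.symm.trans (pow_one y).symm)

end Cfsg.Agent.S3379
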