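import Cfsg.Statements.S3380
import Cfsg.Agent.H7.GK
import Cfsg.Agent.H7.BG7
import Cfsg.Agent.H1.Two4
import Cfsg.Agent.H8.PermMod

set_option autoImplicit false
open Cfsg

namespace Cfsg.Agent.S3380
open H7
open scoped commutatorElement

section
open Subgroup

theorem exE {G : Type*} [Group G] [Finite G] (p : ℕ) [Fact p.Prime] (hG : IsPGroup p G)
    (hnc : ¬ IsCyclic G) (hnq : ∀ n : ℕ, ¬ Nonempty (G ≃* QuaternionGroup n))
    (hnd : ∀ n : ℕ, ¬ Nonempty (G ≃* DihedralGroup n)) (hnsd : ¬ Cfsg.IsQuasiDihedral G) :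
    ∃ E : Subgroup G, ⊤ ≤ nrm E ∧ EA p E ∧ ord E = p ^ 2 := by
  have nc : ¬ IsCyclic (⊤ : Subgroup G) := fun h => hnc (isCyclic_of_surjective _ topEquiv.surjective)
  by_cases h2 : p = 2
  · subst h2
    rcases H1B.mx_or_four (hG.to_subgroup ⊤) with h1 | ⟨a, w, m, h⟩ | ⟨E, -, n, e, c⟩
    · exact (nc h1).elim
    · rcases h.types_top with e | e | e
      exacts [(hnd _ e).elim, (hnq _ e).elim, (hnsd e).elim]
    · exact ⟨E, n, e, c⟩
  · obtain ⟨E, -, n, e, c⟩ := exists_normal_ea2 h2 (hG.to_subgroup ⊤) le_rfl le_normalizer nc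
    exact ⟨E, n, e, c⟩

section
variable {F V G : Type*} [Field F] [AddCommGroup V] [Module F V] [Group G] (σ : Representation F G V)

/-- Fixed space of an element. -/
def Fx (y : G) : Submodule F V := LinearMap.eqLocus (σ y) 1

theorem mem_Fx {y : G} {v : V} : v ∈ Fx σ y ↔ σ y v = v := Iff.rfl

/-- Norm operator. -/
def Nm (p : ℕ) (y : G) : Module.End F V := ∑ k ∈ Finset.range p, σ (y ^ k)

theorem Nm_apply (p : ℕ) (y : G) (v : V) : Nm σ p y v = ∑ k ∈ Finset.range p, σ (y ^ k) v := by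
  simp [Nm, LinearMap.sum_apply]

theorem Nm_mem (p : ℕ) (y : G) (hy : y ^ p = 1) (v : V) : Nm σ p y v ∈ Fx σ y := by
  rw [mem_Fx, Nm_apply, map_sum]
  have h1 := Finset.sum_range_succ (fun k => σ (y ^ k) v) p
  have h2 := Finset.sum_range_succ' (fun k => σ (y ^ k) v) p
  rw [h2, hy, pow_zero] at h1
  rw [← add_right_cancel h1]
  refine Finset.sum_congr rfl fun k _ => ?_
  rw [pow_succ', map_mul, Module.End.mul_apply]

theorem pow_fx {y : G} {v : V} (h : v ∈ Fx σ y) (k : ℕ) : σ (y ^ k) v = v := by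
  induction k with
  | zero => simp
  | succ k ih => rw [pow_succ, map_mul, Module.End.mul_apply, (mem_Fx σ).1 h, ih]

theorem Nm_mul (p : ℕ) {y t : G} (hc : Commute t y) {v : V} (h : v ∈ Fx σ y) : Nm σ p (t * y) v = Nm σ p t v := by
  rw [Nm_apply, Nm_apply]
  refine Finset.sum_congr rfl fun k _ => ?_
  rw [hc.mul_pow, map_mul, Module.End.mul_apply, pow_fx σ h]

end

end

/-- Let a finite p-group G act faithfully and irreducibly on a non-trivial finite vector space V over the field with q elements (q prime), and suppose G is not cyclic, generalized quaternion, dihedral or semidihedral. Then G has a subgroup H of index p and V is the direct sum of p subspaces, each invariant under H, on none of which H acts faithfully, and which every element of G outside H permutes in a single p-cycle. -/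
theorem result
    (q : ℕ) [Fact q.Prime] {V : Type*} [AddCommGroup V] [Module (ZMod q) V] [Finite V] [Nontrivial V]
    {G : Type*} [Group G] [Finite G] (p : ℕ) [Fact p.Prime] (hG : IsPGroup p G)
    (ρ : G →* (V ≃ₗ[ZMod q] V)) (hρ : Function.Injective ρ)
    (hirr : ∀ W : Submodule (ZMod q) V, (∀ g : G, ∀ w ∈ W, ρ g w ∈ W) → W = ⊥ ∨ W = ⊤)
    (hnc : ¬ IsCyclic G) (hnq : ∀ n : ℕ, ¬ Nonempty (G ≃* QuaternionGroup n))
    (hnd : ∀ n : ℕ, ¬ Nonempty (G ≃* DihedralGroup n)) (hnsd : ¬ Cfsg.IsQuasiDihedral G) :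
    ∃ (H : Subgroup G) (W : Fin p → Submodule (ZMod q) V), H.index = p ∧
      iSup W = ⊤ ∧ iSupIndep W ∧
      (∀ h ∈ H, ∀ i, ∀ w ∈ W i, ρ h w ∈ W i) ∧
      (∀ i, ∃ h ∈ H, h ≠ 1 ∧ ∀ w ∈ W i, ρ h w = w) ∧
      ∀ g : G, g ∉ H → ∃ σ : Equiv.Perm (Fin p), orderOf σ = p ∧ ∀ i, (W i).map (ρ g : V →ₗ[ZMod q] V) = W (σ i) := by
  open Subgroup in
  have hp := (Fact.out : p.Prime)
  haveI : NeZero p := ⟨hp.ne_zero⟩
  let σ : Representation (ZMod q) G V := LinearEquiv.automorphismGroup.toLinearMapMonoidHom.comp ρ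
  have hσ : ∀ g v, σ g v = ρ g v := fun _ _ => rfl
  have htriv : ∀ g : G, (∀ v, ρ g v = v) → g = 1 := fun g h => hρ (by rw [map_one]; exact LinearEquiv.ext h)
  have hpq : (p : ZMod q) ≠ 0 := by
    intro h
    haveI : CharP (ZMod q) p := (CharP.charP_iff_prime_eq_zero hp).2 h
    obtain ⟨v, -, hv0, hv⟩ := H8.exists_fixed_vector hG σ ⊤ (fun _ _ _ => trivial) top_ne_bot
    rcases hirr (⨅ g, Fx σ g) (fun g w hw => by
      rw [show ρ g w = w from (Submodule.mem_iInf _).1 hw g]; exact hw) with h | h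
    · have : v ∈ ⨅ g, Fx σ g := (Submodule.mem_iInf _).2 hv
      rw [h] at this
      exact hv0 this
    · haveI : Subsingleton G := ⟨fun a b => by
        have : ∀ g : G, g = 1 := fun g => htriv g fun w => (Submodule.mem_iInf (fun g => Fx σ g)).1 (h.ge trivial) g
        rw [this a, this b]⟩
      exact hnc inferInstance
  obtain ⟨E, hEn, hE, hEc⟩ := exE p hG hnc hnq hnd hnsd
  obtain ⟨Z, B, hZB, hBE, hZc, hBc, hZcen, hcomm⟩ := exists_normal_p2 (hG.to_subgroup ⊤) hE le_top hEn hEc.ge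
  have hcen : ∀ y ∈ Z, ∀ g, g * y = y * g := fun y hy g => mem_cen.1 (hZcen hy) g trivial
  have hfx : ∀ y ∈ Z, y ≠ 1 → Fx σ y = ⊥ := by
    intro y hy hy1
    refine (hirr (Fx σ y) (fun g w hw => ?_)).resolve_right fun h => hy1 (htriv y fun v => (h.ge trivial : v ∈ Fx σ y))
    rw [mem_Fx, ← hσ, ← Module.End.mul_apply, ← map_mul, ← hcen y hy, map_mul, Module.End.mul_apply, (mem_Fx σ).1 hw]
  have hpow : ∀ y ∈ B, y ^ p = 1 := fun y hy => hE.pow (hBE hy)
  have hN0 : ∀ y ∈ Z, y ≠ 1 → ∀ v, Nm σ p y v = 0 := fun y hy hy1 v => by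
    have := Nm_mem σ p y (hpow y (hZB hy)) v
    rwa [hfx y hy hy1, Submodule.mem_bot] at this
  obtain ⟨z, hz, hz1⟩ : ∃ z ∈ Z, z ≠ 1 := by
    by_contra hc
    push Not at hc
    rw [(eq_bot_iff_forall _).2 hc, card_bot] at hZc
    exact hp.one_lt.ne hZc
  have hzo : orderOf z = p := orderOf_eq_prime (hpow z (hZB hz)) hz1
  have hmod : ∀ k, z ^ (k % p) = z ^ k := fun k => by rw [← hzo, pow_mod_orderOf]
  have hzinj : ∀ i j : Fin p, z ^ (i : ℕ) = z ^ (j : ℕ) → i = j := fun i j h =>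
    Fin.ext (pow_injOn_Iio_orderOf (by rw [hzo]; exact i.2) (by rw [hzo]; exact j.2) h)
  have hzs : ∀ y ∈ Z, ∃ k : Fin p, y = z ^ (k : ℕ) := by
    intro y hy
    have h1 : zpowers z = Z := eq_of_le_of_card_ge (zpowers_le.2 hz) (by rw [Nat.card_zpowers, hzo]; exact hZc.le)
    rw [← h1, ← mem_powers_iff_mem_zpowers] at hy
    obtain ⟨k, rfl⟩ := hy
    exact ⟨⟨k % p, Nat.mod_lt _ hp.pos⟩, (hmod k).symm⟩
  obtain ⟨a, haB, haZ⟩ : ∃ a ∈ B, a ∉ Z := by
    by_contra hc
    push Not at hc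
    have := card_le_of_le (show B ≤ Z from hc)
    rw [hZc, hBc] at this
    nlinarith [hp.one_lt]
  obtain ⟨x, hxB, hxZ, hx0⟩ : ∃ x ∈ B, x ∉ Z ∧ Fx σ x ≠ ⊥ := by
    by_contra hc
    push Not at hc
    obtain ⟨v, hv⟩ := exists_ne (0 : V)
    have h1 : ∑ j ∈ Finset.range p, Nm σ p (a * z ^ j) v = 0 := by
      refine Finset.sum_eq_zero fun j _ => ?_
      have hm : a * z ^ j ∈ B := mul_mem haB (hZB (pow_mem hz j))
      have := Nm_mem σ p _ (hpow _ hm) v
      rwa [hc _ hm (fun h => haZ ((mul_mem_cancel_right (pow_mem hz j)).1 h)), Submodule.mem_bot] at this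
    simp only [Nm_apply] at h1
    rw [Finset.sum_comm, Finset.sum_eq_single 0] at h1
    · simp only [pow_zero, map_one, Module.End.one_apply, Finset.sum_const, Finset.card_range] at h1
      rw [← Nat.cast_smul_eq_nsmul (ZMod q)] at h1
      exact hv ((smul_eq_zero.1 h1).resolve_left hpq)
    · intro k hk hk0
      have h2 : z ^ k ≠ 1 := pow_ne_one_of_lt_orderOf hk0 (by rw [hzo]; exact Finset.mem_range.1 hk)
      have h3 := congrArg (σ (a ^ k)) (hN0 _ (pow_mem hz k) h2 v)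
      rw [map_zero, Nm_apply, map_sum] at h3
      rw [← h3]
      refine Finset.sum_congr rfl fun j _ => ?_
      have hc' : Commute a (z ^ j) := hcen _ (pow_mem hz j) a
      rw [hc'.mul_pow, map_mul, Module.End.mul_apply, ← pow_mul, ← pow_mul, mul_comm]
    · intro h; exact absurd (Finset.mem_range.2 hp.pos) h
  have hκZ : ∀ g, ⁅g, x⁆ ∈ Z := fun g => by
    rw [← commutatorElement_inv]
    exact inv_mem (hcomm (commutator_mem_commutator hxB trivial))
  let κ : G →* G :=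
    { toFun := fun g => ⁅g, x⁆
      map_one' := commutatorElement_one_left x
      map_mul' := fun g h => by
        have e : ⁅g * h, x⁆ = g * ⁅h, x⁆ * g⁻¹ * ⁅g, x⁆ := by simp only [commutatorElement_def]; group
        rw [e, hcen _ (hκZ h) g, mul_inv_cancel_right, hcen _ (hκZ h)] }
  let W : Fin p → Submodule (ZMod q) V := fun i => Fx σ (z ^ (i : ℕ) * x)
  have hmap : ∀ (g : G) (k : Fin p), ⁅g, x⁆ = z ^ (k : ℕ) → ∀ i, ∀ w, w ∈ W i ↔ ρ g w ∈ W (i + k) := by
    intro g k hk i w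
    have e : z ^ ((i + k : Fin p) : ℕ) * x * g = g * (z ^ (i : ℕ) * x) := by
      rw [Fin.val_add, hmod, pow_add, ← hk, ← mul_assoc g, hcen _ (pow_mem hz i) g,
        commutatorElement_def]
      group
    change σ _ w = w ↔ σ _ (σ g w) = σ g w
    rw [← Module.End.mul_apply (σ _) (σ g), ← map_mul σ _ g, e, map_mul σ g, Module.End.mul_apply]
    exact ⟨fun h => by rw [h], fun h => (ρ g).injective h⟩
  have hne : ∃ g : G, ⁅g, x⁆ ≠ 1 := by
    by_contra hc
    push Not at hc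
    refine hx0 ((hirr (Fx σ x) (fun g w hw => ?_)).resolve_right fun h => hxZ ?_)
    · have := (hmap g 0 (by rw [hc]; simp) 0 w).1 (by simpa [W] using hw)
      simpa [W] using this
    · rw [htriv x fun v => (h.ge trivial : v ∈ Fx σ x)]; exact one_mem _
  refine ⟨κ.ker, W, ?_, ?_, ?_, ?_, ?_, ?_⟩
  · rw [index_ker]
    have h1 : κ.range ≤ Z := by rintro _ ⟨g, rfl⟩; exact hκZ g
    have h2 := card_dvd_of_le h1
    rw [hZc] at h2
    refine (hp.eq_one_or_self_of_dvd _ h2).resolve_left fun h => ?_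
    obtain ⟨g, hg⟩ := hne
    exact hg (mem_bot.1 ((card_eq_one.1 h).le (⟨g, rfl⟩ : ⁅g, x⁆ ∈ κ.range)))
  · refine (hirr _ (fun g w hw => ?_)).resolve_left fun h => hx0 ?_
    · obtain ⟨k, hk⟩ := hzs _ (hκZ g)
      have : iSup W ≤ (iSup W).comap (σ g) := iSup_le fun i u hu =>
        Submodule.mem_iSup_of_mem (i + k) ((hmap g k hk i u).1 hu)
      exact this hw
    · have := (le_iSup W 0).trans h.le
      simpa [W] using this
  · intro i
    rw [Submodule.disjoint_def]
    intro v hv hv'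
    have h1 : ⨆ j, ⨆ (_ : j ≠ i), W j ≤ LinearMap.ker (Nm σ p (z ^ (i : ℕ) * x)) := by
      refine iSup₂_le fun j hj u hu => ?_
      have e : z ^ (i : ℕ) * x = (z ^ (i : ℕ) * (z ^ (j : ℕ))⁻¹) * (z ^ (j : ℕ) * x) := by group
      have hm : z ^ (i : ℕ) * (z ^ (j : ℕ))⁻¹ ∈ Z := mul_mem (pow_mem hz _) (inv_mem (pow_mem hz _))
      rw [LinearMap.mem_ker, e, Nm_mul σ p (hcen _ hm _).symm hu]
      exact hN0 _ hm (fun h => hj (hzinj _ _ (mul_inv_eq_one.1 h)).symm) u
    have h2 := LinearMap.mem_ker.1 (h1 hv')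
    rw [Nm_apply, Finset.sum_congr rfl (fun k _ => pow_fx σ hv k), Finset.sum_const, Finset.card_range,
      ← Nat.cast_smul_eq_nsmul (ZMod q)] at h2
    exact (smul_eq_zero.1 h2).resolve_left hpq
  · intro h hh i w hw
    have := (hmap h 0 (by rw [show ⁅h, x⁆ = 1 from hh]; simp) i w).1 hw
    rwa [add_zero] at this
  · intro i
    refine ⟨z ^ (i : ℕ) * x, ?_, fun h => hxZ ?_, fun w hw => hw⟩
    · change ⁅z ^ (i : ℕ) * x, x⁆ = 1
      rw [commutatorElement_eq_one_iff_mul_comm, ← mul_assoc, hcen _ (pow_mem hz _) x]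
    · rw [← mul_mem_cancel_left (pow_mem hz i), h]; exact one_mem _
  · intro g hg
    obtain ⟨k, hk⟩ := hzs _ (hκZ g)
    have hk0 : k ≠ 0 := by
      rintro rfl
      exact hg (show ⁅g, x⁆ = 1 by rw [hk]; simp)
    refine ⟨Equiv.addRight k, orderOf_eq_prime ?_ (fun h => hk0 ?_), fun i => ?_⟩
    · rw [Equiv.nsmul_addRight]
      have : p • k = 0 := by
        have := card_nsmul_eq_zero (x := k)
        rwa [Fintype.card_fin] at this
      rw [this]; exact Equiv.addRight_zero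
    · simpa using Equiv.congr_fun h 0
    · ext u
      constructor
      · rintro ⟨w, hw, rfl⟩
        exact (hmap g k hk i w).1 hw
      · intro hu
        obtain ⟨w, rfl⟩ := (ρ g).surjective u
        exact ⟨w, (hmap g k hk i w).2 hu, rfl⟩

end Cfsg.Agent.S3380
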