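import Cfsg.Statements.S3381
import Cfsg.Agent.H7.QC

set_option autoImplicit false
open Cfsg

namespace Cfsg.Agent.S3381
open H7
open scoped commutatorElement

/-- Let G be a finite group acting faithfully and linearly on a non-trivial finite vector space V over the field with q elements (q prime) so that every non-zero vector has a stabilizer of order 2, and suppose G has a central involution. Then V has q^(2r) elements for some r and G contains exactly q^r + 1 non-central involutions. -/
theorem result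
    (q : ℕ) [Fact q.Prime] {V : Type*} [AddCommGroup V] [Module (ZMod q) V] [Finite V] [Nontrivial V]
    {G : Type*} [Group G] [Finite G] (ρ : G →* (V ≃ₗ[ZMod q] V)) (hρ : Function.Injective ρ)
    (hstab : ∀ v : V, v ≠ 0 → Nat.card {g : G // ρ g v = v} = 2)
    (z : G) (hz : orderOf z = 2) (hzc : z ∈ Subgroup.center G) :
    ∃ r : ℕ, Nat.card V = q ^ (2 * r) ∧
      Nat.card {g : G // orderOf g = 2 ∧ g ∉ Subgroup.center G} = q ^ r + 1 := by
  open Subgroup in
  classical
  have hq : q.Prime := Fact.out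
  have hs : ∀ v : V, v ≠ 0 → ∃ t : G, t ≠ 1 ∧ t * t = 1 ∧ ρ t v = v ∧ ∀ g, ρ g v = v → g = 1 ∨ g = t := by
    intro v hv
    obtain ⟨y, hy, hu⟩ := (Nat.card_eq_two_iff' (⟨1, by simp⟩ : {g : G // ρ g v = v})).1 (hstab v hv)
    have h1 : ∀ g, ρ g v = v → g = 1 ∨ g = y.1 := by
      intro g hg
      by_cases h : g = 1
      · exact Or.inl h
      · exact Or.inr (congrArg Subtype.val (hu ⟨g, hg⟩ (fun e => h (congrArg Subtype.val e))))
    have hy1 : y.1 ≠ 1 := fun e => hy (Subtype.ext e)
    refine ⟨y.1, hy1, ?_, y.2, h1⟩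
    rcases h1 (y.1 * y.1) (by rw [map_mul, LinearEquiv.mul_apply, y.2, y.2]) with h | h
    · exact h
    · exact absurd (mul_left_cancel (a := y.1) (by rw [h, mul_one])) hy1
  have huniq : ∀ v : V, v ≠ 0 → ∀ a b : G, a ≠ 1 → b ≠ 1 → ρ a v = v → ρ b v = v → a = b := by
    intro v hv a b ha hb hav hbv
    obtain ⟨t, -, -, -, ht⟩ := hs v hv
    rw [(ht a hav).resolve_left ha, (ht b hbv).resolve_left hb]
  have hfaith : ∀ g : G, (∀ v, ρ g v = v) → g = 1 := by
    intro g hg
    apply hρ
    rw [map_one]; ext v; exact hg v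
  have hsq : ∀ g : G, g * g = 1 → ∀ v, ρ g (ρ g v) = v := by
    intro g hg v
    rw [← LinearEquiv.mul_apply, ← map_mul, hg, map_one]; rfl
  have hcomm : ∀ a b : G, a * b = b * a → ∀ v, ρ a (ρ b v) = ρ b (ρ a v) := by
    intro a b h v
    rw [← LinearEquiv.mul_apply, ← map_mul, h, map_mul, LinearEquiv.mul_apply]
  -- every central involution fixes no nonzero vector
  have hcen : ∀ c : G, c ≠ 1 → c * c = 1 → c ∈ Subgroup.center G → ∀ v, ρ c v = v → v = 0 := by
    intro c hc1 hcc hc v hv
    by_contra hv0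
    apply hc1
    apply hfaith
    intro w
    by_contra hw
    -- u = w + c w is fixed by c; d = w - c w is negated
    have hw0 : w ≠ 0 := by rintro rfl; simp at hw
    obtain ⟨t, ht1, -, htw, -⟩ := hs w hw0
    have htc : t ≠ c := by rintro rfl; exact hw htw
    have hcm := hcomm t c (Subgroup.mem_center_iff.1 hc t)
    have h1 : w + ρ c w = 0 := by
      by_contra h
      refine htc (huniq _ h t c ht1 hc1 ?_ ?_)
      · rw [map_add, hcm, htw]
      · rw [map_add, hsq c hcc, add_comm]
    have hvw : v + w ≠ 0 := by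
      intro h
      have : w = -v := by rw [← sub_eq_zero, sub_neg_eq_add, add_comm, h]
      apply hw; rw [this, map_neg, hv]
    obtain ⟨s, hs1, -, hsw, -⟩ := hs _ hvw
    have hsc : s ≠ c := by
      rintro rfl
      rw [map_add, hv] at hsw
      exact hw (add_left_cancel hsw)
    have hcm' := hcomm s c (Subgroup.mem_center_iff.1 hc s)
    have h2 : (v + w) + ρ c (v + w) = 0 := by
      by_contra h
      refine hsc (huniq _ h s c hs1 hc1 ?_ ?_)
      · rw [map_add, hcm', hsw]
      · rw [map_add, hsq c hcc, add_comm]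
    have h3 : v + v = 0 := by
      rw [map_add, hv] at h2
      have : v + v = (v + w + (v + ρ c w)) - (w + ρ c w) := by abel
      rw [this, h1, h2, sub_zero]
    have hq2 : (2 : ZMod q) = 0 := by
      by_contra h
      apply hv0
      have : (2 : ZMod q) • v = 0 := by rw [two_smul, h3]
      exact (smul_eq_zero.1 this).resolve_left h
    have h4 : w + w = 0 := by rw [← two_smul (ZMod q), hq2, zero_smul]
    apply hw
    exact add_left_cancel (h1.trans h4.symm)
  have hneg : ∀ c : G, c * c = 1 → (∀ v, ρ c v = v → v = 0) → ∀ v, ρ c v = -v := by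
    intro c hcc h v
    have := h (v + ρ c v) (by rw [map_add, hsq c hcc, add_comm])
    rw [← sub_eq_zero, sub_neg_eq_add, add_comm, this]
  have hz1 : z ≠ 1 := by rintro rfl; simp at hz
  have hzz : z * z = 1 := by rw [← pow_two, ← hz, pow_orderOf_eq_one]
  have hzf := hcen z hz1 hzz hzc
  have hzn := hneg z hzz hzf
  have h2 : (2 : ZMod q) ≠ 0 := by
    intro h
    obtain ⟨v, hv⟩ := exists_ne (0 : V)
    apply hv; apply hzf
    rw [hzn, neg_eq_iff_add_eq_zero, ← two_smul (ZMod q), h, zero_smul]
  let C : G → Submodule (ZMod q) V := fun t => LinearMap.ker ((ρ t : V →ₗ[ZMod q] V) - LinearMap.id)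
  have mC : ∀ t v, v ∈ C t ↔ ρ t v = v := by
    intro t v; simp [C, LinearMap.mem_ker, sub_eq_zero]
  have hzt : ∀ t v, ρ (z * t) v = - ρ t v := by
    intro t v; rw [map_mul, LinearEquiv.mul_apply, hzn]
  have hdim : ∀ t : G, t * t = 1 → Module.finrank (ZMod q) (C t) + Module.finrank (ZMod q) (C (z * t)) = Module.finrank (ZMod q) V := by
    intro t ht
    apply Submodule.finrank_add_eq_of_isCompl
    constructor
    · rw [Submodule.disjoint_def]
      intro v h1 h3
      rw [mC] at h1 h3
      rw [hzt, h1, neg_eq_iff_add_eq_zero, ← two_smul (ZMod q)] at h3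
      exact (smul_eq_zero.1 h3).resolve_left h2
    · rw [codisjoint_iff, eq_top_iff]
      intro v _
      have : v = (2 : ZMod q)⁻¹ • (v + ρ t v) + (2 : ZMod q)⁻¹ • (v - ρ t v) := by
        rw [← smul_add, show v + ρ t v + (v - ρ t v) = (2 : ZMod q) • v by rw [two_smul]; abel, smul_smul, inv_mul_cancel₀ h2, one_smul]
      rw [this]
      refine Submodule.add_mem_sup (Submodule.smul_mem _ _ ?_) (Submodule.smul_mem _ _ ?_)
      · rw [mC, map_add, hsq t ht, add_comm]
      · rw [mC, hzt, map_sub, hsq t ht, neg_sub]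
  have hdis : ∀ a b : G, a ≠ 1 → b ≠ 1 → a ≠ b → Module.finrank (ZMod q) (C a) + Module.finrank (ZMod q) (C b) ≤ Module.finrank (ZMod q) V := by
    intro a b ha hb hab
    apply Submodule.finrank_add_finrank_le_of_disjoint
    rw [Submodule.disjoint_def]
    intro v h1 h3
    by_contra hv
    exact hab (huniq v hv a b ha hb ((mC _ _).1 h1) ((mC _ _).1 h3))
  have hzc' := Subgroup.mem_center_iff.1 hzc
  have hhalf : ∀ t : G, t * t = 1 → t ≠ 1 → t ≠ z → 2 * Module.finrank (ZMod q) (C t) = Module.finrank (ZMod q) V := by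
    intro t ht ht1 htz
    have hzt1 : z * t ≠ 1 := fun h => htz (mul_left_cancel (a := z) (h.trans hzz.symm))
    have hztt : (z * t) * (z * t) = 1 := by
      rw [mul_assoc, ← mul_assoc t, hzc' t, mul_assoc, ht, mul_one, hzz]
    have e1 : ∃ v, v ≠ 0 ∧ ρ t v = v := by
      by_contra h
      push Not at h
      have := hneg t ht (fun v hv => by by_contra h0; exact h v h0 hv)
      apply htz; apply hρ; ext v; rw [this, hzn]
    have e2 : ∃ v, v ≠ 0 ∧ ρ t v = -v := by
      by_contra h
      push Not at h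
      apply ht1; apply hfaith
      intro v
      by_contra h0
      apply h (v - ρ t v) (fun e => h0 (sub_eq_zero.1 e).symm)
      rw [map_sub, hsq t ht, neg_sub]
    obtain ⟨v, hv0, hv⟩ := e1
    obtain ⟨w, hw0, hw⟩ := e2
    have tw : ∀ x : V, x + x = 0 → x = 0 := by
      intro x hx
      rw [← two_smul (ZMod q)] at hx
      exact (smul_eq_zero.1 hx).resolve_left h2
    have hvw : v + w ≠ 0 := by
      intro h
      have h' := congrArg (fun x => ρ t x) h
      simp only [map_add, hv, hw, map_zero] at h'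
      apply hv0; apply tw
      have : v + v = (v + w) + (v + -w) := by abel
      rw [this, h, h', add_zero]
    obtain ⟨s, hs1, hss, hsv, -⟩ := hs _ hvw
    have hst : s ≠ t := by
      rintro rfl
      rw [map_add, hv, hw] at hsv
      apply hw0; apply tw
      have := add_left_cancel hsv
      rw [← neg_eq_iff_add_eq_zero]; exact this
    have hszt : s ≠ z * t := by
      rintro rfl
      rw [hzt, map_add, hv, hw, neg_add, neg_neg] at hsv
      apply hv0; apply tw
      have := add_right_cancel hsv
      rw [← neg_eq_iff_add_eq_zero]; exact this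
    have hsz : s ≠ z := by
      rintro rfl
      exact hvw (hzf _ hsv)
    have hzs1 : z * s ≠ 1 := fun h => hsz (mul_left_cancel (a := z) (h.trans hzz.symm))
    have a1 := hdim t ht
    have a2 := hdim s hss
    have a3 := hdis s t hs1 ht1 hst
    have a4 := hdis s (z * t) hs1 hzt1 hszt
    have a5 := hdis (z * s) t hzs1 ht1 (by
      intro h; apply hszt; rw [← h, ← mul_assoc, hzz, one_mul])
    have a6 := hdis (z * s) (z * t) hzs1 hzt1 (fun h => hst (mul_left_cancel h))
    omega
  have hcard : ∀ W : Submodule (ZMod q) V, Nat.card W = q ^ Module.finrank (ZMod q) W := by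
    intro W
    rw [Module.natCard_eq_pow_finrank (K := ZMod q), Nat.card_zmod]
  have hcardV : Nat.card V = q ^ Module.finrank (ZMod q) V := by
    rw [Module.natCard_eq_pow_finrank (K := ZMod q), Nat.card_zmod]
  have hinv : ∀ g : G, (orderOf g = 2 ∧ g ∉ Subgroup.center G) ↔ (g * g = 1 ∧ g ≠ 1 ∧ g ≠ z) := by
    intro g
    constructor
    · rintro ⟨h1, h3⟩
      refine ⟨by rw [← pow_two, ← h1, pow_orderOf_eq_one], by rintro rfl; simp at h1, by rintro rfl; exact h3 hzc⟩
    · rintro ⟨h1, h3, h4⟩
      refine ⟨orderOf_eq_prime (by rw [pow_two, h1]) h3, fun hc => h4 ?_⟩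
      have := hneg g h1 (hcen g h3 h1 hc)
      apply hρ; ext v; rw [this, hzn]
  obtain ⟨v0, hv0⟩ := exists_ne (0 : V)
  obtain ⟨t0, ht01, ht00, ht0v, -⟩ := hs v0 hv0
  have ht0z : t0 ≠ z := by rintro rfl; exact hv0 (hzf _ ht0v)
  have hr := hhalf t0 ht00 ht01 ht0z
  set r := Module.finrank (ZMod q) (C t0) with hrdef
  refine ⟨r, by rw [hcardV, hr], ?_⟩
  have hr0 : r ≠ 0 := by
    intro h
    have := Module.finrank_pos (R := ZMod q) (M := V)
    omega
  haveI := Fintype.ofFinite G
  haveI := Fintype.ofFinite V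
  set T : Finset G := Finset.univ.filter (fun g => orderOf g = 2 ∧ g ∉ Subgroup.center G) with hT
  have hTc : Nat.card {g : G // orderOf g = 2 ∧ g ∉ Subgroup.center G} = T.card := by
    rw [Nat.card_eq_fintype_card, Fintype.card_subtype]
  rw [hTc]
  have hU : (Finset.univ.erase (0 : V)) = T.biUnion (fun t => (Finset.univ.filter (fun v => v ∈ C t)).erase 0) := by
    ext v
    simp only [Finset.mem_erase, Finset.mem_univ, and_true, Finset.mem_biUnion, Finset.mem_filter, true_and, hT]
    constructor
    · intro hv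
      obtain ⟨t, h1, h3, h4, -⟩ := hs v hv
      exact ⟨t, (hinv t).2 ⟨h3, h1, by rintro rfl; exact hv (hzf _ h4)⟩, hv, (mC _ _).2 h4⟩
    · rintro ⟨t, -, h, -⟩; exact h
  have hc := congrArg Finset.card hU
  rw [Finset.card_biUnion, Finset.card_erase_of_mem (Finset.mem_univ _), Finset.card_univ, ← Nat.card_eq_fintype_card, hcardV,
    Finset.sum_congr rfl (g := fun _ => q ^ r - 1), Finset.sum_const, smul_eq_mul, ← hr] at hc
  · have hq1 : 2 ≤ q ^ r := le_trans hq.two_le (Nat.le_self_pow hr0 q)
    have e : q ^ (2 * r) - 1 = (q ^ r + 1) * (q ^ r - 1) := by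
      rw [mul_comm 2 r, pow_mul, ← Nat.sq_sub_sq, one_pow]
    rw [e] at hc
    exact (Nat.eq_of_mul_eq_mul_right (by omega) hc).symm
  · intro t ht
    simp only [hT, Finset.mem_filter, Finset.mem_univ, true_and] at ht
    obtain ⟨h1, h3, h4⟩ := (hinv t).1 ht
    have := hhalf t h1 h3 h4
    rw [Finset.card_erase_of_mem (by simp), ← Fintype.card_subtype, ← Nat.card_eq_fintype_card]
    have e := hcard (C t)
    rw [show Module.finrank (ZMod q) (C t) = r by omega] at e
    exact congrArg (· - 1) e
  · intro a ha b hb hab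
    simp only [hT, Finset.coe_filter, Finset.mem_univ, true_and, Set.mem_setOf_eq] at ha hb
    rw [Function.onFun, Finset.disjoint_left]
    intro v h1 h3
    simp only [Finset.mem_erase, Finset.mem_filter, Finset.mem_univ, true_and] at h1 h3
    exact hab (huniq v h1.1 a b ((hinv a).1 ha).2.1 ((hinv b).1 hb).2.1 ((mC _ _).1 h1.2) ((mC _ _).1 h3.2))

end Cfsg.Agent.S3381
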