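import Cfsg.Statements.S3383
import Mathlib
import Cfsg.Agent.H8.Frob
import Cfsg.Agent.H1.FrobK

set_option autoImplicit false
open Cfsg

namespace Cfsg.Agent.S3383

/-- Let H be a Frobenius complement in a finite group L and K the Frobenius kernel (as a subgroup). Then K is characteristic in L, and every normal subgroup of L either contains K or is contained in K. -/
theorem result {L : Type*} [Group L] [Finite L]
    (H : Subgroup L) (hH : Cfsg.IsFrobeniusComplement H)
    (K : Subgroup L) (hK : (K : Set L) = Cfsg.frobeniusKernel H) :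
    K.Characteristic ∧ ∀ N : Subgroup L, N.Normal → K ≤ N ∨ N ≤ K := by
  have hn : K.Normal := H8.normal_of_eq_frobeniusKernel hK.symm
  have hsup := H8.sup_eq_top_of_kernel hH hK.symm
  have hinf := H8.inf_eq_bot_of_kernel hK.symm
  have hf : ∀ h ∈ H, ∀ n ∈ K, h * n = n * h → h = 1 ∨ n = 1 := fun h hh n hn e =>
    H8.fpf_of_frob hH hh (hK ▸ hn) e
  have hcop := H8.coprime_card_of_fpf Subgroup.le_normalizer_of_normal hf
  have hi : K.index = Nat.card H := by
    rw [← Subgroup.relIndex_top_right, ← hsup, Subgroup.relIndex_sup_right, ← Subgroup.inf_relIndex_right,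
      inf_comm, hinf, Subgroup.relIndex_bot_left]
  constructor
  · rw [Subgroup.characteristic_iff_map_le]
    intro φ
    apply H1.le_of_coprime_index
    rw [hi, Subgroup.card_map_of_injective φ.injective]
    exact hcop.symm
  · intro N hN
    by_cases h : N ≤ K
    · exact Or.inr h
    left
    obtain ⟨x, hxN, hxK⟩ := SetLike.not_le_iff_exists.1 h
    intro k hk
    obtain ⟨m, hm, e⟩ := H8.exists_conj_eq_of_fpf (N := K) (h := x) (Subgroup.le_normalizer_of_normal (Subgroup.mem_top x))
      (fun n hn e => by
        by_contra h1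
        exact hxK (by
          have := H8.mem_kernel_of_commute hH (hK ▸ hn) h1 e
          rwa [← hK] at this)) hk
    have : k = m * x * m⁻¹ * x⁻¹ := by rw [e]; group
    rw [this]
    exact mul_mem (hN.conj_mem x hxN m) (inv_mem hxN)

end Cfsg.Agent.S3383
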