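import Cfsg.Statements.S3430
import Cfsg.Agent.H1.Zsig2

set_option autoImplicit false
open Cfsg

namespace Cfsg.Agent.S3430

open H1B

/-- Let q, n ≥ 2 be integers. Unless (n = 2 and q + 1 = 2^s·3^t for some s ≥ 0 and t ≤ 1), or (q = 2 and n ∈ {4, 6, 10, 12, 18}), or (q = 3 and n ∈ {4, 6}), or (q, n) = (5, 6), there is a prime p dividing q^n − 1 but no q^i − 1 with 1 ≤ i < n (a primitive prime divisor), such that p > n + 1 or p² divides q^n − 1. -/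
theorem result (q n : ℕ) (hq : 2 ≤ q) (hn : 2 ≤ n)
    (h1 : ¬ (n = 2 ∧ ∃ s t : ℕ, t ≤ 1 ∧ q + 1 = 2 ^ s * 3 ^ t))
    (h2 : ¬ (q = 2 ∧ (n = 4 ∨ n = 6 ∨ n = 10 ∨ n = 12 ∨ n = 18)))
    (h3 : ¬ (q = 3 ∧ (n = 4 ∨ n = 6))) (h4 : ¬ (q = 5 ∧ n = 6)) :
    ∃ p : ℕ, p.Prime ∧ p ∣ q ^ n - 1 ∧ (∀ i : ℕ, 1 ≤ i → i < n → ¬ p ∣ q ^ i - 1) ∧ (n + 1 < p ∨ p ^ 2 ∣ q ^ n - 1) := by
  rcases eq_or_lt_of_le hn with rfl | n3
  · have e : q ^ 2 - 1 = (q + 1) * (q - 1) := by simpa using Nat.sq_sub_sq q 1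
    have A : ∀ p, p.Prime → p ≠ 2 → p ∣ q + 1 → ∀ i, 1 ≤ i → i < 2 → ¬ p ∣ q ^ i - 1 := fun p hp p2 d i a b c => by
      obtain rfl : i = 1 := by omega
      have := Nat.dvd_sub d c
      rw [pow_one, show q + 1 - (q - 1) = 2 by omega] at this
      exact p2 ((Nat.prime_dvd_prime_iff_eq hp Nat.prime_two).1 this)
    obtain ⟨s, m, h2, e2⟩ := Nat.exists_eq_pow_mul_and_not_dvd (show q + 1 ≠ 0 by omega) 2 (by norm_num)
    obtain ⟨t, m, h3, rfl⟩ := Nat.exists_eq_pow_mul_and_not_dvd (show m ≠ 0 by rintro rfl; simp at h2) 3 (by norm_num)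
    by_cases t1 : t ≤ 1
    · obtain ⟨p, hp, d⟩ := Nat.exists_prime_and_dvd (show m ≠ 1 by
        rintro rfl
        exact h1 ⟨rfl, s, t, t1, by simpa using e2⟩)
      have D : p ∣ q + 1 := e2 ▸ (d.mul_left _).mul_left _
      have p2 : p ≠ 2 := fun k => h2 (k ▸ d.mul_left _)
      have p3 : p ≠ 3 := fun k => h3 (k ▸ d)
      exact ⟨p, hp, e ▸ D.mul_right _, A p hp p2 D, .inl (by have := hp.two_le; omega)⟩
    · have D : 3 ^ 2 ∣ q + 1 := e2 ▸ ((pow_dvd_pow 3 (by omega)).mul_right _).mul_left _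
      exact ⟨3, Nat.prime_three, e ▸ ((dvd_pow_self 3 two_ne_zero).trans D).mul_right _,
        A 3 Nat.prime_three (by norm_num) ((dvd_pow_self 3 two_ne_zero).trans D), .inr (e ▸ D.mul_right _)⟩
  by_cases h : (q, n) ∈ exL
  · have : ∀ x ∈ exL, (x.1 = 2 ∧ (x.2 = 4 ∨ x.2 = 6 ∨ x.2 = 10 ∨ x.2 = 12 ∨ x.2 = 18)) ∨ (x.1 = 3 ∧ (x.2 = 4 ∨ x.2 = 6)) ∨
        (x.1 = 5 ∧ x.2 = 6) ∨ ((2 * x.2 + 1).Prime ∧ 2 * x.2 + 1 ∣ x.1 ^ x.2 - 1 ∧
          ∀ i < x.2, 1 ≤ i → ¬ 2 * x.2 + 1 ∣ x.1 ^ i - 1) := by decide +kernel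
    rcases this _ h with k | k | k | ⟨a, b, c⟩
    · exact (h2 k).elim
    · exact (h3 k).elim
    · exact (h4 k).elim
    · exact ⟨_, a, b, fun i x y => c i y x, .inl (by simp only; omega)⟩
  obtain ⟨m, ⟨a, b⟩, c⟩ := prim_big hq n3 h
  have P : ∀ p, p.Prime → p ∣ m → (∀ i, 1 ≤ i → i < n → ¬ p ∣ q ^ i - 1) ∧ n + 1 ≤ p := fun p hp d => by
    have A : ∀ i, 1 ≤ i → i < n → ¬ p ∣ q ^ i - 1 := fun i x y k => hp.one_lt.ne' (Nat.eq_one_of_dvd_coprimes (b i x y) d k)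
    refine ⟨A, not_lt.1 fun l => ?_⟩
    haveI := Fact.mk hp
    have e := (zs_dvd (by omega)).1 (d.trans a)
    have q0 : (q : ZMod p) ≠ 0 := fun z => by
      rw [z, zero_pow (by omega)] at e
      exact zero_ne_one e
    have := hp.two_le
    exact A (p - 1) (by omega) (by omega) ((zs_dvd (by omega)).2 (ZMod.pow_card_sub_one_eq_one q0))
  by_contra k
  push Not at k
  obtain ⟨p, hp, ⟨r, rfl⟩⟩ := Nat.exists_prime_and_dvd (show m ≠ 1 by omega)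
  have k1 := k p hp ((Dvd.intro _ rfl).trans a) (P p hp (Dvd.intro _ rfl)).1
  obtain ⟨s, hs, d⟩ := Nat.exists_prime_and_dvd (show r ≠ 1 by rintro rfl; omega)
  have k2 := k s hs ((d.mul_left p).trans a) (P s hs (d.mul_left p)).1
  obtain rfl : s = p := by
    have := (P p hp (Dvd.intro _ rfl)).2
    have := (P s hs (d.mul_left p)).2
    omega
  exact k1.2 (Dvd.dvd.trans (by rw [pow_two]; exact Nat.mul_dvd_mul_left s d) a)

end Cfsg.Agent.S3430
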