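import Cfsg.Statements.S3704
import Cfsg.Agent.H3.Der

set_option autoImplicit false
open Cfsg

namespace Cfsg.Agent.S3704
open H3
export H3 (inner_add_left inner_add_right inner_sub_left inner_sub_right inner_neg_left inner_neg_right
  inner_zero_left inner_zero_right inner_smul_left inner_smul_right inner_conj_symm inner_self_eq_zero
  inner_self_im)

open MulAction Subgroup H3.Der Finset

/-- Let G be a finite group acting faithfully and 2-transitively on a finite set Ω of size n, and let H be a subgroup of index n in G which is not transitive on Ω and fixes no point of Ω. Then H has exactly two orbits on Ω. -/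
theorem result {G Ω : Type*} [Group G] [Finite G] [MulAction G Ω] [FaithfulSMul G Ω] [Finite Ω] (h2 : MulAction.IsMultiplyPretransitive G Ω 2) (H : Subgroup G) (hidx : H.index = Nat.card Ω) (hnt : ¬ MulAction.IsPretransitive H Ω) (hfix : ∀ a : Ω, ∃ h : H, h • a ≠ a) : Nat.card (MulAction.orbitRel.Quotient H Ω) = 2 := by
  set_option maxSynthPendingDepth 3 in
  classical
  haveI := Fintype.ofFinite G
  haveI : Nontrivial Ω := by
    by_contra h
    haveI := not_nontrivial_iff_subsingleton.1 h
    exact hnt ⟨fun a b => ⟨1, Subsingleton.elim _ _⟩⟩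

  haveI := isPretransitive_of_is_two_pretransitive (G := G) (α := Ω)
  have r := (rank_two G Ω).2.2 ‹_› fun a b c d => is_two_pretransitive_iff.1 h2
  set π : G → ℂ := fun g => Nat.card (fixedBy Ω g) with hπ
  have c : IsCharacter G π := isCharacter_fixedBy Ω
  have i1 : classInner π (fun _ => 1) = 1 := by rw [inner_fixedBy_one, orb_one, Nat.cast_one]
  have i2 : classInner π π = 2 := by
    have := inner_fixedBy_one (G := G) (Ω × Ω)
    rw [r] at this
    rw [← Nat.cast_ofNat, ← this]
    simp only [fix_prod]
    simp [classInner, hπ]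
  have o : IsIrrCharacter G fun _ => 1 := isIrrCharacter_one
  have c1 := c.sub_of_inner_ne_zero o (by rw [i1]; exact one_ne_zero)
  have i3 : classInner (fun _ => 1) π = 1 := by rw [o.isCharacter.inner_comm c, i1]
  have x := c1.isIrr_of_inner_self (by rw [inner_sub_left, inner_sub_right, inner_sub_right, i1, i2, i3, inner_one_one]; ring)
  have θ : IsCharacter G (indFun H fun _ => 1) := isIrrCharacter_one.isCharacter.ind
  have j1 : classInner (indFun H fun _ => 1) (fun _ => 1) = 1 := by
    rw [inner_indFun_left H _ o.isCharacter.isClassFunction, inner_one_one]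
  have j2 : classInner (indFun H fun _ => 1) π = Nat.card (orbitRel.Quotient H Ω) := by
    rw [θ.inner_comm c, inner_indFun_right H _ c.isClassFunction]; exact inner_fixedBy_one Ω
  have c2 := (θ.sub_of_inner_ne_zero o (by rw [j1]; exact one_ne_zero)).sub_inner_smul x
  rw [inner_sub_left, inner_sub_right, inner_sub_right, j1, j2, i3, inner_one_one] at c2
  obtain ⟨d, e⟩ := c2.exists_deg
  simp only [Pi.sub_apply, Pi.smul_apply, indFun_one, hidx, hπ, fix_one, smul_eq_mul] at e
  have k : ¬ Nat.card (orbitRel.Quotient H Ω) ≤ 1 := fun h => hnt (trans_of_le _ _ h)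
  have n : 1 < Nat.card Ω := Finite.one_lt_card
  have e : (Nat.card Ω : ℤ) * 1 - 1 - (Nat.card (orbitRel.Quotient H Ω) - 1 - (1 - 1)) * (Nat.card Ω - 1) = d := by
    exact_mod_cast e
  nlinarith

end Cfsg.Agent.S3704
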