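import Cfsg.Statements.S3733
import Mathlib
import Cfsg.Agent.H7.Basic

set_option autoImplicit false
open Cfsg

namespace Cfsg.Agent.S3733

open H7 Subgroup
open scoped IsMulCommutative

/-- Let A and V be subgroups of a finite group with V abelian and nontrivial and A normalizing V. Suppose a nonempty finite family of proper subgroups of A partitions A: every non-identity element of A lies in exactly one member. If the number of members minus one is coprime to the order of V, then some member B of the family has a non-identity fixed point on V, that is V ∩ C(B) ≠ 1. -/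
theorem result {G : Type*} [Group G] [Finite G] (A V : Subgroup G) (hVab : IsMulCommutative V) (hV : V ≠ ⊥) (hAV : A ≤ Subgroup.normalizer (V : Set G)) (𝒜 : Finset (Subgroup G)) (hne : 𝒜.Nonempty) (hprop : ∀ B ∈ 𝒜, B < A) (hpart : ∀ a ∈ A, a ≠ 1 → ∃! B, B ∈ 𝒜 ∧ a ∈ B) (hk : (𝒜.card - 1).Coprime (Nat.card V)) : ∃ B ∈ 𝒜, V ⊓ Subgroup.centralizer (B : Set G) ≠ ⊥ := by
  classical
  by_contra hh
  push Not at hh
  haveI := Fintype.ofFinite G
  obtain ⟨v, hv, hv1⟩ := exists_ne_one hV
  let f : G → V := fun g => if h : g ∈ nrm V then ⟨g * v * g⁻¹, nconj_mem h hv⟩ else 1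
  have hf : ∀ g ∈ A, (f g : G) = g * v * g⁻¹ := fun g hg => by simp [f, hAV hg]
  have key : ∀ C : Subgroup G, C ≤ A → ∀ B ∈ 𝒜, B ≤ C → ∏ g with g ∈ C, f g = 1 := fun C hC B hB hBC => by
    have : ((∏ g with g ∈ C, f g : V) : G) ∈ V ⊓ cen B := by
      refine ⟨SetLike.coe_mem _, mem_cen.2 fun b hb => mul_inv_eq_iff_eq_mul.1 ?_⟩
      have e := congrArg Subtype.val (map_prod (V.normalizerMonoidHom ⟨b, hAV (hC (hBC hb))⟩) f
        (Finset.univ.filter (· ∈ C)))
      refine e.trans (congrArg Subtype.val (Finset.prod_bij (fun g _ => b * g) ?_ ?_ ?_ ?_))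
      · intro g hg; simpa using mul_mem (hBC hb) (by simpa using hg)
      · intro g _ g' _ h; exact mul_left_cancel h
      · intro g hg
        exact ⟨b⁻¹ * g, by simpa using mul_mem (inv_mem (hBC hb)) (by simpa using hg), by simp⟩
      · intro g hg
        have hg : g ∈ C := by simpa using hg
        refine Subtype.ext ?_
        change b * (f g : G) * b⁻¹ = _
        rw [hf g (hC hg), hf _ (hC (mul_mem (hBC hb) hg))]; group
    rw [hh B hB, mem_bot] at this
    exact Subtype.ext this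
  have h1 : ∀ C : Subgroup G, ∏ g with g ∈ C, f g = f 1 * ∏ g with g ∈ C ∧ g ≠ 1, f g := fun C => by
    rw [← Finset.mul_prod_erase _ _ (show (1 : G) ∈ _ by simp)]
    congr 2; ext; simp [and_comm]
  have h2 : ∏ g with g ∈ A ∧ g ≠ 1, f g = ∏ B ∈ 𝒜, ∏ g with g ∈ B ∧ g ≠ 1, f g := by
    rw [← Finset.prod_biUnion]
    · congr 1; ext g
      simp only [Finset.mem_filter, Finset.mem_univ, true_and, Finset.mem_biUnion]
      exact ⟨fun h => by obtain ⟨B, h1, -⟩ := hpart g h.1 h.2; exact ⟨B, h1.1, h1.2, h.2⟩,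
        fun ⟨B, h1, h2, h3⟩ => ⟨(hprop B h1).le h2, h3⟩⟩
    · intro B hB C hC hBC
      refine Finset.disjoint_filter.2 fun g _ h1 h2 => hBC ?_
      exact (hpart g ((hprop B hB).le h1.1) h1.2).unique ⟨hB, h1.1⟩ ⟨hC, h2.1⟩
  obtain ⟨B, hB⟩ := hne
  have h3 := key A le_rfl B hB (hprop B hB).le
  have h4 : ∏ B ∈ 𝒜, ∏ g with g ∈ B, f g = 1 :=
    Finset.prod_eq_one fun C hC => key C (hprop C hC).le C hC le_rfl
  rw [h1, h2] at h3
  simp only [h1] at h4
  rw [Finset.prod_mul_distrib, Finset.prod_const, ← Nat.sub_add_cancel (Finset.card_pos.2 ⟨B, hB⟩),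
    pow_succ, mul_assoc, h3, mul_one] at h4
  refine hv1 ?_
  have h5 : f 1 = 1 := orderOf_eq_one_iff.1 ((hk.coprime_dvd_left (orderOf_dvd_of_pow_eq_one h4)).eq_one_of_dvd
    (orderOf_dvd_natCard _))
  simpa using (hf 1 (one_mem _)).symm.trans (congrArg Subtype.val h5)

end Cfsg.Agent.S3733
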