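import Cfsg.Statements.S3734
import Cfsg.Agent.H1.Action2

set_option autoImplicit false
open Cfsg

namespace Cfsg.Agent.S3734

/-- Let A and G be subgroups of a finite group with A abelian, A normalizing G and the orders of A and G coprime. Then G is generated by the fixed-point subgroups C_G(B) of those subgroups B of A for which A/B is cyclic (that is, A = ⟨B, a⟩ for some a), and [G, A] is generated by the commutator subgroups [C_G(B), A] over the same subgroups B. -/
theorem result {X : Type*} [Group X] [Finite X] (A G : Subgroup X) (hAab : IsMulCommutative A) (hAG : A ≤ Subgroup.normalizer (G : Set X)) (hcop : (Nat.card A).Coprime (Nat.card G)) : (⨆ B ∈ {B : Subgroup X | B ≤ A ∧ ∃ a ∈ A, B ⊔ Subgroup.zpowers a = A}, G ⊓ Subgroup.centralizer (B : Set X)) = G ∧ (⨆ B ∈ {B : Subgroup X | B ≤ A ∧ ∃ a ∈ A, B ⊔ Subgroup.zpowers a = A}, ⁅G ⊓ Subgroup.centralizer (B : Set X), A⁆) = ⁅G, A⁆ := by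
  have key : ∀ K : Subgroup X, K ≤ G → A ≤ Subgroup.normalizer (K : Set X) → ∀ L : Subgroup X,
      (∀ B ≤ A, (∃ a ∈ A, B ⊔ Subgroup.zpowers a = A) →
        K ⊓ Subgroup.centralizer (B : Set X) ≤ L) → K ≤ L := fun K hK hA L h =>
    H1.coprime_le_of_cocyclic_centralizers hA (hcop.of_dvd_right (Subgroup.card_dvd_of_le hK)) h
  have hs := H1.isSolvable_of_isMulCommutative A
  refine ⟨le_antisymm (iSup₂_le fun _ _ => inf_le_left) (key G le_rfl hAG _ fun B h1 h2 =>
    le_iSup₂_of_le (f := fun B (_ : B ∈ {B : Subgroup X | B ≤ A ∧ ∃ a ∈ A,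
      B ⊔ Subgroup.zpowers a = A}) => G ⊓ Subgroup.centralizer (B : Set X)) B ⟨h1, h2⟩ le_rfl),
    le_antisymm (iSup₂_le fun _ _ => Subgroup.commutator_mono inf_le_left le_rfl) ?_⟩
  set L := ⨆ B ∈ {B : Subgroup X | B ≤ A ∧ ∃ a ∈ A, B ⊔ Subgroup.zpowers a = A},
    ⁅G ⊓ Subgroup.centralizer (B : Set X), A⁆ with hL
  have hAB : ∀ B ≤ A, A ≤ Subgroup.normalizer (B : Set X) := fun B hB =>
    (Subgroup.le_centralizer A).trans ((Subgroup.centralizer_le hB).trans
      (Subgroup.centralizer_le_normalizer _))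
  have hn : ∀ U : Subgroup X, U ≤ Subgroup.normalizer (G : Set X) →
      U ≤ Subgroup.centralizer (A : Set X) → U ≤ Subgroup.normalizer (L : Set X) := by
    intro U h1 h2 u hu
    refine H1.mem_normalizer_of_conj_smul_le ?_
    rw [hL, H1.conj_smul_eq_map, Subgroup.map_le_iff_le_comap]
    refine iSup₂_le fun B hB => ?_
    rw [← Subgroup.map_le_iff_le_comap, ← H1.conj_smul_eq_map, H1.conj_smul_eq_self_iff.2]
    · exact le_iSup₂_of_le (f := fun B (_ : B ∈ {B : Subgroup X | B ≤ A ∧ ∃ a ∈ A,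
        B ⊔ Subgroup.zpowers a = A}) => ⁅G ⊓ Subgroup.centralizer (B : Set X), A⁆) B hB le_rfl
    · exact H1.le_normalizer_commutator (H1.le_normalizer_inf h1 (H1.le_normalizer_centralizer
        (h2.trans ((Subgroup.centralizer_le hB.1).trans (Subgroup.centralizer_le_normalizer _)))))
        (h2.trans (Subgroup.centralizer_le_normalizer _)) hu
  have hAL := hn A hAG (Subgroup.le_centralizer A)
  have hCL := hn (G ⊓ Subgroup.centralizer (A : Set X)) (inf_le_left.trans Subgroup.le_normalizer)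
    inf_le_right
  have hG : G ≤ L ⊔ (G ⊓ Subgroup.centralizer (A : Set X)) := key G le_rfl hAG _ fun B h1 h2 => by
    have h3 := H1.le_normalizer_inf hAG (H1.le_normalizer_centralizer (hAB B h1))
    rw [← H1.coprime_commutator_sup_centralizer h3
      (hcop.of_dvd_right (Subgroup.card_dvd_of_le inf_le_left)) (Or.inl hs)]
    exact sup_le_sup (le_iSup₂_of_le (f := fun B (_ : B ∈ {B : Subgroup X | B ≤ A ∧ ∃ a ∈ A,
        B ⊔ Subgroup.zpowers a = A}) => ⁅G ⊓ Subgroup.centralizer (B : Set X), A⁆) B ⟨h1, h2⟩ le_rfl)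
      (inf_le_inf_right _ inf_le_left)
  refine (H1.commutator_le_of_eq_mul_centralizer (N := L) fun k hk => ?_).trans
    (Subgroup.commutator_le.2 fun l hl a ha => ?_)
  · obtain ⟨n, hn, c, hc, e⟩ := (H1.mem_sup_of_le_normalizer' hCL).1 (hG hk)
    exact ⟨n, hn, c, hc.2, e.symm⟩
  · rw [commutatorElement_def, mul_assoc, mul_assoc, ← mul_assoc a]
    exact L.mul_mem hl (H1.conj_mem_of_mem_normalizer (hAL ha) (L.inv_mem hl))

end Cfsg.Agent.S3734
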