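import Cfsg.Statements.S3736
import Cfsg.Agent.H1.V1

set_option autoImplicit false
open Cfsg

namespace Cfsg.Agent.S3736

open H7 H1B Subgroup
open scoped commutatorElement

/-- The Hall–Higman reduction for a minimal non-trivial action. Let B, A and P be subgroups of a finite group with P a p-group, B normalizing P, and A a normal subgroup of B of order prime to p. Suppose A does not centralize P but centralizes every proper B-invariant subgroup of P. Then [P, A] = P; P is elementary abelian or special; B acts irreducibly on P/Φ(P), that is, the only B-invariant subgroups of P containing Φ(P) are Φ(P) and P; and if p is odd then every element of P has order dividing p. -/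
theorem result {X : Type*} [Group X] [Finite X] {p : ℕ} [Fact p.Prime] (B A P : Subgroup X) (hP : IsPGroup p P) (hBP : B ≤ Subgroup.normalizer (P : Set X)) (hAB : A ≤ B) (hAn : B ≤ Subgroup.normalizer (A : Set X)) (hAp : (Nat.card A).Coprime p) (hnt : ⁅P, A⁆ ≠ ⊥) (hmin : ∀ U : Subgroup X, U < P → B ≤ Subgroup.normalizer (U : Set X) → ⁅U, A⁆ = ⊥) : ⁅P, A⁆ = P ∧ (Cfsg.IsElementaryAbelian p P ∨ Cfsg.IsSpecial p ↥P) ∧ (∀ U : Subgroup X, (frattini ↥P).map P.subtype ≤ U → U ≤ P → B ≤ Subgroup.normalizer (U : Set X) → U = (frattini ↥P).map P.subtype ∨ U = P) ∧ (p ≠ 2 → ∀ x ∈ P, x ^ p = 1) := by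
  have hA := hAB.trans hBP
  have hc := cop_of_pgroup' hAp hP hA
  have h0 : ¬ A ≤ cen P := fun h => hnt (comm_eq_bot'.2 h)
  have h1 : ⁅P, A⁆ = P := by
    by_contra h
    exact hnt (hc.comm_comm.symm.trans (hmin _ (lt_of_le_of_ne (comm_le_left hA) h) (nrm_commutator hBP hAn)))
  refine ⟨h1, ?_, fun U h2 h3 h4 => ?_, fun h2 => ?_⟩
  · by_cases ha : IsMulCommutative P
    · left
      have : Om p P = P := by
        by_contra h
        exact h0 (cen_of_Om_le_comm hP ha hA hAp
          (comm_eq_bot.1 (hmin _ (lt_of_le_of_ne (H7.Om_le _ _) h) (nrm_Om hBP))))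
      exact this ▸ ea_Om ha
    · obtain ⟨h2, h3, -⟩ := special_of_act hP hAp hA hBP h1 fun U hU hB _ hc' =>
        comm_eq_bot'.1 (hmin U (lt_of_le_of_ne hU (by rintro rfl; exact ha hc')) hB)
      exact Or.inr (special_iff.2 ⟨hP, h2, h3⟩)
  · refine or_iff_not_imp_right.2 fun h => le_antisymm ?_ h2
    exact (le_inf h3 (comm_eq_bot.1 (hmin U (lt_of_le_of_ne h3 h) h4))).trans
      ((inf_cen_le_der hA hc.2 h1).trans (comm_le_Phi (nilp_of_isPGroup hP)))
  · obtain ⟨K, h3, h4, -, h5, h6⟩ := exists_critical_odd h2 hP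
    obtain rfl : K = P := by
      by_contra h
      exact h0 (h6 A hA hAp (comm_eq_bot'.1 (hmin K (lt_of_le_of_ne h3 h) (hBP.trans h4))))
    exact h5

end Cfsg.Agent.S3736
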