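import Cfsg.Statements.S3738
import Cfsg.Agent.H7.QC

set_option autoImplicit false
open Cfsg

namespace Cfsg.Agent.S3738
open H7
open scoped commutatorElement

/-- Let d be a non-identity 3-element of a finite group and P a 2-subgroup normalized by d on which ⟨d⟩ acts faithfully (no non-identity power of d centralizes P) and without non-identity fixed points (C_P(d) = 1). If every abelian subgroup of P has 2-rank at most 2, then d has order 3. -/
theorem result {X : Type*} [Group X] [Finite X] (d : X) (n : ℕ) (hn : 1 ≤ n) (hd : orderOf d = 3 ^ n) (P : Subgroup X) (hP : IsPGroup 2 P) (hdP : d ∈ Subgroup.normalizer (P : Set X)) (hfaith : Subgroup.zpowers d ⊓ Subgroup.centralizer (P : Set X) = ⊥) (hfpf : P ⊓ Subgroup.centralizer {d} = ⊥) (hrank : ∀ V : Subgroup X, V ≤ P → IsMulCommutative V → Cfsg.PRankLE 2 2 V) : orderOf d = 3 := by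
  open Subgroup in
  haveI := Fact.mk Nat.prime_three
  have pD : IsPGroup 3 (zpowers d) := H2.isPGroup_zpowers (k := n) (by rw [← hd, pow_orderOf_eq_one])
  have cD : IsMulCommutative (zpowers d) := inferInstance
  have lA : zpowers (d ^ 3) ≤ zpowers d := zpowers_le.2 (pow_mem (mem_zpowers d) 3)
  have nA : zpowers d ≤ nrm (zpowers (d ^ 3)) := (isComm_iff.1 cD).trans ((cen_anti lA).trans (cen_le_nrm _))
  by_contra ne
  have n3 : d ^ 3 ≠ 1 := fun e => by
    obtain ⟨k, hk, e'⟩ := (Nat.dvd_prime_pow Nat.prime_three (m := 1)).1 (orderOf_dvd_of_pow_eq_one e)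
    have := Nat.pow_right_injective (by norm_num) (hd.symm.trans e')
    interval_cases k
    · omega
    · exact ne e'
  obtain ⟨M, lM, h⟩ := exists_minQ hP (zpowers_le.2 hdP) lA nA (coprime_pgroup (pD.to_le lA) (by norm_num))
    fun k => n3 (hfaith.le ⟨lA (mem_zpowers _), k (mem_zpowers _)⟩)
  have hr : Rk 2 2 M := fun A hA eA => pRankLE_iff.1 (hrank A (hA.trans lM) eA.1) A le_rfl eA
  have l : Om 2 (M ⊓ cen M) ≤ M ⊓ cen M := Om_le _ _
  have nW : zpowers d ≤ nrm (Om 2 (M ⊓ cen M)) := nrm_Om (nrm_center h.norm)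
  have eW := ea_Om (p := 2) (isComm_center M)
  have m0 : M ≠ ⊥ := fun e => h.nc (e ▸ le_cen_bot _)
  have key : ∀ x, x ∉ cen (zpowers (d ^ 3)) → 9 ∣ (cen1 x).relIndex (zpowers d) := fun x nx => by
    obtain ⟨k, hk⟩ := H2.relIndex_eq_pow (Q := cen1 x) pD
    rw [hk]
    refine (pow_dvd_pow 3 (not_lt.1 fun lt => nx ?_) : 3 ^ 2 ∣ _)
    have : d ^ (3 ^ k) ∈ cen1 x := by
      have := pow_index_mem (H := (cen1 x).subgroupOf (zpowers d)) ⟨d, mem_zpowers d⟩
      rwa [← relIndex, hk] at this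
    have k3 : d ^ 3 ∈ cen1 x := by
      interval_cases k
      · exact pow_mem (by simpa using this) 3
      · simpa using this
    exact fun g hg => mem_centralizer_singleton_iff.1 (zpowers_le.2 k3 hg)
  have o := four_of_fpf pD nW eW.isPGroup (hr _ (l.trans inf_le_left) eW)
    (Om_ne_bot' h.pg.to_inf_left (pgroup_inf_cen_ne_bot' h.pg h.pg (le_nrm_self _) m0))
    (eq_bot_of_le (inf_le_inf (l.trans (inf_le_left.trans lM)) (centralizer_le (by simp))) hfpf)
  have c : Om 2 (M ⊓ cen M) ≤ cen (zpowers (d ^ 3)) := by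
    refine (four_cases (pD.to_le lA) (lA.trans nW) o).resolve_left fun e => ?_
    have := card_modEq_of_conj (inf_le_left : Om 2 (M ⊓ cen M) ⊓ cen (zpowers (d ^ 3)) ≤ _) nW (nrm_inf nW (nrm_cen nA))
      fun x hx nx => key x fun k => nx ⟨hx, k⟩
    rw [e, o, card_bot] at this
    exact absurd this (by decide)
  obtain ⟨x, -, h1, h2⟩ := h.rk2 nA hr (l.trans inf_le_left) (l.trans inf_le_right) eW o c
  exact h2 (key x h1)

end Cfsg.Agent.S3738
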