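import Cfsg.Statements.S3739
import Cfsg.Agent.H7.QC

set_option autoImplicit false
open Cfsg

namespace Cfsg.Agent.S3739
open H7
open scoped commutatorElement

/-- Let G be a finite group with C_G(O₂(G)) ≤ O₂(G) containing an element of order 6, and let d be a non-identity 3-element of G normalizing a nontrivial elementary abelian 2-subgroup W with C_W(d) = 1. Then G has an elementary abelian subgroup of order 8. -/
theorem result {G : Type*} [Group G] [Finite G] (hchar : Subgroup.centralizer (Cfsg.pCore 2 G : Set G) ≤ Cfsg.pCore 2 G) (hsix : ∃ g : G, orderOf g = 6) (d : G) (hd1 : d ≠ 1) (hd : IsPGroup 3 ↥(Subgroup.zpowers d)) (W : Subgroup G) (hW : Cfsg.IsElementaryAbelian 2 W) (hW1 : W ≠ ⊥) (hdW : d ∈ Subgroup.normalizer (W : Set G)) (hfpf : W ⊓ Subgroup.centralizer {d} = ⊥) : ∃ E : Subgroup G, Cfsg.IsElementaryAbelian 2 E ∧ Nat.card E = 8 := by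
  open Subgroup in
  haveI := Fact.mk Nat.prime_three
  by_contra ne
  have hr : Rk 2 2 (⊤ : Subgroup G) := by_contra fun k => let ⟨A, _, a, b⟩ := not_rk_iff'.1 k; ne ⟨A, a, b⟩
  have nQ : ⊤ ≤ nrm (pCore 2 G) := normal_iff_top_le_nrm.1 inferInstance
  have pQ : IsPGroup 2 (pCore 2 G) := by rw [pCore_eq]; exact isPGroup_Op _ _
  set Q := pCore 2 G
  have hf : W ⊓ cen (zpowers d) = ⊥ := eq_bot_of_le (inf_le_inf_left _ (centralizer_le (by simp))) hfpf
  have oW := four_of_fpf hd (zpowers_le.2 hdW) (EA.isPGroup hW) (hr _ le_top hW) hW1 hf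
  have q0 : Q ≠ ⊥ := fun e => hW1 (eq_bot_of_le (le_top.trans ((e ▸ le_cen_bot ⊤).trans hchar)) e)
  have eZ := ea_Om (p := 2) (isComm_center Q)
  have l : Om 2 (Q ⊓ cen Q) ≤ Q ⊓ cen Q := Om_le _ _
  have nZ : ⊤ ≤ nrm (Om 2 (Q ⊓ cen Q)) := nrm_Om (nrm_center nQ)
  have z0 := Om_ne_bot' pQ.to_inf_left (pgroup_inf_cen_ne_bot' pQ pQ (le_nrm_self _) q0)
  set Z := Om 2 (Q ⊓ cen Q)
  have mx : ∀ x, x ∈ cen W → x ^ 2 = 1 → x ∈ W := fun x h1 h2 => hr.Om_cen_le le_top hW oW (mem_Om ⟨trivial, h1⟩ h2)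
  have WZ : W = Z := by
    have h1 : Z ⊓ cen W ≤ W := fun x hx => mx x hx.2 (eZ.pow hx.1)
    have h2 := pgroup_inf_cen_ne_bot' (EA.isPGroup hW) eZ.isPGroup (le_top.trans nZ) z0
    have o := four_of_fpf hd (nrm_inf (le_top.trans nZ) (nrm_cen (zpowers_le.2 hdW))) eZ.isPGroup.to_inf_left
      ((H2.card_le_of_le' h1).trans oW.le) h2 (eq_bot_of_le (inf_le_inf_right _ h1) hf)
    have e := H2.eq_of_le_of_card_le h1 (oW.trans o.symm).le
    exact H2.eq_of_le_of_card_le (e.ge.trans inf_le_left) ((hr _ le_top eZ).trans oW.ge)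
  subst WZ
  obtain ⟨g, hg⟩ := hsix
  have g6 : g ^ 6 = 1 := by rw [← hg, pow_orderOf_eq_one]
  have p3 : IsPGroup 3 (zpowers (g ^ 2)) := H2.isPGroup_zpowers (k := 1) (by rw [← pow_mul]; exact g6)
  have p2 : IsPGroup 2 (zpowers (g ^ 3)) := H2.isPGroup_zpowers (k := 1) (by rw [← pow_mul]; exact g6)
  have cc : zpowers (g ^ 2) ≤ cen (zpowers (g ^ 3)) := (zpowers_le.2 (pow_mem (mem_zpowers g) 2)).trans
    ((le_centralizer (zpowers g)).trans (cen_anti (zpowers_le.2 (pow_mem (mem_zpowers g) 3))))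
  have c3 : Z ≤ cen (zpowers (g ^ 2)) := by
    refine (four_cases p3 (le_top.trans nZ) oW).resolve_left fun e => ?_
    have h2 := pgroup_inf_cen_ne_bot' p2 eZ.isPGroup (le_top.trans nZ) z0
    have o := four_of_fpf p3 (nrm_inf (le_top.trans nZ) (nrm_cen (cc.trans (cen_le_nrm _)))) eZ.isPGroup.to_inf_left
      ((H2.card_le_of_le' inf_le_left).trans oW.le) h2 (eq_bot_of_le (inf_le_inf_right _ inf_le_left) e)
    have e2 := inf_eq_left.1 (H2.eq_of_le_of_card_le inf_le_left (oW.trans o.symm).le)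
    have := e.le ⟨mx _ (le_cen_symm e2 (mem_zpowers _)) (by rw [← pow_mul]; exact g6), le_cen_symm cc (mem_zpowers _)⟩
    exact absurd (hg ▸ orderOf_dvd_of_pow_eq_one this) (by decide)
  obtain ⟨R, hR, lR⟩ := H2.exists_isSylowIn_ge hd le_top
  have sA := syl_inf hR le_top (le_top.trans (nrm_cen nZ))
  have a0 : R ⊓ cen Z ≠ ⊥ := syl_ne_bot sA ((H2.dvd_card_of_ne_bot p3 fun e =>
    absurd (hg ▸ orderOf_dvd_of_pow_eq_one (zpowers_eq_bot.1 e)) (by decide)).trans (card_dvd_of_le (le_cen_symm c3)))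
  have nA : R ≤ nrm (R ⊓ cen Z : Subgroup G) := nrm_inf (le_nrm_self _) (le_top.trans (nrm_cen nZ))
  obtain ⟨M, lM, h⟩ := exists_minQ pQ (le_top.trans nQ) inf_le_left nA (coprime_pgroup sA.isPGroup (by norm_num))
    fun k => a0 (eq_bot_of_isPGroup_of_coprime (pQ.to_le (k.trans hchar)) (coprime_pgroup sA.isPGroup (by norm_num)))
  have ZM : Z ≤ M := by
    have m0 : M ≠ ⊥ := fun e => h.nc (e ▸ le_cen_bot _)
    have h1 : Om 2 M ≤ Z := Om_le_iff.2 fun x hx => mx x (le_cen_symm (l.trans inf_le_right) (lM hx))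
    have o := four_of_fpf hd (lR.trans (nrm_Om h.norm)) (h.pg.to_le (Om_le _ _)) ((H2.card_le_of_le' h1).trans oW.le)
      (Om_ne_bot' h.pg m0) (eq_bot_of_le (inf_le_inf_right _ h1) hf)
    exact (H2.eq_of_le_of_card_le h1 (oW.trans o.symm).le).ge.trans (Om_le _ _)
  have cM := (l.trans inf_le_right).trans (cen_anti lM)
  obtain ⟨x, hx, h1, h2⟩ := h.rk2 nA (hr.of_le le_top) ZM cM eZ oW (le_cen_symm inf_le_right)
  have x2 : x ^ 2 ≠ 1 := fun e => h1 (le_cen_symm inf_le_right (mx x (le_cen_symm cM hx) e))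
  have l1 : R ⊓ cen1 x ≤ R ⊓ cen Z := le_inf inf_le_left (le_cen_symm ((four_cases hR.isPGroup.to_inf_left (le_top.trans nZ) oW).resolve_left
    fun e => x2 (e.le ⟨mx _ (pow_mem (le_cen_symm cM hx) 2) (by
      rcases h.sm x hx with k | ⟨-, k⟩
      · rw [k, one_pow]
      · rw [← pow_mul, k]), pow_mem (show x ∈ cen (R ⊓ cen1 x : Subgroup G) from fun g hg => mem_centralizer_singleton_iff.1 hg.2) 2⟩)))
  refine h2 ?_
  rw [← inf_relIndex_left, ← relIndex_mul_relIndex _ _ _ l1 inf_le_left]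
  refine (mul_dvd_mul (H2.dvd_relIndex_of_not_le sA.isPGroup fun k => h1 fun g hg => mem_centralizer_singleton_iff.1 ((k.trans inf_le_right) hg))
    (H2.dvd_relIndex_of_not_le hR.isPGroup fun k => z0 (eq_bot_of_le (le_inf le_rfl (le_cen_symm (lR.trans (k.trans inf_le_right)))) hf)) :
    3 * 3 ∣ _)

end Cfsg.Agent.S3739
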