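import Cfsg.Statements.S3740
import Cfsg.Agent.H4.Cls3

set_option autoImplicit false
open Cfsg

namespace Cfsg.Agent.S3740

open H4 in
open scoped MatrixGroups commutatorElement in
lemma q8ex : ∃ x y z w : SL(2, ZMod 3), ⁅x, y⁆ * ⁅z, w⁆ ≠ ⁅z, w⁆ * ⁅x, y⁆ :=
  ⟨⟨!![1, 1; 0, 1], by decide⟩, ⟨!![1, 0; 1, 1], by decide⟩, ⟨!![1, 0; 1, 1], by decide⟩,
    ⟨!![1, 2; 0, 1], by decide⟩, by decide +kernel⟩

/-- Let F be a finite field of odd characteristic p and let a be a p-element of SL₂(F) normalizing a subgroup R of order prime to p with [R, a] ≠ 1. Then p = 3, R is a quaternion group of order 8, and R⟨a⟩ is isomorphic to SL₂(3). -/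
theorem result (F : Type) [Field F] [Fintype F] {p : ℕ} [Fact p.Prime] [CharP F p] (hp : p ≠ 2) (a : Matrix.SpecialLinearGroup (Fin 2) F) (ha : IsPGroup p ↥(Subgroup.zpowers a)) (R : Subgroup (Matrix.SpecialLinearGroup (Fin 2) F)) (hR : (Nat.card R).Coprime p) (haR : a ∈ Subgroup.normalizer (R : Set (Matrix.SpecialLinearGroup (Fin 2) F))) (hnt : ⁅R, Subgroup.zpowers a⁆ ≠ ⊥) : p = 3 ∧ Nonempty (↥R ≃* QuaternionGroup 2) ∧ Nonempty (↥(R ⊔ Subgroup.zpowers a) ≃* Matrix.SpecialLinearGroup (Fin 2) (ZMod 3)) := by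
  classical
  open H4 in
  open scoped MatrixGroups commutatorElement in
  have hq : Odd (Nat.card F) := (char_ne_two_iff_odd (p := p)).1 hp
  have h2 : (2 : F) ≠ 0 := H4.two_ne_zero_iff_odd.2 hq
  set H := R ⊔ Subgroup.zpowers a with hH
  have hle : Subgroup.zpowers a ≤ Subgroup.normalizer (R : Set _) := by simpa using haR
  have hc : ∀ g ∈ H, ∀ h ∈ H, g * h * g⁻¹ * h⁻¹ ∈ R := by
    intro g hg h hh
    rw [← SetLike.mem_coe, Subgroup.coe_mul_of_right_le_normalizer_left _ _ hle] at hg hh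
    obtain ⟨r, hr, u, hu, rfl⟩ := hg
    obtain ⟨s, hs, v, hv, rfl⟩ := hh
    have e : u * v = v * u := by
      obtain ⟨m, rfl⟩ := hu; obtain ⟨n, rfl⟩ := hv; exact (Commute.zpow_zpow_self a m n).eq
    have : r * u * (s * v) * (r * u)⁻¹ * (s * v)⁻¹ =
        r * (u * s * u⁻¹) * (v * r⁻¹ * v⁻¹) * s⁻¹ := by
      have : v * u⁻¹ = u⁻¹ * v := (Commute.inv_left (show Commute u v from e)).eq.symm
      calc _ = r * u * s * (v * u⁻¹) * r⁻¹ * v⁻¹ * s⁻¹ := by group
        _ = _ := by rw [this]; group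
    exact this ▸ mul_mem (mul_mem (mul_mem hr (((hle hu) s).1 hs)) (((hle hv) _).1 (inv_mem hr)))
      (inv_mem hs)
  have haH : a ∈ H := Subgroup.mem_sup_right (Subgroup.mem_zpowers a)
  obtain ⟨n, hn⟩ : ∃ n, a ^ p ^ n = 1 := (ha ⟨a, Subgroup.mem_zpowers a⟩).imp fun n h =>
    congrArg Subtype.val h
  obtain ⟨r, hr, hra⟩ : ∃ r ∈ R, a * (r * a * r⁻¹) ≠ (r * a * r⁻¹) * a := by
    by_contra hcon
    push Not at hcon
    apply hnt
    rw [Subgroup.commutator_comm, Subgroup.commutator_eq_bot_iff_le_centralizer, Subgroup.zpowers_le,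
      Subgroup.mem_centralizer_iff]
    intro r hr
    have h1 : r * a * r⁻¹ * a⁻¹ ∈ R := hc r (Subgroup.mem_sup_left hr) a haH
    have h3 : (r * a * r⁻¹ * a⁻¹) ^ p ^ n = 1 := by
      rw [Commute.mul_pow (Commute.inv_right (hcon r hr).symm), conj_pow, inv_pow, hn]; simp
    have h4 := Nat.eq_one_of_dvd_coprimes (hR.pow_right n) (Subgroup.orderOf_dvd_natCard R h1)
      (orderOf_dvd_iff_pow_eq_one.2 h3)
    rwa [orderOf_eq_one_iff, mul_inv_eq_one, mul_inv_eq_iff_eq_mul] at h4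
  set π := (Matrix.SpecialLinearGroup.toPGL : Matrix.SpecialLinearGroup (Fin 2) F →* _) with hπ
  have hc' : ∀ g ∈ H.map π, ∀ h ∈ H.map π, g * h * g⁻¹ * h⁻¹ ∈ R.map π := by
    rintro _ ⟨g, hg, rfl⟩ _ ⟨h, hh, rfl⟩
    exact ⟨_, hc g hg h hh, by simp⟩
  have hR' : ∀ g ∈ R.map π, g ^ p ^ n = 1 ∨ g ^ p = 1 → g = 1 := fun g hg h => by
    have h0 := (Subgroup.orderOf_dvd_natCard _ hg).trans (Subgroup.card_map_dvd R π)
    rw [← orderOf_eq_one_iff]
    rcases h with h | h
    · exact Nat.eq_one_of_dvd_coprimes (hR.pow_right n) h0 (orderOf_dvd_iff_pow_eq_one.2 h)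
    · exact Nat.eq_one_of_dvd_coprimes hR h0 (orderOf_dvd_iff_pow_eq_one.2 h)
  have ha1 : π a ≠ 1 := fun e => hra (by rcases H4.toPGL_eq_one_iff.1 e with e | e <;> simp [e])
  have han : π a ^ p ^ n = 1 := by rw [← map_pow, hn, map_one]
  have hpH : p ∣ Nat.card (H.map π) := by
    obtain ⟨k, -, hk⟩ := (Nat.dvd_prime_pow Fact.out).1 (orderOf_dvd_iff_pow_eq_one.2 han)
    have := Subgroup.orderOf_dvd_natCard (H.map π) ⟨a, haH, rfl⟩
    rw [hk] at this
    refine (dvd_pow_self p ?_).trans this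
    rintro rfl
    exact ha1 (orderOf_eq_one_iff.1 hk)
  have haff : ∀ (m) (s : Fˣ), s ≠ 1 → m * H4.aff s 0 * m⁻¹ ∈ H.map π →
      m * H4.aff 1 1 * m⁻¹ ∉ H.map π := fun m s hs h1 h2 => by
    have h3 := hc' _ h1 _ h2
    have : m * H4.aff s 0 * m⁻¹ * (m * H4.aff 1 1 * m⁻¹) * (m * H4.aff s 0 * m⁻¹)⁻¹ *
        (m * H4.aff 1 1 * m⁻¹)⁻¹ = m * H4.aff 1 ((s : F) - 1) * m⁻¹ := by
      have : H4.aff 1 ((s : F) - 1) = H4.aff s 0 * H4.aff 1 1 * (H4.aff s 0)⁻¹ * (H4.aff 1 1)⁻¹ := by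
        simp [H4.aff_inv, H4.aff_mul, sub_eq_add_neg, add_comm]
      rw [this]; group
    rw [this] at h3
    have h4 := hR' _ h3 (Or.inr (H4.isU_pow_char (H4.isU_iff_aff.2 ⟨_, rfl⟩)))
    rw [conj_eq_one_iff, ← H4.aff_one] at h4
    exact hs (Units.ext (sub_eq_zero.1 (H4.aff_inj h4).2))
  have main : p = 3 ∧ Nat.card (H.map π) ≤ 12 := by
    rcases H4.dickson_pgl (p := p) (H.map π) with ⟨x, hx⟩ | ⟨x, y, m, h, hD⟩ | ⟨k, m, h | h⟩ |
      ⟨h, -⟩ | ⟨-, ⟨e⟩⟩
    · refine absurd (H4.sl_comm_of_isU (x := x) (H4.isU_of_pow (hx _ ⟨a, haH, rfl⟩) han)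
        (H4.isU_of_pow (p := p) (n := n) (hx _ ⟨_, ?_, rfl⟩) ?_)) hra
      · have := Subgroup.mem_sup_left (T := Subgroup.zpowers a) hr
        exact mul_mem (mul_mem this haH) (inv_mem this)
      · rw [← map_pow, conj_pow, hn]; simp
    · exfalso
      have h1 := hpH.trans (Subgroup.card_dvd_of_le hD)
      rw [h.card_D.1] at h1
      have h3 := H4.char_dvd_card (F := F) p
      have h4 : 1 < Nat.card F := Finite.one_lt_card
      have hp' : p.Prime := Fact.out
      rcases (Nat.Prime.dvd_mul hp').1 h1 with h1 | h1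
      · exact hp ((Nat.prime_dvd_prime_iff_eq hp' Nat.prime_two).1 h1)
      · rcases h.cases with rfl | rfl
        · exact hp'.one_lt.ne' (Nat.dvd_one.1 ((Nat.dvd_sub_iff_right h4.le h3).1 h1))
        · exact hp'.one_lt.ne' (Nat.dvd_one.1 ((Nat.dvd_add_right h3).1 h1))
    · exfalso
      refine haff m (-1) (fun e => h2 ?_) ?_ ?_
      · have := congrArg Units.val e; simp at this; linear_combination -this
      · rw [h]; exact ⟨_, ⟨H4.aff (-1) 0, by rw [H4.pgl_map_aff]; simp⟩, rfl⟩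
      · rw [h]; exact ⟨_, ⟨H4.aff 1 1, by rw [H4.pgl_map_aff]; simp⟩, rfl⟩
    · have hk : ∀ c : k, c ≠ 0 → c ^ 2 = 1 := fun c hc => by
        by_contra h1
        have hc' : (c : F) ≠ 0 := by simpa using hc
        refine haff m (Units.mk0 (c : F) hc' ^ 2) (fun e => h1 ?_) ?_ ?_
        · have := congrArg Units.val e; exact Subtype.ext (by simpa using this)
        · rw [h]
          refine ⟨_, ?_, rfl⟩
          have := H4.mob_mem_pslSub k.subtype (a := c) (b := 0) (c := 0) (d := c⁻¹) (by simp [hc])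
          rw [H4.mob_eq_of_smul (c : F) hc' (a' := ((Units.mk0 (c : F) hc' ^ 2 : Fˣ) : F)) (b' := 0)
            (c' := 0) (d' := 1) (h' := by simp [hc']) (by simp [sq]) (by simp) (by simp)
            (by simp [hc'])] at this
          exact this
        · rw [h]; exact ⟨_, by simpa using H4.aff_one_mem_pslSub k.subtype 1, rfl⟩
      have hk3 : Nat.card k ≤ 3 := by
        haveI := Fintype.ofFinite k
        have := Finset.card_le_card (show Finset.univ ⊆ ({0, 1, -1} : Finset k) from fun c _ => by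
          by_cases hc : c = 0
          · simp [hc]
          · rcases sq_eq_one_iff.1 (hk c hc) with e | e <;> simp [e])
        rw [Finset.card_univ, ← Nat.card_eq_fintype_card] at this
        exact this.trans Finset.card_le_three
      have h3 := Nat.le_of_dvd Nat.card_pos (H4.char_dvd_card (F := k) p)
      have h4 := (Fact.out : p.Prime).two_le
      refine ⟨by omega, ?_⟩
      have h5 := H4.card_pslSub_mul k.subtype
      rw [show Nat.card k = 3 by omega] at h5
      rw [h]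
      have := Nat.le_of_dvd Nat.card_pos (Subgroup.card_map_dvd (H4.pslSub k.subtype)
        (MulAut.conj m).toMonoidHom)
      norm_num at h5
      omega
    · exact absurd hpH h
    · exfalso
      refine ha1 (hR' _ ?_ (Or.inl han))
      have h1 : commutator (alternatingGroup (Fin 5)) ≤
          (R.map π).comap ((H.map π).subtype.comp e.symm.toMonoidHom) := by
        rw [commutator_def, Subgroup.commutator_le]
        intro g _ h _
        simpa [commutatorElement_def] using hc' _ (e.symm g).2 _ (e.symm h).2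
      rw [commutator_alternatingGroup_eq_top (by simp)] at h1
      simpa using h1 (Subgroup.mem_top (e ⟨π a, a, haH, rfl⟩))
  obtain ⟨rfl, h12⟩ := main
  obtain ⟨M, hM⟩ := H4.exists_sl2_le hp H haH (b := r * a * r⁻¹) (by
      have := Subgroup.mem_sup_left (T := Subgroup.zpowers a) hr
      exact mul_mem (mul_mem this haH) (inv_mem this)) hn (by rw [conj_pow, hn]; simp) hra
  set φ := (H4.slConj M).comp (Matrix.SpecialLinearGroup.map (ZMod.castHom (dvd_refl 3) F))
  have hφ : Function.Injective φ := (H4.slConj_injective M).comp (H4.sl_map_injective _)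
  have h24 : Nat.card φ.range = 24 := by rw [H4.card_range_of_injective hφ, H4.card_sl2]; simp
  have hH24 : Nat.card H ≤ 24 := by
    rw [← H4.card_map_mul_ker π H]
    have := Nat.le_of_dvd (by rw [H4.card_ker_toPGL h2]; norm_num)
      (Subgroup.card_dvd_of_le (inf_le_left : π.ker ⊓ H ≤ π.ker))
    rw [H4.card_ker_toPGL h2] at this
    nlinarith
  have hE : φ.range = H := H2.eq_of_le_of_card_le hM (h24 ▸ hH24)
  refine ⟨rfl, ?_, ⟨(MulEquiv.subgroupCongr hE.symm).trans (MonoidHom.ofInjective hφ).symm⟩⟩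
  have h8 : Nat.card R ∣ 2 ^ 3 := by
    have : Nat.card R ∣ Nat.card H := Subgroup.card_dvd_of_le le_sup_left
    rw [← hE, h24] at this
    exact hR.dvd_of_dvd_mul_right this
  obtain ⟨j, -, hj⟩ := (Nat.dvd_prime_pow Nat.prime_two).1 h8
  obtain ⟨k, hk, ⟨e⟩⟩ := H4.quaternion_of_two_group h2 (IsPGroup.of_card hj) (fun h => by
    obtain ⟨x, y, z, w, hne⟩ := q8ex
    refine hne (hφ ?_)
    simp only [map_mul, map_inv, commutatorElement_def]
    exact h _ (hc _ (hM ⟨_, rfl⟩) _ (hM ⟨_, rfl⟩)) _ (hc _ (hM ⟨_, rfl⟩) _ (hM ⟨_, rfl⟩)))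
  have := Nat.le_of_dvd (by norm_num) h8
  rw [Nat.card_congr e.toEquiv, Nat.card_eq_fintype_card, QuaternionGroup.card] at this
  obtain rfl : k = 1 := by
    by_contra h
    have := Nat.pow_le_pow_right two_pos (show 2 ≤ k by omega)
    omega
  exact ⟨e⟩

end Cfsg.Agent.S3740
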