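import Cfsg.Statements.S3744
import Cfsg.Agent.H1.Hall

set_option autoImplicit false
open Cfsg

namespace Cfsg.Agent.S3744

/-- A finite p-soluble group has a p-complement, all its p-complements are conjugate, and every subgroup of order prime to p lies in one of them. Here a p-complement is a subgroup of order prime to p whose index is a power of p. -/
theorem result {G : Type*} [Group G] [Finite G] {p : ℕ} [Fact p.Prime] (hG : Cfsg.IsPSolvable p G) : (∃ H : Subgroup G, (Nat.card H).Coprime p ∧ ∃ n : ℕ, H.index = p ^ n) ∧ (∀ H₁ H₂ : Subgroup G, (Nat.card H₁).Coprime p → (∃ n : ℕ, H₁.index = p ^ n) → (Nat.card H₂).Coprime p → (∃ n : ℕ, H₂.index = p ^ n) → ∃ g : G, H₂ = H₁.map (MulAut.conj g).toMonoidHom) ∧ (∀ U : Subgroup G, (Nat.card U).Coprime p → ∃ H : Subgroup G, (Nat.card H).Coprime p ∧ (∃ n : ℕ, H.index = p ^ n) ∧ ∃ g : G, U.map (MulAut.conj g).toMonoidHom ≤ H) := by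
  have hp : p.Prime := Fact.out
  have h := ((H1.isPSolvable_iff_piSep hp).1 hG).compl
  have key : ∀ H : Subgroup G, Cfsg.IsPiHall {p}ᶜ H ↔
      (Nat.card H).Coprime p ∧ ∃ n : ℕ, H.index = p ^ n := fun H => by
    rw [H1.isPiHall_iff, H1.PiNum.compl_compl_iff, H1.PiNum.compl_singleton_iff hp,
      H1.PiNum.singleton_iff hp Subgroup.index_ne_zero_of_finite]
  refine ⟨h.exists_hall.imp fun H hH => (key H).1 hH, fun H₁ H₂ h1 h2 h3 h4 => ?_, fun U hU => ?_⟩
  · obtain ⟨g, hg⟩ := h.hall_conj ((key _).2 ⟨h1, h2⟩) ((key _).2 ⟨h3, h4⟩)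
      (Or.inl H1.piPrimeSolv_compl_singleton)
    exact ⟨g, hg.symm⟩
  · obtain ⟨H, hH, hle⟩ := h.exists_hall_ge ((H1.PiNum.compl_singleton_iff hp).2 hU)
      (Or.inl H1.piPrimeSolv_compl_singleton)
    exact ⟨H, ((key H).1 hH).1, ((key H).1 hH).2, 1, (H1.conj_one_smul U).le.trans hle⟩

end Cfsg.Agent.S3744
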