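import Cfsg.Statements.S3746
import Cfsg.Agent.H1.V1

set_option autoImplicit false
open Cfsg

namespace Cfsg.Agent.S3746

open H7 H1B Subgroup

/-- Let Z ≤ Z(G) be a central subgroup of a finite group G and E a subgroup of G containing Z whose image E/Z is a component of G/Z (subnormal and quasisimple). Then the derived subgroup [E, E] is a component of G. -/
theorem result {G : Type*} [Group G] [Finite G] (Z : Subgroup G) (hZ : Z ≤ Subgroup.center G) [Z.Normal] (E : Subgroup G) (hZE : Z ≤ E) (hE : Cfsg.IsComponent (E.map (QuotientGroup.mk' Z))) : Cfsg.IsComponent ⁅E, E⁆ := by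
  have h1 := isComponent_iff.1 hE
  have h2 : kr (res (QuotientGroup.mk' Z) ⊤) = Z := ker_mk Z
  rw [← im_top] at h1
  have h3 := h1.sn.pre (res (QuotientGroup.mk' Z) ⊤)
  rw [pre_top, pre_im_of_le le_top (h2.le.trans hZE)] at h3
  refine isComponent_iff.2 ⟨(SN.of_normal (comm_le_of_le le_rfl le_rfl)
    (nrm_commutator (le_nrm_self _) (le_nrm_self _))).trans h3, (QS.of_im_comm le_top ?_ h1.qs).1⟩
  rw [h2]
  exact inf_le_right.trans (hZ.trans (cen_top.ge.trans (cen_anti le_top)))

end Cfsg.Agent.S3746
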