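import Cfsg.Statements.S3747
import Cfsg.Agent.H1.V1

set_option autoImplicit false
open Cfsg

namespace Cfsg.Agent.S3747

open H7 H1B Subgroup
theorem aux {G : Type*} [Group G] [Finite G] (S : Set (Subgroup G))
    (h : ∀ K ∈ S, IsComp K ⊤ ∧ K ⊓ cen K = ⊥) : sSup S ⊓ cen (sSup S) = ⊥ := by
  induction S, S.toFinite using Set.Finite.induction_on with
  | empty => simp
  | @insert K S hK _ ih =>
    have h1 := h K (Set.mem_insert _ _)
    have h2 : sSup S ≤ cen K := sSup_le fun L hL =>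
      (h L (Set.mem_insert_of_mem _ hL)).1.cen_of_ne h1.1 (by rintro rfl; exact hK hL)
    rw [sSup_insert, eq_bot_iff, ← ih fun L hL => h L (Set.mem_insert_of_mem _ hL)]
    rintro z ⟨hz, hz'⟩
    obtain ⟨k, hk, e, he, rfl⟩ := (mem_sup_nrm' (le_nrm_of_le_cen h2)).1 hz
    have h3 : k ∈ K ⊓ cen K := ⟨hk, (mul_mem_cancel_right (h2 he)).1 (cen_anti le_sup_left hz')⟩
    rw [h1.2, mem_bot] at h3
    subst h3
    exact ⟨by simpa using he, cen_anti le_sup_right hz'⟩

/-- Let G be a finite group. (a) If K is a component of G with trivial centre, then the normal closure of K in G is a minimal normal subgroup of G. (b) If the Fitting subgroup of G is trivial, then the layer E(G) is generated by the minimal normal subgroups of G. -/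
theorem result {G : Type*} [Group G] [Finite G] : (∀ K : Subgroup G, Cfsg.IsComponent K → Subgroup.center ↥K = ⊥ → (Subgroup.normalClosure (K : Set G) ≠ ⊥ ∧ ∀ N : Subgroup G, N.Normal → N ≤ Subgroup.normalClosure (K : Set G) → N = ⊥ ∨ N = Subgroup.normalClosure (K : Set G))) ∧ (Cfsg.fittingSubgroup G = ⊥ → sSup {N : Subgroup G | N ≠ ⊥ ∧ N.Normal ∧ ∀ N' : Subgroup G, N'.Normal → N' ≤ N → N' = ⊥ ∨ N' = N} = Cfsg.layer G) := by
  have key : ∀ K : Subgroup G, IsComp K ⊤ → K ⊓ cen K = ⊥ → H1.ncl K ⊤ ≠ ⊥ ∧ ∀ N : Subgroup G, N.Normal →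
      N ≤ H1.ncl K ⊤ → N = ⊥ ∨ N = H1.ncl K ⊤ := by
    intro K hK hZ
    refine ⟨fun h => hK.qs.ne_bot (eq_bot_iff.2 (h ▸ H1.le_ncl)), fun N hN hle => ?_⟩
    rcases hK.le_or_cen (SN.of_normal le_top (top_nrm N)) with h | h
    · exact Or.inr (le_antisymm hle (H1.ncl_le h (top_nrm N)))
    left
    have h1 : H1.ncl K ⊤ ≤ cen N := H1.ncl_le h (nrm_cen (top_nrm N))
    have e : H1.ncl K ⊤ = sSup (Set.range fun g => cj g K) :=
      le_antisymm (H1.ncl_le_iff.2 fun g _ => le_sSup ⟨g, rfl⟩)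
        (sSup_le (by rintro _ ⟨g, rfl⟩; exact H1.cj_le_ncl trivial))
    rw [eq_bot_iff, ← aux (Set.range fun g => cj g K), ← e]
    · exact le_inf hle (le_cen_symm h1)
    · rintro _ ⟨g, rfl⟩
      exact ⟨hK.cj_of_mem_nrm (nrm_top_le ⊤ trivial), by rw [← cj_cen, ← H7.cj_inf, hZ, H2.cj_bot]⟩
  refine ⟨fun K hK hZ => ?_, fun hF => ?_⟩
  · rw [← H1.ncl_top]
    exact key K (isComponent_iff.1 hK) (by rw [← center_map_subtype, hZ, Subgroup.map_bot])
  · rw [fitting_eq] at hF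
    rw [layer_eq]
    refine le_antisymm (sSup_le fun N ⟨h1, h2, h3⟩ => ?_) (Lay_le_iff.2 fun K hK => ?_)
    · obtain ⟨K, hK, hKN⟩ := exists_isComp_le (SN.of_normal le_top (top_nrm N)) (hF ▸ le_cen_bot N)
        fun hs => inf_Fit_ne_bot le_top (top_nrm N) hs h1 (by rw [hF, bot_inf_eq])
      haveI := normal_of (le_nrm_Lay (⊤ : Subgroup G))
      rcases h3 (N ⊓ Lay ⊤) inferInstance inf_le_left with h | h
      · exact absurd (eq_bot_iff.2 (h ▸ le_inf hKN hK.le_Lay)) hK.qs.ne_bot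
      · exact h.ge.trans inf_le_right
    · obtain ⟨h1, h2⟩ := key K hK (eq_bot_iff.2 (hF ▸ le_Fit_of_sn ((SN.of_normal inf_le_left
        (H7.nrm_center (le_nrm_self _))).trans hK.sn) (nilp_of_comm (isComm_center K))))
      exact H1.le_ncl.trans (le_sSup ⟨h1, inferInstance, h2⟩)

end Cfsg.Agent.S3747
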