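import Cfsg.Statements.S3749
import Cfsg.Agent.H1.V3

set_option autoImplicit false
open Cfsg

namespace Cfsg.Agent.S3749

open H7 H1B Subgroup

/-- Call a proper subgroup M of G primitive when M = N_G(N) for every non-trivial normal subgroup N of M. Let M be a primitive subgroup of the finite group G, p a prime with O_p(M) ≠ 1, and N a normal subgroup of G with M ∩ N = 1. Then p does not divide the order of N; for every prime q there is exactly one Sylow q-subgroup of N normalized by M; and if the order of N has at least two prime divisors then M is not a maximal subgroup of G. -/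
theorem result {G : Type*} [Group G] [Finite G] (M : Subgroup G) (hM : M ≠ ⊤) (hprim : ∀ N : Subgroup G, N ≤ M → M ≤ Subgroup.normalizer (N : Set G) → N ≠ ⊥ → Subgroup.normalizer (N : Set G) = M) {p : ℕ} [Fact p.Prime] (hOp : Cfsg.pCore p ↥M ≠ ⊥) (N : Subgroup G) [N.Normal] (hMN : M ⊓ N = ⊥) : ¬ p ∣ Nat.card N ∧ (∀ q : ℕ, [Fact q.Prime] → ∃! Q : Sylow q ↥N, M ≤ Subgroup.normalizer ((Q : Subgroup ↥N).map N.subtype : Set G)) ∧ ((∃ q r : ℕ, q.Prime ∧ r.Prime ∧ q ≠ r ∧ q ∣ Nat.card N ∧ r ∣ Nat.card N) → ¬ IsCoatom M) := by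
  rw [Ne, pCore_eq_bot_iff] at hOp
  have nN : ∀ A : Subgroup G, A ≤ nrm N := fun A => le_nrm_of_normal A N
  have hQ := hprim _ (Opi_le _ M) (le_nrm_Opi _ M) hOp
  have h0 : N ⊓ cen (Op p M) = ⊥ := eq_bot_iff.2 (hMN ▸ le_inf (inf_le_right.trans ((cen_le_nrm _).trans hQ.le)) inf_le_left)
  have h1 : ¬ p ∣ Nat.card N := fun hd => by
    obtain ⟨R, hR, hn⟩ := exists_syl_inv (isPGroup_Op p M) (nN _)
    exact pgroup_inf_cen_ne_bot' (isPGroup_Op p M) hR.isPGroup hn (syl_ne_bot hR hd)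
      (eq_bot_iff.2 (h0 ▸ inf_le_inf_right _ hR.le))
  have hc : Cop (Op p M) N := cop_of_pgroup (isPGroup_Op p M) (coprime_iff_not_dvd.2 h1) (nN _)
  have u : ∀ q, [Fact q.Prime] → ∀ P R, IsSylowIn q P N → IsSylowIn q R N → Op p M ≤ nrm P → Op p M ≤ nrm R → P = R :=
    fun q _ P R hP hR n1 n2 => by
      obtain ⟨c, hc1, e⟩ := hc.syl_conj hP hR n1 n2
      rw [h0, mem_bot] at hc1
      rw [← e, hc1]; simp
  have ex : ∀ q, [Fact q.Prime] → ∃ P, IsSylowIn q P N ∧ M ≤ nrm P := fun q _ => by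
    obtain ⟨P, hP, n⟩ := hc.exists_syl q
    refine ⟨P, hP, fun m hm => cj_eq_self_iff.1 (u q _ _ (syl_cj_of_mem hP (nN ⊤ (mem_top m))) hP ?_ n)⟩
    rw [← cj_nrm, ← cj_of_mem_nrm (le_nrm_Opi {p} M hm)]; exact H7.cj_mono m n
  refine ⟨h1, fun q _ => ?_, fun ⟨q, r, hq, hr, hne, d1, d2⟩ hco => ?_⟩
  · obtain ⟨P, hP, n⟩ := ex q
    obtain ⟨S, e⟩ := (syl_to_H1 hP).exists_sylow
    refine ⟨S, by simpa only [e] using n, fun T hT => Sylow.ext (eq_iff_map.2 ?_)⟩
    rw [e]; exact u q _ _ (syl_sub T) hP ((Opi_le _ _).trans hT) ((Opi_le _ _).trans n)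
  · haveI := Fact.mk hq
    obtain ⟨P, hP, n⟩ := ex q
    have h2 : P ⊔ M = ⊤ := ((coatom_iff.1 hco).2 _ le_sup_right le_top).resolve_left fun e =>
      syl_ne_bot hP d1 (eq_bot_iff.2 (hMN ▸ le_inf (le_sup_left.trans e.le) hP.le))
    have h3 := modular' n hP.le
    rw [h2, hMN, top_inf_eq, sup_bot_eq] at h3
    obtain ⟨k, hk⟩ := card_pgroup hP.isPGroup
    rw [h3] at d2
    exact hne ((Nat.prime_dvd_prime_iff_eq hr hq).1 (hr.dvd_of_dvd_pow (hk ▸ d2))).symm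

end Cfsg.Agent.S3749
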