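import Cfsg.Statements.S3750
import Cfsg.Agent.H1.V3

set_option autoImplicit false
open Cfsg

namespace Cfsg.Agent.S3750

open H7 H1B Subgroup

/-- Call a proper subgroup M of G primitive when M = N_G(N) for every non-trivial normal subgroup N of M. Let M be a primitive subgroup of the finite group G and N a normal subgroup of G with M ∩ F*(N) ≠ 1. Then F(G) = 1 and F*(N) = F*(G) = E(G); in particular every minimal normal subgroup of G is contained in N. -/
theorem result {G : Type*} [Group G] [Finite G] (M : Subgroup G) (hM : M ≠ ⊤) (hprim : ∀ N : Subgroup G, N ≤ M → M ≤ Subgroup.normalizer (N : Set G) → N ≠ ⊥ → Subgroup.normalizer (N : Set G) = M) (N : Subgroup G) [N.Normal] (hMF : M ⊓ (Cfsg.generalizedFittingSubgroup ↥N).map N.subtype ≠ ⊥) : Cfsg.fittingSubgroup G = ⊥ ∧ (Cfsg.generalizedFittingSubgroup ↥N).map N.subtype = Cfsg.generalizedFittingSubgroup G ∧ Cfsg.generalizedFittingSubgroup G = Cfsg.layer G ∧ ∀ K : Subgroup G,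 K.Normal → K ≠ ⊥ → (∀ K' : Subgroup G, K'.Normal → K' ≤ K → K' = ⊥ ∨ K' = K) → K ≤ N := by
  rw [gfit_map] at *
  rw [fitting_eq, gfit_eq, layer_eq]
  have nF : ⊤ ≤ nrm (Fst N) := nrm_Fst (top_nrm N)
  have hD := hprim _ inf_le_left (nrm_inf (le_nrm_self M) (le_top.trans nF)) hMF
  have h0 : cen (Fst N) = ⊥ := by_contra fun c => hM (by
    rw [← hprim _ ((cen_anti inf_le_right).trans ((cen_le_nrm _).trans hD.le)) (le_top.trans (nrm_cen nF)) c]
    exact eq_top_iff.2 (nrm_cen nF))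
  have h1 : ∀ K : Subgroup G, K ≤ cen N → K = ⊥ := fun K h => eq_bot_iff.2 (h0 ▸ h.trans (cen_anti (Fst_le N)))
  have h2 : Fit N = ⊥ := by_contra fun c => nilp_inf_cen_ne_bot (nilp_Fit N) le_rfl (le_nrm_self _) c
    (eq_bot_iff.2 (h0 ▸ le_cen_sup (inf_le_left.trans (Fit_le_cen_Lay N)) inf_le_right))
  have h3 : Fit (⊤ : Subgroup G) = ⊥ := h1 _ (le_cen_of_inf_eq_bot (le_nrm_of_normal _ N) (le_top.trans (le_nrm_Fit ⊤))
    (eq_bot_iff.2 (h2 ▸ inf_le_Fit le_top)))
  have h4 : Fst (⊤ : Subgroup G) = Lay ⊤ := by rw [Fst, h3, sup_bot_eq]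
  have sN : SN ⊤ N := SN.of_normal le_top (top_nrm N)
  refine ⟨h3, le_antisymm (Fst_le_of_sn sN) (Fst_le_Fst le_top (h4 ▸ Lay_le_iff.2 fun K hK =>
    (hK.le_or_cen sN).resolve_right fun c => hK.qs.ne_bot (h1 K c))), h4, fun K hK hb hm => ?_⟩
  rcases hm (K ⊓ N) inferInstance inf_le_left with e | e
  · exact absurd (h1 K (le_cen_of_inf_eq_bot (le_nrm_of_normal _ N) (le_nrm_of_normal _ K) e)) hb
  · exact e ▸ inf_le_right

end Cfsg.Agent.S3750
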