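import Cfsg.Statements.S3751
import Cfsg.Agent.H1.V3

set_option autoImplicit false
open Cfsg

namespace Cfsg.Agent.S3751

open H7 H1B Subgroup
def Lc (p : ℕ) {G : Type*} [Group G] (M : Subgroup G) : Prop := ∃ T : Subgroup G, IsPGroup p T ∧ T ≠ ⊥ ∧ M = nrm T
def ML (p : ℕ) {G : Type*} [Group G] (M : Subgroup G) : Prop := Lc p M ∧ ∀ L, Lc p L → M ≤ L → L = M
theorem Lc.cj {p : ℕ} {G : Type*} [Group G] {M : Subgroup G} (h : Lc p M) (g : G) : Lc p (cj g M) := by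
  obtain ⟨T, h1, h2, rfl⟩ := h
  exact ⟨H2.cj g T, isPGroup_cj.2 h1, fun e => h2 (by simpa using cj_eq_iff.1 e), cj_nrm g T⟩
theorem ML.cj {p : ℕ} {G : Type*} [Group G] {M : Subgroup G} (h : ML p M) (g : G) : ML p (cj g M) :=
  ⟨h.1.cj g, fun L hL e => (cj_eq_iff.2 (h.2 _ (hL.cj g⁻¹) (H7.cj_le_iff.1 e)).symm).symm⟩
theorem chp {p : ℕ} [Fact p.Prime] {G : Type*} [Group G] [Finite G] (hloc : Cfsg.IsOfLocalCharacteristic p G)
    {M : Subgroup G} (h : Lc p M) : centralizer (pCore p M : Set M) ≤ pCore p M := by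
  obtain ⟨T, h1, h2, rfl⟩ := h
  exact hloc.2 T h1 h2
theorem prim {p : ℕ} [Fact p.Prime] {G : Type*} [Group G] [Finite G] (hloc : Cfsg.IsOfLocalCharacteristic p G)
    {M A : Subgroup G} (h : ML p M) (hA : A ≠ ⊥) (h1 : A ≤ M) (h2 : M ≤ nrm A) : nrm A = M := by
  have c := chp hloc h.1
  have c' : M ⊓ cen (Op p M) ≤ Op p M := fun x hx => by
    have := @c ⟨x, hx.1⟩ (mem_centralizer_iff.2 fun y hy => Subtype.ext (by
      rw [pCore_eq_subgroupOf] at hy; exact mem_cen.1 hx.2 _ hy))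
    rwa [pCore_eq_subgroupOf] at this
  have h3 : Op p A ≠ ⊥ := fun e => by
    have h4 : A ≤ Op p M := (le_inf h1 (le_cen_of_inf_eq_bot (h1.trans (le_nrm_Opi _ M)) ((Opi_le _ _).trans h2)
      (eq_bot_iff.2 (e ▸ (inf_comm A _).le.trans (inf_le_Opi _ h1))))).trans c'
    exact hA (by rw [← e, Op_eq_self ((isPGroup_Op p M).to_le h4)])
  have h5 := h.2 _ ⟨_, isPGroup_Op p A, h3, rfl⟩ (nrm_Opi _ h2)
  exact le_antisymm (h5 ▸ nrm_Opi _ le_rfl) h2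

/-- Two distinct subgroups M₁, M₂ of G form a primitive pair when, for {i, j} = {1, 2}, every non-trivial normal subgroup A of M_i contained in M₁ ∩ M₂ satisfies N_{M_j}(A) = M₁ ∩ M₂; the pair has characteristic p when moreover C_{M_i}(O_p(M_i)) ≤ O_p(M_i) for both i and O_p(M₁)O_p(M₂) ≤ M₁ ∩ M₂. Let G be a finite group, p a prime dividing its order, with O_p(G) = 1 and every p-local subgroup of characteristic p. Then either G has a primitive pair of characteristic p, or every maximal p-local subgroup M of G is strongly p-embedded in G: M is a proper subgroup, p divides its order, and for every g ∉ M the order of M ∩ gMg⁻¹ is prime to p. -/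
theorem result {G : Type*} [Group G] [Finite G] {p : ℕ} [Fact p.Prime] (hloc : Cfsg.IsOfLocalCharacteristic p G) (hOp : Cfsg.pCore p G = ⊥) : (∃ M₁ M₂ : Subgroup G, M₁ ≠ M₂ ∧ (∀ A : Subgroup G, A ≠ ⊥ → A ≤ M₁ ⊓ M₂ → (M₁ ≤ Subgroup.normalizer (A : Set G) → M₂ ⊓ Subgroup.normalizer (A : Set G) = M₁ ⊓ M₂) ∧ (M₂ ≤ Subgroup.normalizer (A : Set G) → M₁ ⊓ Subgroup.normalizer (A : Set G) = M₁ ⊓ M₂)) ∧ Subgroup.centralizer (Cfsg.pCore p ↥M₁ : Set ↥M₁) ≤ Cfsg.pCore p ↥M₁ ∧ Subgroup.centralizer (Cfsg.pCore p ↥M₂ : Set ↥M₂) ≤ Cfsg.pCore p ↥M₂ ∧ (Cfsg.pCore p ↥M₁).map M₁.subtype ⊔ (Cfsg.pCore p ↥M₂).map M₂.subtype ≤ M₁ ⊓ M₂) ∨ (∀ M : Subgroup G, (∃ T : Subgroup G, IsPGroup p T ∧ T ≠ ⊥ ∧ M = Subgroup.normalizer (T : Set G)) → (∀ L : Subgroup G, (∃ T : Subgroup G, IsPGroup p T ∧ T ≠ ⊥ ∧ L = Subgroup.normalizer (T : Set G)) → M ≤ L → L = M) → M ≠ ⊤ ∧ p ∣ Nat.card M ∧ ∀ g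 : G, g ∉ M → ¬ p ∣ Nat.card ↥(M ⊓ M.map (MulAut.conj g).toMonoidHom)) := by
  by_contra! c
  obtain ⟨c1, M, hM, hM', c2⟩ := c
  have B : ∀ M₁ M₂ T : Subgroup G, ML p M₁ → ML p M₂ → M₁ ≠ M₂ → IsSylowIn p T M₁ → IsSylowIn p T M₂ → False :=
    fun M₁ M₂ T h1 h2 hne s1 s2 => by
      refine c1 M₁ M₂ hne (fun A hA hA' => ⟨fun n => ?_, fun n => ?_⟩) (chp hloc h1.1) (chp hloc h2.1) ?_
      · rw [prim hloc h1 hA (hA'.trans inf_le_left) n, inf_comm]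
      · rw [prim hloc h2 hA (hA'.trans inf_le_right) n]
      · rw [pCore_map, pCore_map]
        exact (sup_le (Op_le_of_sylow s1) (Op_le_of_sylow s2)).trans (le_inf s1.le s2.le)
  have mM : ML p M := ⟨hM, hM'⟩
  have nM : ∀ M : Subgroup G, ML p M → nrm M = M := fun M h => prim hloc h (by
    obtain ⟨T, -, h2, rfl⟩ := h.1
    exact fun e => h2 (eq_bot_iff.2 (e ▸ le_nrm_self T))) le_rfl (le_nrm_self M)
  obtain ⟨T0, t1, t2, rfl⟩ := hM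
  rw [pCore_eq] at hOp
  obtain ⟨g, hg, hd⟩ := c2 (fun e => t2 (eq_bot_iff.2 (hOp ▸ le_Op le_top e.ge t1)))
    ((dvd_card_of_isPGroup t1 t2).trans (card_dvd_of_le (le_nrm_self T0)))
  let S : Set (Subgroup G) := {T | IsPGroup p T ∧ T ≠ ⊥ ∧ ∃ M₁ M₂, ML p M₁ ∧ ML p M₂ ∧ M₁ ≠ M₂ ∧ T ≤ M₁ ∧ T ≤ M₂}
  have hS : S.Nonempty := by
    obtain ⟨T, hT⟩ := exists_syl p (nrm T0 ⊓ cj g (nrm T0))
    exact ⟨T, hT.isPGroup, syl_ne_bot hT hd, _, _, mM, mM.cj g, fun e => hg (nM _ mM ▸ cj_eq_self_iff.1 e.symm),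
      hT.le.trans inf_le_left, hT.le.trans inf_le_right⟩
  obtain ⟨T, ⟨p1, p2, M₁, M₂, m1, m2, hne, l1, l2⟩, hmax⟩ := (Set.toFinite S).exists_maximal hS
  have mx : ∀ R M₁ M₂ : Subgroup G, IsPGroup p R → ML p M₁ → ML p M₂ → M₁ ≠ M₂ → T ≤ R → R ≤ M₁ → R ≤ M₂ → R = T :=
    fun R M₁ M₂ a b c d e f g => le_antisymm (hmax ⟨a, fun e' => p2 (eq_bot_iff.2 (e' ▸ e)), _, _, b, c, d, f, g⟩ e) e
  obtain ⟨H, h1, h2⟩ := (Set.toFinite {L : Subgroup G | Lc p L}).exists_le_maximal (a := nrm T) ⟨T, p1, p2, rfl⟩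
  have mH : ML p H := ⟨h2.1, fun L hL e => le_antisymm (h2.2 hL e) e⟩
  wlog hH : M₁ ≠ H generalizing M₁ M₂
  · exact this M₂ M₁ m2 m1 hne.symm l2 l1 (fun e => hne ((not_not.1 hH).trans e.symm))
  have s1 : IsSylowIn p T M₁ := syl_of_nrm l1 (by
    obtain ⟨R, hR, e⟩ := exists_syl_ge p1 (le_inf l1 (le_nrm_self T))
    rwa [mx R _ _ hR.isPGroup m1 mH hH e (hR.le.trans inf_le_left) (hR.le.trans (inf_le_right.trans h1))] at hR)
  obtain ⟨R, hR, e⟩ := exists_syl_ge p1 (le_inf l2 (le_nrm_self T))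
  by_cases c : R ≤ M₁
  · rw [mx R _ _ hR.isPGroup m1 m2 hne e c (hR.le.trans inf_le_left)] at hR
    exact B _ _ T m1 m2 hne s1 (syl_of_nrm l2 hR)
  obtain ⟨x, hx, hx'⟩ := SetLike.not_le_iff_exists.1 c
  refine B _ _ T m1 (m1.cj x) (fun e => hx' (nM _ m1 ▸ cj_eq_self_iff.1 e.symm)) s1 ?_
  have := syl_cj s1 x
  rwa [cj_of_mem_nrm (hR.le hx).2] at this

end Cfsg.Agent.S3751
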