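import Cfsg.Statements.S3752
import Cfsg.Agent.H7.Bend

set_option autoImplicit false
open Cfsg

namespace Cfsg.Agent.S3752
open H7
open scoped commutatorElement

section
open Subgroup

theorem ch {G : Type*} [Group G] [Finite G] {M : Subgroup G} {p : ℕ} [Fact p.Prime] (h : IsPGroup p (Fst M)) :
    Fst M = Op p M ∧ Subgroup.centralizer (Cfsg.pCore p ↥M : Set ↥M) ≤ Cfsg.pCore p ↥M := by
  have e : Fst M = Op p M := le_antisymm (le_Op (Fst_le M) (le_nrm_Fst M) h) ((Op_le_Fit p M).trans (Fit_le_Fst M))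
  refine ⟨e, fun x hx => ?_⟩
  rw [pCore_eq_subgroupOf] at hx ⊢
  have : (x : G) ∈ M ⊓ cen (Fst M) := ⟨x.2, fun y hy => by
    have hy' : y ∈ Op p M := e ▸ hy
    simpa using congrArg Subtype.val (hx ⟨y, Opi_le _ _ hy'⟩ hy')⟩
  exact e.le (Fit_le_Fst M (cen_Fst_le_Fit M this))

end

/-- Bender's Theorem on primitive pairs. Two distinct subgroups M₁, M₂ of G form a primitive pair when, for {i, j} = {1, 2}, every non-trivial normal subgroup A of M_i contained in M₁ ∩ M₂ satisfies N_{M_j}(A) = M₁ ∩ M₂; the pair has characteristic p when moreover C_{M_i}(O_p(M_i)) ≤ O_p(M_i) for both i and O_p(M₁)O_p(M₂) ≤ M₁ ∩ M₂. If (M₁, M₂) is a primitive pair of the finite group G with F*(M₁) ≤ M₂ and F*(M₂) ≤ M₁, then for some prime p the pair has characteristic p. -/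
theorem result {G : Type*} [Group G] [Finite G] (M₁ M₂ : Subgroup G) (hne : M₁ ≠ M₂) (hP : ∀ A : Subgroup G, A ≠ ⊥ → A ≤ M₁ ⊓ M₂ → (M₁ ≤ Subgroup.normalizer (A : Set G) → M₂ ⊓ Subgroup.normalizer (A : Set G) = M₁ ⊓ M₂) ∧ (M₂ ≤ Subgroup.normalizer (A : Set G) → M₁ ⊓ Subgroup.normalizer (A : Set G) = M₁ ⊓ M₂)) (h₁ : (Cfsg.generalizedFittingSubgroup ↥M₁).map M₁.subtype ≤ M₂) (h₂ : (Cfsg.generalizedFittingSubgroup ↥M₂).map M₂.subtype ≤ M₁) : ∃ p : ℕ, p.Prime ∧ Subgroup.centralizer (Cfsg.pCore p ↥M₁ : Set ↥M₁) ≤ Cfsg.pCore p ↥M₁ ∧ Subgroup.centralizer (Cfsg.pCore p ↥M₂ : Set ↥M₂) ≤ Cfsg.pCore p ↥M₂ ∧ (Cfsg.pCore p ↥M₁).map M₁.subtype ⊔ (Cfsg.pCore p ↥M₂).map M₂.subtype ≤ M₁ ⊓ M₂ := by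
  open Subgroup in
    rw [gfit_map] at h₁ h₂
    obtain ⟨p, pp, a, b⟩ := (bender_pair (fun X h1 h2 h3 => ((hP X h2 h1).1 h3).le.trans inf_le_left)
      (fun X h1 h2 h3 => ((hP X h2 (h1.trans (inf_comm _ _).le)).2 h3).le.trans inf_le_right) (lds_of_Fst h₁)
      (lds_of_Fst h₂)).resolve_left hne
    haveI := Fact.mk pp
    refine ⟨p, pp, (ch a).2, (ch b).2, ?_⟩
    rw [pCore_map, pCore_map]
    exact sup_le (le_inf (Opi_le _ _) ((ch a).1.ge.trans h₁)) (le_inf ((ch b).1.ge.trans h₂) (Opi_le _ _))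

end Cfsg.Agent.S3752
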