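import Cfsg.Statements.S3753
import Cfsg.Agent.H7.PP

set_option autoImplicit false
open Cfsg

namespace Cfsg.Agent.S3753
open H7
open scoped commutatorElement

section
open Subgroup

open scoped H2 commutatorElement in
theorem core {G : Type*} [Group G] [Finite G] {p : ℕ} [Fact p.Prime] {M₁ M₂ : Subgroup G}
    (st : ∀ M, M = M₁ ∨ M = M₂ → ∀ V A : Subgroup G, IsPGroup p V → M ≤ nrm V → A ≤ M → ⁅⁅V, A⁆, A⁆ = ⊥ → A ≤ Omod {p} (cen V) M)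
    (c1 : M₁ ⊓ cen (Op p M₁) ≤ Op p M₁) (c2 : M₂ ⊓ cen (Op p M₂) ≤ Op p M₂) (hO : Op p M₁ ⊔ Op p M₂ ≤ M₁ ⊓ M₂)
    (pr : M₂ ⊓ nrm (VZ p M₁) ≤ M₁) : JJ p (Op p M₁ ⊔ Op p M₂) ≤ Op p M₂ := by
  have eV := ea_VZ c1
  have nV := nrm_VZ (p := p) (le_nrm_self M₁)
  have oV := Omod_VZ eV
  have vQ := le_Op (VZ_le _ _) nV eV.isPGroup
  generalize VZ p M₁ = V at *
  have n2 := le_nrm_Opi {p} M₂
  have B1 := hO.trans inf_le_left
  have B2 := hO.trans inf_le_right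
  have rp : ∀ W A, EA p W → W ≤ Op p M₁ ⊔ Op p M₂ → H2.MX p (Op p M₁ ⊔ Op p M₂) A → A ≤ nrm W → A ⊓ cen ⁅W, A⁆ ≤ cen W → A ≤ cen W :=
    fun W A a b c d e => by_contra fun k => ((mx_bo c a b).repl a d le_rfl).2.2
      (fun j => k (le_cen_symm (comm_eq_bot.1 j))) (comm_eq_bot.2 (le_cen_symm e))
  have qd : ∀ W A : Subgroup G, ⁅⁅W, A ⊓ cen ⁅W, A⁆⁆, A ⊓ cen ⁅W, A⁆⁆ = ⊥ := fun W A =>
    comm_eq_bot.2 ((commutator_mono le_rfl inf_le_left).trans (le_cen_symm inf_le_right))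
  have jV : JJ p (Op p M₁ ⊔ Op p M₂) ≤ cen V := H2.J_le_iff.2 fun A a => rp V A eV (vQ.trans le_sup_left) a
    ((a.1.trans B1).trans nV) ((st _ (Or.inl rfl) V _ eV.isPGroup nV (inf_le_left.trans (a.1.trans B1)) (qd V A)).trans oV)
  have q1 := le_sup_right.trans B1
  have v2 : V ≤ Op p M₂ := (st _ (Or.inr rfl) _ V (isPGroup_Op p _) n2 ((vQ.trans le_sup_left).trans B2) (comm_eq_bot.2
    ((comm_le_right (q1.trans nV)).trans eV.le_cen))).trans (Omod_le_Op (nrm_cen n2) ((isPGroup_Op p _).to_le c2))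
  have cV : ∀ g ∈ M₂, H2.cj g V ≤ cen V := fun g hg => (st _ (Or.inl rfl) V _ eV.isPGroup nV
    ((cj_le_of_mem_nrm (n2 hg) v2).trans q1) (comm_eq_bot.2 ((comm_le_right (v2.trans ((cj_of_mem_nrm (n2 hg)).ge.trans
      ((cj_mono g (q1.trans nV)).trans (cj_nrm g V).le)))).trans (eV.cj g).le_cen))).trans oV
  have eW := H1B.ea_ncl eV cV
  have wQ : H1.ncl V M₂ ≤ Op p M₂ := H1.ncl_le v2 n2
  have nW : M₂ ≤ nrm (H1.ncl V M₂) := H1.le_nrm_ncl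
  have vW : V ≤ H1.ncl V M₂ := H1.le_ncl
  have jW : ∀ K, M₂ ≤ nrm K → K ≤ cen V → K ≤ cen (H1.ncl V M₂) := fun K => H1B.le_cen_ncl
  generalize H1.ncl V M₂ = W at *
  have nC : M₂ ≤ nrm (M₂ ⊓ cen W) := nrm_inf (le_nrm_self _) (nrm_cen nW)
  have C1 : M₂ ⊓ cen W ≤ M₁ := (inf_le_inf_left _ (le_nrm_of_le_cen (cen_anti vW))).trans pr
  have cm : ⁅Op p M₁ ⊔ Op p M₂, M₂ ⊓ cen W⁆ ≤ Op p M₂ := comm_sup_le ((le_sup_left.trans B2).trans n2) (le_nrm_self _)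
    ((le_inf (comm_le_right ((le_sup_left.trans B2).trans nC)) (comm_le_left (C1.trans (le_nrm_Opi _ _)))).trans
      ((le_Op inf_le_left (nrm_inf (le_nrm_self _) (C1.trans (le_nrm_Opi _ _))) (isPGroup_Op p _).to_inf_right).trans
        (Opi_le_of_normal _ inf_le_left nC))) (comm_le_left (inf_le_left.trans n2))
  have key : (Op p M₁ ⊔ Op p M₂) ⊓ Omod {p} (cen W) M₂ ≤ Op p M₂ := by
    have nX : M₂ ≤ nrm (Omod {p} (cen W) M₂ ⊓ cmod (Op p M₂) (M₂ ⊓ cen W)) := nrm_inf (le_nrm_Omod _ _ _) (nrm_cmod n2 nC)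
    have lX : Omod {p} (cen W) M₂ ⊓ cmod (Op p M₂) (M₂ ⊓ cen W) ≤ M₂ := inf_le_left.trans (Omod_le _ _ _)
    have iX := piN_relIndex_of_le ((Omod_le {p} (cen W) M₂).trans (nrm_cen nW))
      (inf_le_left : Omod {p} (cen W) M₂ ⊓ cmod (Op p M₂) (M₂ ⊓ cen W) ≤ _) (piN_relIndex_Omod _ (nrm_cen nW))
    have cX := (le_cmod.1 (inf_le_right : Omod {p} (cen W) M₂ ⊓ cmod (Op p M₂) (M₂ ⊓ cen W) ≤ _)).2
    have qX : Op p M₂ ≤ Omod {p} (cen W) M₂ ⊓ cmod (Op p M₂) (M₂ ⊓ cen W) :=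
      le_inf (Opi_le_Omod _ _ _) (le_cmod.2 ⟨le_nrm_self _, comm_le_left (inf_le_left.trans n2)⟩)
    have bX : (Op p M₁ ⊔ Op p M₂) ⊓ Omod {p} (cen W) M₂ ≤ Omod {p} (cen W) M₂ ⊓ cmod (Op p M₂) (M₂ ⊓ cen W) :=
      le_inf inf_le_right (le_cmod.2 ⟨(inf_le_left.trans B2).trans n2, (commutator_mono inf_le_left le_rfl).trans cm⟩)
    generalize Omod {p} (cen W) M₂ ⊓ cmod (Op p M₂) (M₂ ⊓ cen W) = X at nX lX iX cX qX bX
    obtain ⟨R, hR, l⟩ := H1B.exists_syl_ge (isPGroup_sup (le_sup_left.trans (B2.trans n2)) (isPGroup_Op p _)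
      (isPGroup_Op p _)).to_inf_left bX
    have e := syl_sup_normal hR (inf_le_left : X ⊓ cen W ≤ X) (by rwa [inf_relIndex_left])
    have qR := (le_Op qX (lX.trans n2) (isPGroup_Op p _)).trans (Op_le_of_sylow hR)
    exact l.trans ((le_Op hR.le (e.ge.trans (sup_le (le_nrm_of_comm_le ((commutator_mono hR.le
      (inf_le_inf_right _ lX)).trans (cX.trans qR))) (le_nrm_self R))) hR.isPGroup).trans (Opi_le_of_normal _ lX nX))
  refine H2.J_le_iff.2 fun A a => ?_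
  have A2 := a.1.trans B2
  have wB := wQ.trans (le_sup_right (a := Op p M₁))
  have k1 : A ⊓ cen ⁅W, A⁆ ≤ Op p M₂ := (le_inf (inf_le_left.trans a.1)
    (st _ (Or.inr rfl) W _ eW.isPGroup nW (inf_le_left.trans A2) (qd W A))).trans key
  have m := (mx_repl a eW wB (A2.trans nW)).1
  have l : ⁅W, A⁆ ⊔ A ⊓ cen ⁅W, A⁆ ≤ Op p M₂ := sup_le ((comm_le_left (A2.trans nW)).trans wQ) k1
  have := rp W A eW wB a (A2.trans nW) (le_sup_right.trans ((m.of_le l le_sup_right).le_J.trans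
    (jW _ (H2.nrm_J n2) ((m.J_le l le_sup_right).trans jV))))
  exact (le_inf a.1 ((le_inf A2 this).trans (inf_le_Omod _ (nrm_cen nW)))).trans key

end

/-- Two distinct subgroups M₁, M₂ of G form a primitive pair when, for {i, j} = {1, 2}, every non-trivial normal subgroup A of M_i contained in M₁ ∩ M₂ satisfies N_{M_j}(A) = M₁ ∩ M₂; the pair has characteristic p when moreover C_{M_i}(O_p(M_i)) ≤ O_p(M_i) for both i and O_p(M₁)O_p(M₂) ≤ M₁ ∩ M₂. If the finite group G has a primitive pair (M₁, M₂) of characteristic p for some prime p, then M₁ or M₂ has non-abelian Sylow 2-subgroups. In particular no group of odd order has a primitive pair of characteristic p. -/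
theorem result {G : Type*} [Group G] [Finite G] {p : ℕ} [Fact p.Prime] (M₁ M₂ : Subgroup G) (hne : M₁ ≠ M₂) (hP : ∀ A : Subgroup G, A ≠ ⊥ → A ≤ M₁ ⊓ M₂ → (M₁ ≤ Subgroup.normalizer (A : Set G) → M₂ ⊓ Subgroup.normalizer (A : Set G) = M₁ ⊓ M₂) ∧ (M₂ ≤ Subgroup.normalizer (A : Set G) → M₁ ⊓ Subgroup.normalizer (A : Set G) = M₁ ⊓ M₂)) (hc₁ : Subgroup.centralizer (Cfsg.pCore p ↥M₁ : Set ↥M₁) ≤ Cfsg.pCore p ↥M₁) (hc₂ : Subgroup.centralizer (Cfsg.pCore p ↥M₂ : Set ↥M₂) ≤ Cfsg.pCore p ↥M₂) (hO : (Cfsg.pCore p ↥M₁).map M₁.subtype ⊔ (Cfsg.pCore p ↥M₂).map M₂.subtype ≤ M₁ ⊓ M₂) : (∃ S : Sylow 2 ↥M₁, ¬ IsMulCommutative (S : Subgroup ↥M₁)) ∨ (∃ S : Sylow 2 ↥M₂, ¬ IsMulCommutative (S : Subgroup ↥M₂)) := by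
  open Subgroup in
  by_contra! c
  have c1 := H1B.chp_iff.1 hc₁
  have c2 := H1B.chp_iff.1 hc₂
  rw [pCore_map, pCore_map] at hO
  have ab : ∀ M, M = M₁ ∨ M = M₂ → ∀ T, H2.IsSylowIn 2 T M → IsMulCommutative T := by
    rintro M (rfl | rfl) T hT
    · have := @Subgroup.map_isMulCommutative _ _ _ _ _ M.subtype (c.1 hT.toSylow)
      rwa [hT.coe_toSylow, subgroupOf_map hT.le] at this
    · have := @Subgroup.map_isMulCommutative _ _ _ _ _ M.subtype (c.2 hT.toSylow)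
      rwa [hT.coe_toSylow, subgroupOf_map hT.le] at this
  have nb : ∀ A : Subgroup G, A ≠ ⊥ → A ≤ M₁ ⊓ M₂ → M₁ ≤ nrm A → M₂ ≤ nrm A → False := fun A a b d e =>
    hne (le_antisymm ((le_inf le_rfl d).trans (((hP A a b).2 e).le.trans inf_le_right))
      ((le_inf le_rfl e).trans (((hP A a b).1 d).le.trans inf_le_left)))
  have z : ∀ M₁ M₂ : Subgroup G, M₁ ≠ M₂ → H1B.ChP p M₁ → H1B.ChP p M₂ → Op p M₂ ≤ M₁ → Op p M₁ ≠ ⊥ := fun M₁ M₂ a b d e f => by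
    have k : M₁ = ⊥ := by_contra fun k => b.Op_ne_bot k f
    exact a (k.trans (by_contra fun j => d.Op_ne_bot (Ne.symm j) (le_bot_iff.1 (e.trans k.le))))
  have z1 := z _ _ hne c1 c2 (le_sup_right.trans (hO.trans inf_le_left))
  have z2 := z _ _ hne.symm c2 c1 (le_sup_left.trans (hO.trans inf_le_right))
  have pB : IsPGroup p (Op p M₁ ⊔ Op p M₂ : Subgroup G) := isPGroup_sup (le_sup_left.trans ((hO.trans inf_le_right).trans
    (le_nrm_Opi _ _))) (isPGroup_Op p _) (isPGroup_Op p _)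
  by_cases h2 : p = 2
  · subst h2
    have k : ∀ M, M = M₁ ∨ M = M₂ → H1B.ChP 2 M → Op 2 M₁ ⊔ Op 2 M₂ ≤ M → Op 2 M₁ ⊔ Op 2 M₂ ≤ Op 2 M := fun M a b d => by
      obtain ⟨T, hT, l⟩ := H1B.exists_syl_ge pB d
      exact b.le d (le_cen_of_comm (ab M a T hT) l (Op_le_of_sylow hT))
    have e : Op 2 M₁ = Op 2 M₂ := le_antisymm (le_sup_left.trans (k _ (Or.inr rfl) c2 (hO.trans inf_le_right)))
      (le_sup_right.trans (k _ (Or.inl rfl) c1 (hO.trans inf_le_left)))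
    exact nb _ z1 (le_sup_left.trans hO) (le_nrm_Opi _ _) (e ▸ le_nrm_Opi _ _)
  have st : ∀ M, M = M₁ ∨ M = M₂ → ∀ V A : Subgroup G, IsPGroup p V → M ≤ nrm V → A ≤ M → ⁅⁅V, A⁆, A⁆ = ⊥ →
      A ≤ Omod {p} (cen V) M := fun M a V A b d e f x hx => by_contra fun k => by
    obtain ⟨T, hT⟩ := H2.exists_isSylowIn 2 M
    exact not_comm_syl_of_sl2 h2 (inv_sl2_of_quad h2 b d (e hx) (le_bot_iff.1 ((commutator_mono (commutator_mono le_rfl
      (zpowers_le.2 hx)) (zpowers_le.2 hx)).trans f.le)) k) hT (ab M a T hT)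
  have v0 : ∀ M : Subgroup G, H1B.ChP p M → Op p M ≠ ⊥ → VZ p M ≠ ⊥ ∧ VZ p M ≤ Op p M := fun M a b => by
    obtain ⟨T, hT⟩ := H2.exists_isSylowIn p M
    exact ⟨fun e => H1B.Z1_ne_bot hT.isPGroup (fun j => b (le_bot_iff.1 ((Op_le_of_sylow hT).trans j.le)))
      (le_bot_iff.1 ((le_VZ hT).trans e.le)), le_Op (VZ_le _ _) (nrm_VZ (le_nrm_self M)) (ea_VZ a).isPGroup⟩
  have j2 := core st c1 c2 hO (((hP _ (v0 _ c1 z1).1 ((v0 _ c1 z1).2.trans (le_sup_left.trans hO))).1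
    (nrm_VZ (le_nrm_self _))).le.trans inf_le_left)
  have j1 := core (fun M a => st M a.symm) c2 c1 (by rwa [sup_comm, inf_comm]) (((hP _ (v0 _ c2 z2).1
    ((v0 _ c2 z2).2.trans (le_sup_right.trans hO))).2 (nrm_VZ (le_nrm_self _))).le.trans inf_le_right)
  rw [sup_comm] at j1
  refine nb (thompsonSubgroupOf p (Op p M₁ ⊔ Op p M₂)) (fun e => H2.ZJ_ne_bot (Or.inr rfl) pB
    (fun j => z1 (le_bot_iff.1 (le_sup_left.trans j.le))) (le_bot_iff.1 (inf_le_left.trans e.le)))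
    ((H2.thompsonE_le _).trans hO) ?_ ?_
  · rw [← H2.J_eq_of_le j1 le_sup_left]; exact H2.nrm_J (le_nrm_Opi _ _)
  rw [← H2.J_eq_of_le j2 le_sup_right]; exact H2.nrm_J (le_nrm_Opi _ _)

end Cfsg.Agent.S3753
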