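import Cfsg.Statements.S3754
import Cfsg.Agent.H7.PP
import Cfsg.Agent.H7.PLen

set_option autoImplicit false
open Cfsg

namespace Cfsg.Agent.S3754
open H7
open scoped commutatorElement

/-- Let M be a finite p-soluble group and A a p-subgroup of M with Φ(A) ≤ O_p(M) but A ≰ O_p(M). Then there is x ∈ O_{p,p'}(M) such that L = ⟨A, xAx⁻¹⟩ satisfies: x ∈ O^p(L) and O^p(L) ≤ O_{p,p'}(M); [O^p(L), A] = O^p(L); A ∩ O_p(L) has index p in A; and [A ∩ O_p(L), L] ≤ O_p(M). Here O^p(L) is the subgroup generated by the p'-elements of L and O_{p,p'}(M) the preimage of O_{p'}(M/O_p(M)). -/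
theorem result {M : Type*} [Group M] [Finite M] {p : ℕ} [Fact p.Prime] (hM : Cfsg.IsPSolvable p M) (A : Subgroup M) (hA : IsPGroup p A) (hΦ : (frattini ↥A).map A.subtype ≤ Cfsg.pCore p M) (hnot : ¬ A ≤ Cfsg.pCore p M) : ∃ x ∈ (Cfsg.pPrimeCore p (M ⧸ Cfsg.pCore p M)).comap (QuotientGroup.mk' (Cfsg.pCore p M)), x ∈ (Cfsg.pResidual p ↥(A ⊔ A.map (MulAut.conj x).toMonoidHom)).map (A ⊔ A.map (MulAut.conj x).toMonoidHom).subtype ∧ (Cfsg.pResidual p ↥(A ⊔ A.map (MulAut.conj x).toMonoidHom)).map (A ⊔ A.map (MulAut.conj x).toMonoidHom).subtype ≤ (Cfsg.pPrimeCore p (M ⧸ Cfsg.pCore p M)).comap (QuotientGroup.mk' (Cfsg.pCore p M)) ∧ ⁅(Cfsg.pResidual p ↥(A ⊔ A.map (MulAut.conj x).toMonoidHom)).map (A ⊔ A.map (MulAut.conj x).toMonoidHom).subtype, A⁆ = (Cfsg.pResidual p ↥(A ⊔ A.map (MulAut.conj x).toMonoidHom)).map (A ⊔ A.map (MulAut.conj x).toMonoidHom).subtype ∧ (A ⊓ (Cfsg.pCore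 p ↥(A ⊔ A.map (MulAut.conj x).toMonoidHom)).map (A ⊔ A.map (MulAut.conj x).toMonoidHom).subtype).relIndex A = p ∧ ⁅A ⊓ (Cfsg.pCore p ↥(A ⊔ A.map (MulAut.conj x).toMonoidHom)).map (A ⊔ A.map (MulAut.conj x).toMonoidHom).subtype, A ⊔ A.map (MulAut.conj x).toMonoidHom⁆ ≤ Cfsg.pCore p M := by
  open Subgroup in
  simp only [H2.map_pResidual_subtype, pCore_map]
  rw [comap_pPrimeCore]
  rw [← Phi_def] at hΦ
  rw [pCore_eq] at hΦ hnot ⊢
  have n := le_nrm_Opi {p} (⊤ : Subgroup M)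
  have nA : A ≤ _ := le_top.trans n
  have lO : Omod {p}ᶜ (Op p ⊤) (⊤ : Subgroup M) ≤ _ := le_top.trans n
  have eO := im_qm_Omod {p}ᶜ n
  have eA := ea_im_of_Phi_le (f := qm (Op p ⊤)) hA nA (by rwa [kr_qm])
  have co : Cop (im (qm (Op p ⊤)) A) (Op' p (im (qm (Op p ⊤)) ⊤)) :=
    cop_of_pgroup eA.isPGroup (coprime_Op' p _) ((im_mono _ le_top).trans (le_nrm_Opi _ _))
  obtain ⟨B, l, i, hB⟩ : ∃ B ≤ im (qm (Op p ⊤)) A, B.relIndex (im (qm (Op p ⊤)) A) = p ∧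
      ¬ ⁅Op' p (im (qm (Op p ⊤)) ⊤) ⊓ cen B, im (qm (Op p ⊤)) A⁆ ≤ ⊥ := by
    by_contra! k
    refine hnot (le_Op_of_comm (ps_top.2 hM) le_top hA ((im_qm_le_cen lO nA).1 ?_))
    rw [eO]; exact comm_eq_bot.1 (le_bot_iff.1 (co.comm_le_of_hyper eA k))
  let S : Set M := {x | x ∈ Omod {p}ᶜ (Op p ⊤) ⊤ ∧ ev (qm (Op p ⊤)) x ∈ cen B ∧ ev (qm (Op p ⊤)) x ∉ nrm (im (qm (Op p ⊤)) A)}
  have hS : S.Nonempty := by
    by_contra! k
    refine hB (comm_eq_bot.2 ?_).le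
    intro y hy
    refine co.inf_nrm_le_cen ⟨hy.1, by_contra fun j => ?_⟩
    obtain ⟨x, hx, rfl⟩ := (mem_im_of_le lO).1 (eO.ge hy.1)
    exact (Set.eq_empty_iff_forall_notMem.1 k) x ⟨hx, hy.2, j⟩
  have tp : ∀ K : Subgroup M, K ≤ nrm (Op p (⊤ : Subgroup M)) := fun K => le_top.trans n
  have f1 : ∀ x ∈ S, H2.pRes p (A ⊔ H2.cj x A) ≤ Omod {p}ᶜ (Op p ⊤) ⊤ := fun x hx =>
    (H2.pRes_mono (sup_le le_sup_right (cj_le_of_mem (mem_sup_left hx.1) le_sup_right))).trans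
      ((H1B.pRes_sup_pg hA (le_top.trans (le_nrm_Omod _ _ _))).le.trans (H2.pRes_le _))
  have f2 : ∀ x ∈ S, im (qm (Op p ⊤)) (A ⊔ H2.cj x A) ≤ cen B := fun x hx => by
    rw [im_sup nA (tp _), im_cj (n (mem_top x))]
    exact sup_le (eA.le_cen.trans (cen_anti l)) (cj_le_of_mem hx.2.1 (eA.le_cen.trans (cen_anti l)))
  obtain ⟨x, hx, hm⟩ := Set.exists_min_image S (fun x => Nat.card (A ⊔ H2.cj x A : Subgroup M)) (Set.toFinite S) hS
  obtain ⟨k, hk, kS⟩ : ∃ k ∈ H2.pRes p (A ⊔ H2.cj x A), k ∈ S := by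
    have s0 := syl_of_sup co.norm rfl (coprime_Op' p _) (syl_self eA.isPGroup)
    have xO : ev (qm (Op p ⊤)) x ∈ Op' p (im (qm (Op p ⊤)) ⊤) := eO.le (ev_mem_im hx.1)
    have l1 : im (qm (Op p ⊤)) A ⊔ H2.cj (ev (qm (Op p ⊤)) x) (im (qm (Op p ⊤)) A) ≤ _ :=
      sup_le le_sup_left (cj_le_of_mem (mem_sup_right xO) le_sup_left)
    have s1 := s0.mono le_sup_left l1
    have s2 := (s0.cj_of_mem_normalizer (le_nrm_self _ (mem_sup_right xO))).mono le_sup_right l1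
    obtain ⟨g, hg, e⟩ := s1.exists_cj_eq s2
    obtain ⟨k, hk, a, ha, rfl⟩ := (mem_sup_nrm' (le_sup_left.trans (H1B.nrm_pRes' p _))).1 (s1.pRes_sup.ge hg)
    rw [cj_mul, cj_of_mem_nrm (le_nrm_self _ ha)] at e
    rw [← im_cj (n (mem_top x)), ← im_sup nA (tp _), ← im_pRes (tp _)] at hk
    obtain ⟨k, hk', rfl⟩ := (mem_im_of_le (tp _)).1 hk
    exact ⟨k, hk', f1 x hx hk', f2 x hx (ev_mem_im (H2.pRes_le _ hk')), fun j => hx.2.2 (cj_eq_self_iff.1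
      (e.symm.trans (cj_of_mem_nrm j)))⟩
  have e : A ⊔ H2.cj k A = A ⊔ H2.cj x A := eq_of_le_of_card_le
    (sup_le le_sup_left (cj_le_of_mem (H2.pRes_le _ hk) le_sup_left)) (hm k kS)
  rw [← e] at hk
  have pB : IsPGroup p (pre (qm (Op p ⊤)) B) := by
    have := pre_im (f := qm (Op p ⊤)) (tp (A ⊓ pre (qm (Op p ⊤)) B))
    rw [im_inf_pre, inf_eq_right.2 l, kr_qm] at this
    rw [this]; exact isPGroup_sup (tp _) hA.to_inf_left (isPGroup_Op p _)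
  have b1 : A ⊓ pre (qm (Op p ⊤)) B ≤ A ⊓ Op p (A ⊔ H2.cj k A) := le_inf inf_le_left ((inf_le_inf_right _ le_sup_left).trans
    (le_Op inf_le_left (nrm_inf (le_nrm_self _) (le_nrm_pre (tp _) (le_nrm_of_le_cen (f2 k kS)))) pB.to_inf_right))
  have b2 : (A ⊓ pre (qm (Op p ⊤)) B).relIndex A = p := by rw [inf_relIndex_left, relIndex_pre nA, i]
  have b3 := relIndex_mul_relIndex _ _ _ b1 inf_le_left
  have b4 : (A ⊓ Op p (A ⊔ H2.cj k A)).relIndex A = p := ((Nat.dvd_prime Fact.out).1 ⟨_, b2.symm.trans (b3.symm.trans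
    (mul_comm _ _))⟩).resolve_left fun j => kS.2.2 (by
      have l2 := (relIndex_eq_one.1 j).trans inf_le_right
      have := pRes_eq_bot_iff.2 ((isPGroup_Op p _).to_le (sup_le l2 (cj_le_of_mem_nrm (le_nrm_Opi _ _ (H2.pRes_le _ hk)) l2)))
      rw [mem_bot.1 (this.le hk), ev_one]; exact one_mem _)
  rw [b2, b4] at b3
  have b5 := relIndex_eq_one.1 (Nat.eq_of_mul_eq_mul_right (Fact.out : p.Prime).pos (b3.trans (one_mul p).symm))
  refine ⟨k, kS.1, hk, f1 k kS, H1B.comm_eq_of_pRes (H2.pRes_pRes _) hA (le_sup_left.trans (H1B.nrm_pRes' p _))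
    ((H2.pRes_le _).trans (sup_le le_sup_left ?_)), b4, (im_qm_le_cen (tp _) (tp _)).1 (le_cen_symm ((f2 k kS).trans
      (cen_anti ((im_mono _ (b5.trans inf_le_right)).trans (im_pre_le _ _)))))⟩
  rintro _ ⟨a, ha, rfl⟩
  show k * a * k⁻¹ ∈ _
  rw [show k * a * k⁻¹ = k * a * k⁻¹ * a⁻¹ * a by group]
  exact mul_mem (mem_sup_right (commutator_mem_commutator hk ha)) (mem_sup_left ha)

end Cfsg.Agent.S3754
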