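import Cfsg.Statements.S3756
import Cfsg.Agent.H7.PP2
import Cfsg.Agent.S3751

set_option autoImplicit false
open Cfsg

namespace Cfsg.Agent.S3756
open H7
open scoped commutatorElement

section
open Subgroup

open S3751 in
theorem aux {G : Type*} [Group G] [Finite G] (hloc : ∀ M : Subgroup G, Cfsg.IsTwoLocal M → Group.IsSolvable M ∧ Cfsg.IsOfCharacteristicTwo ↥M ∧ ¬ Cfsg.Involves (Equiv.Perm (Fin 4)) ↥M)
    {M : Subgroup G} (h : Lc 2 M) : IsPSolvable 2 M ∧ M ⊓ cen (Op 2 M) ≤ Op 2 M ∧ F3 M ∧ EA 2 (VZ 2 M) ∧ F1 (VZ 2 M) M := by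
  obtain ⟨a, b, c⟩ := hloc M h
  have b' := H1B.chp_iff.1 b
  have f : F3 M := fun k => c (s4_of_s3 b' k)
  exact ⟨ps_of_solv a, b', f, ea_VZ b', f1_of (ea_VZ b') (nrm_VZ (le_nrm_self M)) (ps_of_solv a) (Omod_VZ (ea_VZ b')) f⟩

end

/-- Let G be a finite group of even order with O₂(G) = 1 such that every 2-local subgroup of G is solvable, of characteristic 2, and has no section isomorphic to the symmetric group of degree 4. Then every maximal 2-local subgroup of G is strongly embedded in G. -/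
theorem result {G : Type*} [Group G] [Finite G] (heven : Even (Nat.card G)) (hO : Cfsg.pCore 2 G = ⊥) (hloc : ∀ M : Subgroup G, Cfsg.IsTwoLocal M → Group.IsSolvable M ∧ Cfsg.IsOfCharacteristicTwo ↥M ∧ ¬ Cfsg.Involves (Equiv.Perm (Fin 4)) ↥M) (M : Subgroup G) (hM : Cfsg.IsMaximalTwoLocal M) : Cfsg.IsStronglyEmbedded M := by
  open Subgroup in
  open S3751 in
  have lc : Cfsg.IsOfLocalCharacteristic 2 G := ⟨heven.two_dvd, fun T a b => (hloc _ ⟨T, a, b, rfl⟩).2.1⟩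
  by_contra c2
  have mM : ML 2 M := hM
  have nM : ∀ M : Subgroup G, ML 2 M → nrm M = M := fun M h => prim lc h (by
    obtain ⟨T, -, h2, rfl⟩ := h.1
    exact fun e => h2 (eq_bot_iff.2 (e ▸ le_nrm_self T))) le_rfl (le_nrm_self M)
  obtain ⟨T0, t1, t2, rfl⟩ := hM.1
  rw [pCore_eq] at hO
  obtain ⟨g, hg, hd⟩ : ∃ g, g ∉ nrm T0 ∧ 2 ∣ Nat.card (nrm T0 ⊓ H2.cj g (nrm T0) : Subgroup G) := by
    by_contra! k
    exact c2 ⟨fun e => t2 (eq_bot_iff.2 (hO ▸ le_Op le_top e.ge t1)), even_iff_two_dvd.2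
      ((dvd_card_of_isPGroup t1 t2).trans (card_dvd_of_le (le_nrm_self T0))), fun g hg => Nat.two_dvd_ne_zero.1 (k g hg) |> Nat.odd_iff.2⟩
  let S : Set (Subgroup G) := {T | IsPGroup 2 T ∧ T ≠ ⊥ ∧ ∃ M₁ M₂, ML 2 M₁ ∧ ML 2 M₂ ∧ M₁ ≠ M₂ ∧ T ≤ M₁ ∧ T ≤ M₂}
  have hS : S.Nonempty := by
    obtain ⟨T, hT⟩ := H2.exists_isSylowIn 2 (nrm T0 ⊓ H2.cj g (nrm T0))
    exact ⟨T, hT.isPGroup, syl_ne_bot hT hd, _, _, mM, mM.cj g, fun e => hg (nM _ mM ▸ cj_eq_self_iff.1 e.symm),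
      hT.le.trans inf_le_left, hT.le.trans inf_le_right⟩
  obtain ⟨T, ⟨p1, p2, M₁, M₂, m1, m2, hne, l1, l2⟩, hmax⟩ := (Set.toFinite S).exists_maximal hS
  have mx : ∀ R M₁ M₂ : Subgroup G, IsPGroup 2 R → ML 2 M₁ → ML 2 M₂ → M₁ ≠ M₂ → T ≤ R → R ≤ M₁ → R ≤ M₂ → R = T :=
    fun R M₁ M₂ a b c d e f g => le_antisymm (hmax ⟨a, fun e' => p2 (eq_bot_iff.2 (e' ▸ e)), _, _, b, c, d, f, g⟩ e) e
  have ex : ∀ C : Subgroup G, C ≤ T → C ≠ ⊥ → ∃ H, ML 2 H ∧ nrm C ≤ H := fun C a b => by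
    obtain ⟨H, h1, h2⟩ := (Set.toFinite {L : Subgroup G | Lc 2 L}).exists_le_maximal (a := nrm C) ⟨C, p1.to_le a, b, rfl⟩
    exact ⟨H, ⟨h2.1, fun L hL e => le_antisymm (h2.2 hL e) e⟩, h1⟩
  have Z0 := H1B.Z1_ne_bot p1 p2
  obtain ⟨H, mH, h1⟩ := ex (thompsonSubgroupOf 2 T) (H2.thompsonE_le _) fun e => H2.ZJ_ne_bot (Or.inr rfl) p1 p2 (le_bot_iff.1 (inf_le_left.trans e.le))
  have nT : nrm T ≤ H := (H2.nrm_J le_rfl).trans h1
  wlog hH : M₁ ≠ H generalizing M₁ M₂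
  · exact this M₂ M₁ m2 m1 hne.symm l2 l1 (fun e => hne ((not_not.1 hH).trans e.symm))
  have s1 : H2.IsSylowIn 2 T M₁ := syl_of_nrm l1 (by
    obtain ⟨R, hR, e⟩ := H1B.exists_syl_ge p1 (le_inf l1 (le_nrm_self T))
    rwa [mx R _ _ hR.isPGroup m1 mH hH e (hR.le.trans inf_le_left) (hR.le.trans (inf_le_right.trans nT))] at hR)
  have lH := (le_nrm_self T).trans nT
  obtain ⟨a1, a2, a3, a4, a5⟩ := aux hloc m1.1
  refine hH (m1.2 H mH.1 ?_).symm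
  obtain ⟨R, hR, e⟩ := H1B.exists_syl_ge p1 (le_inf lH (le_nrm_self T))
  by_cases c : R = T
  · have s := syl_of_nrm lH (c ▸ hR)
    obtain ⟨-, -, -, b4, b5⟩ := aux hloc mH.1
    have n := nrm_VZ (p := 2) (le_nrm_self H)
    exact PPS.le_of_syl ⟨a3, a1, a2, l1, Op_le_of_sylow s1, p1, b4, (le_Op (VZ_le _ _) n b4.isPGroup).trans (Op_le_of_sylow s),
      lH.trans n, fun A a => b5 A (a.trans lH)⟩ s1 (inf_le_right.trans (prim lc mH (fun e => Z0 (le_bot_iff.1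
        ((le_VZ s).trans e.le))) (VZ_le _ _) n).le) (inf_le_right.trans h1)
  obtain ⟨H', mH', h2⟩ := ex _ (H1B.Z1_le 2 T) Z0
  have : H' = H := by_contra fun k => c (mx R _ _ hR.isPGroup mH' mH k e
    (hR.le.trans (inf_le_right.trans ((H1B.nrm_Z1 le_rfl).trans h2))) (hR.le.trans inf_le_left))
  subst this
  have n := nrm_VZ (p := 2) (le_nrm_self M₁)
  refine (frattini_J s1 (inf_le_left : M₁ ⊓ cen (VZ 2 M₁) ≤ _) (nrm_inf (le_nrm_self _) (nrm_cen n)) (le_inf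
    ((H2.thompsonE_le _).trans l1) (H2.J_le_iff.2 fun A a => F1.mx (T := T) (fun A a => a5 A (a.trans l1)) a4
      ((le_Op (VZ_le _ _) n a4.isPGroup).trans (Op_le_of_sylow s1)) a))).ge.trans (sup_le (inf_le_right.trans h1) ?_)
  exact inf_le_right.trans ((le_nrm_of_le_cen (cen_anti (le_VZ s1))).trans h2)

end Cfsg.Agent.S3756
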