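import Cfsg.Statements.S3761
import Cfsg.Agent.H1.Two4

set_option autoImplicit false
open Cfsg

namespace Cfsg.Agent.S3761

open H7 H1B Subgroup
open scoped commutatorElement

/-- Let G be a finite non-abelian p-group with a cyclic normal subgroup U of order p^n such that C_G(U) = U. Then either p = 2 and G is dihedral, generalized quaternion or semidihedral of order 2^(n+1); or, writing U₁ for the subgroup generated by the p-th powers of elements of U and M = C_G(U₁), the subgroup U has index p in M and the subgroup Ω₁(M) generated by the elements of M of order dividing p is elementary abelian of order p² and characteristic in G. -/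
theorem result {G : Type*} [Group G] [Finite G] {p : ℕ} [Fact p.Prime] (hG : IsPGroup p G) (hna : ¬ IsMulCommutative G) (U : Subgroup G) [U.Normal] (hU : IsCyclic U) (n : ℕ) (hUn : Nat.card U = p ^ n) (hC : Subgroup.centralizer (U : Set G) = U) : (p = 2 ∧ Nat.card G = 2 ^ (n + 1) ∧ ((∃ m : ℕ, Nonempty (G ≃* DihedralGroup m)) ∨ (∃ m : ℕ, Nonempty (G ≃* QuaternionGroup m)) ∨ Cfsg.IsQuasiDihedral G)) ∨ (U.relIndex (Subgroup.centralizer (Cfsg.powerClosure p 1 U : Set G)) = p ∧ Cfsg.IsElementaryAbelian p (Cfsg.omegaOne p (Subgroup.centralizer (Cfsg.powerClosure p 1 U : Set G))) ∧ Nat.card ↥(Cfsg.omegaOne p (Subgroup.centralizer (Cfsg.powerClosure p 1 U : Set G))) = p ^ 2 ∧ (Cfsg.omegaOne p (Subgroup.centralizer (Cfsg.powerClosure p 1 U : Set G))).Characteristic) := by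
  obtain ⟨a, rfl⟩ := (Subgroup.isCyclic_iff_exists_zpowers_eq_top U).1 hU
  have hP := pg_top hG
  have pp : p.Prime := Fact.out
  have hc : cen1 a = zpowers a := by rw [← cen_zpowers]; exact hC
  have hn : ∀ X : Subgroup G, X ≤ nrm (zpowers a) := fun X => le_nrm_of_normal _ _
  have pc : Cfsg.powerClosure p 1 (zpowers a) = zpowers (a ^ p) := by
    refine le_antisymm ((closure_le _).2 ?_) (zpowers_le.2 (subset_closure ⟨a, mem_zpowers a, by simp⟩))
    rintro _ ⟨_, ⟨k, rfl⟩, rfl⟩
    exact ⟨k, by simp only [pow_one]; rw [← zpow_natCast, ← zpow_natCast, ← zpow_mul, ← zpow_mul, mul_comm]⟩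
  rw [pc, omegaOne_eq, show centralizer (zpowers (a ^ p) : Set G) = cen1 (a ^ p) from cen_zpowers _]
  rcases cyc_scn hP (mem_top a) (hn _) (inf_le_right.trans hc.le) (by rwa [comm_top']) with
    ⟨rfl, w, m, h⟩ | h
  · have : n = m + 2 := Nat.pow_right_injective le_rfl (by
      show 2 ^ n = 2 ^ (m + 2); rw [← hUn, Nat.card_zpowers, h.orda])
    exact .inl ⟨rfl, by rw [← card_top, h.card, this], h.types_top.imp (fun e => ⟨_, e⟩)
      (Or.imp_left fun e => ⟨_, e⟩)⟩
  rw [top_inf_eq] at h
  refine .inr ⟨h.1, h.2.1, h.2.2.1, ?_⟩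
  rcases h.2.2.2 with e | ⟨rfl, l1⟩
  · rw [e]; exact char_Om
  rw [der_top_eq] at l1
  have l2 : commutator G ≤ zpowers a := by
    rw [← der_top_eq]; exact (der_le_cen_of_cyc hU (hn _) (hn _)).trans hC.le
  haveI : (zpowers (a ^ 2)).Characteristic := by
    by_cases h : a ∈ commutator G
    · have e : commutator G = zpowers a := le_antisymm l2 (zpowers_le.2 h)
      refine characteristic_iff_map_le.2 fun φ => ?_
      rw [MonoidHom.map_zpowers, zpowers_le, map_pow]
      obtain ⟨k, hk⟩ : φ a ∈ zpowers a := e ▸ characteristic_iff_map_le.1 inferInstance φ ⟨a, h, rfl⟩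
      exact ⟨k, by
        show (a ^ 2) ^ k = φ a ^ 2
        rw [← hk, ← zpow_natCast, ← zpow_natCast, ← zpow_mul, ← zpow_mul, mul_comm]⟩
    · rw [le_antisymm l1 fun y hy => (mem_zp_sq_or (l2 hy)).resolve_right fun e =>
        h (inv_mem_iff.1 ((mul_mem_cancel_left hy).1 (l1 e)))]
      infer_instance
  haveI : (cen1 (a ^ 2)).Characteristic := by rw [← cen_zpowers]; infer_instance
  exact char_Om

end Cfsg.Agent.S3761
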