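import Cfsg.Statements.S3763
import Cfsg.Agent.H1.XS

set_option autoImplicit false
open Cfsg

namespace Cfsg.Agent.S3763

open H7 H1B Subgroup

theorem aux {G : Type*} [Group G] [Finite G] {z : G} {n : ℕ} (h : XS 2 ⊤ z)
    (c : ord (⊤ : Subgroup G) = 2 ^ (2 * n + 1)) :
    PRankLE 2 n G ↔ nsq (⊤ : Subgroup G) ≠ 2 ^ (2 * n) + 2 ^ n := by
  refine pRankLE_top.trans ⟨fun r e => ?_, (h.rk c).2⟩
  obtain ⟨A, -, hA, k⟩ := h.exists_ea c
  have := r A le_top hA
  rw [k.resolve_right fun k => k.1 e, Nat.pow_le_pow_iff_right one_lt_two] at this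
  omega

/-- Let E be an extraspecial 2-group of order 2^(2n+1). Then the largest elementary abelian subgroups of E have order 2^n or 2^(n+1); and two extraspecial 2-groups of the same order whose largest elementary abelian subgroups have the same order are isomorphic. -/
theorem result {E : Type*} [Group E] [Finite E] (hE : Cfsg.IsExtraspecial 2 E) (n : ℕ) (hn : Nat.card E = 2 ^ (2 * n + 1)) : ((Cfsg.PRankLE 2 n E ∧ ¬ Cfsg.PRankLE 2 (n - 1) E) ∨ (Cfsg.PRankLE 2 (n + 1) E ∧ ¬ Cfsg.PRankLE 2 n E)) ∧ ∀ (E' : Type*) [Group E'] [Finite E'], Cfsg.IsExtraspecial 2 E' → Nat.card E' = Nat.card E → (∀ k : ℕ, Cfsg.PRankLE 2 k E ↔ Cfsg.PRankLE 2 k E') → Nonempty (E ≃* E') := by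
  obtain ⟨z, h, hc⟩ := xs_top hE
  have c := card_top.trans hn
  refine ⟨?_, fun E' _ _ h' hn' r => ?_⟩
  · refine or_iff_not_imp_right.2 fun h1 => ⟨by_contra fun h2 => h1 ⟨pRankLE_top.2 (h.rk c).1, h2⟩, fun r => ?_⟩
    obtain ⟨A, -, hA, k⟩ := h.exists_ea c
    have l := pRankLE_top.1 r A le_top hA
    have := mt (h.comm_iff c).2 hc
    rcases k with k | ⟨-, k⟩ <;> rw [k, Nat.pow_le_pow_iff_right one_lt_two] at l <;> omega
  obtain ⟨z', h', -⟩ := xs_top h'
  have c' := card_top.trans (hn'.trans hn)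
  have := r n
  rw [aux h c, aux h' c'] at this
  have := h.count c
  have := h'.count c'
  exact ((h.gr_two h' c c' (by omega)).equiv (c.trans c'.symm)).map fun e =>
    topEquiv.symm.trans (e.trans topEquiv)

end Cfsg.Agent.S3763
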