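import Cfsg.Statements.S3764
import Cfsg.Agent.H1.BG3c

set_option autoImplicit false
open Cfsg

namespace Cfsg.Agent.S3764

open H7 H1B

/-- Let p, q, r be distinct primes and let X, Q, V be subgroups of a finite group with X of order r, Q an extraspecial q-group normalized by X with C_Q(X) = Z(Q), and V an elementary abelian p-group normalized by X and Q on which XQ acts faithfully ((X ⊔ Q) ∩ C(V) = 1). If C_V(X) = 1, then q = 2, r = 2^n + 1 for some n, and Q has order 2^(2n+1). -/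
theorem result {G : Type*} [Group G] [Finite G] {p q r : ℕ} (hp : p.Prime) (hq : q.Prime) (hr : r.Prime) (hpq : p ≠ q) (hpr : p ≠ r) (hqr : q ≠ r) (X Q V : Subgroup G) (hX : Nat.card X = r) (hQ : Cfsg.IsExtraspecial q ↥Q) (hXQ : X ≤ Subgroup.normalizer (Q : Set G)) (hCQ : Q ⊓ Subgroup.centralizer (X : Set G) = (Subgroup.center ↥Q).map Q.subtype) (hV : Cfsg.IsElementaryAbelian p V) (hXV : X ≤ Subgroup.normalizer (V : Set G)) (hQV : Q ≤ Subgroup.normalizer (V : Set G)) (hfaith : (X ⊔ Q) ⊓ Subgroup.centralizer (V : Set G) = ⊥) (hCV : V ⊓ Subgroup.centralizer (X : Set G) = ⊥) : q = 2 ∧ ∃ n : ℕ, r = 2 ^ n + 1 ∧ Nat.card Q = 2 ^ (2 * n + 1) := by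
  open Subgroup in
  haveI := Fact.mk hp
  haveI := Fact.mk hq
  obtain ⟨h1, -, h2, h3⟩ := extraspecial_iff.1 hQ
  rw [center_map_subtype] at hCQ
  have hb : Q ⊓ cen Q ≠ ⊥ := ne_bot_of_prime (h3 ▸ hq)
  obtain ⟨k, hk⟩ := card_pgroup h1
  obtain ⟨rfl, n, e1, e2⟩ := fermat_of_EA hV hQV hXV hXQ (hX ▸ hr) hq h1
    (by rw [hX, hk]; exact ((Nat.coprime_primes hr hq).2 hqr.symm).pow_right _)
    (by rw [hk]; exact ((Nat.coprime_primes hq hp).2 hpq.symm).pow_left _)
    (by rw [hX]; exact (Nat.coprime_primes hr hp).2 hpr.symm) (h3 ▸ hq) (h2.le.trans inf_le_right)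
    (fun e => hb (by rw [← h2]; exact comm_eq_bot.2 e))
    hCQ (fun e => hb (eq_bot_mono (le_inf (inf_le_left.trans le_sup_right) e) hfaith)) hCV
  refine ⟨rfl, n, hX ▸ e1, ?_⟩
  rw [← relIndex_mul_card_inf (cen Q) Q, e2, inf_comm, h3, pow_succ]

end Cfsg.Agent.S3764
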