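import Cfsg.Statements.S3765
import Cfsg.Agent.H1.BG3c

set_option autoImplicit false
open Cfsg

namespace Cfsg.Agent.S3765

open H7 H1B

/-- Let p, q, r be distinct primes and let X, Q, V be subgroups of a finite group with X of order r normalizing the q-group Q and acting faithfully on it (X ∩ C(Q) = 1), and V a nontrivial elementary abelian p-group normalized by X and Q on which XQ acts faithfully. If q = 2 and r has the form 2^n + 1, assume in addition that Q is abelian. Then C_V(X) ≠ 1. -/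
theorem result {G : Type*} [Group G] [Finite G] {p q r : ℕ} (hp : p.Prime) (hq : q.Prime) (hr : r.Prime) (hpq : p ≠ q) (hpr : p ≠ r) (hqr : q ≠ r) (X Q V : Subgroup G) (hX : Nat.card X = r) (hQ : IsPGroup q Q) (hXQ : X ≤ Subgroup.normalizer (Q : Set G)) (hXfaith : X ⊓ Subgroup.centralizer (Q : Set G) = ⊥) (hV : Cfsg.IsElementaryAbelian p V) (hV1 : V ≠ ⊥) (hXV : X ≤ Subgroup.normalizer (V : Set G)) (hQV : Q ≤ Subgroup.normalizer (V : Set G)) (hfaith : (X ⊔ Q) ⊓ Subgroup.centralizer (V : Set G) = ⊥) (hexc : q = 2 → (∃ n : ℕ, r = 2 ^ n + 1) → IsMulCommutative Q) : V ⊓ Subgroup.centralizer (X : Set G) ≠ ⊥ := by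
  open Subgroup in
  haveI := Fact.mk hp
  haveI := Fact.mk hq
  obtain ⟨k, hk⟩ := card_pgroup hQ
  intro h
  have := comm_le_cen_EA hV hQV hXV hXQ (hX ▸ hr)
    (by rw [hX, hk]; exact ((Nat.coprime_primes hr hq).2 hqr.symm).pow_right _)
    (by rw [hk]; exact ((Nat.coprime_primes hq hp).2 hpq.symm).pow_left _)
    (by rw [hX]; exact (Nat.coprime_primes hr hp).2 hpr.symm) (fun e => by
      by_cases h2 : q = 2
      · exact fun A a1 _ => isComm_of_le (hexc h2 (hX ▸ e)) a1
      · exact ab2_of_odd (by rw [hk]; exact ((Nat.coprime_primes hq Nat.prime_two).2 h2).pow_left _)) h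
  have e := comm_eq_bot'.1 (eq_bot_mono (le_inf (comm_le_of_le le_sup_right le_sup_left) this) hfaith)
  exact ne_bot_of_prime (hX ▸ hr) (by rw [← hXfaith, inf_eq_left.2 e])

end Cfsg.Agent.S3765
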