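import Cfsg.Statements.S3766
import Cfsg.Agent.H1.U2

set_option autoImplicit false
open Cfsg

namespace Cfsg.Agent.S3766

open H7 H1B Subgroup
open scoped commutatorElement

/-- Let G be a finite solvable group and N a normal subgroup of G. Call a pair V < U of normal subgroups of G a chief factor of G when no normal subgroup of G lies strictly between them; an element g centralizes the chief factor U/V when u g u⁻¹ g⁻¹ ∈ V for all u ∈ U. Then an element of G lies in the Fitting subgroup F(N) if and only if it lies in N and centralizes every chief factor of G; and also if and only if it lies in N and centralizes every chief factor U/V of G with U ≤ F(N). -/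
theorem result {G : Type*} [Group G] [Finite G] (hG : Group.IsSolvable G) (N : Subgroup G) [N.Normal] (g : G) : (g ∈ (Cfsg.fittingSubgroup ↥N).map N.subtype ↔ g ∈ N ∧ ∀ U V : Subgroup G, (U.Normal ∧ V.Normal ∧ V < U ∧ ∀ W : Subgroup G, W.Normal → V ≤ W → W ≤ U → W = V ∨ W = U) → ∀ u ∈ U, u * g * u⁻¹ * g⁻¹ ∈ V) ∧ (g ∈ (Cfsg.fittingSubgroup ↥N).map N.subtype ↔ g ∈ N ∧ ∀ U V : Subgroup G, (U.Normal ∧ V.Normal ∧ V < U ∧ ∀ W : Subgroup G, W.Normal → V ≤ W → W ≤ U → W = V ∨ W = U) → U ≤ (Cfsg.fittingSubgroup ↥N).map N.subtype → ∀ u ∈ U, u * g * u⁻¹ * g⁻¹ ∈ V) := by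
  rw [fitting_map]
  have nF := nrm_Fit (top_nrm N)
  have a : g ∈ Fit N → ∀ U V : Subgroup G, (U.Normal ∧ V.Normal ∧ V < U ∧ ∀ W : Subgroup G, W.Normal →
      V ≤ W → W ≤ U → W = V ∨ W = U) → ∀ u ∈ U, u * g * u⁻¹ * g⁻¹ ∈ V := fun h U V ⟨_, _, c, d⟩ u hu =>
    nilp_comm_le_of_chief (nilp_Fit N) nF le_top le_top (top_nrm U) (top_nrm V) c.le
      (fun W w => d W (normal_of w)) (commutator_mem_commutator hu h)
  suffices b : g ∈ N → (∀ U V : Subgroup G, (U.Normal ∧ V.Normal ∧ V < U ∧ ∀ W : Subgroup G, W.Normal →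
      V ≤ W → W ≤ U → W = V ∨ W = U) → U ≤ Fit N → ∀ u ∈ U, u * g * u⁻¹ * g⁻¹ ∈ V) → g ∈ Fit N from
    ⟨⟨fun h => ⟨Fit_le N h, a h⟩, fun h => b h.1 fun U V c _ => h.2 U V c⟩,
      fun h => ⟨Fit_le N h, fun U V c _ => a h U V c⟩, fun h => b h.1 h.2⟩
  intro hg h
  set C := N ⊓ ⨅ (U) (V) (_ : ⊤ ≤ nrm U) (_ : ⊤ ≤ nrm V) (_ : V < U) (_ : U ≤ Fit N)
    (_ : ∀ W, ⊤ ≤ nrm W → V ≤ W → W ≤ U → W = V ∨ W = U), cmod V U
  have lc : ∀ {A}, A ≤ C ↔ A ≤ N ∧ ∀ U V, ⊤ ≤ nrm U → ⊤ ≤ nrm V → V < U → U ≤ Fit N →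
      (∀ W, ⊤ ≤ nrm W → V ≤ W → W ≤ U → W = V ∨ W = U) → ⁅U, A⁆ ≤ V := fun {A} => by
    simp only [C, le_inf_iff, le_iInf_iff, le_cmod, commutator_comm A]
    exact and_congr_right fun _ => ⟨fun h U V a b c d e => (h U V a b c d e).2,
      fun h U V a b c d e => ⟨le_top.trans b, h U V a b c d e⟩⟩
  have nC : ⊤ ≤ nrm C := nrm_inf (top_nrm N) (nrm_iInf fun U => nrm_iInf fun V => nrm_iInf fun a =>
    nrm_iInf fun b => nrm_iInf fun _ => nrm_iInf fun _ => nrm_iInf fun _ => nrm_cmod b a)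
  have fc : Fit N ≤ C := lc.2 ⟨Fit_le N, fun U V a b c d e =>
    nilp_comm_le_of_chief (nilp_Fit N) nF le_top le_top a b c.le e⟩
  refine (?_ : C ≤ Fit N) (zpowers_le.1 (lc.2 ⟨zpowers_le.2 hg, fun U V a b c d e => ?_⟩)); swap
  · rw [commutator_comm]
    refine comm_zpowers_le (b (mem_top g)) fun u hu => ?_
    rw [← commutatorElement_inv]
    exact inv_mem (h U V ⟨normal_of a, normal_of b, c, fun W w => e W (normal_iff_top_le_nrm.1 w)⟩ d u hu)
  refine (fc.eq_or_lt.resolve_right fun lt => ?_).ge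
  obtain ⟨L, l1, l2, l3, -, q, hq, e⟩ := exists_chief_above (solv_sub C) lt nC nF (le_top.trans nF)
  haveI := Fact.mk hq
  obtain ⟨Q, hQ⟩ := exists_syl q L
  have s := syl_sup_normal hQ l1.le (by
    rw [← kr_qm (Fit N), ← card_im (le_top.trans nF)]; exact piN_iff_isPGroup.2 e.isPGroup)
  have c := cen_of_chief (A := Q) (nrm_Opi {q}ᶜ nF) (coprime_of_isPGroup hQ.isPGroup
    (coprime_Op' q _)).symm fun U V a b c d => (lc.1 (hQ.le.trans l2)).2 U V a b c (d.trans (Opi_le _ _))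
  refine l1.2 (le_Fit (l2.trans inf_le_left) (le_top.trans l3) (nilp_of_le ?_ (nilp_sup_of_cen c
    (nilp_of_isPGroup hQ.isPGroup) (nilp_of_le (Opi_le _ _) (nilp_Fit N)))))
  exact s.ge.trans (sup_le ((nilp_Opi_sup (nilp_Fit N) {q}).ge.trans (sup_le_sup_right (hQ.le_of_normal
    (isPGroup_Op q _) ((Opi_le _ _).trans l1.le) (le_top.trans (nrm_Opi _ nF))) _)) le_sup_left)

end Cfsg.Agent.S3766
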