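import Cfsg.Statements.S3767
import Cfsg.Agent.H1.BG3c

set_option autoImplicit false
open Cfsg

namespace Cfsg.Agent.S3767

open H7 H1B

/-- Let P be an extraspecial p-group of order p^(2n+1) and H a cyclic group of order h prime to p acting on P (inside a common finite group: H normalizes P) so that C_P(x) = Z(P) for every non-identity x ∈ H. Then h divides p^n + 1 or h divides p^n − 1. -/
theorem result {G : Type*} [Group G] [Finite G] {p : ℕ} [Fact p.Prime] (P H : Subgroup G) (hP : Cfsg.IsExtraspecial p ↥P) (n : ℕ) (hn : Nat.card P = p ^ (2 * n + 1)) (hH : IsCyclic H) (hcop : (Nat.card H).Coprime p) (hHP : H ≤ Subgroup.normalizer (P : Set G)) (hfix : ∀ x ∈ H, x ≠ 1 → P ⊓ Subgroup.centralizer {x} = (Subgroup.center ↥P).map P.subtype) : Nat.card H ∣ p ^ n + 1 ∨ Nat.card H ∣ p ^ n - 1 := by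
  open Subgroup in
  have hp : p.Prime := Fact.out
  obtain ⟨h1, -, h2, h3⟩ := extraspecial_iff.1 hP
  rw [center_map_subtype] at hfix
  have e := relIndex_mul_card_inf (cen P) P
  rw [inf_comm, h3, hn, pow_succ, mul_comm 2, pow_mul] at e
  rcases dvd_of_ramified hHP (isComm_of_cyc hH) (hn ▸ hcop.pow_right _) (h3 ▸ hp) (h2.le.trans inf_le_right)
    hfix (Nat.eq_of_mul_eq_mul_right hp.pos e) with h | h
  · exact Or.inr (Int.natCast_dvd_natCast.1 (by
      rwa [Nat.cast_sub (Nat.one_le_pow _ _ hp.pos), Nat.cast_one]))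
  · exact Or.inl (by exact_mod_cast h)

end Cfsg.Agent.S3767
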