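import Cfsg.Statements.S3768
import Cfsg.Agent.H1.BG3a
import Cfsg.Agent.H1.FrobK

set_option autoImplicit false
open Cfsg

namespace Cfsg.Agent.S3768

open H7 H1B

/-- Let G be a finite Frobenius group with Frobenius complement R and Frobenius kernel K (the identity together with the elements in no conjugate of R), and let N be a normal subgroup of G not containing K. Then G/N is a Frobenius group with Frobenius complement RN/N whose Frobenius kernel is the image of K. -/
theorem result {G : Type*} [Group G] [Finite G] (R : Subgroup G) (hR : Cfsg.IsFrobeniusComplement R) (N : Subgroup G) [N.Normal] (hKN : ¬ Cfsg.frobeniusKernel R ⊆ N) : Cfsg.IsFrobeniusComplement (R.map (QuotientGroup.mk' N)) ∧ Cfsg.frobeniusKernel (R.map (QuotientGroup.mk' N)) = QuotientGroup.mk' N '' Cfsg.frobeniusKernel R := by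
  open Subgroup in
  obtain ⟨K, h1, h2, h3⟩ := H1.FrobC.exists_kernel hR
  have f : Reg R K := H1.FrobC.fpf hR (disjoint_iff.1 h3.symm.disjoint)
  have f' := f.im (le_nrm_of_normal _ _) le_top le_top (res (QuotientGroup.mk' N) ⊤)
  rw [im_top, im_top] at f'
  rw [← h1] at hKN ⊢
  have hRN : R ⊓ N = ⊥ := by_contra fun e => by
    obtain ⟨x, hx, hx1⟩ := exists_ne_one e
    refine hKN fun k hk => ?_
    obtain ⟨l, -, rfl⟩ := H1.exists_eq_mul_conj_inv (le_nrm_of_normal ⊤ K (mem_top x)) (f x hx.1 hx1) hk
    simpa [mul_assoc] using mul_mem (‹N.Normal›.conj_mem x hx.2 l) (inv_mem hx.2)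
  have hn : (K.map (QuotientGroup.mk' N)).Normal := h2.map _ (QuotientGroup.mk'_surjective N)
  have hc : IsComplement' (K.map (QuotientGroup.mk' N)) (R.map (QuotientGroup.mk' N)) := by
    refine isComplement'_of_disjoint_and_mul_eq_univ (disjoint_iff.2 (eq_bot_of_coprime
      (f'.coprime (le_nrm_of_normal _ _)).symm)) ?_
    rw [← normal_mul, ← Subgroup.map_sup, h3.sup_eq_top, map_top_of_surjective _ (QuotientGroup.mk'_surjective N),
      coe_top]
  have := H1.FrobC.of_fpf hc (fun e => hKN (by simpa using (Subgroup.map_eq_bot_iff _).1 e))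
    (fun e => hR.1 (by
      rw [Subgroup.map_eq_bot_iff, QuotientGroup.ker_mk'] at e
      rw [← hRN, inf_eq_left.2 e])) f'
  exact ⟨this, by rw [H1.FrobC.kernel_eq this hc, coe_map]⟩

end Cfsg.Agent.S3768
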