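import Cfsg.Statements.S3769
import Cfsg.Agent.H1.BG3c

set_option autoImplicit false
open Cfsg

namespace Cfsg.Agent.S3769

open H7 H1B

/-- Let G and V be subgroups of a finite group with G solvable of odd order normalizing V, V an elementary abelian ℓ-group for a prime ℓ not dividing the order of G, and suppose G has a normal Hall subgroup K with a complement R of prime order. If C_V(R) = 1, then [R, K] centralizes V. -/
theorem result {X : Type*} [Group X] [Finite X] (G : Subgroup X) (hsolv : Group.IsSolvable G) (hodd : Odd (Nat.card G)) (V : Subgroup X) {ℓ : ℕ} (hℓ : ℓ.Prime) (hV : Cfsg.IsElementaryAbelian ℓ V) (hℓG : ¬ ℓ ∣ Nat.card G) (hGV : G ≤ Subgroup.normalizer (V : Set X)) (K R : Subgroup X) (hKG : K ≤ G) (hKn : G ≤ Subgroup.normalizer (K : Set X)) (hHall : (Nat.card K).Coprime (K.relIndex G)) (hRG : R ≤ G) (hR : (Nat.card R).Prime) (hKR : K ⊓ R = ⊥) (hKRG : K ⊔ R = G) (hCV : V ⊓ Subgroup.centralizer (R : Set X) = ⊥) : ⁅R, K⁆ ≤ Subgroup.centralizer (V : Set X) := by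
  open Subgroup in
  haveI := Fact.mk hℓ
  have h1 := (hℓ.coprime_iff_not_dvd.2 hℓG).symm
  have hn := hRG.trans hKn
  rw [commutator_comm]
  refine comm_le_cen_EA hV (hKG.trans hGV) (hRG.trans hGV) hn hR ?_ (coprime_of_le hKG h1)
    (coprime_of_le hRG h1) (fun _ => ab2_of_odd (coprime_of_le hKG (odd_iff_coprime.1 hodd))) hCV
  rw [← hKRG, sup_comm, relIndex_sup_nrm hn, ← inf_relIndex_right, hKR, relIndex_bot_left] at hHall
  exact hHall.symm

end Cfsg.Agent.S3769
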