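import Cfsg.Statements.S3770
import Cfsg.Agent.H1.BG3c
import Cfsg.Agent.H1.FrobK

set_option autoImplicit false
open Cfsg

namespace Cfsg.Agent.S3770

open H7 H1B

/-- Let G and V be subgroups of a finite group with G a Frobenius group with complement R of prime order and kernel K, G normalizing V, and V an elementary abelian ℓ-group for a prime ℓ not dividing the order of G. If C_V(R) has order ℓ, then the derived subgroup of K centralizes V. -/
theorem result {X : Type*} [Group X] [Finite X] (G : Subgroup X) (V : Subgroup X) {ℓ : ℕ} (hℓ : ℓ.Prime) (hV : Cfsg.IsElementaryAbelian ℓ V) (hℓG : ¬ ℓ ∣ Nat.card G) (hGV : G ≤ Subgroup.normalizer (V : Set X)) (R : Subgroup ↥G) (hR : Cfsg.IsFrobeniusComplement R) (hRp : (Nat.card R).Prime) (hCV : Nat.card ↥(V ⊓ Subgroup.centralizer ((R.map G.subtype : Subgroup X) : Set X)) = ℓ) : ⁅Subgroup.closure (Subtype.val '' Cfsg.frobeniusKernel R), Subgroup.closure (Subtype.val '' Cfsg.frobeniusKernel R)⁆ ≤ Subgroup.centralizer (V : Set X) := by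
  open Subgroup in
  haveI := Fact.mk hℓ
  have h0 := (hℓ.coprime_iff_not_dvd.2 hℓG).symm
  obtain ⟨N, h1, h2, h3⟩ := H1.FrobC.exists_kernel hR
  have f : Reg R N := H1.FrobC.fpf hR (disjoint_iff.1 h3.symm.disjoint)
  have f' := f.im (le_nrm_of_normal _ _) le_top le_top (res G.subtype ⊤)
  rw [im_top, im_top] at f'
  rw [← h1, show closure (Subtype.val '' (N : Set G)) = N.map G.subtype from closure_eq (N.map G.subtype)]
  exact der_le_cen_EA hV ((map_subtype_le _).trans hGV) ((map_subtype_le _).trans hGV)
    (map_le_nrm_map _ (le_nrm_of_normal _ _)) f' (coprime_of_le (map_subtype_le _) h0)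
    (coprime_of_le (map_subtype_le _) h0) hCV.le

end Cfsg.Agent.S3770
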