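import Cfsg.Statements.S3772
import Cfsg.Agent.H1.XS

set_option autoImplicit false
open Cfsg

namespace Cfsg.Agent.S3772

open H7 H1B Subgroup

/-- Let G be a finite 2-group whose Frattini subgroup Φ(G) has order 2, with |G : Φ(G)| = 2^d, and let j be the number of elements x of G with x² = 1. Then j = 2^d, or j = 2^d + 2^(d−r) or j = 2^d − 2^(d−r) for some positive integer r with 2r ≤ d. Moreover if d = 2r and j is 2^d + 2^r or 2^d − 2^r, then G is extraspecial. -/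
theorem result {G : Type*} [Group G] [Finite G] (hG : IsPGroup 2 G) (hΦ : Nat.card (frattini G) = 2) (d : ℕ) (hd : (frattini G).index = 2 ^ d) : (Nat.card {x : G // x ^ 2 = 1} = 2 ^ d ∨ ∃ r : ℕ, 1 ≤ r ∧ 2 * r ≤ d ∧ (Nat.card {x : G // x ^ 2 = 1} = 2 ^ d + 2 ^ (d - r) ∨ Nat.card {x : G // x ^ 2 = 1} + 2 ^ (d - r) = 2 ^ d)) ∧ (∀ r : ℕ, d = 2 * r → (Nat.card {x : G // x ^ 2 = 1} = 2 ^ d + 2 ^ r ∨ Nat.card {x : G // x ^ 2 = 1} + 2 ^ r = 2 ^ d) → Cfsg.IsExtraspecial 2 G) := by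
  obtain ⟨z, hz, oz⟩ := exists_orderOf_of_pgroup (hG.to_subgroup (frattini G)) fun e => by simp [e] at hΦ
  have e : frattini G = zpowers z :=
    (eq_of_le_of_card_ge (zpowers_le.2 hz) (by rw [hΦ, Nat.card_zpowers, oz])).symm
  have h : SQ 2 ⊤ z := ⟨trivial, oz, fun g _ => mul_inv_eq_iff_eq_mul.1 (inv_unique_zpowers
      (e ▸ Normal.conj_mem inferInstance z hz g) (mem_zpowers z) ((ord_conj _ _).trans oz) oz),
    fun a _ b _ => e ▸ H2.commutator_le_frattini hG (commutator_mem_commutator trivial trivial),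
    fun a _ => e ▸ H2.pow_mem_frattini hG a⟩
  obtain ⟨r, h1, h2⟩ := h.count
  have c : ord (⊤ : Subgroup G) = 2 ^ (d + 1) := by
    rw [card_top, ← card_mul_index (frattini G), hΦ, hd, pow_succ']
  rw [← nsq_top]
  generalize hZ : ⊤ ⊓ cen (⊤ : Subgroup G) = Z at h1 h2
  have sZ : SQ 2 Z z := h.sub le_top (hZ ▸ ⟨trivial, h.zc⟩)
  obtain ⟨k, -, hk⟩ := (Nat.dvd_prime_pow Nat.prime_two).1 (c ▸ card_dvd_of_le (le_top (a := Z)))
  have k0 : 2 ^ 1 ≤ 2 ^ k := hk ▸ (card_le_of_le (zpowers_le.2 sZ.zm)).trans' (by simp [Nat.card_zpowers, oz])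
  rw [Nat.pow_le_pow_iff_right one_lt_two] at k0
  obtain ⟨k, rfl⟩ := Nat.exists_eq_add_of_le' k0
  obtain rfl : d = 2 * r + k := by
    have := Nat.pow_right_injective le_rfl (c.symm.trans (h1.trans (by rw [hk, ← pow_add]))); omega
  have cZ : ∀ c ∈ Z, c ∈ cen ⊤ := fun c hc => (hZ.ge hc).2
  have key : nsq (⊤ : Subgroup G) = 2 ^ (2 * r + k) ∨ (r ≠ 0 ∧ (nsq (⊤ : Subgroup G) = 2 ^ (2 * r + k) +
      2 ^ (r + k) ∨ nsq (⊤ : Subgroup G) + 2 ^ (r + k) = 2 ^ (2 * r + k))) := by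
    rw [c, hk, ← pow_add, ← add_assoc, pow_succ, pow_succ] at h2
    by_cases h3 : ∀ c ∈ Z, c * c = 1
    · have : nsq Z = ord Z := congrArg Set.ncard (Set.ext fun c => and_iff_left_of_imp (h3 c))
      rw [this, hk, ← pow_succ', ← pow_add, ← add_assoc, ← add_assoc, pow_succ, pow_succ] at h2
      refine .inr ⟨fun r0 => ?_, by omega⟩
      have := eq_of_le_of_card_ge (le_top (a := Z)) (by rw [c, hk, r0]; simp)
      refine h.z1 (mem_bot.1 ?_)
      rw [← Phi_top] at hz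
      exact Phi_le_of_elem Nat.prime_two (commutator_eq_bot_iff_le_centralizer.2 (this ▸ cZ :)).le
        (fun x hx => (pow_two x).trans (h3 x (this ▸ hx))) hz
    · push Not at h3
      obtain ⟨c, hc, h3⟩ := h3
      have := (sZ.cnt (cen_anti le_top (cZ c hc))).2 ((sZ.sq hc).resolve_left h3)
      rw [← Set.ncard_image_of_injective _ (mul_left_injective c), show (· * c) '' {a | a ∈ Z ∧ a * c * (a * c) = 1} =
          {a | a ∈ Z ∧ a * a = 1} from
        (Set.ext fun a => ⟨by rintro ⟨a, h, rfl⟩; exact ⟨mul_mem h.1 hc, h.2⟩,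
          fun h => ⟨a * c⁻¹, ⟨mul_mem h.1 (inv_mem hc), by simpa using h.2⟩, by simp⟩⟩), ← nsq, ← two_mul, hk] at this
      rw [this, ← pow_add, ← add_assoc, pow_succ] at h2
      omega
  refine ⟨key.imp_right fun h => ⟨r, by omega, by omega, by rw [show 2 * r + k - r = r + k by omega]; exact h.2⟩,
    fun s hs h3 => ?_⟩
  have p1 := Nat.two_pow_pos s
  have p2 := Nat.two_pow_pos (r + k)
  have p3 := Nat.pow_le_pow_right two_pos (show s + 1 ≤ 2 * r + k + 1 by omega)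
  have := key.resolve_left (by omega)
  have : 2 ^ s = 2 ^ (r + k) := by omega
  obtain rfl : k = 0 := by have := Nat.pow_right_injective le_rfl this; omega
  have x : XS 2 ⊤ z := ⟨h, hZ.trans (eq_of_le_of_card_ge (zpowers_le.2 sZ.zm)
    (by simp [hk, Nat.card_zpowers, oz])).symm⟩
  exact es_top.1 (x.es (mt (x.comm_iff c).1 (by omega)))

end Cfsg.Agent.S3772
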