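import Cfsg.Statements.S3773
import Cfsg.Agent.H7.QC

set_option autoImplicit false
open Cfsg

namespace Cfsg.Agent.S3773
open H7
open scoped commutatorElement

/-- Let G be a finite 2-group of nilpotency class at most 2 and exponent dividing 4 in which the elements x with x² = 1 form a subgroup N. Then |G| ≤ |N|³, and |G| < |N|³ unless G is special. -/
theorem result {G : Type*} [Group G] [Finite G] (hG : IsPGroup 2 G) (hcl : (⊤ : Subgroup G).lowerCentralSeries 2 = ⊥) (hexp : ∀ x : G, x ^ 4 = 1) (hN : ∀ x y : G, x ^ 2 = 1 → y ^ 2 = 1 → (x * y) ^ 2 = 1) : Nat.card G ≤ Nat.card {x : G // x ^ 2 = 1} ^ 3 ∧ (¬ Cfsg.IsSpecial 2 G → Nat.card G < Nat.card {x : G // x ^ 2 = 1} ^ 3) := by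
  open Subgroup in
  let N : Subgroup G :=
    { carrier := {x | x ^ 2 = 1}, one_mem' := one_pow 2, mul_mem' := fun {a b} => hN a b,
      inv_mem' := fun {a} (h : a ^ 2 = 1) => by show a⁻¹ ^ 2 = 1; rw [inv_pow, h, inv_one] }
  change Nat.card G ≤ Nat.card N ^ 3 ∧ (_ → Nat.card G < Nat.card N ^ 3)
  have sq : ∀ x : G, x ^ 2 ∈ N := fun x => by show (x ^ 2) ^ 2 = 1; rw [← pow_mul, hexp]
  have hm : ∀ x y : G, ⁅x, y⁆ ∈ N := fun x y => by
    rw [show ⁅x, y⁆ = x ^ 2 * (x⁻¹ * y) ^ 2 * y⁻¹ ^ 2 by simp [commutatorElement_def, pow_two, mul_assoc]]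
    exact mul_mem (mul_mem (sq _) (sq _)) (sq _)
  have cz : commutator G ≤ center G := by
    rw [← centralizer_univ, ← coe_top, ← commutator_eq_bot_iff_le_centralizer]; exact hcl
  have c1 : ∀ x y : G, ⁅x, y⁆ ∈ center G := fun x y => cz (commutator_mem_commutator trivial trivial)
  have sc : ∀ x : G, x ^ 2 ∈ center G := fun x => mem_center_iff.2 fun y => by
    rw [eq_comm, ← commutatorElement_eq_one_iff_mul_comm, comm_pow_left (mem_center_iff.1 (c1 x y) x).symm]
    exact hm x y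
  have ct : ∀ {X Y : Subgroup G}, X ≤ center G → X ≤ cen Y := fun h => h.trans (center_le_centralizer _)
  obtain ⟨g, hg⟩ := IsPGroup.iff_card.1 hG
  obtain ⟨n, hn⟩ := IsPGroup.iff_card.1 (hG.to_subgroup N)
  obtain ⟨z, hz⟩ := IsPGroup.iff_card.1 (hG.to_subgroup (center G))
  obtain ⟨h, hh⟩ := IsPGroup.iff_card.1 (hG.to_subgroup (N ⊓ center G))
  have k := quad_le (M := ⊤) (H := N ⊓ center G) (W := N) le_top (ct inf_le_right) (fun x _ => ⟨sq x, sc x⟩) (fun x hx => hx.1)
    le_top (ct le_rfl) (fun x => ⟨fun h => ⟨trivial, h⟩, fun h => h.2⟩) (a := g) (by rw [card_top, hg]) hz.symm.dvd hh hn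
  have l1 := H2.card_le_of_le' (inf_le_left : N ⊓ center G ≤ _)
  have l2 := H2.card_le_of_le' (inf_le_right : N ⊓ center G ≤ _)
  rw [hh, hn, Nat.pow_le_pow_iff_right (by norm_num)] at l1
  rw [hh, hz, Nat.pow_le_pow_iff_right (by norm_num)] at l2
  rw [hg, hn, ← pow_mul, Nat.pow_le_pow_iff_right (by norm_num), Nat.pow_lt_pow_iff_right (by norm_num)]
  refine ⟨by omega, fun ns => by_contra fun lt => ns ?_⟩
  have e1 : N ⊓ center G = N := H2.eq_of_le_of_card_le inf_le_left (by rw [hh, hn, show n = h by omega])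
  have e2 : N ⊓ center G = center G := H2.eq_of_le_of_card_le inf_le_right (by rw [hh, hz, show z = h by omega])
  have e3 : N = center G := e1.symm.trans e2
  have fN : frattini G ≤ N := fun x hx => Phi_le_of_elem (P := ⊤) Nat.prime_two (commutator_le.2 fun a _ b _ => hm a b)
    (fun x _ => sq x) ⟨⟨x, trivial⟩, by
      have := frattini_le_comap_frattini_of_surjective (φ := (topEquiv (G := G)).symm.toMonoidHom) topEquiv.symm.surjective hx
      exact this, rfl⟩
  suffices e : N ≤ commutator G from ⟨hG, le_antisymm (e3 ▸ fN) (e3 ▸ e.trans (H2.commutator_le_frattini hG)),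
    le_antisymm cz (e3 ▸ e)⟩
  let φ : G →* Abelianization G := (powMonoidHom 2).comp Abelianization.of
  have mk : ∀ x, x ∈ φ.ker ↔ x ^ 2 ∈ commutator G := fun x => by
    rw [← Abelianization.ker_of, MonoidHom.mem_ker, MonoidHom.mem_ker, map_pow]; rfl
  have NK : N ≤ φ.ker := fun x hx => (mk x).2 (by rw [show x ^ 2 = 1 from hx]; exact one_mem _)
  have lD : commutator G ≤ N := e3 ▸ cz
  obtain ⟨a, ha⟩ := IsPGroup.iff_card.1 (hG.to_subgroup φ.ker)
  obtain ⟨c, hc⟩ := IsPGroup.iff_card.1 (hG.to_subgroup (commutator G))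
  have k2 := quad_le (M := φ.ker) (H := commutator G) (W := N) (lD.trans NK) (ct cz) (fun x hx => (mk x).1 hx)
    (fun x hx => lD hx) NK (ct e3.le) (fun x => ⟨fun h => ⟨NK h, h⟩, fun h => h.2⟩) ha.symm.dvd hn.symm.dvd hc hn
  have i1 : φ.ker.index ≤ (commutator G).relIndex N := by
    rw [index_ker, ← Abelianization.ker_of, relIndex_ker]
    exact H2.card_le_of_le' (by rintro _ ⟨x, rfl⟩; exact ⟨_, sq x, map_pow _ x 2⟩)
  have i2 := H2.card_mul_relIndex lD
  have i3 := φ.ker.card_mul_index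
  rw [hc, hn] at i2
  rw [ha, hg] at i3
  have i4 : 2 ^ (g + c) ≤ 2 ^ (a + n) := by
    rw [pow_add, pow_add, ← i3, ← i2]; nlinarith [Nat.mul_le_mul_left (2 ^ a * 2 ^ c) i1]
  rw [Nat.pow_le_pow_iff_right (by norm_num)] at i4
  exact (H2.eq_of_le_of_card_le lD (by rw [hc, hn]; exact Nat.pow_le_pow_right (by norm_num) (by omega))).ge

end Cfsg.Agent.S3773
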