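import Cfsg.Statements.S3774
import Cfsg.Agent.H7.QC

set_option autoImplicit false
open Cfsg

namespace Cfsg.Agent.S3774
open H7
open scoped commutatorElement

/-- Let G be a nontrivial finite 2-group whose automorphism group permutes the involutions of G transitively. Then every involution of G is central, so that the involutions together with 1 form the subgroup Ω₁(Z(G)), and if this subgroup has order q then |G| is a power of q. -/
theorem result {G : Type*} [Group G] [Finite G] [Nontrivial G] (hG : IsPGroup 2 G) (htrans : ∀ x y : G, x ≠ 1 → x ^ 2 = 1 → y ≠ 1 → y ^ 2 = 1 → ∃ a : MulAut G, a x = y) : (∀ x : G, x ^ 2 = 1 → x ∈ Subgroup.center G) ∧ ∃ m : ℕ, Nat.card G = Nat.card {z : G // z ^ 2 = 1} ^ m := by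
  open Subgroup in
  classical
  obtain ⟨z, hz, z1, z2⟩ : ∃ z ∈ center G, z ≠ 1 ∧ z ^ 2 = 1 := by
    haveI := hG.center_nontrivial
    obtain ⟨z, hz⟩ := exists_prime_orderOf_dvd_card' 2 (H2.dvd_card_of_ne_bot (hG.to_subgroup (center G))
      ((nontrivial_iff_ne_bot _).1 inferInstance))
    exact ⟨z, z.2, fun e => by simp [show z = 1 from Subtype.ext e] at hz,
      congrArg Subtype.val (hz ▸ pow_orderOf_eq_one z)⟩
  have hc : ∀ x : G, x ^ 2 = 1 → x ∈ center G := fun x hx => by
    by_cases e : x = 1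
    · exact e ▸ one_mem _
    obtain ⟨a, rfl⟩ := htrans z x z1 z2 e hx
    exact mem_center_iff.2 fun g => by simpa using congrArg a (mem_center_iff.1 hz (a.symm g))
  refine ⟨hc, ?_⟩
  have eN : Nat.card {z : G // z ^ 2 = 1} = Nat.card (Om 2 (center G)) := Nat.card_congr (Equiv.subtypeEquivRight fun x => by
    rw [mem_Om_iff inferInstance]; exact ⟨fun h => ⟨hc x h, h⟩, fun h => h.2⟩)
  obtain ⟨g, hg⟩ := IsPGroup.iff_card.1 hG
  obtain ⟨n, hn⟩ := IsPGroup.iff_card.1 (hG.to_subgroup (Om 2 (center G)))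
  haveI := Fintype.ofFinite G
  have ix : ∀ t : G, t ≠ 1 → t ^ 2 = 1 → (MulAction.stabilizer (MulAut G) t).index = 2 ^ n - 1 := fun t t1 t2 => by
    rw [MulAction.index_stabilizer, ← hn, show MulAction.orbit (MulAut G) t = (Om 2 (center G) : Set G) \ {1} from
      Set.ext fun y => ⟨?_, fun h => htrans t y t1 t2 h.2 ((mem_Om_iff inferInstance).1 h.1).2⟩,
      Set.ncard_diff_singleton_of_mem (one_mem _)]
    · rfl
    rintro ⟨a, rfl⟩
    have : a t ^ 2 = 1 := by rw [← map_pow, t2, map_one]
    exact ⟨mem_Om (hc _ this) this, fun e => t1 (a.injective ((show a t = 1 from e).trans (map_one a).symm))⟩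
  have d := dvd_sum_orb (Γ := MulAut G) (fun x : G => if x = 1 then 0 else 1) (n := 2 ^ n - 1)
    (fun a x => if_congr (map_eq_one_iff a a.injective) rfl rfl) fun x => by
      split_ifs with e
      · simp
      obtain ⟨t, ht⟩ := exists_prime_orderOf_dvd_card' 2 (H2.dvd_card_of_ne_bot (hG.to_subgroup (zpowers x))
        (mt zpowers_eq_bot.1 e))
      rw [mul_one, ← ix t (fun e => by simp [show t = 1 from Subtype.ext e] at ht)
        (congrArg Subtype.val (ht ▸ pow_orderOf_eq_one t))]
      refine index_dvd_of_le fun a ha => ?_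
      obtain ⟨_, k, rfl⟩ := t
      exact (map_zpow a x k).trans (congrArg (· ^ k) ha)
  have s : ∑ x : G, (if x = 1 then 0 else 1) = 2 ^ g - 1 := by
    rw [← hg, Nat.card_eq_fintype_card, Finset.sum_ite, Finset.sum_const_zero, zero_add, Finset.sum_const, smul_eq_mul, mul_one,
      Finset.filter_ne', Finset.card_erase_of_mem (Finset.mem_univ _), Finset.card_univ]
  rw [s] at d
  have e := Nat.pow_sub_one_gcd_pow_sub_one 2 n g
  rw [Nat.gcd_eq_left d] at e
  have e2 : n = n.gcd g := Nat.pow_right_injective le_rfl (by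
    have := Nat.one_le_two_pow (n := n); have := Nat.one_le_two_pow (n := n.gcd g); simp only; omega)
  obtain ⟨m, rfl⟩ : n ∣ g := e2 ▸ Nat.gcd_dvd_right n g
  exact ⟨m, by rw [eN, hn, hg, pow_mul]⟩

end Cfsg.Agent.S3774
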