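import Cfsg.Statements.S3775
import Mathlib
import Cfsg.Agent.H1.Gaschutz

set_option autoImplicit false
open Cfsg

namespace Cfsg.Agent.S3775

/-- Let A be a finite abelian p-group and X a group of automorphisms of A of order prime to p. Call a subgroup of A invariant when every element of X maps it onto itself. Then the following are equivalent: (i) A is not the direct product of two nontrivial invariant subgroups; (ii) every invariant subgroup of A is one of the subgroups Ω_i(A) = {a : a^(p^i) = 1}; (iii) the subgroup Ω₁(A) of elements of order dividing p has no invariant subgroups other than 1 and itself. -/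
theorem result {A : Type*} [CommGroup A] [Finite A] {p : ℕ} [Fact p.Prime] (hA : IsPGroup p A) (X : Subgroup (MulAut A)) (hX : (Nat.card X).Coprime p) : ((¬ ∃ B C : Subgroup A, B ≠ ⊥ ∧ C ≠ ⊥ ∧ (∀ x ∈ X, B.map x.toMonoidHom = B) ∧ (∀ x ∈ X, C.map x.toMonoidHom = C) ∧ B ⊓ C = ⊥ ∧ B ⊔ C = ⊤) ↔ (∀ B : Subgroup A, (∀ x ∈ X, B.map x.toMonoidHom = B) → ∃ i : ℕ, ∀ a : A, a ∈ B ↔ a ^ p ^ i = 1)) ∧ ((∀ B : Subgroup A, (∀ x ∈ X, B.map x.toMonoidHom = B) → ∃ i : ℕ, ∀ a : A, a ∈ B ↔ a ^ p ^ i = 1) ↔ (∀ B : Subgroup A, (∀ x ∈ X, B.map x.toMonoidHom = B) → (∀ b ∈ B, b ^ p = 1) → B = ⊥ ∨ ∀ a : A, a ∈ B ↔ a ^ p = 1)) := by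
  classical
  have hp : p.Prime := Fact.out
  let I := fun S : Subgroup A => ∀ x ∈ X, ∀ s ∈ S, x s ∈ S
  have iI : ∀ S : Subgroup A, (∀ x ∈ X, S.map x.toMonoidHom = S) ↔ I S := fun S =>
    ⟨fun h x hx s hs => (h x hx).le ⟨s, hs, rfl⟩, fun h x hx => le_antisymm
      (by rintro _ ⟨s, hs, rfl⟩; exact h x hx s hs) fun s hs =>
        ⟨x⁻¹ s, h _ (X.inv_mem hx) s hs, by simp⟩⟩
  simp only [iI]
  have pd : ∀ {a : A} {m n : ℕ}, a ^ m = 1 → m ∣ n → a ^ n = 1 := by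
    rintro a m _ h ⟨k, rfl⟩
    rw [pow_mul, h, one_pow]
  have iM : ∀ (n : ℕ) (S : Subgroup A), I S → I (S.map (powMonoidHom n)) := by
    rintro n S h x hx _ ⟨s, hs, rfl⟩
    exact ⟨x s, h x hx s hs, by simp⟩
  have iC : ∀ (n : ℕ) (S : Subgroup A), I S → I (S.comap (powMonoidHom n)) := fun n S h x hx s hs =>
    by simpa using h x hx _ hs
  have iB : I ⊥ := by simp [I]
  have ma : ∀ L U T : Subgroup A, I L → I U → I T → L ≤ U → U ≤ T → (∀ t ∈ T, t ^ p ∈ L) →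
      ∃ D, I D ∧ L ≤ D ∧ D ⊓ U ≤ L ∧ U ⊔ D = T := fun L U T hL hU hT LU UT ht => by
    let ρ : X →* MulAut (A ⧸ L) :=
      { toFun := fun x => QuotientGroup.congr L L x.1 ((iI L).2 hL x x.2)
        map_one' := MulEquiv.ext fun a => QuotientGroup.induction_on a fun _ => rfl
        map_mul' := fun _ _ => MulEquiv.ext fun a => QuotientGroup.induction_on a fun _ => rfl }
    haveI : Finite (MulAut A) := Finite.of_injective _ DFunLike.coe_injective
    haveI : Finite ((A ⧸ L) ⋊[ρ] X) := Finite.of_equiv _ SemidirectProduct.equivProd.symm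
    let f : A →* (A ⧸ L) ⋊[ρ] X := SemidirectProduct.inl.comp (QuotientGroup.mk' L)
    have k : f.ker = L := (MonoidHom.ker_comp_of_injective _ _
      SemidirectProduct.inl_injective).trans (QuotientGroup.ker_mk' L)
    have c : ∀ (x : X) (a : A), f (x.1 a) = .inr x * f a * (.inr x)⁻¹ := fun x a => by
      rw [← map_inv]; exact SemidirectProduct.inl_aut x (QuotientGroup.mk a)
    have nm : ∀ S, I S → SemidirectProduct.inr.range ≤ Subgroup.normalizer
        ((S.map f : Subgroup _) : Set ((A ⧸ L) ⋊[ρ] X)) := by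
      rintro S h _ ⟨x, rfl⟩
      refine Subgroup.mem_normalizer_fintype ?_
      rintro _ ⟨s, hs, rfl⟩
      exact ⟨_, h x x.2 s hs, c x s⟩
    obtain ⟨n, hn⟩ := ((hA.to_subgroup U).map f).exists_card_eq
    obtain ⟨W, w1, w2, w3⟩ := H1.maschke hp (by
      rintro _ ⟨t, h, rfl⟩
      rw [← map_pow]; exact k.ge (ht t h)) (nm T hT) (nm U hU) (Subgroup.map_mono UT) (by
        rw [hn, ← Nat.card_congr (MonoidHom.ofInjective SemidirectProduct.inr_injective).toEquiv]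
        exact hX.pow_right n)
    refine ⟨W.comap f, fun x hx s hs => ?_, fun l hl => ?_, fun d hd => k.le
      (w2.le ⟨⟨d, hd.2, rfl⟩, hd.1⟩), ?_⟩
    · rw [Subgroup.mem_comap, c ⟨x, hx⟩]
      exact (Subgroup.mem_normalizer_iff.1 (w1 ⟨_, rfl⟩) _).1 hs
    · rw [Subgroup.mem_comap, show f l = 1 from k.ge hl]; exact W.one_mem
    · rw [← Subgroup.comap_map_eq_self (k.le.trans LU), Subgroup.comap_sup_eq_of_le_range _
        (Subgroup.map_le_range ..) ((le_sup_right.trans w3.le).trans (Subgroup.map_le_range ..)), w3,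
        Subgroup.comap_map_eq_self (k.le.trans (LU.trans UT))]
  have ee : ∀ B : Subgroup A, B ≠ ⊥ → ∃ e, (∀ b ∈ B, b ^ p ^ (e + 1) = 1) ∧
      B.map (powMonoidHom (p ^ e)) ≠ ⊥ := fun B hB => by
    have h : ∃ n, ∀ b ∈ B, b ^ p ^ n = 1 := by
      obtain ⟨n, hn⟩ := hA.exists_card_eq
      exact ⟨n, fun b _ => hn ▸ pow_card_eq_one'⟩
    obtain ⟨e, he⟩ := Nat.exists_eq_succ_of_ne_zero (n := Nat.find h) fun e => hB
      ((Subgroup.eq_bot_iff_forall _).2 (by simpa [e] using Nat.find_spec h))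
    exact ⟨e, by simpa [he] using Nat.find_spec h, fun k => Nat.find_min h (he ▸ e.lt_succ_self)
      fun b hb => k.le ⟨b, hb, rfl⟩⟩
  have up : ∀ (B C : Subgroup A) (e : ℕ), (∀ a, a ^ p ∈ C → a ∈ B.map (powMonoidHom (p ^ e)) ⊔ C) →
      ∀ j ≤ e + 1, ∀ a, a ^ p ^ j ∈ C → a ∈ B ⊔ C := fun B C e h j => by
    induction j with
    | zero => exact fun _ a ha => Subgroup.mem_sup_right (by simpa using ha)
    | succ j ih =>
      intro hj a ha
      obtain ⟨_, ⟨b, hb, rfl⟩, c, hc, k⟩ := Subgroup.mem_sup.1 (h (a ^ p ^ j)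
        (by rwa [← pow_mul, ← pow_succ]))
      have := ih (by omega) (a * (b ^ p ^ (e - j))⁻¹) (by
        rw [mul_pow, inv_pow, ← pow_mul, ← pow_add, Nat.sub_add_cancel (by omega), ← k]
        simpa using hc)
      simpa using Subgroup.mul_mem _ this (Subgroup.mem_sup_left (B.pow_mem hb (p ^ (e - j))))
  have h23 : (∀ B, I B → ∃ i : ℕ, ∀ a : A, a ∈ B ↔ a ^ p ^ i = 1) ↔
      ∀ B, I B → (∀ b ∈ B, b ^ p = 1) → B = ⊥ ∨ ∀ a : A, a ∈ B ↔ a ^ p = 1 := by
    refine ⟨fun h B hB k => ?_, fun h B hB => ?_⟩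
    · obtain ⟨_ | i, hi⟩ := h B hB
      · exact .inl (Subgroup.ext (by simpa using hi))
      · exact .inr fun a => ⟨k a, fun e => (hi a).2 (by rw [pow_succ', pow_mul, e, one_pow])⟩
    by_cases b : B = ⊥
    · exact ⟨0, by simp [b]⟩
    obtain ⟨e, h1, h2⟩ := ee B b
    have := (h _ (iM _ B hB) (by
      rintro _ ⟨b, hb, rfl⟩
      simpa [← pow_mul, ← pow_succ] using h1 b hb)).resolve_left h2
    exact ⟨e + 1, fun a => ⟨h1 a, fun k => by
      simpa using up B ⊥ e (fun a ha => Subgroup.mem_sup_left ((this a).2 ha)) _ le_rfl a k⟩⟩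
  refine ⟨⟨fun h => h23.2 fun S hS sp => or_iff_not_imp_left.2 fun s0 => ?_, ?_⟩, h23⟩
  swap
  · rintro h ⟨B, C, b, c, hB, hC, d, -⟩
    obtain ⟨i, hi⟩ := h B hB
    obtain ⟨j, hj⟩ := h C hC
    rcases le_total i j with k | k
    · exact b (inf_eq_left.2 (fun a ha => (hj a).2 (pd ((hi a).1 ha)
        (pow_dvd_pow p k))) |>.symm.trans d)
    · exact c (inf_eq_right.2 (fun a ha => (hi a).2 (pd ((hj a).1 ha)
        (pow_dvd_pow p k))) |>.symm.trans d)
  obtain ⟨e, h1, h2⟩ := ee ⊤ (ne_bot_of_le_ne_bot s0 le_top)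
  obtain ⟨W, ⟨w0, wI, wl⟩, wm⟩ := wellFounded_lt.has_min
    {W | W ≠ ⊥ ∧ I W ∧ W ≤ Subgroup.map (powMonoidHom (p ^ e)) ⊤}
    ⟨_, h2, iM _ _ fun _ _ _ _ => trivial, le_rfl⟩
  obtain ⟨B, ⟨bI, bW⟩, bm⟩ := wellFounded_lt.has_min
    {B | I B ∧ B.map (powMonoidHom (p ^ e)) = W} ⟨_, iC _ W wI,
      Subgroup.map_comap_eq_self (wl.trans (Subgroup.map_le_range ..))⟩
  have o1 : ∀ b ∈ B, b ^ p = 1 → b ∈ W := by
    obtain ⟨D, d1, -, d3, d4⟩ := ma (B.map (powMonoidHom p)) (B ⊓ Subgroup.comap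
      (powMonoidHom (p ^ e)) ⊥) B (iM _ B bI) (fun x hx s hs => ⟨bI x hx s hs.1,
        iC _ _ iB x hx s hs.2⟩) bI (by
          rintro _ ⟨b, hb, rfl⟩
          exact ⟨B.pow_mem hb p, by simpa [← pow_mul, ← pow_succ'] using h1 b trivial⟩)
      inf_le_left fun t ht => ⟨t, ht, rfl⟩
    obtain rfl : D = B := (le_sup_right.trans d4.le).eq_of_not_lt (bm D ⟨d1, by
      rw [← bW, ← congrArg (Subgroup.map _) d4, Subgroup.map_sup, eq_comm, sup_eq_right]
      exact (Subgroup.map_le_iff_le_comap.2 inf_le_right).trans bot_le⟩)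
    intro b hb k
    have : ∀ j ≤ e, ∃ c ∈ D, c ^ p ^ j = b := fun j => by
      induction j with
      | zero => exact fun _ => ⟨b, hb, by simp⟩
      | succ j ih =>
        intro hj
        obtain ⟨c, hc, rfl⟩ := ih (by omega)
        rw [← pow_mul, ← pow_succ] at k
        obtain ⟨d, hd, rfl⟩ := d3 ⟨hc, hc, pd k (pow_dvd_pow p hj)⟩
        exact ⟨d, hd, by simp [← pow_mul, pow_succ']⟩
    exact bW.le (this e le_rfl)
  obtain ⟨C, ⟨cI, cB⟩, cm⟩ := wellFounded_gt.has_min {C | I C ∧ B ⊓ C = ⊥} ⟨⊥, iB, inf_bot_eq _⟩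
  have wp : ∀ w ∈ W, w ^ p = 1 := fun w hw => by
    obtain ⟨a, -, rfl⟩ := wl hw
    simpa [← pow_mul, ← pow_succ] using h1 a trivial
  obtain ⟨D, d1, d2, d3, d4⟩ := ma C (W ⊔ C) (C.comap (powMonoidHom p)) cI (fun x hx s hs => by
    obtain ⟨w, hw, c, hc, rfl⟩ := Subgroup.mem_sup.1 hs
    exact map_mul x w c ▸ Subgroup.mul_mem_sup (wI x hx w hw) (cI x hx c hc)) (iC _ C cI)
    le_sup_right (sup_le (fun w hw => by simp [wp w hw]) fun c hc => C.pow_mem hc p) fun t ht => ht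
  obtain rfl : C = D := d2.eq_of_not_lt (cm D ⟨d1, eq_bot_iff.2 fun d hd => cB.le ⟨hd.1, d3 ⟨hd.2,
    Subgroup.mem_sup_left (o1 d hd.1 (cB.le ⟨B.pow_mem hd.1 p,
      (le_sup_right.trans d4.le) hd.2⟩))⟩⟩⟩)
  have t : B ⊔ C = ⊤ := eq_top_iff.2 fun a _ => up B C e (fun a ha => by
    simpa [bW] using d4.ge ha) _ le_rfl a (h1 a trivial ▸ C.one_mem)
  obtain rfl : C = ⊥ := by_contra fun c => h ⟨B, C, fun b => w0 (by simp [← bW, b]), c, bI, cI, cB, t⟩
  rw [sup_bot_eq] at t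
  have sW : S ≤ W := fun s hs => o1 s (t.ge trivial) (sp s hs)
  obtain rfl := sW.eq_of_not_lt (wm S ⟨s0, hS, sW.trans wl⟩)
  exact fun a => ⟨sp a, o1 a (t.ge trivial)⟩

end Cfsg.Agent.S3775
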