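import Cfsg.Statements.S3778
import Cfsg.Agent.H7.GK

set_option autoImplicit false
open Cfsg

namespace Cfsg.Agent.S3778
open H7
open scoped commutatorElement

/-- If G is a finite p-group in which every conjugacy class has at most p^b elements (every element has centralizer of index at most p^b), then G is abelian when b = 0, and when b ≥ 1 its nilpotency class c satisfies (c − 1)(p − 1) < bp, that is c < bp/(p − 1) + 1, and hence c ≤ 2b. -/
theorem result {G : Type*} [Group G] [Finite G] {p : ℕ} [Fact p.Prime] (hG : IsPGroup p G) (b : ℕ) (hb : ∀ x : G, (Subgroup.centralizer ({x} : Set G)).index ≤ p ^ b) : ∃ c : ℕ, (⊤ : Subgroup G).lowerCentralSeries c = ⊥ ∧ (b ≠ 0 → (c - 1) * (p - 1) < b * p ∧ c ≤ 2 * b) ∧ (b = 0 → c ≤ 1) := by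
  open Subgroup in
  classical
  have hp : p.Prime := Fact.out
  haveI := hG.isNilpotent
  have hex := Subgroup.nilpotent_iff_lowerCentralSeries.1 (inferInstance : Group.IsNilpotent G)
  set γ := (⊤ : Subgroup G).lowerCentralSeries with hγ
  have hanti : Antitone γ := Subgroup.lowerCentralSeries_antitone _
  have hnor : ∀ i, (γ i).Normal := fun i => inferInstance
  set c := Nat.find hex with hc
  have hc0 : γ c = ⊥ := Nat.find_spec hex
  have hne : ∀ i, i < c → ¬ γ i ≤ γ (i + 1) := by
    intro i hi h
    have e : γ (i + 1) = γ i := le_antisymm (hanti (Nat.le_succ i)) h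
    have : ∀ k, γ (i + k) = γ i := by
      intro k
      induction k with
      | zero => rfl
      | succ k ih =>
        show ⁅γ (i + k), ⊤⁆ = _
        rw [ih]; exact e
    have h2 := this (c - i)
    rw [Nat.add_sub_cancel' hi.le, hc0] at h2
    exact Nat.find_min hex hi h2.symm
  let C : ℕ → Subgroup G := fun i =>
    { carrier := {x | ∀ y ∈ γ i, ⁅y, x⁆ ∈ γ (i + 2)}
      one_mem' := fun y _ => by simp
      mul_mem' := by
        intro a b ha hb y hy
        have : ⁅y, a * b⁆ = ⁅y, a⁆ * (a * ⁅y, b⁆ * a⁻¹) := by simp only [commutatorElement_def]; group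
        rw [this]
        exact mul_mem (ha y hy) ((hnor _).conj_mem _ (hb y hy) a)
      inv_mem' := by
        intro a ha y hy
        have : ⁅y, a⁻¹⁆ = a⁻¹ * ⁅y, a⁆⁻¹ * a⁻¹⁻¹ := by simp only [commutatorElement_def]; group
        rw [this]
        exact (hnor _).conj_mem _ (inv_mem (ha y hy)) _ }
  have hC : ∀ i, i + 1 < c → C i < ⊤ := by
    intro i hi
    refine lt_top_iff_ne_top.2 fun h => hne (i + 1) hi ?_
    show ⁅γ i, ⊤⁆ ≤ _
    rw [Subgroup.commutator_le]
    intro y hy x _
    have : x ∈ C i := by rw [h]; trivial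
    exact this y hy
  haveI := Fintype.ofFinite G
  have hsub : ∀ K : Subgroup G, IsPGroup p K := fun K => hG.to_subgroup K
  have hcount : ∀ x : G, ∀ j, p ^ ((Finset.range j).filter (fun i => x ∉ C i)).card *
      Nat.card (γ j ⊔ Subgroup.centralizer {x} : Subgroup G) ≤ Nat.card G := by
    intro x j
    induction j with
    | zero => simpa using Subgroup.card_le_card_group (γ 0 ⊔ Subgroup.centralizer {x})
    | succ j ih =>
      have hle : γ (j + 1) ⊔ Subgroup.centralizer {x} ≤ γ j ⊔ Subgroup.centralizer {x} :=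
        sup_le_sup_right (hanti (Nat.le_succ j)) _
      rw [Finset.range_add_one, Finset.filter_insert]
      by_cases h : x ∉ C j
      · rw [if_pos h, Finset.card_insert_of_notMem (by simp), pow_succ, mul_assoc]
        refine le_trans (Nat.mul_le_mul_left _ (H7.mul_card_le_of_lt (hsub _) (lt_of_le_of_ne hle fun e => h ?_))) ih
        intro y hy
        haveI := hnor (j + 1)
        have : y ∈ γ (j + 1) ⊔ Subgroup.centralizer {x} := by rw [e]; exact Subgroup.mem_sup_left hy
        rw [← SetLike.mem_coe, Subgroup.normal_mul] at this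
        obtain ⟨u, hu, v, hv, rfl⟩ := this
        have hv' := Subgroup.mem_centralizer_singleton_iff.1 hv
        have : ⁅u * v, x⁆ = ⁅u, x⁆ := by
          simp only [commutatorElement_def]
          calc u * v * x * (u * v)⁻¹ * x⁻¹ = u * (v * x) * v⁻¹ * u⁻¹ * x⁻¹ := by group
            _ = _ := by rw [hv']; group
        show ⁅u * v, x⁆ ∈ _
        rw [this]
        exact Subgroup.commutator_mem_commutator hu (Subgroup.mem_top x)
      · rw [if_neg h]; exact le_trans (Nat.mul_le_mul_left _ (Subgroup.card_le_of_le hle)) ih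
  have hcb : ∀ x : G, ((Finset.range (c - 1)).filter (fun i => x ∉ C i)).card ≤ b := by
    intro x
    have h1 := hcount x (c - 1)
    have h2 : Nat.card (Subgroup.centralizer ({x} : Set G)) ≤ Nat.card (γ (c - 1) ⊔ Subgroup.centralizer {x} : Subgroup G) :=
      Subgroup.card_le_of_le le_sup_right
    have h3 := (Subgroup.centralizer ({x} : Set G)).index_mul_card
    have h4 := (Nat.mul_le_mul_left _ h2).trans h1
    rw [← h3] at h4
    exact (Nat.pow_le_pow_iff_right hp.one_lt).1 ((Nat.le_of_mul_le_mul_right h4 Nat.card_pos).trans (hb x))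
  have hsum : ∑ x : G, ((Finset.range (c - 1)).filter (fun i => x ∉ C i)).card =
      ∑ i ∈ Finset.range (c - 1), (Finset.univ.filter (fun x => x ∉ C i)).card := by
    simp only [Finset.card_filter]
    exact Finset.sum_comm
  have h1 : ∑ x : G, ((Finset.range (c - 1)).filter (fun i => x ∉ C i)).card ≤ (Nat.card G - 1) * b := by
    rw [← Finset.sum_erase_add _ _ (Finset.mem_univ (1 : G)), Finset.filter_false_of_mem (fun i _ h => h (one_mem _)),
      Finset.card_empty, add_zero]
    refine (Finset.sum_le_card_nsmul _ _ b fun x _ => hcb x).trans ?_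
    rw [Finset.card_erase_of_mem (Finset.mem_univ _), Finset.card_univ, Nat.card_eq_fintype_card, smul_eq_mul]
  have h2 : (c - 1) * ((p - 1) * Nat.card G) ≤ p * ∑ i ∈ Finset.range (c - 1), (Finset.univ.filter (fun x => x ∉ C i)).card := by
    rw [Finset.mul_sum]
    refine le_trans (by rw [Finset.card_range, smul_eq_mul]) (Finset.card_nsmul_le_sum _ _ ((p - 1) * Nat.card G) fun i hi => ?_)
    have hi' : i + 1 < c := by have := Finset.mem_range.1 hi; omega
    have a1 := H7.mul_card_le_of_lt (hsub ⊤) (hC i hi')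
    rw [Subgroup.card_top] at a1
    have a2 : (Finset.univ.filter (fun x => x ∈ C i)).card + (Finset.univ.filter (fun x => x ∉ C i)).card = Nat.card G := by
      rw [Finset.card_filter_add_card_filter_not, Finset.card_univ, Nat.card_eq_fintype_card]
    have a3 : (Finset.univ.filter (fun x => x ∈ C i)).card = Nat.card (C i) := by
      rw [Nat.card_eq_fintype_card, Fintype.card_subtype]
    rw [a3] at a2
    obtain ⟨k, hk⟩ : ∃ k, p = k + 1 := ⟨p - 1, by have := hp.pos; omega⟩
    rw [hk] at a1 ⊢
    rw [Nat.add_sub_cancel]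
    nlinarith
  have hG0 : 0 < Nat.card G := Nat.card_pos
  have h3 : (c - 1) * (p - 1) * Nat.card G ≤ b * p * (Nat.card G - 1) := by
    rw [mul_assoc]
    refine h2.trans ?_
    rw [← hsum]
    refine (Nat.mul_le_mul_left _ h1).trans (le_of_eq (by ring))
  have hp2 := hp.two_le
  refine ⟨c, hc0, fun hb0 => ?_, fun hb0 => ?_⟩
  · have h4 : (c - 1) * (p - 1) < b * p := by
      refine Nat.lt_of_mul_lt_mul_right (a := Nat.card G) (h3.trans_lt ?_)
      exact Nat.mul_lt_mul_of_pos_left (by omega) (Nat.mul_pos (Nat.pos_of_ne_zero hb0) hp.pos)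
    refine ⟨h4, ?_⟩
    have h5 : b * p ≤ 2 * b * (p - 1) := by
      rw [mul_comm 2 b, mul_assoc]; exact Nat.mul_le_mul_left _ (by omega)
    have := Nat.lt_of_mul_lt_mul_right (h4.trans_le h5)
    omega
  · rw [hb0, zero_mul, zero_mul, Nat.le_zero, Nat.mul_eq_zero, Nat.mul_eq_zero] at h3
    omega

end Cfsg.Agent.S3778
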