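import Cfsg.Statements.S3779
import Cfsg.Agent.H2.KK3
import Cfsg.Agent.S0033

set_option autoImplicit false
open Cfsg

namespace Cfsg.Agent.S3779


open scoped TensorProduct

/-- Let G be a finite group with an automorphism of prime order p fixing only the identity. Then G is nilpotent; if p = 2 then G is abelian, if p = 3 then G has class at most 2, and in general the class of G is at most ξ = 1 + (p−1) + (p−1)² + ⋯ + (p−1)^(n−1) with n = 2^(p−1) − 1 (the Higman–Kreknin–Kostrikin bound). -/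
theorem result {G : Type*} [Group G] [Finite G] {p : ℕ} (hp : p.Prime) (α : MulAut G) (hα : orderOf α = p) (hfpf : ∀ g : G, α g = g → g = 1) : (p = 2 → (⊤ : Subgroup G).lowerCentralSeries 1 = ⊥) ∧ (p = 3 → (⊤ : Subgroup G).lowerCentralSeries 2 = ⊥) ∧ (⊤ : Subgroup G).lowerCentralSeries (Finset.sum (Finset.range (2 ^ (p - 1) - 1)) (fun i => (p - 1) ^ i)) = ⊥ := by
  haveI := Fact.mk hp
  haveI : Group.IsNilpotent G := Cfsg.Agent.S0033.result α hfpf p hp hα
  have hα1 : α ^ p = 1 := by rw [← hα, pow_orderOf_eq_one]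
  have he : (Nat.card G).Coprime p := by
    classical
    haveI := Fintype.ofFinite G
    have h1 : (show Function.End G from ⇑α) ^ p ^ 1 = 1 := by
      rw [pow_one]
      funext v
      have : ∀ n : ℕ, ((show Function.End G from ⇑α) ^ n) v = (α ^ n) v := by
        intro n
        induction n with
        | zero => rfl
        | succ n ih => rw [pow_succ', pow_succ', MulAut.mul_apply, ← ih]; rfl
      rw [this, hα1]; rfl
    have h2 := Equiv.Perm.card_fixedPoints_modEq h1
    have h3 : Fintype.card (Function.fixedPoints (show Function.End G from ⇑α)) = 1 := by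
      rw [Fintype.card_eq_one_iff]
      exact ⟨⟨1, map_one α⟩, fun y => Subtype.ext (hfpf y.1 y.2)⟩
    rw [h3] at h2
    rw [Nat.card_eq_fintype_card, Nat.coprime_comm, hp.coprime_iff_not_dvd]
    intro h
    exact hp.one_lt.ne' (Nat.dvd_one.1 ((h2.dvd_iff dvd_rfl).1 h))
  obtain ⟨g⟩ := H2.GrL.grading α hα1 hfpf he
  have key : ∀ c, (fun I : LieIdeal (AdjoinRoot (Polynomial.cyclotomic p ℤ)) (AdjoinRoot (Polynomial.cyclotomic p ℤ) ⊗[ℤ] H2.GrL G) => ⁅(⊤ : LieIdeal (AdjoinRoot (Polynomial.cyclotomic p ℤ)) (AdjoinRoot (Polynomial.cyclotomic p ℤ) ⊗[ℤ] H2.GrL G)), I⁆)^[c] ⊤ = ⊥ → (⊤ : Subgroup G).lowerCentralSeries c = ⊥ := by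
    intro c h
    refine H2.gam_bot (fun x hx => H2.GrL.faith hx (H2.kk_inj (p := p) _ ?_))
    have := H2.GrL.lcs_mem (A := AdjoinRoot (Polynomial.cyclotomic p ℤ)) c x hx
    exact h.le this
  have ht : g.H ⊤ := fun _ _ _ => trivial
  have main := key _ (g.kk_nil _ ⊤ ht (g.kreknin ht))
  refine ⟨fun h => ?_, fun h => ?_, main⟩
  · subst h
    simpa using main
  · subst h
    exact key 2 g.three

end Cfsg.Agent.S3779
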