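import Cfsg.Statements.S3780
import Cfsg.Agent.H7.Tk7
import Cfsg.Agent.H8.Basis

set_option autoImplicit false
open Cfsg

namespace Cfsg.Agent.S3780
open H7
open scoped commutatorElement

/-- Let V be a finite abelian p-group and α an automorphism of V of order p whose fixed-point subgroup has order p^n. Then V can be generated by pn elements: some subset of V with at most pn elements generates V. -/
theorem result {V : Type*} [CommGroup V] [Finite V] {p : ℕ} [Fact p.Prime] (hV : IsPGroup p V) (α : MulAut V) (hα : orderOf α = p) (n : ℕ) (hfix : Nat.card {v : V // α v = v} = p ^ n) : ∃ S : Finset V, S.card ≤ p * n ∧ Subgroup.closure (S : Set V) = ⊤ := by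
  open Subgroup in
  classical
  have hp : p.Prime := Fact.out
  let φ : V →* V := α.toMonoidHom / MonoidHom.id V
  have ck : Nat.card φ.ker = p ^ n := by
    rw [← hfix]; exact Nat.card_congr (Equiv.subtypeEquivRight fun v => by simp [φ, div_eq_one])
  have st : ∀ W : Subgroup V, Nat.card W ≤ Nat.card (W.map φ) * p ^ n := fun W => by
    rw [← relIndex_mul_card_inf φ.ker W, relIndex_ker, ← ck]
    exact Nat.mul_le_mul_left _ (card_le_of_le inf_le_left)
  have it : ∀ (k : ℕ) (W : Subgroup V), Nat.card W ≤ Nat.card (W.map ((show Monoid.End V from φ) ^ k : Monoid.End V)) * p ^ (k * n) :=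
    fun k => by
      induction k with
      | zero => intro W; rw [pow_zero, zero_mul, pow_zero, mul_one]; exact (congrArg (fun X : Subgroup V => Nat.card X) (Subgroup.map_id W)).ge
      | succ k ih =>
        intro W
        refine (ih W).trans ((Nat.mul_le_mul_right _ (st _)).trans (le_of_eq ?_))
        rw [pow_succ', mul_assoc, ← pow_add, add_mul, one_mul, add_comm n]
        exact congrArg (fun X : Subgroup V => Nat.card X * _) (Subgroup.map_map W _ _)
  let a : AddMonoid.End (Additive V) := MonoidHom.toAdditive φ
  have pw : ∀ (k : ℕ) (v : V), (a ^ k) (Additive.ofMul v) = Additive.ofMul (((show Monoid.End V from φ) ^ k : Monoid.End V) v) :=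
    fun k v => by
      induction k with
      | zero => rfl
      | succ k ih => rw [pow_succ', pow_succ', AddMonoid.End.coe_mul, Function.comp_apply, ih]; rfl
  have pa : ∀ (k : ℕ) (v : V), ((a + 1) ^ k) (Additive.ofMul v) = Additive.ofMul ((α ^ k) v) := fun k v => by
    induction k with
    | zero => rfl
    | succ k ih =>
      rw [pow_succ', pow_succ', AddMonoid.End.coe_mul, Function.comp_apply, ih]
      exact congrArg Additive.ofMul (div_mul_cancel (α ((α ^ k) v)) ((α ^ k) v))
  obtain ⟨r, hr⟩ := (Commute.one_right a).exists_add_pow_prime_eq hp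
  have z : (powMonoidHom p : V →* V).ker.map ((show Monoid.End V from φ) ^ p : Monoid.End V) = ⊥ := by
    refine eq_bot_iff.2 ?_
    rintro _ ⟨v, hv, rfl⟩
    have := pa p v
    rw [hr, ← hα, pow_orderOf_eq_one, hα, one_pow, mul_one, mul_assoc, (Nat.cast_comm p _)] at this
    change (a ^ p) _ + Additive.ofMul v + (a * r * (p : AddMonoid.End (Additive V))) _ = _ at this
    rw [pw, AddMonoid.End.coe_mul, Function.comp_apply, AddMonoid.End.natCast_apply,
      ← ofMul_pow, show v ^ p = 1 from hv, ofMul_one, map_zero, add_zero] at this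
    exact mem_bot.2 (mul_eq_right.1 (Additive.ofMul.injective this))
  have c := it p (powMonoidHom p : V →* V).ker
  rw [z, card_bot, one_mul] at c
  obtain ⟨d, hd⟩ := hV.index (frattini V)
  obtain ⟨s, hs⟩ := H8.exists_gen_tuple hV hd
  have : (frattini V).index ∣ (powMonoidHom p : V →* V).range.index := index_dvd_of_le (by
    rintro _ ⟨v, rfl⟩; exact H1.pow_mem_frattini_of_isPGroup hV v)
  rw [index_range, hd] at this
  have := (Nat.pow_le_pow_iff_right hp.one_lt).1 ((Nat.le_of_dvd Nat.card_pos this).trans c)
  exact ⟨Finset.univ.image s, Finset.card_image_le.trans (by simpa using this), by simpa using hs⟩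

end Cfsg.Agent.S3780
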