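import Cfsg.Statements.S3781
import Cfsg.Agent.H7.Tk7

set_option autoImplicit false
open Cfsg

namespace Cfsg.Agent.S3781
open H7
open scoped commutatorElement

section
open Subgroup

theorem rel {G : Type*} [Group G] [Finite G] {p : ℕ} [hp : Fact p.Prime] (hG : IsPGroup p (⊤ : Subgroup G)) (n : ℕ) : ∀ M K : Subgroup G,
    ⊤ ≤ nrm M → ⊤ ≤ nrm K → K ≤ M → K.relIndex M < p ^ (n + 2) → ⁅M, (⊤ : Subgroup G).lowerCentralSeries n⁆ ≤ K := by
  have nG := nilp_of_isPGroup hG
  have key : ∀ {m} {K L M : Subgroup G}, K < L → L ≤ M → K.relIndex M < p ^ (m + 1) → L.relIndex M < p ^ m :=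
    fun {m K L M} a b c => by
      rw [← relIndex_mul_relIndex K L M a.le b, pow_succ'] at c
      obtain ⟨k, e⟩ := relIndex_pgroup (hG.to_le (le_top : L ≤ ⊤)) K
      have : p ≤ K.relIndex L := by
        rw [e]; exact Nat.le_self_pow (fun k0 => a.not_ge (relIndex_eq_one.1 (by rw [e, k0, pow_zero]))) p
      exact lt_of_mul_lt_mul_left ((Nat.mul_le_mul_right _ this).trans_lt c) (Nat.zero_le _)
  have up : ∀ {K M : Subgroup G}, ⊤ ≤ nrm M → ⊤ ≤ nrm K → K < M → ∃ L, K < L ∧ L ≤ M ∧ ⊤ ≤ nrm L ∧ ⁅L, ⊤⁆ ≤ K :=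
    fun {K M} a b c => by
      obtain ⟨d, e, f, g⟩ := nilp_exists_comm_le nG le_top c a b
      refine ⟨zpowers d ⊔ K, lt_of_le_of_ne le_sup_right fun k => f (k.ge (mem_sup_left (mem_zpowers d))),
        sup_le (zpowers_le.2 e) c.le, nrm_sup_zpowers b g (b trivial), comm_sup_le (le_top.trans b) (le_top.trans b) ?_
        (comm_le_left b)⟩
      exact comm_zpowers_le (b trivial) g
  have dn : ∀ {K M : Subgroup G}, ⊤ ≤ nrm M → ⊤ ≤ nrm K → K < M → ⁅M, ⊤⁆ ⊔ K < M := fun {K M} a b c => by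
    refine lt_of_le_of_ne (sup_le (comm_le_left a) c.le) fun e => c.not_ge ?_
    exact nilp_le_of_le_sup_comm nG le_top b (e.ge.trans (sup_comm _ _).le)
  induction n with
  | zero =>
    intro M K a b c d
    rcases c.eq_or_lt with rfl | c
    · exact comm_le_left (le_top.trans b)
    obtain ⟨L, e, f, -, g⟩ := up a b c
    have := key e f d
    rcases f.eq_or_lt with rfl | f
    · exact g
    have := key f le_rfl (m := 0) (by simpa using this)
    simp at this
  | succ n ih =>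
    intro M K a b c d
    rcases c.eq_or_lt with rfl | c
    · exact comm_le_left (le_top.trans b)
    obtain ⟨L, e, f, g, h⟩ := up a b c
    rw [commutator_comm]
    refine three_subgroups (le_top.trans b) b (le_top.trans b) ?_ ((commutator_mono (ih M L a g f (key e f d)) le_rfl).trans h)
    rw [commutator_comm ⊤]
    refine (commutator_mono le_sup_left le_rfl).trans (ih _ K (nrm_sup (nrm_commutator a (le_nrm_self _)) b) b le_sup_right ?_)
    have l := dn a b c
    rw [← relIndex_mul_relIndex K _ M le_sup_right l.le, pow_succ] at d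
    obtain ⟨k, e⟩ := relIndex_pgroup (hG.to_le (le_top : M ≤ ⊤)) (⁅M, ⊤⁆ ⊔ K)
    have : p ≤ (⁅M, ⊤⁆ ⊔ K).relIndex M := by
      rw [e]; exact Nat.le_self_pow (fun k0 => l.not_ge (relIndex_eq_one.1 (by rw [e, k0, pow_zero]))) p
    exact lt_of_mul_lt_mul_right ((Nat.mul_le_mul_left _ this).trans_lt d) (Nat.zero_le _)

end

/-- Let G be a finite p-group and n ≥ 1, and write γ_1(G) = G, γ_{k+1}(G) = [γ_k(G), G], and likewise γ_k(N) for a subgroup N. Let N be a normal subgroup of G contained in γ_n(G). If i > 1 and γ_{i+1}(N) ≠ 1, then |γ_i(N) : γ_{i+1}(N)| ≥ p^n. -/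
theorem result {G : Type*} [Group G] [Finite G] {p : ℕ} [Fact p.Prime] (hG : IsPGroup p G) (n : ℕ) (hn : 1 ≤ n) (N : Subgroup G) [N.Normal] (hN : N ≤ (⊤ : Subgroup G).lowerCentralSeries (n - 1)) (i : ℕ) (hi : 1 < i) (hne : N.lowerCentralSeries i ≠ ⊥) : p ^ n ≤ (N.lowerCentralSeries i).relIndex (N.lowerCentralSeries (i - 1)) := by
  open Subgroup in
  have hT : IsPGroup p (⊤ : Subgroup G) := hG.to_subgroup _
  obtain ⟨n, rfl⟩ : ∃ m, n = m + 1 := ⟨n - 1, by omega⟩
  obtain ⟨i, rfl⟩ : ∃ m, i = m + 1 := ⟨i - 1, by omega⟩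
  simp only [Nat.add_sub_cancel] at hN ⊢
  have nn : ∀ j, (⊤ : Subgroup G) ≤ normalizer (N.lowerCentralSeries j : Set G) := fun j => by
    induction j with
    | zero => exact normal_iff_top_le_nrm.1 ‹_›
    | succ j ih => exact nrm_commutator ih (normal_iff_top_le_nrm.1 ‹_›)
  have l : N.lowerCentralSeries (i + 1) ≤ N.lowerCentralSeries i := comm_le_left (le_top.trans (nn i))
  obtain ⟨K, a, b, c, -⟩ := exists_index_p (hT.to_le le_top) (pgroup_comm_lt hT (hT.to_le le_top) (nn (i + 1)) hne)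
  by_contra k
  have := rel hT n _ K (nn i) (le_nrm_of_comm_le' b a) (b.trans l) (by
    rw [← relIndex_mul_relIndex K _ _ b l, c, pow_succ' p (n + 1)]
    exact Nat.mul_lt_mul_of_pos_left (not_le.1 k) (Fact.out : p.Prime).pos)
  have e := relIndex_eq_one.2 ((commutator_mono le_rfl hN).trans this)
  exact (Fact.out : p.Prime).one_lt.ne' (c.symm.trans e)

end Cfsg.Agent.S3781
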