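import Cfsg.Statements.S3782
import Cfsg.Agent.H2.KK5
import Cfsg.Agent.S3779

set_option autoImplicit false
open Cfsg

namespace Cfsg.Agent.S3782



/-- Alperin's Theorem: for each prime p and each n ≥ 0 there is an integer l such that every finite solvable group admitting an automorphism of order p with exactly p^n fixed points has derived length at most l. -/
theorem result (p : ℕ) (hp : p.Prime) (n : ℕ) : ∃ l : ℕ, ∀ (G : Type) [Group G] [Finite G], Group.IsSolvable G → ∀ α : MulAut G, orderOf α = p → Nat.card {g : G // α g = g} = p ^ n → derivedSeries G l = ⊥ := by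
  haveI := Fact.mk hp
  refine ⟨(p ^ n) ^ (p * 1) * ((p ^ n) ^ (p * 1)).factorial +
    ((p ^ n) ^ (p * (n + (H2.kkH p + 1))) + (H2.kkH p + 1)) + H2.kkH p, fun G _ _ hs α hα hc => ?_⟩
  have hb : H2.Bd p n α := ⟨by rw [← hα, pow_orderOf_eq_one], hc.le⟩
  haveI := H1.pPrimeCore_characteristic (p := p) (G := G)
  obtain ⟨β, -, hβ⟩ := hb.quot (pPrimeCore p G)
  obtain ⟨γ, -, hγ⟩ := hβ.quot (frattini (G ⧸ pPrimeCore p G))
  have hF : IsPGroup p (fittingSubgroup (G ⧸ pPrimeCore p G)) := by
    rw [H1.fitting_eq_pCore H1.pPrimeCore_quotient_pPrimeCore]; exact H1.isPGroup_pCore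
  refine H2.der_ext (pPrimeCore p G) (H2.der_ext (frattini (G ⧸ pPrimeCore p G))
    (H2.der_card (H2.top_card hγ H1.frattini_quotient_frattini ?_))
    (H2.pgrp_der (hβ.sub _) (hF.to_le H1.frattini_le_fitting))) ?_
  · rw [H1.fitting_quotient_frattini]; exact hF.map _
  · have hN := hb.sub (pPrimeCore p G)
    have hfpf : ∀ g, MulAut.characteristic (pPrimeCore p G) α g = g → g = 1 := by
      intro g hg
      let F : Subgroup G := MonoidHom.eqLocus (α : G →* G) (MonoidHom.id G)
      have h1 : (⟨g.1, congrArg Subtype.val hg⟩ : F) ^ p ^ n = 1 := by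
        rw [← hc]; exact pow_card_eq_one'
      have h2 : g ^ p ^ n = 1 := Subtype.ext (congrArg (fun z : F => z.1) h1)
      rw [← orderOf_eq_one_iff]
      exact Nat.eq_one_of_dvd_coprimes (H1.coprime_pPrimeCore.pow_right n) (orderOf_dvd_natCard g)
        (orderOf_dvd_of_pow_eq_one h2)
    rw [eq_bot_iff]
    refine (H2.der_le_gam _).trans (le_trans (Subgroup.lowerCentralSeries_antitone _
      (Nat.le_sub_one_of_lt Nat.lt_two_pow_self)) ?_)
    by_cases h1 : MulAut.characteristic (pPrimeCore p G) α = 1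
    · intro x _
      exact hfpf x (by rw [h1]; rfl)
    · exact (Cfsg.Agent.S3779.result hp _ (orderOf_eq_prime hN.1 h1) hfpf).2.2.le

end Cfsg.Agent.S3782
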