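import Cfsg.Statements.S3784
import Cfsg.Agent.H1.Basic

set_option autoImplicit false
open Cfsg

namespace Cfsg.Agent.S3784

theorem odd_geom {x n : ℕ} (hx : Odd x) (hn : Odd n) : Odd (∑ i ∈ Finset.range n, x ^ i) := by
  rw [Finset.odd_sum_iff_odd_card_odd, Finset.filter_true_of_mem fun i _ => hx.pow]
  simpa using hn

theorem odd_geom' {x : ℤ} {n : ℕ} (hx : Odd x) : Odd (∑ i ∈ Finset.range n, x ^ i) ↔ Odd n := by
  induction n with
  | zero => simp
  | succ n ih =>
    rw [Finset.sum_range_succ, Int.odd_add, ih, Nat.odd_add_one, ← Int.not_odd_iff_even]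
    simp [hx.pow (n := n)]

/-- Let p, q be primes and a, b positive integers with p^a = q^b + 1. Then either p = 2, b = 1, a is prime and q = 2^a − 1; or q = 2, a = 1, b is a power of 2 and p = 2^b + 1; or p^a = 9 and q^b = 8. -/
theorem result (p q a b : ℕ) (hp : p.Prime) (hq : q.Prime) (ha : 1 ≤ a) (hb : 1 ≤ b) (h : p ^ a = q ^ b + 1) : (p = 2 ∧ b = 1 ∧ a.Prime ∧ q + 1 = 2 ^ a) ∨ (q = 2 ∧ a = 1 ∧ (∃ m : ℕ, b = 2 ^ m) ∧ p = 2 ^ b + 1) ∨ (p ^ a = 9 ∧ q ^ b = 8) := by
  have h2 : p = 2 ∨ q = 2 := by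
    by_contra hc
    push Not at hc
    have h1 := (hp.odd_of_ne_two hc.1).pow (n := a)
    have h3 := (hq.odd_of_ne_two hc.2).pow (n := b)
    rw [h] at h1
    exact Nat.not_even_iff_odd.2 h1 h3.add_one
  have hqb : 2 ≤ q ^ b := le_trans hq.two_le (Nat.le_self_pow (by omega) q)
  rcases h2 with rfl | rfl
  · left
    have ha2 : 2 ≤ a := by
      by_contra hc
      obtain rfl : a = 1 := by omega
      omega
    have hq2 : Odd q := hq.odd_of_ne_two (by
      rintro rfl
      have h1 : Even (2 ^ a) := Nat.even_pow.2 ⟨even_two, by omega⟩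
      have h3 : Even (2 ^ b) := Nat.even_pow.2 ⟨even_two, by omega⟩
      rw [h] at h1
      exact Nat.not_odd_iff_even.2 h1 h3.add_one)
    have hb1 : b = 1 := by
      rcases Nat.even_or_odd b with ⟨c, rfl⟩ | hb2
      · obtain ⟨k, hk⟩ := hq2.pow (n := c)
        obtain ⟨d, rfl⟩ := Nat.exists_eq_add_of_le ha2
        rw [pow_add, pow_add, hk] at h
        have : (2 * k + 1) * (2 * k + 1) + 1 = 4 * (k * k + k) + 2 := by ring
        omega
      · have h1 : ((q : ℤ) + 1) * ∑ i ∈ Finset.range b, (-(q : ℤ)) ^ i = 2 ^ a := by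
          have := mul_neg_geom_sum (-(q : ℤ)) b
          rw [sub_neg_eq_add, hb2.neg_pow, sub_neg_eq_add, add_comm 1] at this
          rw [this]
          exact_mod_cast (by omega : 1 + q ^ b = 2 ^ a)
        have h3 : Odd (∑ i ∈ Finset.range b, (-(q : ℤ)) ^ i) :=
          (odd_geom' (Odd.neg (by exact_mod_cast hq2))).2 hb2
        have h4 : IsUnit (∑ i ∈ Finset.range b, (-(q : ℤ)) ^ i) :=
          (IsCoprime.pow_right (n := a) (Int.isCoprime_two_right.2 h3)).isUnit_of_dvd (Dvd.intro_left _ h1)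
        have h5 : (q : ℤ) + 1 = 2 ^ a := by
          rcases Int.isUnit_iff.1 h4 with e | e <;> rw [e] at h1
          · simpa using h1
          · have : (0 : ℤ) < 2 ^ a := by positivity
            omega
        have h6 : q + 1 = 2 ^ a := by exact_mod_cast h5
        exact Nat.pow_right_injective hq.two_le (by simp only [pow_one]; omega)
    subst hb1
    rw [pow_one] at h
    exact ⟨rfl, rfl, (Nat.prime_of_pow_sub_one_prime (a := 2) (by omega) (by rw [h]; exact hq)).2, h.symm⟩
  · right
    have hp2 : Odd p := hp.odd_of_ne_two (by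
      rintro rfl
      have h1 : Even (2 ^ a) := Nat.even_pow.2 ⟨even_two, by omega⟩
      have h3 : Even (2 ^ b) := Nat.even_pow.2 ⟨even_two, by omega⟩
      rw [h] at h1
      exact Nat.not_odd_iff_even.2 h1 h3.add_one)
    rcases Nat.even_or_odd a with ⟨c, rfl⟩ | ha2
    · right
      obtain ⟨k, hk⟩ := hp2.pow (n := c)
      rw [pow_add, hk] at h ⊢
      have e : 2 ^ b = 4 * (k * (k + 1)) := by nlinarith
      have h1 : k ∣ 2 ^ b := ⟨4 * (k + 1), by rw [e]; ring⟩
      have h3 : k + 1 ∣ 2 ^ b := ⟨4 * k, by rw [e]; ring⟩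
      obtain ⟨i, -, hi⟩ := (Nat.dvd_prime_pow Nat.prime_two).1 h1
      obtain ⟨j, -, hj⟩ := (Nat.dvd_prime_pow Nat.prime_two).1 h3
      have : k = 1 := by
        rcases i with _ | i
        · simpa using hi
        · rcases j with _ | j
          · rw [hi] at hj; have := pow_pos (show 0 < 2 by omega) (i + 1); omega
          · rw [pow_succ] at hi hj; omega
      subst this
      omega
    · left
      have h1 := Nat.geomSum_eq hp.two_le a
      have h3 : (∑ i ∈ Finset.range a, p ^ i) * (p - 1) = 2 ^ b := by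
        rw [h1, Nat.div_mul_cancel (Nat.sub_one_dvd_pow_sub_one p a), h]; simp
      have h4 : ∑ i ∈ Finset.range a, p ^ i = 1 :=
        Nat.Coprime.eq_one_of_dvd (Nat.Coprime.pow_right b ((Nat.coprime_two_right).2 (odd_geom hp2 ha2)))
          (Dvd.intro _ h3)
      have h5 : p = 2 ^ b + 1 := by
        rw [h4] at h3
        have := hp.two_le
        omega
      have h6 : a = 1 := Nat.pow_right_injective hp.two_le (by simp only [pow_one]; omega)
      exact ⟨rfl, h6, Nat.pow_of_pow_add_prime (by omega) (by omega) (h5 ▸ hp), h5⟩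

end Cfsg.Agent.S3784
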