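import Cfsg.Statements.S3785
import Cfsg.Agent.H1.V3

set_option autoImplicit false
open Cfsg

namespace Cfsg.Agent.S3785

open H7 H1B Subgroup

/-- Let G be a finite solvable group whose Fitting subgroup F(G) has odd order. If an element g of G commutes with every element of prime order of F(G), then g ∈ F(G). -/
theorem result {G : Type*} [Group G] [Finite G] (hG : Group.IsSolvable G) (hodd : Odd (Nat.card (Cfsg.fittingSubgroup G))) (g : G) (hg : ∀ x ∈ Cfsg.fittingSubgroup G, (orderOf x).Prime → g * x = x * g) : g ∈ Cfsg.fittingSubgroup G := by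
  rw [fitting_eq] at *
  let Ω : Subgroup G := closure {x | x ∈ Fit (⊤ : Subgroup G) ∧ (orderOf x).Prime}
  have nΩ : ⊤ ≤ nrm Ω := nrm_closure fun a ha x hx => ⟨conj_mem (le_nrm_Fit ⊤) ha hx.1, by rw [ocj]; exact hx.2⟩
  have hg' : zpowers g ≤ cen Ω := le_cen_symm ((closure_le _).2 fun x hx => by
    rw [cen_zpowers]; exact mem_cen1.2 (hg x hx.1 hx.2).symm)
  have k : ∀ p, p.Prime → ∀ x ∈ cen Ω, (orderOf x).Coprime p → x ∈ cen (Op p (Fit ⊤)) := fun p hp x hx hc => by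
    haveI := Fact.mk hp
    by_cases h2 : p = 2
    · rw [h2, Opi_eq_bot_of_compl (piN_compl_iff.2 (odd_iff_coprime.1 hodd))]; exact le_cen_bot ⊤ (mem_top x)
    refine cen_of_Om_le h2 (isPGroup_Op p _) (le_top.trans (nrm_Opi _ (le_nrm_Fit ⊤))) (by rwa [card_zpowers_eq])
      (Om_le_cen_iff.2 fun y hy e => (zpowers_le.2 hx).trans (cen_le_cen1 ?_)) (mem_zpowers x)
    exact subset_closure ⟨Opi_le _ _ hy, e ▸ hp⟩
  refine zpowers_le_of_ppow fun q hq y hy hy' => ?_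
  haveI := Fact.mk hq
  let D := cen Ω ⊓ cen (Op' q (Fit ⊤))
  have nD : ⊤ ≤ nrm D := nrm_inf (nrm_cen nΩ) (nrm_cen (nrm_Opi _ (le_nrm_Fit ⊤)))
  have h1 : y ∈ D := ⟨hg' hy, le_cen1_iff.1 (le_of_pgroups_le fun p hp P hP hP' => by
    haveI := Fact.mk hp
    by_cases e : p = q
    · subst e
      rw [eq_bot_of_isPGroup_of_coprime hP' (coprime_of_le hP (coprime_Op' p _))]; exact bot_le
    exact (nilp_le_Op (nilp_Fit ⊤) (hP.trans (Opi_le _ _)) hP').trans (le_cen1_iff.2 (k p hp y (hg' hy)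
      (by rw [← card_zpowers_eq]; exact cop_of_ne hy' (Ne.symm e)))))⟩
  have h2 : pRes q D ≤ cen D := pRes_le_iff.2 fun x hx hc => le_cen_symm inf_le_right
    (le_Opi_of_le_Fit (H := Fit ⊤) (A := zpowers x) (by
      rw [Fit_eq_self (nilp_Fit ⊤)]
      refine zpowers_le.2 (cen_Fit_le (solv_top.2 hG) ⟨mem_top x, ?_⟩)
      rw [← nilp_Opi_sup (nilp_Fit ⊤) {q}, cen_sup]
      exact ⟨k q hq x hx.1 hc, hx.2⟩) (piN_compl_iff.2 (by rwa [card_zpowers_eq])) (mem_zpowers x))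
  obtain ⟨Q, hQ, h3⟩ := exists_syl_ge hy' (zpowers_le.2 h1)
  have h4 : D ≤ nrm Q := hQ.pRes_sup ▸ sup_le (le_nrm_of_le_cen (h2.trans (cen_anti hQ.le))) (le_nrm_self Q)
  exact Op_le_Fit q ⊤ (Opi_le_of_normal _ le_top nD (le_Op hQ.le h4 hQ.isPGroup (h3 (mem_zpowers y))))

end Cfsg.Agent.S3785
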