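import Cfsg.Statements.S3790
import Cfsg.Agent.H7.PLen

set_option autoImplicit false
open Cfsg

namespace Cfsg.Agent.S3790
open H7
open scoped commutatorElement

section
open Subgroup

theorem step {G : Type*} [Group G] [Finite G] {p q m : ℕ} [Fact p.Prime] (e : q ≠ p) (k : ℕ) : ∀ H : Subgroup G,
    (∀ K ≤ H, Lp p m K ≤ Ores {q}ᶜ K) → Lp q k H = ⊥ → Lp p ((1 + k) * m) H = ⊥ := by
  induction k with
  | zero => intro H a b; rw [add_zero, one_mul]; exact eq_bot_of_le (a H le_rfl) b
  | succ k ih =>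
    intro H a b
    have := ih (Dp q H) (fun K l => a K (l.trans Dp_le)) b
    rw [← add_assoc, add_mul (1 + k), one_mul, Lp_add]
    refine eq_bot_of_le ((Lp_mono (a H le_rfl)).trans (Lp_Ores.ge.trans (Lp_mono ?_))) this
    exact (Ores_le_iff (nrm_Ores (le_nrm_self _))).2 (piN_Ores.mono (by simpa using e.symm))
theorem main {p : ℕ} [Fact p.Prime] (r : ℕ) : ∀ (q l : Fin r → ℕ) {G : Type*} [Group G] [Finite G] (H : Subgroup G),
    (∀ i, (q i).Prime ∧ q i ≠ p) → (∀ s : ℕ, s.Prime → s ∣ Nat.card H → s ≠ p → ∃ i, q i = s) →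
    (∀ i, Lp (q i) (l i) H = ⊥) → Lp p (∏ i, (1 + l i)) H = ⊥ := by
  induction r with
  | zero =>
    intro q l G _ _ H _ c _
    rw [Finset.univ_eq_empty, Finset.prod_empty]
    refine Lp_one_of_pgroup (piN_iff_isPGroup.1 fun s ss d => by_contra fun e => ?_)
    obtain ⟨i, -⟩ := c s ss d e
    exact i.elim0
  | succ r ih =>
    intro q l G _ _ H hq c h
    rw [Fin.prod_univ_succ]
    refine step (hq 0).2 _ H (fun K lK => ?_) (h 0)
    have n := nrm_Ores (π := {q 0}ᶜ) (le_nrm_self K)
    refine (Lp_le_iff n).2 (ih (fun i => q i.succ) (fun i => l i.succ) _ (fun i => hq _) (fun s ss d e => ?_)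
      fun i => Lp_im n (eq_bot_of_le (Lp_mono lK) (h _)))
    obtain ⟨i, rfl⟩ := c s ss (d.trans ((card_im_dvd _ _).trans (card_dvd_of_le lK))) e
    rcases Fin.eq_zero_or_eq_succ i with rfl | ⟨j, rfl⟩
    · rw [card_im_qm n] at d
      exact absurd rfl (piN_Ores _ ss d)
    · exact ⟨j, rfl⟩

end

/-- Let G be a finite solvable group and p a prime. Suppose p₁, …, p_r are distinct primes, all different from p, that include every prime dividing the order of G other than p, and that G has p_i-length at most l_i for each i. Then G has p-length at most the product of the numbers 1 + l_i. -/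
theorem result {G : Type*} [Group G] [Finite G] (hG : Group.IsSolvable G) (p : ℕ) [Fact p.Prime] (r : ℕ) (q : Fin r → ℕ) (hq : ∀ i, (q i).Prime ∧ q i ≠ p) (hinj : Function.Injective q) (hcover : ∀ s : ℕ, s.Prime → s ∣ Nat.card G → s ≠ p → ∃ i, q i = s) (l : Fin r → ℕ) (hl : ∀ i, Cfsg.PLengthLE (q i) (l i) G) : Cfsg.PLengthLE p (Finset.univ.prod fun i => 1 + l i) G := by
  open Subgroup in
  refine pLen_iff.2 (main r q l ⊤ hq (fun s a b => hcover s a (by rwa [card_top] at b)) fun i => ?_)
  haveI := Fact.mk (hq i).1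
  exact pLen_iff.1 (hl i)

end Cfsg.Agent.S3790
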