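import Cfsg.Statements.S3791
import Cfsg.Agent.H7.PLen

set_option autoImplicit false
open Cfsg

namespace Cfsg.Agent.S3791
open H7
open scoped commutatorElement

section
open Subgroup

theorem main {r : ℕ} (q d : Fin r → ℕ) (hq : ∀ i, (q i).Prime) (n : ℕ) : ∀ (l : Fin r → ℕ) {G : Type*} [Group G] [Finite G]
    (H : Subgroup G), Nat.card H < n → Group.IsSolvable H → (∀ s : ℕ, s.Prime → s ∣ Nat.card H → ∃ i, q i = s) →
    (∀ i, ∀ P ≤ H, IsPGroup (q i) P → dS (d i) P = ⊥) → (∀ i, Lp (q i) (l i) H = ⊥) → dS (∑ i, d i * l i) H = ⊥ := by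
  induction n with
  | zero => intro _ _ _ _ _ h; exact absurd h (Nat.not_lt_zero _)
  | succ n ih =>
    intro l G _ _ H hn s c hd hl
    have key : ∀ (l' : Fin r → ℕ) (N : Subgroup G), N ≤ H → H ≤ normalizer (N : Set G) → N ≠ ⊥ →
        (∀ i, Lp (q i) (l' i) H ≤ N) → dS (∑ i, d i * l' i) H ≤ N := fun l' N lN nN N0 h => by
      rw [← im_qm_eq_bot (dS_le.trans nN), im_dS nN]
      refine ih l' _ (lt_of_lt_of_le (card_im_lt nN (by rwa [kr_qm, inf_eq_right.2 lN])) (by omega)) (solv_im _ s)
        (fun t a b => c t a (b.trans (card_im_dvd _ _))) (fun i P a b => ?_) fun i => (Lp_le_iff nN).1 (h i)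
      haveI := Fact.mk (hq i)
      obtain ⟨S, e, f, rfl⟩ := exists_lift_pgroup nN a b
      rw [← im_dS (e.trans nN), hd i S e f, im_bot]
    by_cases h0 : H = ⊥
    · exact eq_bot_of_le dS_le h0
    obtain ⟨p, pp, hp⟩ := exists_Op_ne_bot s h0
    haveI := Fact.mk pp
    obtain ⟨i, rfl⟩ := c p pp ((H2.dvd_card_of_ne_bot (isPGroup_Op p H) hp).trans (card_dvd_of_le (Opi_le _ _)))
    by_cases h1 : Op' (q i) H = ⊥
    · obtain ⟨k, hk⟩ : ∃ k, l i = k + 1 := Nat.exists_eq_succ_of_ne_zero fun e => hp (eq_bot_of_isPGroup_of_coprime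
        (isPGroup_Op _ H) (coprime_of_le (Opi_le _ _) (piN_compl_iff.1 (Ores_eq_bot.1 (by
          have := hl i; rwa [e] at this)))))
      have := key (Function.update l i k) _ (Opi_le _ _) (le_nrm_Opi _ H) hp fun j => by
        by_cases e : j = i
        · subst e
          rw [Function.update_self]
          exact Lp_le_Op h1 (hk ▸ hl j)
        · rw [Function.update_of_ne e, hl j]; exact bot_le
      have e : ∑ j, d j * l j = d i + ∑ j, d j * Function.update l i k j := by
        rw [← Finset.add_sum_erase _ _ (Finset.mem_univ i), ← Finset.add_sum_erase _ _ (Finset.mem_univ i),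
          Function.update_self, hk, Finset.sum_congr (g := fun j => d j * l j) (f := fun j => d j * Function.update l i k j)
            rfl fun j hj => by rw [Function.update_of_ne (Finset.ne_of_mem_erase hj)]]
        ring
      rw [e, dS_add]
      exact eq_bot_of_le (dS_mono this) (hd i _ (Opi_le _ _) (isPGroup_Op _ H))
    · have a := key l _ (Opi_le _ _) (le_nrm_Opi _ H) hp fun j => (hl j).le.trans bot_le
      have b := key l _ (Opi_le _ _) (le_nrm_Opi _ H) h1 fun j => (hl j).le.trans bot_le
      exact eq_bot_of_isPGroup_of_coprime ((isPGroup_Op _ H).to_le a) (coprime_of_le b (coprime_Op' _ H))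

end

/-- The Hall–Higman bound on derived length: let G be a finite solvable group, let p₁, …, p_r be distinct primes that include every prime dividing the order of G, and suppose that for each i the Sylow p_i-subgroups of G have derived length at most d_i and G has p_i-length at most l_i. Then G has derived length at most Σ d_i l_i. -/
theorem result {G : Type*} [Group G] [Finite G] (hG : Group.IsSolvable G) (r : ℕ) (q : Fin r → ℕ) (hq : ∀ i, (q i).Prime) (hinj : Function.Injective q) (hcover : ∀ s : ℕ, s.Prime → s ∣ Nat.card G → ∃ i, q i = s) (d l : Fin r → ℕ) (hd : ∀ i, ∀ P : Subgroup G, (haveI := Fact.mk (hq i); ∃ S : Sylow (q i) G, (S : Subgroup G) = P) → derivedSeries ↥P (d i) = ⊥) (hl : ∀ i, Cfsg.PLengthLE (q i) (l i) G) : derivedSeries G (Finset.univ.sum fun i => d i * l i) = ⊥ := by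
  open Subgroup in
  rw [← dS_top]
  refine main q d hq _ l ⊤ (Nat.lt_succ_self _) inferInstance (fun s a b => hcover s a (by rwa [card_top] at b))
    (fun i P _ pP => ?_) fun i => ?_
  · haveI := Fact.mk (hq i)
    obtain ⟨S, hS⟩ := pP.exists_le_sylow
    exact eq_bot_of_le (dS_mono hS) (dS_eq_bot.1 (hd i S ⟨S, rfl⟩))
  · haveI := Fact.mk (hq i)
    exact pLen_iff.1 (hl i)

end Cfsg.Agent.S3791
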