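import Cfsg.Statements.S3794
import Cfsg.Agent.H1.Fpf

set_option autoImplicit false
open Cfsg

namespace Cfsg.Agent.S3794

open H7 H1B Subgroup

/-- Let G be a finite solvable group with an automorphism σ satisfying σ⁴ = 1 and fixing only the identity. Then the derived subgroup G' is nilpotent. -/
theorem result {G : Type*} [Group G] [Finite G] (hG : Group.IsSolvable G) (σ : MulAut G) (hσ : σ ^ 4 = 1) (hfpf : ∀ g : G, σ g = g → g = 1) : Group.IsNilpotent (commutator G) := by
  have h := nilp_der_of_four (K := hL ⊤) (σ := (SemidirectProduct.inr σ : Hol G))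
    (by haveI := hG; exact solvable_of_surjective (f := (H1.sdLTopEquiv _).toMonoidHom) (H1.sdLTopEquiv _).surjective)
    (by rw [← map_pow, hσ, map_one]) (hR_le_nrm ⊤ ⊤ (H1.inr_mem_sdR.2 (mem_top σ))) (by
      rw [eq_bot_iff]
      rintro _ ⟨⟨x, -, rfl⟩, hx⟩
      have := H1.inr_mem_centralizer_sdL.1 (show (SemidirectProduct.inr σ : Hol G) ∈ cen (hL (zpowers x)) by
        rw [hL, H1.sdL, MonoidHom.map_zpowers, cen_zpowers]; exact mem_cen1_comm.1 hx) x (mem_zpowers x)
      rw [hfpf x this, map_one]; exact one_mem _)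
  rw [← hL_comm, der_top_eq] at h
  exact Group.nilpotent_of_mulEquiv (H1.sdLEquiv _ _).symm (_h := h)

end Cfsg.Agent.S3794
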