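import Cfsg.Statements.S3796
import Cfsg.Agent.H1.Fpf

set_option autoImplicit false
open Cfsg

namespace Cfsg.Agent.S3796

open H7 H1B Subgroup

/-- Ward's Theorem: let G be a finite solvable group and A an elementary abelian group of automorphisms of G of order p² (p a prime) with no non-identity common fixed point. Then G has Fitting height at most 2: G has Fitting height at most m when there is a chain of normal subgroups 1 = F₀ ≤ F₁ ≤ ⋯ ≤ F_m = G with each F_{i+1}/F_i nilpotent. -/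
theorem result {G : Type*} [Group G] [Finite G] (hG : Group.IsSolvable G) {p : ℕ} (hp : p.Prime) (A : Subgroup (MulAut G)) (hA : Cfsg.IsElementaryAbelian p A) (hcard : Nat.card A = p ^ 2) (hfpf : ∀ g : G, (∀ a ∈ A, a g = g) → g = 1) : ∃ F : Fin (2 + 1) → Subgroup G, F 0 = ⊥ ∧ F (Fin.last 2) = ⊤ ∧ Monotone F ∧ (∀ i, (F i).Normal) ∧ ∀ i : Fin 2, ∃ k : ℕ, (F i.succ).lowerCentralSeries k ≤ F i.castSucc := by
  haveI := Fact.mk hp
  obtain ⟨k, hk⟩ : ∃ k, ∀ j, ord ((⊤ : Subgroup G).lowerCentralSeries k) ≤ ord ((⊤ : Subgroup G).lowerCentralSeries j) :=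
    ⟨_, fun j => Function.argmin_le (fun k => ord ((⊤ : Subgroup G).lowerCentralSeries k)) j⟩
  set D := (⊤ : Subgroup G).lowerCentralSeries k with hD
  have e : D ≤ ⁅D, ⊤⁆ := by
    rw [← Subgroup.lowerCentralSeries_succ]
    exact (H7.eq_of_le_of_card_le (Subgroup.lowerCentralSeries_antitone _ (Nat.le_succ k)) (hk _)).ge
  have h := ward (p := p) (K := hL ⊤) (A := hR A) (D := hL D)
    (by haveI := hG; exact solvable_of_surjective (f := (H1.sdLTopEquiv _).toMonoidHom) (H1.sdLTopEquiv _).surjective)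
    (hR_le_nrm A ⊤) (EA.map hA _) (by rw [H1.card_sdR, hcard]) (by
      rw [eq_bot_iff]
      rintro _ ⟨⟨x, -, rfl⟩, hx⟩
      rw [hfpf x (H1.inl_mem_centralizer_sdR.1 hx), map_one]; exact one_mem _)
    (H1.sdL_le_sdL.2 le_top) (by rw [← hL_comm]; exact H1.sdL_le_sdL.2 e)
  have h' : Group.IsNilpotent D := Group.nilpotent_of_mulEquiv (H1.sdLEquiv _ _).symm (_h := h)
  refine ⟨![⊥, D, ⊤], rfl, rfl, ?_, fun i => ?_, fun i => ?_⟩
  · rw [Fin.monotone_iff_le_succ]
    intro i; fin_cases i <;> simp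
  · fin_cases i
    · exact normal_bot
    · exact normal_of (self_le_normalizer_lowerCentralSeries _ k)
    · exact normal_top
  · fin_cases i
    · obtain ⟨n, hn⟩ := (isNilpotent_iff_lowerCentralSeries D).1 h'
      exact ⟨n, hn.le⟩
    · exact ⟨k, le_rfl⟩

end Cfsg.Agent.S3796
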