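import Cfsg.Statements.S3799
import Cfsg.Agent.H1.XS

set_option autoImplicit false
open Cfsg

namespace Cfsg.Agent.S3799

open H7 H1B Subgroup

/-- For every odd prime p and every n ≥ 1 there is an extraspecial p-group of order p^(1+2n) and exponent p; concretely, the general linear group of degree n + 2 over the field with p elements contains such a subgroup. -/
theorem result (p : ℕ) [Fact p.Prime] (hp : p ≠ 2) (n : ℕ) (hn : 1 ≤ n) : ∃ E : Subgroup (Matrix.GeneralLinearGroup (Fin (n + 2)) (ZMod p)), Cfsg.IsExtraspecial p ↥E ∧ Nat.card E = p ^ (1 + 2 * n) ∧ ∀ x ∈ E, x ^ p = 1 := by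
  let b := Module.finBasisOfFinrankEq (ZMod p) (ZMod p × (Fin n → ZMod p) × ZMod p) (n := n + 2)
    (by simp; ring)
  let f := (Matrix.GeneralLinearGroup.toLin' b).symm.toMonoidHom.comp Hs.rep.toHomUnits
  have inj : Function.Injective f := (Matrix.GeneralLinearGroup.toLin' b).symm.injective.comp
    fun _ _ e => Hs.rep_inj (congrArg Units.val e)
  have h := Hs.xs.map inj
  have c := (card_map_of_injective inj).trans (card_top.trans Hs.card)
  refine ⟨_, h.es (mt (h.comm_iff c).1 (by omega)), by rw [add_comm 1]; exact c, ?_⟩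
  rintro _ ⟨g, -, rfl⟩
  rw [← map_pow, Hs.pow_def, (ZMod.natCast_eq_zero_iff _ _).2 ((Fact.out : p.Prime).dvd_choose_self two_ne_zero
    ((Fact.out : p.Prime).two_le.lt_of_ne' hp))]
  simp [← Hs.one_def]

end Cfsg.Agent.S3799
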