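import Cfsg.Statements.S3979
import Cfsg.Agent.H1.Schur3

set_option autoImplicit false
open Cfsg

namespace Cfsg.Agent.S3979

open H1B Subgroup

/-- A finite cyclic group has trivial Schur multiplier: every finite stem extension of it is an isomorphism, said through `HasCyclicSchurMultiplier G 1`. -/
theorem result {G : Type*} [Group G] [Finite G] [IsCyclic G] : Cfsg.HasCyclicSchurMultiplier G 1 := by
  obtain ⟨a, ha⟩ := IsCyclic.exists_generator (α := G)
  refine meta_cyc (a := a) (b := 1) (r := 1) ?_ (by simp) (g := 1) (by simp) (fun o _ h => ?_)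
    (MonoidHom.id G) (ξ := MonoidHom.id G) Function.surjective_id (by simp) rfl rfl (one_dvd _)
  · rw [eq_top_iff]; intro x _
    exact zpowers_le.2 (subset_closure (by simp)) (ha x)
  · have := h 1 (by simp)
    rw [Finset.sum_range_one, pow_zero] at this
    exact_mod_cast this

end Cfsg.Agent.S3979
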