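import Cfsg.Statements.S3950
import Cfsg.Agent.H1.Schur4
import Cfsg.Agent.S3979

set_option autoImplicit false
open Cfsg

namespace Cfsg.Agent.S3950

open H1B Subgroup

/-- A finite abelian group has trivial Schur multiplier if and only if it is cyclic. -/
theorem result {G : Type*} [CommGroup G] [Finite G] : Cfsg.HasCyclicSchurMultiplier G 1 ↔ IsCyclic G := by
  refine ⟨fun h => ?_, fun _ => Cfsg.Agent.S3979.result⟩
  obtain ⟨ι, _, n, hn, ⟨e⟩⟩ := CommGroup.equiv_prod_multiplicative_zmod_of_finite G
  classical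
  by_cases hc : Pairwise (Function.onFun Nat.Coprime n)
  · exact isCyclic_of_surjective (G' := Multiplicative (ZMod (∏ i, n i))) (e.symm.toMonoidHom.comp ((MulEquiv.piMultiplicative _).toMonoidHom.comp
      (AddEquiv.toMultiplicative (ZMod.prodEquivPi n hc).toAddEquiv).toMonoidHom))
      (e.symm.surjective.comp ((MulEquiv.piMultiplicative _).surjective.comp
        (AddEquiv.toMultiplicative (ZMod.prodEquivPi n hc).toAddEquiv).surjective))
  exfalso
  simp only [Pairwise, Function.onFun, not_forall] at hc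
  obtain ⟨i, j, hij, hc⟩ := hc
  obtain ⟨p, hp, p1, p2⟩ := Nat.Prime.not_coprime_iff_dvd.1 hc
  have := Fact.mk hp
  let β : G →* G →* Multiplicative (ZMod p) := MonoidHom.mk' (fun x => MonoidHom.mk'
    (fun y => Multiplicative.ofAdd (ZMod.castHom p1 (ZMod p) (e x i).toAdd *
      ZMod.castHom p2 (ZMod p) (e y j).toAdd)) fun y y' => by
        simp only [map_mul, Pi.mul_apply, toAdd_mul, map_add, mul_add, ofAdd_add]) fun x x' => by
      ext1 y
      simp only [map_mul, Pi.mul_apply, toAdd_mul, map_add, add_mul, ofAdd_add, MonoidHom.mk'_apply,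
        MonoidHom.mul_apply]
  refine MM_ne_bot β (a := e.symm (Pi.mulSingle i (Multiplicative.ofAdd 1)))
    (b := e.symm (Pi.mulSingle j (Multiplicative.ofAdd 1))) (mul_comm _ _) ?_ h
  simp only [β, MonoidHom.mk'_apply, MulEquiv.apply_symm_apply, Pi.mulSingle_eq_same,
    Pi.mulSingle_eq_of_ne hij, toAdd_ofAdd, map_one, toAdd_one, map_zero]
  simp

end Cfsg.Agent.S3950
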