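import Cfsg.Statements.S3951
import Cfsg.Agent.H1.Schur4

set_option autoImplicit false
open Cfsg

namespace Cfsg.Agent.S3951

open H1B Subgroup

/-- For positive integers `m` and `n` with `n` dividing `m`, the Schur multiplier of the abelian group `ZMod m × ZMod n` (written multiplicatively) is cyclic of order `n`. In particular the elementary abelian group of order `p ^ 2` has multiplier of order `p`. -/
theorem result (m n : ℕ) [NeZero m] [NeZero n] (hnm : n ∣ m) : Cfsg.HasCyclicSchurMultiplier (Multiplicative (ZMod m × ZMod n)) n := by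
  let β : Multiplicative (ZMod m × ZMod n) →* Multiplicative (ZMod m × ZMod n) →* Multiplicative (ZMod n) :=
    MonoidHom.mk' (fun x => MonoidHom.mk'
    (fun y => Multiplicative.ofAdd (x.toAdd.2 * ZMod.castHom hnm (ZMod n) y.toAdd.1)) fun y y' => by
        simp only [toAdd_mul, Prod.fst_add, map_add, mul_add, ofAdd_add]) fun x x' => MonoidHom.ext fun y => by
      simp only [toAdd_mul, Prod.snd_add, add_mul, ofAdd_add, MonoidHom.mk'_apply, MonoidHom.mul_apply]
  refine meta_cyc (a := Multiplicative.ofAdd (1, 0)) (b := Multiplicative.ofAdd (0, 1)) (r := 1) ?_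
    (by simp) (g := n) (by simp) (fun o _ h => ?_) (MonoidHom.id _) (BExt.fst_surj (β := β))
    BExt.fst_central (x := ⟨_, 1⟩) (y := ⟨_, 1⟩) rfl rfl ?_
  · rw [eq_top_iff]; intro x _
    have : x = Multiplicative.ofAdd ((1 : ZMod m), (0 : ZMod n)) ^ x.toAdd.1.val *
        Multiplicative.ofAdd ((0 : ZMod m), (1 : ZMod n)) ^ x.toAdd.2.val := by
      rw [← ofAdd_nsmul, ← ofAdd_nsmul, ← ofAdd_add]; simp
    rw [this]
    exact mul_mem (pow_mem (subset_closure (by simp)) _) (pow_mem (subset_closure (by simp)) _)
  · have := h n (by rw [← ofAdd_nsmul]; simp; exact one_mem _)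
    simp only [one_pow, Finset.sum_const, Finset.card_range, nsmul_eq_mul, mul_one] at this
    exact_mod_cast this
  · rw [BExt.comm_eq (mul_comm _ _), orderOf_injective _ (fun a b h => congrArg BExt.t h)]
    simp only [β, MonoidHom.mk'_apply, MonoidHom.id_apply, toAdd_ofAdd, map_one, map_zero]
    simp

end Cfsg.Agent.S3951
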