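import Cfsg.Statements.S3953
import Cfsg.Agent.H1.Schur3

set_option autoImplicit false
open Cfsg

namespace Cfsg.Agent.S3953

open H1B Subgroup

/-- Let `P` be a Sylow `p`-subgroup of the finite group `G`, let `A` be the Schur multiplier of `G` and `B` that of `P`. Then the `p`-primary component of `A` is isomorphic to a direct factor of `B`: there are subgroups `C` and `D` of `B` meeting trivially and generating `B`, with `C` isomorphic to the `p`-primary component of `A`. -/
theorem result {G : Type*} [Group G] [Finite G] (p : ℕ) [Fact p.Prime] (P : Sylow p G) {A B : Type*} [CommGroup A] [CommGroup B] (hA : Cfsg.HasSchurMultiplier G A) (hB : Cfsg.HasSchurMultiplier P B) : ∃ C D : Subgroup B, C ⊓ D = ⊥ ∧ C ⊔ D = ⊤ ∧ Nonempty (CommGroup.primaryComponent A p ≃* C) := by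
  obtain ⟨i, t, h⟩ := transfer_mult (P : Subgroup G) hA hB
  have hp : p.Prime := Fact.out
  obtain ⟨k, hk⟩ := P.isPGroup'.exists_card_eq
  have hc : ∀ a : A, a ∈ CommGroup.primaryComponent A p → ∃ n : ℕ, (a ^ (P : Subgroup G).index) ^ n = a := by
    rintro a ⟨j, hj⟩
    refine exists_pow_eq_self_of_coprime ?_
    exact (((hp.coprime_iff_not_dvd.2 P.not_dvd_index).symm).pow_right j).coprime_dvd_right
      (orderOf_dvd_of_pow_eq_one hj)
  have hi : ∀ b, i b ∈ CommGroup.primaryComponent A p := fun b =>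
    ⟨k, by rw [← map_pow, ← hk, mult_pow_card hB, map_one]⟩
  have hinj : Function.Injective (t.comp (CommGroup.primaryComponent A p).subtype) := by
    rw [injective_iff_map_eq_one]
    intro a ha
    obtain ⟨n, hn⟩ := hc a a.2
    have : t a = 1 := ha
    rw [← h, this, map_one, one_pow] at hn
    exact Subtype.ext hn.symm
  refine ⟨(t.comp (CommGroup.primaryComponent A p).subtype).range, i.ker, ?_, ?_,
    ⟨MonoidHom.ofInjective hinj⟩⟩
  · rw [eq_bot_iff]
    rintro _ ⟨⟨a, rfl⟩, ha⟩
    obtain ⟨n, hn⟩ := hc a a.2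
    have : i (t a) = 1 := ha
    rw [← h, this, one_pow] at hn
    rw [show a = 1 from Subtype.ext hn.symm, map_one]; exact one_mem _
  · rw [eq_top_iff]
    intro b _
    obtain ⟨n, hn⟩ := hc _ (hi b)
    have : b = t (i b ^ n) * ((t (i b ^ n))⁻¹ * b) := by group
    rw [this]
    refine mul_mem (mem_sup_left ⟨⟨_, pow_mem (hi b) n⟩, rfl⟩) (mem_sup_right ?_)
    rw [MonoidHom.mem_ker, map_mul, map_inv, h, ← pow_mul, mul_comm n, pow_mul, hn, inv_mul_cancel]

end Cfsg.Agent.S3953
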