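import Cfsg.Statements.S3958
import Cfsg.Agent.H1.Schur3

set_option autoImplicit false
universe u v
open Cfsg

namespace Cfsg.Agent.S3958

open H1B Subgroup

/-- Let `σ : Γ →* Q` be a finite stem extension of the finite group `Q` with `Γ` of trivial Schur multiplier. Then `σ` is a Schur covering group of `Q`: for every finite stem extension `τ : Δ →* Q` with `Δ` in the same universe as `Q`, the kernel of `τ` is a homomorphic image of the kernel of `σ`. -/
theorem result {Q : Type u} [Group Q] [Finite Q] {Γ : Type v} [Group Γ] [Finite Γ] (σ : Γ →* Q) (hσ : Cfsg.IsStemExtension σ) (hΓ : Cfsg.HasCyclicSchurMultiplier Γ 1) (Δ : Type u) [Group Δ] [Finite Δ] (τ : Δ →* Q) (hτ : Cfsg.IsStemExtension τ) : ∃ π : σ.ker →* τ.ker, Function.Surjective π := by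
  obtain ⟨Γ', i1, i2, σ', h1, ⟨e⟩, β, hβ, h2⟩ := exists_cover_over hσ
  have hk : β.ker ≤ σ'.ker := fun x hx => by
    rw [← h2, MonoidHom.mem_ker, MonoidHom.comp_apply, show β x = 1 from hx, map_one]
  have h3 := ker_inf_eq_bot hΓ hβ (hk.trans h1.2.1)
  rw [inf_eq_left.2 (hk.trans h1.2.2), MonoidHom.ker_eq_bot_iff] at h3
  obtain ⟨f, hf⟩ := surj_MM' (pr_surj Q) hτ
  let e' := MulEquiv.ofBijective β ⟨h3, hβ⟩
  have h4 : ∀ x : σ.ker, e'.symm x ∈ σ'.ker := fun x => by
    rw [← h2, MonoidHom.mem_ker, MonoidHom.comp_apply, show β (e'.symm x) = x from e'.apply_symm_apply x]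
    exact x.2
  refine ⟨(f.comp e.toMonoidHom).comp ((e'.symm.toMonoidHom.comp σ.ker.subtype).codRestrict _ h4),
    (hf.comp e.surjective).comp fun y => ⟨⟨β y, ?_⟩, Subtype.ext (e'.symm_apply_apply y)⟩⟩
  exact (DFunLike.congr_fun h2 y.1).trans y.2

end Cfsg.Agent.S3958
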