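import Cfsg.Statements.S3960
import Cfsg.Agent.H1.Schur3

set_option autoImplicit false
universe u
open Cfsg

namespace Cfsg.Agent.S3960

open H1B Subgroup

/-- A finite perfect group `Q` has a universal central extension: a finite perfect group `G` in the universe of `Q` and a surjective homomorphism `π : G →* Q` with central kernel such that for every group `X` in that universe and every surjective homomorphism `ξ : X →* Q` with central kernel there is exactly one homomorphism `η : G →* X` with `ξ ∘ η = π`. -/
theorem result {Q : Type u} [Group Q] [Finite Q] (hQ : Group.IsPerfect Q) : ∃ (G : Type u) (_ : Group G) (_ : Finite G) (π : G →* Q), Group.IsPerfect G ∧ Function.Surjective π ∧ π.ker ≤ Subgroup.center G ∧ ∀ (X : Type u) [Group X] (ξ : X →* Q), Function.Surjective ξ → ξ.ker ≤ Subgroup.center X → ∃! η : G →* X, ξ.comp η = π := by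
  have hQ' : commutator Q = ⊤ := hQ.commutator_eq_top
  have h1 := H0.stem_derived hQ' ⊤ (pe (pr Q)) (map_top_of_surjective _ (pe_surj (pr_surj Q)))
    (fun x _ hx => pe_central _ hx)
  have hp := H0.stem_perfect h1 hQ'
  refine ⟨commutator (EE (pr Q)), inferInstance, inferInstance, _, ⟨hp⟩, h1.1, h1.2.1, ?_⟩
  intro X _ ξ hs hc
  obtain ⟨η, hη⟩ := lift_ex' (pr Q) hs hc
  refine ⟨η.comp (commutator _).subtype, MonoidHom.ext fun x => hη x, fun η' h' => ?_⟩
  exact MonoidHom.ext fun x => lift_uniq hc (η₁ := η') (η₂ := η.comp (commutator _).subtype)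
    (fun y => (DFunLike.congr_fun h' y).trans (hη y).symm) (hp.ge (mem_top x))

end Cfsg.Agent.S3960
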