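import Cfsg.Statements.S3962
import Cfsg.Agent.H1.Schur3

set_option autoImplicit false
open Cfsg

namespace Cfsg.Agent.S3962

open H1B Subgroup
open scoped commutatorElement IsMulCommutative

/-- Let `G` be a perfect group and `π : G →* Q` a surjective homomorphism whose kernel is central. Then `π` maps the centre of `G` onto the centre of `Q`. Taking `π` to be the map to `G ⧸ Z(G)` shows that the central quotient of a perfect group has trivial centre. -/
theorem result {G Q : Type*} [Group G] [Group Q] (hG : Group.IsPerfect G) (π : G →* Q) (hπ : Function.Surjective π) (hker : π.ker ≤ Subgroup.center G) : (Subgroup.center G).map π = Subgroup.center Q := by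
  apply le_antisymm
  · rintro _ ⟨x, hx, rfl⟩
    rw [mem_center_iff]; intro y
    obtain ⟨y, rfl⟩ := hπ y
    rw [← map_mul, ← map_mul, mem_center_iff.1 hx]
  · intro y hy
    obtain ⟨a, rfl⟩ := hπ y
    refine ⟨a, ?_, rfl⟩
    have hc : ∀ s, ⁅s, a⁆ ∈ center G := fun s => hker (by
      rw [MonoidHom.mem_ker, map_commutatorElement, commutatorElement_eq_one_iff_mul_comm]
      exact mem_center_iff.1 hy _)
    let φ : G →* center G := MonoidHom.mk' (fun s => ⟨⁅s, a⁆, hc s⟩) fun s t => Subtype.ext (by
      show ⁅s * t, a⁆ = ⁅s, a⁆ * ⁅t, a⁆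
      have := mem_center_iff.1 (hc t) s
      calc ⁅s * t, a⁆ = (s * ⁅t, a⁆) * s⁻¹ * ⁅s, a⁆ := by simp only [commutatorElement_def]; group
        _ = _ := by rw [this, mul_inv_cancel_right, mem_center_iff.1 (hc s)])
    refine mem_center_iff.2 fun s => commutatorElement_eq_one_iff_mul_comm.1 ?_
    exact congrArg Subtype.val (Abelianization.commutator_subset_ker φ (hG.commutator_eq_top.ge (mem_top s)))

end Cfsg.Agent.S3962
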