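import Cfsg.Statements.S3961
import Cfsg.Agent.H1.Schur3
import Cfsg.Agent.S3962

set_option autoImplicit false
universe u v
open Cfsg

namespace Cfsg.Agent.S3961

open H1B Subgroup

/-- Let `π : G →* Q` be a surjective homomorphism with central kernel from a finite perfect group `G` (a perfect cover of `Q`). Then `π` is universal, in the sense that every surjective homomorphism `ξ : X →* Q` with central kernel from a group `X` in the universe of `G` admits a homomorphism `η : G →* X` with `ξ ∘ η = π`, if and only if `G` has trivial Schur multiplier. -/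
theorem result {G : Type u} {Q : Type v} [Group G] [Group Q] [Finite G] (hG : Group.IsPerfect G) (π : G →* Q) (hπ : Function.Surjective π) (hker : π.ker ≤ Subgroup.center G) : (∀ (X : Type u) [Group X] (ξ : X →* Q), Function.Surjective ξ → ξ.ker ≤ Subgroup.center X → ∃ η : G →* X, ξ.comp η = π) ↔ Cfsg.HasCyclicSchurMultiplier G 1 := by
  have hp := hG.commutator_eq_top
  constructor
  · intro h
    refine triv_of_forall fun X _ ξ hs hc => ?_
    have h1 := H0.stem_derived hp ⊤ ξ (map_top_of_surjective _ hs) (fun x _ hx => hc hx)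
    have hY := H0.stem_perfect h1 hp
    set ζ := ξ.comp (⁅(⊤ : Subgroup X), (⊤ : Subgroup X)⁆).subtype
    obtain ⟨η, hη⟩ := h _ (π.comp ζ) (hπ.comp h1.1) (fun y hy => by
      have : ζ y ∈ (center _).map ζ := by
        rw [Cfsg.Agent.S3962.result ⟨hY⟩ ζ h1.1 h1.2.1]; exact hker hy
      obtain ⟨z, hz, hz2⟩ := this
      have := mul_mem hz (h1.2.1 (show z⁻¹ * y ∈ ζ.ker by simp [hz2]))
      simpa using this)
    have h2 : ∀ g, ζ (η g) = g := fun g => lift_uniq hker (η₁ := ζ.comp η) (η₂ := MonoidHom.id G)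
      (fun x => DFunLike.congr_fun hη x) (hp.ge (mem_top g))
    have h3 := surj_of_stem h1 (η := η) (fun x => ⟨ζ x, h2 _⟩)
    rw [eq_bot_iff]
    rintro x ⟨hx1, hx2⟩
    obtain ⟨g, hg⟩ := h3 ⟨x, hx2⟩
    have h4 := h2 g
    rw [hg, show ζ ⟨x, hx2⟩ = 1 from hx1] at h4
    rw [← h4, map_one] at hg
    exact (congrArg Subtype.val hg).symm
  · intro h X _ ξ hs hc
    obtain ⟨η, hη⟩ := lift_ex (π := pr G) π ξ (fun q => hs _) hc
    have h1 := H0.stem_derived hp ⊤ (pe (pr G)) (map_top_of_surjective _ (pe_surj (pr_surj G)))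
      (fun x _ hx => pe_central _ hx)
    obtain ⟨k, hk⟩ := exists_factor h1.1 (η.comp (Subgroup.subtype _)) (fun x hx => by
      have : (x : EE (pr G)) ∈ MM (pr G) := mem_MM.2 ⟨hx, x.2⟩
      rw [triv_iff.1 h, mem_bot] at this
      rw [show x = 1 from Subtype.ext this]; exact one_mem _)
    refine ⟨k, MonoidHom.ext fun g => ?_⟩
    obtain ⟨x, rfl⟩ := h1.1 g
    rw [MonoidHom.comp_apply, hk]; exact hη x

end Cfsg.Agent.S3961
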