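import Cfsg.Statements.S3963
import Cfsg.Agent.H1.Schur4

set_option autoImplicit false
open Cfsg

namespace Cfsg.Agent.S3963

open H1B Subgroup QuaternionGroup

/-- For every `n ≥ 1` the dicyclic (generalized quaternion) group of order `4 n` has trivial Schur multiplier. -/
theorem result (n : ℕ) [NeZero n] : Cfsg.HasCyclicSchurMultiplier (QuaternionGroup n) 1 := by
  refine meta_cyc (quat_gen n) (quat_conj n) (g := n) (by rw [quat_ord, one_mul]) (fun o h _ => ?_)
    (MonoidHom.id _) (ξ := MonoidHom.id _) Function.surjective_id (by simp) rfl rfl ?_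
  · exact_mod_cast h n ⟨(2 : ℕ), by simp only [zpow_natCast, xa_sq, a_one_pow]⟩
  · rw [quat_comm, quat_ord]

end Cfsg.Agent.S3963
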