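import Cfsg.Statements.S3964
import Cfsg.Agent.H1.Schur4

set_option autoImplicit false
open Cfsg

namespace Cfsg.Agent.S3964

open H1B Subgroup DihedralGroup

/-- For odd `n` the dihedral group of order `2 n` has trivial Schur multiplier. -/
theorem result (n : ℕ) (hn : Odd n) : Cfsg.HasCyclicSchurMultiplier (DihedralGroup n) 1 := by
  have : NeZero n := ⟨hn.pos.ne'⟩
  have h1 := dih_ord n
  rw [(Nat.coprime_two_right.2 hn : Nat.gcd n 2 = 1), Nat.div_one] at h1
  refine meta_cyc (dih_gen n) (dih_conj_sch n) (g := n) (by rw [h1, one_mul]) (fun o h _ => ?_)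
    (MonoidHom.id _) (ξ := MonoidHom.id _) Function.surjective_id (by simp) rfl rfl ?_
  · exact_mod_cast h n (by rw [zpow_natCast, r_one_pow_n]; exact one_mem _)
  · rw [commutatorElement_def, dih_conj_sch, ← zpow_sub_one, h1]

end Cfsg.Agent.S3964
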