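import Cfsg.Statements.S3965
import Cfsg.Agent.H1.Schur4

set_option autoImplicit false
open Cfsg

namespace Cfsg.Agent.S3965

open H1B Subgroup DihedralGroup

/-- For even `n ≥ 2` the dihedral group of order `2 n` has Schur multiplier cyclic of order `2`. -/
theorem result (n : ℕ) [NeZero n] (hn : Even n) : Cfsg.HasCyclicSchurMultiplier (DihedralGroup n) 2 := by
  have h1 := dih_ord n
  rw [Nat.gcd_eq_right hn.two_dvd] at h1
  refine meta_cyc (dih_gen n) (dih_conj_sch n) (g := n) (by rw [h1, Nat.mul_div_cancel' hn.two_dvd])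
    (fun o h _ => ?_) (MonoidHom.id _) (quatDih_surj n) (quatDih_central n) (x := .a 1) (y := .xa 0)
    (congrArg DihedralGroup.r (map_one _)) (congrArg DihedralGroup.sr (map_zero _)) ?_
  · exact_mod_cast h n (by rw [zpow_natCast, r_one_pow_n]; exact one_mem _)
  · rw [quat_comm, quat_ord]

end Cfsg.Agent.S3965
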