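import Cfsg.Statements.S3966
import Cfsg.Agent.H1.Schur4

set_option autoImplicit false
open Cfsg

namespace Cfsg.Agent.S3966

open H1B Subgroup QuaternionGroup

/-- For even `n ≥ 2` the dicyclic group of order `4 n` is a stem extension of the dihedral group of order `2 n` with kernel of order `2`: there is a surjective homomorphism `QuaternionGroup n →* DihedralGroup n` whose kernel is central, lies in the commutator subgroup and has two elements. Together with the order of the multiplier this exhibits the dicyclic group as a Schur covering group of the dihedral group. -/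
theorem result (n : ℕ) [NeZero n] (hn : Even n) : ∃ σ : QuaternionGroup n →* DihedralGroup n, Cfsg.IsStemExtension σ ∧ Nat.card σ.ker = 2 := by
  refine ⟨quatDih n, ⟨quatDih_surj n, quatDih_central n, fun x hx => ?_⟩, ?_⟩
  · rcases quatDih_ker.1 hx with rfl | rfl
    · exact one_mem _
    · obtain ⟨k, hk⟩ := hn
      have := inv_mem (pow_mem (quat_comm n ▸ commutator_mem_commutator (mem_top (xa 0 : QuaternionGroup n))
        (mem_top (a 1))) k)
      rwa [← zpow_natCast, ← zpow_mul, ← zpow_neg, show -((-1 - 1 : ℤ) * k) = (n : ℕ) by omega,
        zpow_natCast, a_one_pow] at this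
  · rw [Nat.card_eq_two_iff]
    refine ⟨1, ⟨a n, quatDih_ker.2 (Or.inr rfl)⟩, fun h => ?_, ?_⟩
    · have h1 : (a 1 : QuaternionGroup n) ^ n = 1 := by
        rw [a_one_pow]; exact (congrArg Subtype.val h).symm
      have := Nat.le_of_dvd (NeZero.pos n) (orderOf_a_one ▸ orderOf_dvd_of_pow_eq_one h1)
      have := NeZero.pos n
      omega
    · rw [Set.eq_univ_iff_forall]
      rintro ⟨x, hx⟩
      rcases quatDih_ker.1 hx with rfl | rfl
      · exact Or.inl rfl
      · exact Or.inr rfl

end Cfsg.Agent.S3966
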