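import Cfsg.Statements.S3967
import Cfsg.Agent.H1.Schur4

set_option autoImplicit false
open Cfsg

namespace Cfsg.Agent.S3967

open H1B Subgroup

/-- Let `m, n ≥ 1`, `r ≥ 1` with `r ^ n ≡ 1 (mod m)`, and `l` a natural number; put `d = gcd(m, r - 1)`, `t = m l / d` and `h = d · gcd(m, 1 + r + ⋯ + r^(n-1)) / m`. The group presented by generators `a, b` and relations `a ^ m = 1`, `b ^ n = a ^ t`, `b a b⁻¹ = a ^ r` (a metacyclic group of order `m n`) has Schur multiplier cyclic of order `gcd(l, h)`. -/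
theorem result (m n r l : ℕ) (hm : 0 < m) (hn : 0 < n) (hr : 0 < r) (hrn : r ^ n ≡ 1 [MOD m]) : Cfsg.HasCyclicSchurMultiplier (PresentedGroup ({FreeGroup.of true ^ m, (FreeGroup.of false) ^ n * (FreeGroup.of true ^ (m * l / Nat.gcd m (r - 1)))⁻¹, FreeGroup.of false * FreeGroup.of true * (FreeGroup.of false)⁻¹ * (FreeGroup.of true ^ r)⁻¹} : Set (FreeGroup Bool))) (Nat.gcd l (Nat.gcd m (r - 1) * Nat.gcd m (∑ i ∈ Finset.range n, r ^ i) / m)) := by
  obtain ⟨m', hm'⟩ := Nat.gcd_dvd_left m (r - 1)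
  obtain ⟨r', hr'⟩ := Nat.gcd_dvd_right m (r - 1)
  have hd : 0 < Nat.gcd m (r - 1) := Nat.gcd_pos_of_pos_left _ hm
  have hc : m'.Coprime r' := by
    have := Nat.coprime_div_gcd_div_gcd hd
    generalize Nat.gcd m (r - 1) = d at *
    rwa [hr', hm', Nat.mul_div_cancel_left _ hd, Nat.mul_div_cancel_left _ hd] at this
  have hs : m ∣ (r - 1) * ∑ i ∈ Finset.range n, r ^ i := by
    rw [mul_comm, geom_sum_mul_of_one_le hr]
    exact (Nat.modEq_iff_dvd' (Nat.one_le_pow _ _ hr)).1 hrn.symm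
  have e1 : m * l / Nat.gcd m (r - 1) = m' * l := by
    generalize Nat.gcd m (r - 1) = d at *
    rw [hm', mul_assoc, Nat.mul_div_cancel_left _ hd]
  have e2 : m / Nat.gcd m (r - 1) = m' := by
    generalize Nat.gcd m (r - 1) = d at *
    rw [hm', Nat.mul_div_cancel_left _ hd]
  obtain ⟨h, hh⟩ : m' ∣ Nat.gcd m (∑ i ∈ Finset.range n, r ^ i) := by
    refine Nat.dvd_gcd (Dvd.intro_left _ hm'.symm) (hc.dvd_of_dvd_mul_left ?_)
    generalize Nat.gcd m (r - 1) = d at *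
    rw [hr', hm', mul_assoc] at hs
    exact Nat.dvd_of_mul_dvd_mul_left hd hs
  refine meta_pres hm hn hr hrn ?_ rfl ?_
  · rw [e1]
    generalize Nat.gcd m (r - 1) = d at *
    rw [hr', hm']; exact Dvd.intro (r' * l) (by ring)
  · rw [e1, e2, hh, Nat.gcd_mul_left, ← mul_assoc, ← hm', Nat.mul_div_cancel_left _ hm, mul_comm,
      Nat.gcd_comm]

end Cfsg.Agent.S3967
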