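import Cfsg.Statements.S3968
import Cfsg.Agent.H7.QC
import Cfsg.Agent.H3.Integral
import Cfsg.Agent.H3.Kernel

set_option autoImplicit false
open Cfsg

namespace Cfsg.Agent.S3968
open H7
open scoped commutatorElement

section
open Subgroup

open H3
theorem irr_deg {P : Type*} [Group P] [Finite P] {p : ℕ} [hp : Fact p.Prime] (hP : IsPGroup p P) {ψ : P → ℂ}
    (h : IsIrrCharacter P ψ) : (ψ 1 = 1 ∧ ∀ x ∈ commutator P, ψ x = 1) ∨ ∃ d : ℕ, ψ 1 = d ∧ p ≤ d := by
  obtain ⟨d, d0, hd⟩ := h.exists_deg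
  obtain ⟨n, hn⟩ := IsPGroup.iff_card.1 hP
  obtain ⟨k, -, rfl⟩ := (Nat.dvd_prime_pow hp.out).1 (hn ▸ h.deg_dvd_card hd)
  rcases k with _ | k
  · obtain ⟨l, rfl⟩ := h.isCharacter.exists_lin (by simpa using hd)
    exact Or.inl ⟨by simp, fun x hx => by simp [show l x = 1 from Abelianization.commutator_subset_ker l hx]⟩
  · exact Or.inr ⟨_, hd, Nat.le_self_pow (by omega) p⟩
theorem small {P : Type*} [Group P] [Finite P] {p : ℕ} [hp : Fact p.Prime] (hP : IsPGroup p P) {φ : P → ℂ}
    (h : IsCharacter P φ) : ∀ n : ℕ, φ 1 = n → n ≤ p → (n = p ∧ IsIrrCharacter P φ) ∨ ∀ x ∈ commutator P, φ x = φ 1 := by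
  refine h.induction (P := fun φ => ∀ n : ℕ, φ 1 = n → n ≤ p → (n = p ∧ IsIrrCharacter P φ) ∨
    ∀ x ∈ commutator P, φ x = φ 1) (fun _ _ _ => Or.inr fun _ _ => rfl) fun χ ψ h1 h2 ih n e l => ?_
  obtain ⟨m, hm⟩ := h2.exists_deg
  rcases irr_deg hP h1 with ⟨a, b⟩ | ⟨d, a, b⟩
  · have : n = 1 + m := by rw [Pi.add_apply, a, hm] at e; exact_mod_cast e.symm
    exact Or.inr fun x hx => by
      rw [Pi.add_apply, Pi.add_apply, a, b x hx, (ih m hm (by omega)).resolve_left (fun k => by omega) x hx]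
  have : n = d + m := by rw [Pi.add_apply, a, hm] at e; exact_mod_cast e.symm
  have m0 : m = 0 := by omega
  rw [h2.eq_zero_of_deg (by rw [hm, m0]; simp), add_zero]
  exact Or.inl ⟨by omega, h1⟩

end

/-- Let `p` be a prime and `G` a finite group with a faithful irreducible complex character of degree `p` (so `G` is an irreducible linear group in `p` variables). If `p ^ 2` divides the order of `G`, then the centre of `G` is nontrivial. -/
theorem result {G : Type*} [Group G] [Finite G] (p : ℕ) (hp : p.Prime) (χ : Cfsg.IrrCharacter G) (hdeg : χ.1 1 = p) (hfaith : ∀ g : G, χ.1 g = χ.1 1 → g = 1) (hdiv : p ^ 2 ∣ Nat.card G) : Subgroup.center G ≠ ⊥ := by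
  open Subgroup in
  open H3 in
  haveI := Fact.mk hp
  intro z0
  obtain ⟨P⟩ := (inferInstance : Nonempty (Sylow p G))
  have hk : H3.charKer χ.1 = ⊥ := eq_bot_iff.2 fun g hg => hfaith g (χ.2.isCharacter.mem_charKer.1 hg)
  have nz : ∀ g, g ≠ 1 → ‖χ.1 g‖ ≠ ‖χ.1 1‖ := fun g g1 e => g1 (by
    have := χ.2.isCharacter.mem_charCenter.2 e
    rwa [χ.2.charCenter_eq_center hk, z0] at this)
  have oP : p ^ 2 ∣ Nat.card P := P.pow_dvd_card_of_pow_dvd_card hdiv
  have cm : ∀ x ∈ commutator P, x = 1 := by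
    rcases small P.2 (χ.2.isCharacter.res P) p hdeg le_rfl with ⟨-, h⟩ | h
    · haveI : Nontrivial P := Finite.one_lt_card_iff_nontrivial.1
        ((Nat.one_lt_pow two_ne_zero hp.one_lt).trans_le (Nat.le_of_dvd Nat.card_pos oP))
      haveI := P.2.center_nontrivial
      obtain ⟨z, hz⟩ := exists_ne (1 : center P)
      exact absurd (h.isCharacter.mem_charCenter.1 (h.center_le_charCenter z.2))
        (nz _ fun e => hz (Subtype.ext (Subtype.ext e)))
    · exact fun x hx => Subtype.ext (hfaith _ (h x hx))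
  have v : ∀ x : (P : Subgroup G), x ≠ 1 → χ.1 x = 0 := fun x x1 => by
    refine (χ.2.eq_zero_or_norm_eq hdeg (x : G) ?_).resolve_right fun e => nz x (fun k => x1 (Subtype.ext k)) (by simp [e, hdeg])
    refine (Nat.Prime.coprime_iff_not_dvd hp).2 fun d => P.not_dvd_index (d.trans (index_dvd_of_le fun y hy => ?_))
    exact mem_centralizer_singleton_iff.2 (congrArg Subtype.val (commutatorElement_eq_one_iff_mul_comm.1
      (cm ⁅(⟨y, hy⟩ : P), x⁆ (commutator_mem_commutator trivial trivial))))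
  haveI := Fintype.ofFinite (P : Subgroup G)
  obtain ⟨n, hn⟩ := (χ.2.isCharacter.res P).inner_nat H3.isCharacter_one
  have e := H3.card_mul_inner (fun x : (P : Subgroup G) => χ.1 x) fun _ => 1
  rw [hn, Finset.sum_eq_single 1 (fun x _ h => by simp [v x h]) (by simp)] at e
  have e2 : Nat.card (P : Subgroup G) * n = p := by
    have : ((Nat.card (P : Subgroup G) * n : ℕ) : ℂ) = p := by rw [Nat.cast_mul, e]; simpa using hdeg
    exact_mod_cast this
  have := Nat.le_of_dvd hp.pos (oP.trans (Dvd.intro _ e2))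
  nlinarith [hp.two_le]

end Cfsg.Agent.S3968
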