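import Cfsg.Statements.S3970
import Cfsg.Agent.H1.V1

set_option autoImplicit false
open Cfsg

namespace Cfsg.Agent.S3970

open H7 H1B Subgroup

/-- Let `G` be a finite group such that for every prime `p` dividing its order, other than the largest such prime, the Sylow `p`-subgroups are abelian and generated by at most two elements, and suppose `12` does not divide the order of `G`. Then `G` is solvable. In particular a group of cube-free order not divisible by `12` is solvable. -/
theorem result {G : Type*} [Group G] [Finite G] (h : ∀ p : ℕ, p.Prime → p ∣ Nat.card G → (∃ q : ℕ, q.Prime ∧ q ∣ Nat.card G ∧ p < q) → ∀ P : Sylow p G, IsMulCommutative (P : Subgroup G) ∧ Group.rank (P : Subgroup G) ≤ 2) (h12 : ¬ 12 ∣ Nat.card G) : Group.IsSolvable G := by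
  suffices key : ∀ n, ∀ H : Subgroup G, ord H = n → Group.IsSolvable H from solv_top.1 (key _ ⊤ rfl)
  intro n
  induction n using Nat.strong_induction_on with
  | _ n ih =>
  intro H hn
  by_cases hb : H = ⊥
  · exact hb ▸ solv_bot
  have hp : (ord H).minFac.Prime := Nat.minFac_prime fun e => hb (card_eq_one.1 e)
  generalize e : (ord H).minFac = p at hp
  haveI := Fact.mk hp
  have hd : p ∣ ord H := e ▸ Nat.minFac_dvd _
  have hm : ∀ q, q.Prime → q ∣ ord H → p ≤ q := fun q hq hd => e ▸ Nat.minFac_le_of_dvd hq.two_le hd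
  by_cases h1 : IsPGroup p H
  · exact solv_of_isPGroup h1
  obtain ⟨q, hq, hq1, hq2⟩ : ∃ q, q.Prime ∧ q ∣ ord H ∧ q ≠ p := by
    by_contra hc
    push Not at hc
    exact h1 (pgroup_of_forall hc)
  obtain ⟨P, hP⟩ := exists_syl p H
  obtain ⟨S, hS⟩ := hP.isPGroup.exists_le_sylow
  obtain ⟨h2, h3⟩ := h p hp (hd.trans (card_subgroup_dvd_card H))
    ⟨q, hq, hq1.trans (card_subgroup_dvd_card H), lt_of_le_of_ne (hm q hq hq1) hq2.symm⟩ S
  have h4 := npc_of_min_prime hP (isComm_of_le h2 hS) ((card_le_of_le (Om_mono hS)).trans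
    ((card_Om_le_rank h2).trans (Nat.pow_le_pow_right hp.pos h3))) hm
    fun h => h12 (h.trans (card_subgroup_dvd_card H))
  refine solv_of_piN_relIndex (Opi_le _ _) (le_nrm_Opi _ _) (ih _ ?_ _ rfl) h4.relIndex
  exact hn ▸ H7.card_lt_of_lt (h4.eq ▸ pRes_lt_of_npc h4 hd)

end Cfsg.Agent.S3970
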