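import Cfsg.Statements.S3971
import Cfsg.Agent.H1.Two5

set_option autoImplicit false
open Cfsg

namespace Cfsg.Agent.S3971

open H7 H1B Subgroup

theorem cen_of {G : Type*} [Group G] [Finite G] {X : Subgroup G} {c g : G} (hX : IsPGroup 2 X) (hc : c ∈ X)
    (hi : (zpowers c).relIndex X = 2) (hg : g ∈ nrm X) (ho : Odd (orderOf g)) (h3 : ¬ 3 ∣ orderOf g) :
    g ∈ cen X := by
  obtain ⟨b, hb, hbc⟩ := SetLike.not_le_iff_exists.1 (mt relIndex_eq_one.2 (by omega) : ¬ X ≤ zpowers c)
  have n := nrm_of_relIndex hX (zpowers_le.2 hc) hi hb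
  have gen : zpowers c ⊔ zpowers b = X := by
    have l := sup_le (zpowers_le.2 hc) (zpowers_le.2 hb)
    have bb := (H2.mul_mem_iff_of_relIndex_two hi hb hb).2 Iff.rfl
    refine eq_of_le_of_card_ge l ?_
    rw [card_sup_zp n bb hbc, ← relIndex_mul_card' (zpowers_le.2 hc), hi]
  have ext : ∀ M N : Subgroup G, M.relIndex X = 2 → N.relIndex X = 2 → (c ∈ M ↔ c ∈ N) → (b ∈ M ↔ b ∈ N) →
      ∀ x ∈ X, x ∈ M ↔ x ∈ N := fun M N hM hN h1 h2 x hx => by
    rw [← gen, zpowers_eq_closure, zpowers_eq_closure, ← Subgroup.closure_union] at hx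
    have e : closure ({c} ∪ {b}) ≤ X := by
      rw [Subgroup.closure_union, ← zpowers_eq_closure, ← zpowers_eq_closure, gen]
    induction hx using closure_induction with
    | mem x hx => rcases hx with rfl | rfl <;> assumption
    | one => simp
    | mul x y hx hy i j =>
      rw [H2.mul_mem_iff_of_relIndex_two hM (e hx) (e hy),
        H2.mul_mem_iff_of_relIndex_two hN (e hx) (e hy)]; exact iff_congr i j
    | inv x hx i => simpa using i
  have idx : ∀ k ∈ nrm X, (H2.cj k (zpowers c)).relIndex X = 2 := fun k hk => by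
    conv_lhs => rw [← cj_of_mem_nrm hk]
    rw [← hi]; exact relIndex_map_map_of_injective _ _ (MulAut.conj k).injective
  have le : ∀ k ∈ nrm X, H2.cj k (zpowers c) ≤ X := fun k hk =>
    (cj_mono k (zpowers_le.2 hc)).trans (cj_of_mem_nrm hk).le
  have nb : ∀ k ∈ nrm X, ¬ (c ∈ H2.cj k (zpowers c) ∧ b ∈ H2.cj k (zpowers c)) := fun k hk h => by
    have := relIndex_eq_one.2 (gen.ge.trans (sup_le (zpowers_le.2 h.1) (zpowers_le.2 h.2)))
    rw [idx k hk] at this; omega
  have l : (nrm (zpowers c)).relIndex (zpowers g) ≤ 3 := by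
    classical
    rw [relIndex_nrm_eq]
    refine (Set.ncard_le_ncard_of_injOn (t := {(true, true)}ᶜ) (fun M => (decide (c ∈ M), decide (b ∈ M)))
      ?_ ?_ (Set.toFinite _)).trans (by rw [Set.ncard_compl]; simp)
    · rintro _ ⟨k, hk, rfl⟩ e
      exact nb k (zpowers_le.2 hg hk) (by simpa using e)
    · rintro _ ⟨k, hk, rfl⟩ _ ⟨l, hl, rfl⟩ e
      have hk := zpowers_le.2 hg hk
      have hl := zpowers_le.2 hg hl
      simp only [Prod.mk.injEq, decide_eq_decide] at e
      have := ext _ _ (idx k hk) (idx l hl) e.1 e.2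
      exact le_antisymm (fun x hx => (this x (le k hk hx)).1 hx) fun x hx => (this x (le l hl hx)).2 hx
  have d := relIndex_dvd_card (nrm (zpowers c)) (zpowers g)
  rw [Nat.card_zpowers] at d
  have : (nrm (zpowers c)).relIndex (zpowers g) = 1 := by
    have h0 : (nrm (zpowers c)).relIndex (zpowers g) ≠ 0 := index_ne_zero_of_finite
    have h2 : (nrm (zpowers c)).relIndex (zpowers g) ≠ 2 := fun e => ho.not_two_dvd_nat (e ▸ d)
    have h3 : (nrm (zpowers c)).relIndex (zpowers g) ≠ 3 := fun e => h3 (e ▸ d)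
    omega
  exact cen_of_fix_cyc hX hc hi hg ho (nconj_mem (relIndex_eq_one.1 this (mem_zpowers g)) (mem_zpowers c))

/-- Let `G` be a finite group of order `2 ^ a * n` with `n` odd and not divisible by `3`, and suppose `G` has an element of order `2 ^ (a - 1)` (so a Sylow `2`-subgroup has a cyclic subgroup of index at most `2`). Then `G` has a normal subgroup of order `n`. -/
theorem result {G : Type*} [Group G] [Finite G] (a n : ℕ) (hG : Nat.card G = 2 ^ a * n) (hn : Odd n) (h3 : ¬ 3 ∣ n) (hx : ∃ x : G, orderOf x = 2 ^ (a - 1)) : ∃ N : Subgroup G, N.Normal ∧ Nat.card N = n := by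
  obtain ⟨x, hx⟩ := hx
  have px : IsPGroup 2 (zpowers x) := IsPGroup.of_card (by rw [Nat.card_zpowers, hx])
  obtain ⟨S, hS, hxS⟩ := exists_syl_ge px le_top
  have cS : ord S = 2 ^ a := (H4.sylow_card_of hS.toSylowTop hG hn.not_two_dvd_nat).1
  have i : (zpowers x).relIndex S ≤ 2 := by
    have := relIndex_mul_card' hxS
    rw [cS, Nat.card_zpowers, hx] at this
    refine Nat.le_of_mul_le_mul_right (this.le.trans ?_) (Nat.two_pow_pos (a - 1))
    rw [← pow_succ']; exact Nat.pow_le_pow_right two_pos (by omega)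
  have np : Cfsg.HasNormalPComplement 2 G := by
    refine npc_top_iff.2 (npc_frob fun Q _ hQ g _ hg og => ?_)
    obtain ⟨k, -, hk⟩ := hS.exists_cj_le hQ le_top
    rw [← conj_mem_cj (g := k), cj_cen]
    have n1 : k * g * k⁻¹ ∈ nrm (H2.cj k Q) := by rw [← cj_nrm]; exact conj_mem_cj.2 hg
    have o1 : Odd (orderOf (k * g * k⁻¹)) := by rw [ord_conj]; exact Nat.coprime_two_right.1 og
    have pQ := hS.isPGroup.to_le hk
    obtain ⟨c, hc⟩ := (Subgroup.isCyclic_iff_exists_zpowers_eq_top _).1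
      (cyc_of_le (inf_le_left (a := zpowers x) (b := H2.cj k Q)) inferInstance)
    have i2 : (zpowers c).relIndex (H2.cj k Q) ≤ 2 := by
      rw [hc, inf_relIndex_right]
      exact (relIndex_le_of_le_right hk index_ne_zero_of_finite).trans i
    by_cases h1 : H2.cj k Q ≤ zpowers c
    · haveI := cyc_of_le h1 inferInstance
      exact H8.cen_of_cyclic_two pQ n1 o1
    · refine cen_of pQ (hc.le (mem_zpowers c)).2 ?_ n1 o1 fun h => h3 ?_
      · have := mt relIndex_eq_one.1 h1
        have h0 : (zpowers c).relIndex (H2.cj k Q) ≠ 0 := index_ne_zero_of_finite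
        omega
      · exact (Nat.Coprime.pow_right a (by norm_num)).dvd_of_dvd_mul_left
          (hG ▸ h.trans (orderOf_dvd_natCard _))
  obtain ⟨N, h1, h2⟩ := (H2.hasNPC_iff_sylow hS.toSylowTop).1 np
  refine ⟨N, h1, Nat.eq_of_mul_eq_mul_right (Nat.two_pow_pos a) ?_⟩
  rw [mul_comm n, ← hG, ← h2.card_mul, ← cS]; rfl

end Cfsg.Agent.S3971
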