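import Cfsg.Statements.S3972
import Cfsg.Agent.H1.SR

set_option autoImplicit false
open Cfsg

namespace Cfsg.Agent.S3972

open H1B Subgroup

theorem mem_of {G : Type*} [Group G] {p m : ℕ} (hp : p.Prime) (hm : 1 ≤ m) {g : G}
    (hg : orderOf g = p ^ m) {K : Subgroup G} {c : G} (hc : c ∈ zpowers g) (hc1 : c ≠ 1)
    (hK : c ∈ K) : g ^ p ^ (m - 1) ∈ K := by
  have hfin : IsOfFinOrder g := by
    rw [← orderOf_pos_iff, hg]; exact pow_pos hp.pos _
  rw [← hfin.mem_powers_iff_mem_zpowers] at hc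
  obtain ⟨k, rfl⟩ := hc
  simp only at hc1 hK
  have hk0 : k ≠ 0 := by rintro rfl; simp at hc1
  obtain ⟨j, u, hu, rfl⟩ := Nat.exists_eq_pow_mul_and_not_dvd hk0 p hp.ne_one
  have hj : j < m := by
    by_contra h
    apply hc1
    rw [← orderOf_dvd_iff_pow_eq_one, hg]
    exact (pow_dvd_pow p (not_lt.1 h)).mul_right u
  have ho : orderOf (g ^ p ^ (m - 1)) = p := by
    rw [orderOf_pow_of_dvd (pow_pos hp.pos _).ne' (hg ▸ pow_dvd_pow p (Nat.sub_le m 1)), hg,
      Nat.pow_div (Nat.sub_le m 1) hp.pos, show m - (m - 1) = 1 by omega, pow_one]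
  have h1 : g ^ p ^ (m - 1) ∈ zpowers ((g ^ p ^ (m - 1)) ^ u) := by
    rw [mem_zpowers_pow_iff, ho]
    exact ((Nat.Prime.coprime_iff_not_dvd hp).2 hu).symm
  have h2 : (g ^ p ^ (m - 1)) ^ u = (g ^ (p ^ j * u)) ^ (p ^ (m - 1 - j)) := by
    rw [← pow_mul, ← pow_mul, mul_right_comm, ← pow_add, show j + (m - 1 - j) = m - 1 by omega]
  rw [h2] at h1
  exact (zpowers_le.2 (K.pow_mem hK _)) h1

/-- Let `p` be a prime, `m ≥ 2`, and `G` a transitive but not doubly transitive permutation group on `p ^ m` points containing a permutation of order `p ^ m` (necessarily a full cycle). Then `G` is imprimitive, and the normal closure in `G` of the `p ^ (m - 1)`-th power of that permutation is an intransitive normal subgroup. -/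
theorem result {Ω : Type*} [Fintype Ω] [DecidableEq Ω] (p m : ℕ) (hp : p.Prime) (hm : 2 ≤ m) (hΩ : Fintype.card Ω = p ^ m) (G : Subgroup (Equiv.Perm Ω)) (htr : MulAction.IsPretransitive G Ω) (h2 : ¬ MulAction.IsMultiplyPretransitive G Ω 2) (g : G) (hg : orderOf g = p ^ m) : ¬ MulAction.IsPreprimitive G Ω ∧ ¬ MulAction.IsPretransitive (Subgroup.normalClosure ({g ^ (p ^ (m - 1))} : Set G)) Ω := by
  classical
  have hne1 : g ^ p ^ (m - 1) ≠ 1 := by
    rw [Ne, ← orderOf_dvd_iff_pow_eq_one, hg, Nat.pow_dvd_pow_iff_le_right hp.one_lt]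
    omega
  obtain ⟨ω, hω⟩ : ∃ ω : Ω, g ^ p ^ (m - 1) • ω ≠ ω := by
    by_contra h
    push Not at h
    apply hne1
    ext a
    exact h a
  have hinj : Function.Injective fun c : zpowers g => c • ω := by
    intro c d h
    have h1 : ((d⁻¹ * c : zpowers g) : G) ∈ MulAction.stabilizer G ω := by
      rw [MulAction.mem_stabilizer_iff, Subgroup.coe_mul, Subgroup.coe_inv, mul_smul,
        inv_smul_eq_iff]
      exact h
    by_contra hcd
    refine hω (mem_of hp (by omega) hg (d⁻¹ * c).2 (fun h2 => hcd ?_) h1)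
    have : d⁻¹ * c = 1 := Subtype.ext h2
    exact (inv_mul_eq_one.1 this).symm
  have hcard : Nat.card (zpowers g) = p ^ m := by rw [Nat.card_zpowers, hg]
  have hb : Function.Bijective fun c : zpowers g => c • ω :=
    hinj.bijective_of_nat_card_le (by rw [hcard, Nat.card_eq_fintype_card, hΩ])
  have hd : p ∣ Nat.card (zpowers g) := hcard ▸ dvd_pow_self p (by omega)
  have hne : Nat.card (zpowers g) ≠ p := by
    rw [hcard]
    intro h
    have := Nat.pow_right_injective hp.two_le (h.trans (pow_one p).symm)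
    omega
  rcases schur_cyclic (zpowers g) inferInstance ω hb hp hd hne with ⟨K, hK, hKt, c, hc1, hc⟩ | h
  · have hz := mem_of hp (by omega) hg c.2 (fun h => hc1 (Subtype.ext h)) hc
    refine ⟨not_prim_of_normal hK hKt hz hω, fun h => hKt ⟨fun a b => ?_⟩⟩
    obtain ⟨k, hk⟩ := MulAction.exists_smul_eq (normalClosure ({g ^ (p ^ (m - 1))} : Set G)) a b
    have hle : normalClosure ({g ^ (p ^ (m - 1))} : Set G) ≤ K :=
      normalClosure_le_normal (by simpa using hz)
    exact ⟨⟨k, hle k.2⟩, hk⟩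
  · exact absurd h h2

end Cfsg.Agent.S3972
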