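import Cfsg.Statements.S3977
import Cfsg.Agent.H1.Two4

set_option autoImplicit false
open Cfsg

namespace Cfsg.Agent.S3977

open H7 H1B Subgroup

/-- Let `p` be a prime and `G` a group of order `p ^ m` which has exactly one subgroup of order `p ^ s`, where `1 ≤ s < m`, and where `s ≥ 2` if `p = 2`. Then `G` is cyclic. (For `p = 2` and `s = 1` the generalized quaternion groups also occur; that case is the classical criterion for a unique involution.) -/
theorem result {G : Type*} [Group G] [Finite G] (p m s : ℕ) (hp : p.Prime) (hG : Nat.card G = p ^ m) (hs : 1 ≤ s) (hsm : s < m) (h2 : p ≠ 2 ∨ 2 ≤ s) (huniq : ∀ H K : Subgroup G, Nat.card H = p ^ s → Nat.card K = p ^ s → H = K) : IsCyclic G := by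
  haveI := Fact.mk hp
  have hP : IsPGroup p (⊤ : Subgroup G) := pg_top (IsPGroup.of_card hG)
  have ct : ord (⊤ : Subgroup G) = p ^ m := by rwa [card_top]
  obtain ⟨H, -, hH⟩ := exists_card_eq_pow' hP (n := s) (ct ▸ Nat.pow_le_pow_right hp.pos hsm.le)
  have key : ∀ X : Subgroup G, ord X ≤ p ^ s → X ≤ H := fun X hX => by
    obtain ⟨Y, h1, -, h2⟩ := exists_card_eq_pow hP le_top hX (ct ▸ Nat.pow_le_pow_right hp.pos hsm.le)
    exact huniq Y H h2 hH ▸ h1
  obtain ⟨K, hK, -, cK⟩ := exists_card_eq_pow hP (le_top (a := H)) (n := s + 1)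
    (hH ▸ Nat.pow_le_pow_right hp.pos (by omega)) (ct ▸ Nat.pow_le_pow_right hp.pos hsm)
  obtain ⟨x, hx, hxH⟩ := SetLike.exists_of_lt (lt_of_le_of_ne hK fun e => by
    rw [e, cK] at hH; simpa using Nat.pow_right_injective hp.two_le hH)
  have cyc : H ≤ zpowers x := by
    rw [eq_of_le_of_card_ge (zpowers_le.2 hx) (cK ▸ pow_succ_le_of_lt (hP.to_le le_top)
      (not_le.1 fun h => hxH (key _ h (mem_zpowers x))))]
    exact hK
  have mem : ∀ y : G, orderOf y ≤ p ^ s → y ∈ H := fun y hy =>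
    key _ (by rwa [Nat.card_zpowers]) (mem_zpowers y)
  have ps : p ≤ p ^ s := Nat.le_self_pow (by omega) p
  rcases cyc_or_quat hP (rk1_of_unique fun y _ z _ hy hz => H8.mem_zpowers_of_orderOf_dvd
    (cyc (mem z (hz ▸ ps))) (cyc (mem y (hy ▸ ps))) (by rw [hy, hz])) with h | ⟨rfl, a, n, h, h'⟩
  · exact cyc_top.1 h
  · obtain ⟨b, hb, hba⟩ := h.ex
    have s2 := h2.resolve_left (by simp)
    have : n + 3 = m := Nat.pow_right_injective le_rfl (h.card.symm.trans ct)
    obtain ⟨Y, h1, h3⟩ := exists_card_eq_pow' (h.pgroup.to_le h.le) (n := s) (by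
      rw [Nat.card_zpowers, h.orda]; exact Nat.pow_le_pow_right two_pos (by omega))
    exact (hba (h1 (huniq H Y hH h3 ▸ mem b ((Nat.le_of_dvd four_pos (h.pow_four_out hb hba)).trans
      (Nat.pow_le_pow_right two_pos s2))))).elim

end Cfsg.Agent.S3977
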