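import Cfsg.Statements.S3994
import Cfsg.Agent.H1.V3

set_option autoImplicit false
open Cfsg

namespace Cfsg.Agent.S3994

/-- Let G be a finite group and n a positive integer. The number of elements of G whose order is divisible by n is either 0 or divisible by the largest divisor of the order of G that is coprime to n. -/
theorem result {G : Type*} [Group G] [Finite G] (n : ℕ) (hn : 0 < n) :
    Nat.card {g : G // n ∣ orderOf g} = 0 ∨
      (Nat.card G / Nat.gcd (Nat.card G) (n ^ Nat.card G)) ∣ Nat.card {g : G // n ∣ orderOf g} := by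
  right
  set d := Nat.card G / Nat.gcd (Nat.card G) (n ^ Nat.card G) with hd
  have h0 : Nat.card G ≠ 0 := Nat.card_pos.ne'
  have h1 : d ∣ Nat.card G := Nat.div_dvd_of_dvd (Nat.gcd_dvd_left _ _)
  have h2 : d.Coprime n := Nat.coprime_of_dvd fun r hr h3 h4 => by
    have h5 : r ^ (Nat.card G).factorization r ∣ Nat.gcd (Nat.card G) (n ^ Nat.card G) :=
      Nat.dvd_gcd (Nat.ordProj_dvd _ _) ((pow_dvd_pow r (Nat.factorization_lt r h0).le).trans (pow_dvd_pow_of_dvd h4 _))
    have h6 := Nat.mul_dvd_mul h3 h5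
    rw [hd, Nat.div_mul_cancel (Nat.gcd_dvd_left _ _), ← pow_succ'] at h6
    exact Nat.pow_succ_factorization_not_dvd h0 hr h6
  have := H8.gcd_dvd_ncard_pow_mem d (S := {g : G | n ∣ orderOf g}) fun x hx y h => by
    obtain ⟨c, rfl⟩ := isConj_iff.1 h
    exact (show n ∣ orderOf x from hx).trans (H1B.ocj c x).symm.dvd
  rw [Nat.gcd_eq_left h1] at this
  convert this using 1
  rw [← Nat.card_coe_set_eq]
  refine Nat.card_congr (Equiv.subtypeEquivRight fun x => ⟨fun h => ?_, fun h => Dvd.dvd.trans h (orderOf_pow_dvd d)⟩)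
  show n ∣ orderOf (x ^ d)
  rw [orderOf_pow]
  exact ((h2.symm.coprime_dvd_right (Nat.gcd_dvd_right (orderOf x) d)).dvd_of_dvd_mul_right
    (by rwa [Nat.div_mul_cancel (Nat.gcd_dvd_left _ _)]))

end Cfsg.Agent.S3994
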