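import Cfsg.Statements.S3995
import Cfsg.Agent.H1.OC
import Cfsg.Agent.H2.RL2

set_option autoImplicit false
open Cfsg

namespace Cfsg.Agent.S3995

open H7 H1B Subgroup
open H2 (cj IsSylowIn)

/-- Let G be a finite group such that the numbers of elements of each order that occurs in G (the numbers #{g : o(g) = m}, m ranging over the element orders of G) take exactly two values, 1 and some n ≠ 1. Then either G is a p-group of exponent p and order at least 3 for some prime p, or G is the quaternion group of order 8, or G is cyclic of order 4, or G ≅ Z₂ × P for a p-group P of exponent p with p an odd prime. -/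
theorem result {G : Type*} [Group G] [Finite G] (n : ℕ) (hn : n ≠ 1) (h : ((fun m : ℕ => Nat.card {g : G // orderOf g = m}) '' Set.range (orderOf : G → ℕ)) = {1, n}) :
    (∃ p : ℕ, p.Prime ∧ IsPGroup p G ∧ 3 ≤ Nat.card G ∧ Monoid.exponent G = p) ∨
      Nonempty (G ≃* QuaternionGroup 2) ∨ (IsCyclic G ∧ Nat.card G = 4) ∨
      (∃ (p : ℕ) (P : Type) (_ : Group P) (_ : Finite P), p.Prime ∧ p ≠ 2 ∧ IsPGroup p P ∧ Monoid.exponent P = p ∧
        Nonempty (G ≃* Multiplicative (ZMod 2) × P)) := by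
  simp only [← oc_top] at h
  have hv : ∀ g : G, oc (⊤ : Subgroup G) (orderOf g) = 1 ∨ oc (⊤ : Subgroup G) (orderOf g) = n := fun g =>
    h.le ⟨_, ⟨g, rfl⟩, rfl⟩
  obtain ⟨_, ⟨g0, rfl⟩, h0⟩ := h.ge (show n ∈ ({1, n} : Set ℕ) by simp)
  replace h0 : oc (⊤ : Subgroup G) (orderOf g0) = n := h0
  have n0 : n ≠ 0 := h0 ▸ oc_ne_zero (mem_top g0)
  have big : ∀ g : G, 2 < orderOf g → oc (⊤ : Subgroup G) (orderOf g) = n := fun g l => (hv g).resolve_left fun e => by
    have := (Nat.totient_even l).two_dvd.trans (tot_dvd_oc (H := (⊤ : Subgroup G)))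
    omega
  have big' : ∀ m, 2 < m → oc (⊤ : Subgroup G) m = 0 ∨ oc (⊤ : Subgroup G) m = n := fun m l => by
    by_cases e : ∃ g : G, orderOf g = m
    · obtain ⟨g, rfl⟩ := e
      exact .inr (big g l)
    · exact .inl (oc_eq_zero.2 fun x _ k => e ⟨x, k⟩)
  have g1 : g0 ≠ 1 := fun e => hn (by rw [← h0, e, orderOf_one, oc_one])
  haveI : Nontrivial G := ⟨⟨g0, 1, g1⟩⟩
  by_cases hA : ∀ g : G, g ^ 2 = 1
  · have := sum_oc_card (H := (⊤ : Subgroup G)) two_ne_zero fun x _ => hA x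
    rw [orderOf_eq_prime (hA g0) g1] at h0
    rw [Nat.prime_two.divisors, Finset.sum_pair (by simp), oc_one, h0, card_top] at this
    exact .inl ⟨2, Nat.prime_two, fun g => ⟨1, by simpa using hA g⟩, by omega,
      (Monoid.exponent_eq_prime_iff Nat.prime_two).2 fun g k => orderOf_eq_prime (hA g) k⟩
  push Not at hA
  obtain ⟨g, hg⟩ := hA
  have o3 : 2 < orderOf g := by
    by_contra c
    have := orderOf_pos g
    refine hg (orderOf_dvd_iff_pow_eq_one.1 ?_)
    interval_cases orderOf g <;> simp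
  have ev : 2 ∣ n := big g o3 ▸ (Nat.totient_even o3).two_dvd.trans tot_dvd_oc
  have op : ∀ p, p.Prime → p ≠ 2 → p ∣ Nat.card G → oc (⊤ : Subgroup G) p = n ∧ p ∣ 1 + n := fun p hp h2 d => by
    obtain ⟨x, -, ox⟩ := exists_orderOf_eq (H := (⊤ : Subgroup G)) hp (by rwa [card_top])
    have e := big x (ox ▸ lt_of_le_of_ne hp.two_le h2.symm)
    rw [ox] at e
    exact ⟨e, e ▸ dvd_oc_prime hp (by rwa [card_top])⟩
  have uq : ∀ p q, p.Prime → q.Prime → p ≠ 2 → q ≠ 2 → p ∣ Nat.card G → q ∣ Nat.card G → p = q := fun p q hp hq a b c d => by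
    by_contra ne
    have k := (Dvd.intro _ rfl).trans (dvd_oc_two (H := (⊤ : Subgroup G)) hp hq ne (by rwa [card_top]) (by rwa [card_top]))
    rw [(op p hp a c).1, (op q hq b d).1] at k
    have D := (op p hp a c).2
    rcases big' (p * q) (by nlinarith [hp.two_le, hq.two_le]) with e | e <;> rw [e] at k
    · exact hp.one_lt.ne' (Nat.dvd_one.1 ((Nat.dvd_add_right k).1 (by
        rw [show 1 + n + n + 0 + 1 = 2 * (1 + n) by ring]; exact D.mul_left 2)))
    · exact a ((Nat.prime_dvd_prime_iff_eq hp Nat.prime_two).1 ((Nat.dvd_add_right k).1 (by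
        rw [show 1 + n + n + n + 2 = 3 * (1 + n) by ring]; exact D.mul_left 3)))
  have ex : ∀ p, p.Prime → p ≠ 2 → ∀ x : G, ∀ k, x ^ p ^ k = 1 → x ^ p = 1 := fun p hp h2 x k e => by
    obtain ⟨j, -, hj⟩ := (Nat.dvd_prime_pow hp).1 (orderOf_dvd_of_pow_eq_one e)
    by_contra c
    have j2 : 2 ≤ j := by
      by_contra l
      exact c (orderOf_dvd_iff_pow_eq_one.1 (hj ▸ (pow_dvd_pow p (by omega : j ≤ 1)).trans (by simp)))
    obtain ⟨y, -, oy⟩ := exists_order_dvd (x := x) (n := p ^ 2) (hj ▸ pow_dvd_pow p j2)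
    have e := big y (by rw [oy]; nlinarith [hp.two_le])
    have t := tot_dvd_oc (H := (⊤ : Subgroup G)) (n := orderOf y)
    rw [e, oy, Nat.totient_prime_pow_succ hp, pow_one] at t
    have := (op p hp h2 ((dvd_pow_self p two_ne_zero).trans (oy ▸ orderOf_dvd_natCard y))).2
    exact hp.one_lt.ne' (Nat.dvd_one.1 ((Nat.dvd_add_left ((Dvd.intro _ rfl).trans t)).1 this))
  by_cases h2 : 2 ∣ Nat.card G
  swap
  · obtain ⟨p, hp, d⟩ := Nat.exists_prime_and_dvd (Finite.one_lt_card (α := G)).ne'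
    have p2 : p ≠ 2 := fun e => h2 (e ▸ d)
    haveI := Fact.mk hp
    have pg : IsPGroup p G := IsPGroup.of_card (Nat.eq_prime_pow_of_unique_prime_dvd Nat.card_pos.ne'
      fun {q} hq c => uq q p hq hp (fun e => h2 (e ▸ c)) p2 c d)
    exact .inl ⟨p, hp, pg, (lt_of_le_of_ne hp.two_le p2.symm).trans_le (Nat.le_of_dvd Nat.card_pos d),
      (Monoid.exponent_eq_prime_iff hp).2 fun g k => orderOf_eq_prime ((pg g).elim (ex p hp p2 g)) k⟩
  obtain ⟨z, -, oz⟩ := exists_orderOf_eq (H := (⊤ : Subgroup G)) Nat.prime_two (by rwa [card_top])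
  have o2 : oc (⊤ : Subgroup G) 2 = 1 := by
    have := dvd_oc_prime (H := (⊤ : Subgroup G)) Nat.prime_two (by rwa [card_top])
    have := hv z
    rw [oz] at this
    omega
  have uz : ∀ w : G, orderOf w = 2 → w = z := fun w ow => by
    obtain ⟨a, ha⟩ := Set.ncard_eq_one.1 o2
    exact (ha.le ⟨trivial, ow⟩).trans (ha.le ⟨trivial, oz⟩).symm
  have u : U1 2 (⊤ : Subgroup G) := fun x _ y _ a b => by rw [uz x a, uz y b]; exact mem_zpowers z
  have d4 : ∀ x : G, 4 ∣ orderOf x → oc (⊤ : Subgroup G) 4 = n ∧ 4 ∣ Nat.card G := fun x d => by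
    obtain ⟨y, -, oy⟩ := exists_order_dvd d
    exact ⟨oy ▸ big y (by omega), d.trans (orderOf_dvd_natCard x)⟩
  by_cases hp : ∃ p, p.Prime ∧ p ≠ 2 ∧ p ∣ Nat.card G
  swap
  · have pg : IsPGroup 2 G := IsPGroup.of_card (Nat.eq_prime_pow_of_unique_prime_dvd Nat.card_pos.ne'
      fun {q} hq c => by_contra fun e => hp ⟨q, hq, e, c⟩)
    obtain ⟨j, hj⟩ := IsPGroup.iff_orderOf.1 pg g
    obtain ⟨e4, c4⟩ := d4 g (hj ▸ pow_dvd_pow 2 (show 2 ≤ j by
      by_contra l
      have : j ≤ 1 := by omega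
      interval_cases j <;> omega))
    obtain c | ⟨-, a, k, m, q⟩ := u.cases (pg.to_subgroup ⊤)
    · refine .inr (.inr (.inl ⟨topEquiv.isCyclic.1 c, ?_⟩))
      rw [oc_cyc c (by rwa [card_top])] at e4
      obtain ⟨i, hi⟩ := IsPGroup.iff_card.1 pg
      by_cases l : 3 ≤ i
      · have := big' 8 (by norm_num)
        rw [oc_cyc c (by rw [card_top, hi]; exact pow_dvd_pow 2 l), ← e4] at this
        exact absurd this (by decide)
      rw [hi] at c4 ⊢
      have : i ≤ 2 := by omega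
      interval_cases i <;> simp at c4 ⊢
    obtain ⟨b, hb, hba⟩ := m.ex
    rcases k with _ | k
    · exact .inr (.inl ⟨topEquiv.symm.trans (m.quat rfl hb hba (q b hb hba)).some⟩)
    exfalso
    have e8 : oc (⊤ : Subgroup G) 8 = oc (zpowers a) 8 := by
      unfold oc
      congr 1
      ext x
      refine ⟨fun ⟨_, o⟩ => ⟨by_contra fun c => ?_, o⟩, fun ⟨_, o⟩ => ⟨trivial, o⟩⟩
      have := m.pow_four_out trivial c
      rw [o] at this
      omega
    rw [oc_cyc (H7.cyc_zpowers a) (by rw [card_zpowers_eq, m.orda]; exact pow_dvd_pow 2 (show 3 ≤ _ by omega))] at e8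
    have := big' 8 (by norm_num)
    have f := dvd_sum_oc (H := (⊤ : Subgroup G)) (n := 4) (by rwa [card_top])
    rw [show Nat.divisors 4 = {1, 2, 4} by decide] at f
    simp only [Finset.mem_insert, Finset.mem_singleton, Finset.sum_insert, Finset.sum_singleton, oc_one, o2, e4,
      not_false_eq_true, OfNat.one_ne_ofNat, or_self, Nat.reduceEqDiff] at f
    rw [e8, show Nat.totient 8 = 4 by decide] at this
    omega
  obtain ⟨p, hp, p2, d⟩ := hp
  haveI := Fact.mk hp
  obtain ⟨e, D⟩ := op p hp p2 d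
  have zc : ∀ x : G, x * z = z * x := fun x => by
    rw [← mul_inv_eq_iff_eq_mul]
    exact uz _ (by rw [← oz]; simpa using (MulAut.conj x).orderOf_eq z)
  have p4 : ¬ p ∣ 4 := fun k => p2 ((Nat.prime_dvd_prime_iff_eq hp Nat.prime_two).1 (hp.dvd_of_dvd_pow (n := 2) k))
  have n4 : ∀ x : G, ¬ 4 ∣ orderOf x := fun x k => by
    obtain ⟨e4, c4⟩ := d4 x k
    obtain ⟨y, -, oy⟩ := exists_orderOf_eq (H := (⊤ : Subgroup G)) hp (by rwa [card_top])
    have o : orderOf (z * y) = 2 * p := by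
      rw [Commute.orderOf_mul_eq_mul_orderOf_of_coprime (zc y).symm (by
        rw [oz, oy]; exact (Nat.coprime_primes Nat.prime_two hp).2 p2.symm), oz, oy]
    have e2 := big (z * y) (by rw [o]; nlinarith [hp.two_le])
    have f := (Dvd.intro_left _ rfl).trans (dvd_sum_oc (H := (⊤ : Subgroup G)) (n := 4 * p) (by
      rw [card_top]; exact (hp.coprime_iff_not_dvd.2 p4).symm.mul_dvd_of_dvd_of_dvd c4 d))
    rw [sum_div_mul _ hp p4, show Nat.divisors 4 = {1, 2, 4} by decide] at f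
    simp only [Finset.mem_insert, Finset.mem_singleton, Finset.sum_insert, Finset.sum_singleton, oc_one, o2, e4,
      not_false_eq_true, OfNat.one_ne_ofNat, or_self, Nat.reduceEqDiff, one_mul, e, ← o, e2] at f
    rcases big' (4 * p) (by nlinarith [hp.two_le]) with k | k <;> rw [k] at f
    · exact hp.one_lt.ne' (Nat.dvd_one.1 ((Nat.dvd_add_right f).1 (by
        rw [show 1 + n + (1 + n + (n + 0)) + 1 = 3 * (1 + n) by ring]; exact D.mul_left 3)))
    · exact p2 ((Nat.prime_dvd_prime_iff_eq hp Nat.prime_two).1 ((Nat.dvd_add_right f).1 (by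
        rw [show 1 + n + (1 + n + (n + n)) + 2 = 4 * (1 + n) by ring]; exact D.mul_left 4)))
  obtain ⟨P, hP⟩ := H2.exists_isSylowIn p (⊤ : Subgroup G)
  have t : zpowers z ⊔ P = ⊤ := top_le_iff.1 (le_of_sylows_le fun q hq c => by
    haveI := Fact.mk hq
    by_cases q2 : q = 2
    · subst q2
      obtain ⟨S, hS⟩ := H2.exists_isSylowIn 2 (⊤ : Subgroup G)
      refine ⟨S, hS, fun x hx => mem_sup_left ?_⟩
      obtain ⟨j, hj⟩ := IsPGroup.iff_orderOf.1 hS.2 ⟨x, hx⟩
      rw [← orderOf_coe] at hj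
      rcases j with _ | _ | j
      · rw [show x = 1 from orderOf_eq_one_iff.1 hj]
        exact one_mem _
      · exact uz x hj ▸ mem_zpowers _
      · exact (n4 x (by rw [show orderOf x = _ from hj]; exact pow_dvd_pow 2 (show 2 ≤ _ by omega))).elim
    · obtain rfl := uq q p hq hp q2 p2 (by rwa [card_top] at c) d
      exact ⟨P, hP, le_sup_right⟩)
  obtain ⟨f⟩ := H2.exists_prod (A := zpowers z) (B := P) (zpowers_le.2 (mem_centralizer_iff.2 fun x _ => zc x))
    (IsPGroup.disjoint_of_ne 2 p p2.symm _ _ (isPGroup_zpowers_of_orderOf oz) hP.2).eq_bot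
  obtain ⟨P', _, _, ⟨f'⟩⟩ := Finite.exists_type_univ_nonempty_mulEquiv.{_, 0} P
  have pg := hP.2.of_equiv f'
  haveI : Nontrivial P := (nontrivial_iff_ne_bot P).2 (syl_ne_bot hP (by rwa [card_top]))
  refine .inr (.inr (.inr ⟨p, P', _, inferInstance, hp, p2, pg, ?_,
    ⟨(topEquiv.symm.trans ((MulEquiv.subgroupCongr t.symm).trans f)).trans (MulEquiv.prodCongr ?_ f')⟩⟩))
  · rw [← Monoid.exponent_eq_of_mulEquiv f']
    exact (Monoid.exponent_eq_prime_iff hp).2 fun g k => orderOf_eq_prime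
      ((hP.2 g).elim fun j hj => Subtype.ext (ex p hp p2 g j (congrArg Subtype.val hj))) k
  · exact mulEquivOfPrimeCardEq (p := 2) (by rw [card_zpowers_eq, oz]) (by simp)

end Cfsg.Agent.S3995
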