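import Cfsg.Statements.S3997
import Cfsg.Agent.H1.V2

set_option autoImplicit false
open Cfsg

namespace Cfsg.Agent.S3997

open H7 H1B Subgroup

/-- Let G and H be finite groups with the same order type: for every m they have the same number of elements of order m. If G is nilpotent then so is H. -/
theorem result {G H : Type*} [Group G] [Finite G] [Group H] [Finite H] (hT : (∀ m : ℕ, Nat.card {g : G // orderOf g = m} = Nat.card {h : H // orderOf h = m})) (hG : Group.IsNilpotent G) :
    Group.IsNilpotent H := by
  let e : G ≃ H := Equiv.ofFiberEquiv (f := orderOf) (g := orderOf) fun m => (Finite.card_eq.1 (hT m)).some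
  have he : ∀ x, orderOf (e x) = orderOf x := Equiv.ofFiberEquiv_map _
  refine nilp_top.1 (nilp_of_sylow_normal fun p hp Q hQ => ?_)
  haveI := Fact.mk hp
  have hP := nilp_sylow_Op (p := p) (nilp_top.2 hG)
  have h1 : ord (Op p (⊤ : Subgroup G)) = ord Q :=
    (hP.toSylowTop.card_eq_multiplicity).trans (by
      rw [Nat.card_congr e]; exact hQ.toSylowTop.card_eq_multiplicity.symm)
  let S : Set H := {y | ∃ k, orderOf y = p ^ k}
  have h2 : S.ncard ≤ ord Q := by
    rw [← h1]
    refine Set.ncard_le_ncard_of_injOn e.symm (fun y ⟨k, hk⟩ => ?_) e.symm.injective.injOn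
    exact nilp_le_Op (nilp_top.2 hG) le_top (pg_zpowers (by rw [← he, e.apply_symm_apply, hk])) (mem_zpowers _)
  have h3 : (Q : Set H) = S :=
    Set.eq_of_subset_of_ncard_le (fun y hy => H2.orderOf_eq_pow_of_mem hQ.isPGroup hy) h2
  refine le_nrm_iff_conj.2 fun a _ x hx => ?_
  rw [← SetLike.mem_coe, h3] at hx ⊢
  exact hx.imp fun k hk => by rwa [ord_conj]

end Cfsg.Agent.S3997
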