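import Cfsg.Statements.S3998
import Cfsg.Agent.S0529

set_option autoImplicit false
open Cfsg

namespace Cfsg.Agent.S3998

theorem hallG {G : Type*} [Group G] [Finite G] (hG : Cfsg.IsSupersolvable G) (r : ℕ) :
    ∃ N : Subgroup G, N.Normal ∧ (∀ q, q.Prime → q ∣ Nat.card N → r ≤ q) ∧ (∀ q, q.Prime → q ∣ N.index → q < r) := by
  obtain ⟨n, H, h0, hl, hn, hs, hm⟩ := Cfsg.Agent.S0529.result hG
  have key : ∀ i : Fin (n+1), ∃ N : Subgroup G, N.Normal ∧ N ≤ H i ∧ (∀ q, q.Prime → q ∣ Nat.card N → r ≤ q) ∧
      (∀ q, q.Prime → q ∣ N.relIndex (H i) → q < r) ∧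
      (N = H i ∨ ∃ j : Fin n, j.castSucc < i ∧ (H j.castSucc).relIndex (H j.succ) < r) := by
    intro i
    induction i using Fin.induction with
    | zero =>
      refine ⟨⊥, inferInstance, bot_le, ?_, ?_, Or.inl h0.symm⟩
      · intro q hq h; simp at h; exact absurd h hq.ne_one
      · intro q hq h; rw [h0, Subgroup.relIndex_self] at h; exact absurd (Nat.dvd_one.1 h) hq.ne_one
    | succ i ih =>
      obtain ⟨N, hN, hle, h1, h2, h3⟩ := ih
      by_cases hr : (H i.castSucc).relIndex (H i.succ) < r
      · refine ⟨N, hN, hle.trans (hs i).1, h1, ?_, Or.inr ⟨i, Fin.castSucc_lt_succ, hr⟩⟩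
        intro q hq h
        rw [← Subgroup.relIndex_mul_relIndex N _ _ hle (hs i).1] at h
        rcases (Nat.Prime.dvd_mul hq).1 h with h | h
        · exact h2 q hq h
        · rw [(Nat.prime_dvd_prime_iff_eq hq (hs i).2).1 h]; exact hr
      · rcases h3 with rfl | ⟨j, hj, hj2⟩
        · refine ⟨H i.succ, hn _, le_rfl, ?_, ?_, Or.inl rfl⟩
          · intro q hq h
            have hc := Subgroup.relIndex_mul_relIndex ⊥ _ _ bot_le (hs i).1
            rw [Subgroup.relIndex_bot_left, Subgroup.relIndex_bot_left] at hc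
            rw [← hc] at h
            rcases (Nat.Prime.dvd_mul hq).1 h with h | h
            · exact h1 q hq h
            · rw [(Nat.prime_dvd_prime_iff_eq hq (hs i).2).1 h]; omega
          · intro q hq h; rw [Subgroup.relIndex_self] at h; exact absurd (Nat.dvd_one.1 h) hq.ne_one
        · have := hm j i (le_of_lt (Fin.castSucc_lt_castSucc_iff.1 hj))
          omega
  obtain ⟨N, hN, -, h1, h2, -⟩ := key (Fin.last n)
  rw [hl, Subgroup.relIndex_top_right] at h2
  exact ⟨N, hN, h1, h2⟩

theorem cop {a b r : ℕ} (h1 : ∀ q, q.Prime → q ∣ a → r ≤ q) (h2 : ∀ q, q.Prime → q ∣ b → q < r) : a.Coprime b := by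
  apply Nat.coprime_of_dvd
  intro k hk ha hb
  have := h1 k hk ha; have := h2 k hk hb; omega

theorem result {G H : Type*} [Group G] [Finite G] [Group H] [Finite H] (hT : (∀ m : ℕ, Nat.card {g : G // orderOf g = m} = Nat.card {h : H // orderOf h = m})) (hG : Cfsg.IsSupersolvable G) :
    Group.IsSolvable H := by
  classical
  let e : G ≃ H := Equiv.ofFiberEquiv (f := fun g : G => orderOf g) (g := fun h : H => orderOf h)
    (fun m => (Finite.card_eq.1 (hT m)).some)
  have he : ∀ g, orderOf (e g) = orderOf g := fun g => Equiv.ofFiberEquiv_map _ g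
  have hcard : Nat.card G = Nat.card H := Nat.card_congr e
  have norm : ∀ r (K : Subgroup H), (∀ q, q.Prime → q ∣ Nat.card K → r ≤ q) → (∀ q, q.Prime → q ∣ K.index → q < r) → K.Normal := by
    intro r K k1 k2
    obtain ⟨N, hN, h1, h2⟩ := hallG hG r
    have e1 : Nat.card N * N.index = Nat.card K * K.index := by
      rw [Subgroup.card_mul_index, Subgroup.card_mul_index, hcard]
    have d1 : Nat.card N ∣ Nat.card K := (cop h1 k2).dvd_of_dvd_mul_right (e1 ▸ dvd_mul_right _ _)
    have hS : ∀ h : H, (∀ q, q.Prime → q ∣ orderOf h → r ≤ q) → e.symm h ∈ N := by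
      intro h hh
      have ho : orderOf (e.symm h) = orderOf h := by rw [← he, Equiv.apply_symm_apply]
      have c := cop hh h2
      rw [← QuotientGroup.eq_one_iff, ← orderOf_eq_one_iff]
      have a1 : orderOf ((e.symm h : G) : G ⧸ N) ∣ orderOf h := ho ▸ orderOf_map_dvd (QuotientGroup.mk' N) _
      have a2 : orderOf ((e.symm h : G) : G ⧸ N) ∣ N.index := orderOf_dvd_natCard _
      exact Nat.eq_one_of_dvd_coprimes c a1 a2
    let S : Set H := {h | ∀ q, q.Prime → q ∣ orderOf h → r ≤ q}
    have hKS : (K : Set H) ⊆ S := fun h hh q hq hd => k1 q hq (hd.trans (Subgroup.orderOf_dvd_natCard K hh))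
    have hSc : S.ncard ≤ (K : Set H).ncard := by
      have b1 : S.ncard ≤ (N : Set G).ncard :=
        Set.ncard_le_ncard_of_injOn e.symm (fun h hh => hS h hh) e.symm.injective.injOn (Set.toFinite _)
      have b2 : (N : Set G).ncard = Nat.card N := rfl
      have b3 : (K : Set H).ncard = Nat.card K := rfl
      rw [b3]; exact (b2 ▸ b1).trans (Nat.le_of_dvd Nat.card_pos d1)
    have hE : (K : Set H) = S := Set.eq_of_subset_of_ncard_le hKS hSc (Set.toFinite _)
    refine ⟨fun x hx g => ?_⟩
    have : g * x * g⁻¹ ∈ S := by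
      intro q hq hd
      have : orderOf (g * x * g⁻¹) = orderOf x := (MulAut.conj g).orderOf_eq x
      exact hKS hx q hq (this ▸ hd)
    rw [← hE] at this; exact this
  have main : ∀ t r, r + t = Nat.card H + 1 → ∃ K : Subgroup H, Group.IsSolvable K ∧ (∀ q, q.Prime → q ∣ Nat.card K → r ≤ q) ∧ (∀ q, q.Prime → q ∣ K.index → q < r) := by
    intro t
    induction t with
    | zero =>
      intro r hr
      refine ⟨⊥, inferInstance, ?_, ?_⟩
      · intro q hq h; simp at h; exact absurd h hq.ne_one
      · intro q hq h; rw [Subgroup.index_bot] at h; have := Nat.le_of_dvd Nat.card_pos h; omega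
    | succ t ih =>
      intro r hr
      obtain ⟨K, hK, k1, k2⟩ := ih (r+1) (by omega)
      by_cases hp : r.Prime
      · haveI := norm _ K k1 k2
        haveI := Fact.mk hp
        obtain ⟨Q⟩ : Nonempty (Sylow r (H ⧸ K)) := inferInstance
        have hi : ((Q : Subgroup (H ⧸ K)).comap (QuotientGroup.mk' K)).index = (Q : Subgroup (H ⧸ K)).index :=
          Subgroup.index_comap_of_surjective _ (QuotientGroup.mk'_surjective K)
        have hle : K ≤ (Q : Subgroup (H ⧸ K)).comap (QuotientGroup.mk' K) := QuotientGroup.le_comap_mk' K _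
        refine ⟨(Q : Subgroup (H ⧸ K)).comap (QuotientGroup.mk' K), ?_, ?_, ?_⟩
        · haveI : Group.IsNilpotent Q := Q.isPGroup'.isNilpotent
          refine Group.isSolvable_of_ker_le_range (Subgroup.inclusion hle) ((QuotientGroup.mk' K).subgroupComap (Q : Subgroup (H ⧸ K))) ?_
          intro x hx
          have : ((x : H) : H ⧸ K) = 1 := congrArg Subtype.val hx
          exact ⟨⟨x, (QuotientGroup.eq_one_iff _).1 this⟩, rfl⟩
        · intro q hq h
          have c1 := Subgroup.card_mul_index ((Q : Subgroup (H ⧸ K)).comap (QuotientGroup.mk' K))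
          have c2 := Subgroup.card_mul_index K
          have c3 : Nat.card (Q : Subgroup (H ⧸ K)) * (Q : Subgroup (H ⧸ K)).index = K.index := Subgroup.card_mul_index _
          rw [hi, ← c2, ← c3, ← mul_assoc] at c1
          rw [Nat.eq_of_mul_eq_mul_right (Nat.pos_of_ne_zero Subgroup.index_ne_zero_of_finite) c1] at h
          rcases (Nat.Prime.dvd_mul hq).1 h with h | h
          · have := k1 q hq h; omega
          · obtain ⟨m, hm⟩ := IsPGroup.iff_card.1 Q.isPGroup'
            rw [hm] at h
            rw [(Nat.prime_dvd_prime_iff_eq hq hp).1 (hq.dvd_of_dvd_pow h)]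
        · intro q hq h
          rw [hi] at h
          have a := k2 q hq (h.trans (Subgroup.index_dvd_card _))
          have b : q ≠ r := by rintro rfl; exact Q.not_dvd_index h
          omega
      · refine ⟨K, hK, fun q hq h => by have := k1 q hq h; omega, fun q hq h => ?_⟩
        have a := k2 q hq h
        have b : q ≠ r := by rintro rfl; exact hp hq
        omega
  obtain ⟨K, hK, -, k2⟩ := main (Nat.card H + 1) 0 (by omega)
  have : K.index = 1 := Nat.eq_one_iff_not_exists_prime_dvd.2 (fun q hq h => by have := k2 q hq h; omega)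
  rw [Subgroup.index_eq_one] at this
  subst this
  exact Group.isSolvable_of_surjective (f := (⊤ : Subgroup H).subtype) (fun x => ⟨⟨x, trivial⟩, rfl⟩)

end Cfsg.Agent.S3998
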