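import Cfsg.Statements.S4001
import Cfsg.Agent.H7.GK

set_option autoImplicit false
open Cfsg

namespace Cfsg.Agent.S4001
open H7
open scoped commutatorElement

/-- Let G be a 2-Frobenius group: it has normal subgroups H < K with K a Frobenius group with kernel H and G/H a Frobenius group with kernel K/H. Then G is solvable; K/H has odd order coprime to the order of H and to the order of G/K (it is the image of an odd-order Hall subgroup); G/K is cyclic; and the prime graph of G has exactly two connected components, both complete: for distinct primes p, q dividing the order of G, G has an element of order pq exactly when p and q either both divide the order of K/H or both do not. -/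
theorem result {G : Type*} [Group G] [Finite G] (H K : Subgroup G) [H.Normal] [K.Normal] (hlt : H < K)
    (hK : ∃ C : Subgroup ↥K, Cfsg.IsFrobeniusComplement C ∧ Cfsg.frobeniusKernel C = (H.subgroupOf K : Set ↥K))
    (hGH : ∃ C : Subgroup (G ⧸ H), Cfsg.IsFrobeniusComplement C ∧ Cfsg.frobeniusKernel C = (K.map (QuotientGroup.mk' H) : Set (G ⧸ H))) :
    Group.IsSolvable G ∧ Odd (Nat.card (↥K ⧸ H.subgroupOf K)) ∧
      Nat.Coprime (Nat.card (↥K ⧸ H.subgroupOf K)) (Nat.card ↥H * Nat.card (G ⧸ K)) ∧ IsCyclic (G ⧸ K) ∧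
      ∀ p q : ℕ, p.Prime → q.Prime → p ≠ q → p ∣ Nat.card G → q ∣ Nat.card G →
        ((∃ g : G, orderOf g = p * q) ↔ (p ∣ Nat.card (↥K ⧸ H.subgroupOf K) ↔ q ∣ Nat.card (↥K ⧸ H.subgroupOf K))) := by
  open Subgroup in
  obtain ⟨B, C, h, rfl⟩ := exists_F2 hlt.le hK hGH
  have e1 : Nat.card (↥(B ⊔ H) ⧸ H.subgroupOf (B ⊔ H)) = Nat.card B := by
    have := relIndex_mul_card' (le_sup_right : H ≤ B ⊔ H)
    rw [h.card_K] at this
    exact Nat.eq_of_mul_eq_mul_right (card_pos' _) this
  have e2 : Nat.card (G ⧸ (B ⊔ H)) = Nat.card C := by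
    have := Subgroup.card_eq_card_quotient_mul_card_subgroup (B ⊔ H)
    rw [h.card, h.card_K] at this
    exact (Nat.eq_of_mul_eq_mul_right (Nat.mul_pos (card_pos' _) (card_pos' _)) this).symm
  rw [e1, e2]
  refine ⟨?_, Nat.coprime_two_right.1 h.cyc.2.1, h.cop, ?_, fun p q hp hq ne h1 h2 => h.graph hp hq ne h1 h2⟩
  · haveI := h.solv
    exact solvable_of_surjective (f := (⊤ : Subgroup G).subtype) fun x => ⟨⟨x, trivial⟩, rfl⟩
  haveI := h.cyc.2.2
  refine isCyclic_of_surjective ((QuotientGroup.mk' (B ⊔ H)).comp C.subtype) fun x => ?_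
  obtain ⟨g, rfl⟩ := QuotientGroup.mk'_surjective _ x
  obtain ⟨c, hc, k, hk, rfl⟩ := (mem_sup_nrm h.nK).1 (h.sup'.ge (mem_top g))
  exact ⟨⟨c, hc⟩, by rw [map_mul, show (QuotientGroup.mk' (B ⊔ H)) k = 1 from (QuotientGroup.eq_one_iff _).2 hk, mul_one]; rfl⟩

end Cfsg.Agent.S4001
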