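import Cfsg.Statements.S4002
import Cfsg.Agent.H7.QC
import Cfsg.Agent.H7.GK

set_option autoImplicit false
open Cfsg

namespace Cfsg.Agent.S4002
open H7
open scoped commutatorElement

/-- If the set of element orders of a finite group G is {1, 2, …, n} with n ≥ 7, then G is not solvable. -/
theorem result {G : Type*} [Group G] [Finite G] (n : ℕ) (hn : 7 ≤ n) (h : Set.range (orderOf : G → ℕ) = {k : ℕ | 1 ≤ k ∧ k ≤ n}) : ¬ Group.IsSolvable G := by
  open Subgroup in
  intro hs
  obtain ⟨p, q, r, pp, qq, rr, h1, h2, h3, h4⟩ : ∃ p q r : ℕ, p.Prime ∧ q.Prime ∧ r.Prime ∧ p < q ∧ q < r ∧ r ≤ n ∧ n < p * q := by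
    rcases lt_or_ge n 15 with h | h
    · exact ⟨3, 5, 7, by norm_num, by norm_num, by norm_num, by norm_num, by norm_num, hn, h⟩
    rcases lt_or_ge n 77 with h' | h'
    · exact ⟨7, 11, 13, by norm_num, by norm_num, by norm_num, by norm_num, by norm_num, by omega, h'⟩
    obtain ⟨p, pp, a, b⟩ := Nat.exists_prime_lt_and_le_two_mul (n / 8) (by omega)
    obtain ⟨q, qq, c, d⟩ := Nat.exists_prime_lt_and_le_two_mul (n / 4) (by omega)
    obtain ⟨r, rr, e, f⟩ := Nat.exists_prime_lt_and_le_two_mul (n / 2) (by omega)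
    refine ⟨p, q, r, pp, qq, rr, by omega, by omega, by omega, ?_⟩
    have : 10 ≤ p := by omega
    have : n < 10 * q := by omega
    nlinarith
  have m : ∀ k, k ∈ Set.range (orderOf : G → ℕ) ↔ 1 ≤ k ∧ k ≤ n := fun k => by rw [h]; rfl
  have d : ∀ k, 1 ≤ k → k ≤ n → k ∣ Nat.card G := fun k a b => let ⟨g, hg⟩ := (m k).2 ⟨a, b⟩; hg ▸ orderOf_dvd_natCard g
  refine no_three_normal (K := (⊤ : Subgroup G)) (π := {p, q, r}) inferInstance inferInstance (fun a ha b hb ne ⟨g, hg⟩ => ?_)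
    (by simp) (by simp) (by simp) pp qq rr h1.ne (h1.trans h2).ne h2.ne (card_top (G := G) ▸ d p pp.pos (by omega))
    (card_top (G := G) ▸ d q qq.pos (by omega)) (d r rr.pos h3)
  have := ((m _).1 ⟨g, hg⟩).2
  simp only [Set.mem_insert_iff, Set.mem_singleton_iff] at ha hb
  rcases ha with rfl | rfl | rfl <;> rcases hb with rfl | rfl | rfl <;> first | exact ne rfl | nlinarith

end Cfsg.Agent.S4002
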