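import Cfsg.Statements.S4005
import Cfsg.Agent.H1.V3
import Cfsg.Agent.H3.Integral

set_option autoImplicit false
open Cfsg

namespace Cfsg.Agent.S4005

open H7 H1B Subgroup

/-- A finite group whose set of element orders is exactly {1, 2, 3} has either a normal elementary abelian 3-subgroup of index 2 or a normal elementary abelian 2-subgroup of index 3. -/
theorem result {G : Type*} [Group G] [Finite G] (h : Set.range (orderOf : G → ℕ) = {k : ℕ | 1 ≤ k ∧ k ≤ 3}) :
    (∃ N : Subgroup G, N.Normal ∧ Cfsg.IsElementaryAbelian 3 N ∧ N.index = 2) ∨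
      (∃ N : Subgroup G, N.Normal ∧ Cfsg.IsElementaryAbelian 2 N ∧ N.index = 3) := by
  have ho : ∀ x : G, orderOf x = 1 ∨ orderOf x = 2 ∨ orderOf x = 3 := fun x => by
    have : orderOf x ∈ {k : ℕ | 1 ≤ k ∧ k ≤ 3} := h ▸ ⟨x, rfl⟩
    obtain ⟨h1, h2⟩ := this; omega
  haveI : Fact (Nat.Prime 3) := ⟨Nat.prime_three⟩
  have pr : ∀ q, q.Prime → q ∣ Nat.card G → q = 2 ∨ q = 3 := fun q hq hd => by
    obtain ⟨x, -, e⟩ := exists_orderOf_eq hq (card_top (G := G) ▸ hd)
    have := ho x; have := hq.one_lt; omega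
  have rg : ∀ P Q : Subgroup G, IsPGroup 2 P → IsPGroup 3 Q → H1B.Reg P Q ∧ H1B.Reg Q P := fun P Q hP hQ => by
    have : ∀ x ∈ P, ∀ y ∈ Q, x * y = y * x → x = 1 ∨ y = 1 := fun x hx y hy e => by
      obtain ⟨i, hi⟩ := ord_of_pg (hP.to_le (zpowers_le.2 hx))
      obtain ⟨j, hj⟩ := ord_of_pg (hQ.to_le (zpowers_le.2 hy))
      have := (show Commute x y from e).orderOf_mul_eq_mul_orderOf_of_coprime
        (by rw [hi, hj]; exact Nat.Coprime.pow _ _ (by norm_num))
      rw [← orderOf_eq_one_iff, ← orderOf_eq_one_iff (x := y), hi, hj]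
      rw [hi, hj] at this
      have k := ho (x * y)
      rcases i with _ | i
      · exact .inl rfl
      rcases j with _ | j
      · exact .inr rfl
      have : 6 ∣ orderOf (x * y) := ⟨2 ^ i * 3 ^ j, by rw [this]; ring⟩
      omega
    exact ⟨fun x hx h1 => eq_bot_iff.2 fun y hy => (this x hx y hy.1 (mem_cen1.1 hy.2).symm).resolve_left h1,
      fun y hy h1 => eq_bot_iff.2 fun x hx => (this x hx.1 y hy (mem_cen1.1 hx.2)).resolve_right h1⟩
  obtain ⟨P, hP⟩ := exists_syl 2 (⊤ : Subgroup G)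
  obtain ⟨Q, hQ⟩ := exists_syl 3 (⊤ : Subgroup G)
  have ex : ∀ p, [Fact p.Prime] → ∀ R : Subgroup G, IsPGroup p R → ∀ x ∈ R, x ^ p = 1 := fun p hp R hR x hx => by
    obtain ⟨i, hi⟩ := ord_of_pg (hR.to_le (zpowers_le.2 hx))
    rcases i with _ | i
    · rw [orderOf_eq_one_iff.1 hi, one_pow]
    have h1 : p ∣ orderOf x := hi ▸ dvd_pow_self p i.succ_ne_zero
    have h2 := hp.out.two_le
    have h3 := Nat.le_of_dvd (orderOf_pos x) h1
    refine orderOf_dvd_iff_pow_eq_one.1 (dvd_of_eq ?_)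
    have := ho x
    obtain rfl | rfl : p = 2 ∨ p = 3 := by omega
    all_goals omega
  have oc : ∀ p, [Fact p.Prime] → ∀ R : Subgroup G, IsSylowIn p R ⊤ → p ≤ 3 → IsCyclic R → ord R = p :=
    fun p hp R hR h3 hc => by
      obtain ⟨x, e⟩ : p ∈ Set.range (orderOf : G → ℕ) := h ▸ ⟨hp.out.one_le, h3⟩
      exact le_antisymm (EA.card_le_of_cyc (ea_iff.2 ⟨isComm_iff.1 (isComm_of_cyc hc), ex p R hR.isPGroup⟩) hc)
        (by simpa [e] using hR.card_le (isPGroup_zpowers_of_orderOf e) le_top)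
  have e : ord P * ord Q = Nat.card G := by
    rw [← card_top (G := G)]
    exact (hall_single.2 hP).card_mul ((hall_single.2 hQ).congr fun p hp hd => by
      have := pr p hp (card_top (G := G) ▸ hd); simp; omega)
  have hs : Group.IsSolvable G := by
    obtain ⟨a, ha⟩ := card_pgroup hP.isPGroup
    obtain ⟨b, hb⟩ := card_pgroup hQ.isPGroup
    exact H3.burnside_pq Nat.prime_two Nat.prime_three (by rw [← e, ha, hb])
  have aP : IsMulCommutative P := isComm_iff'.2 fun a ha b hb => by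
    have h1 := ex 2 P hP.isPGroup
    have := h1 _ (mul_mem ha hb)
    have k1 := h1 a ha
    have k2 := h1 b hb
    rw [pow_two, mul_eq_one_iff_eq_inv] at k1 k2 this
    rwa [mul_inv_rev, ← k1, ← k2] at this
  by_cases c : Op 3 (⊤ : Subgroup G) = ⊥
  · have c2 : Op' 2 (⊤ : Subgroup G) = ⊥ := eq_bot_iff.2 (c ▸ le_Op le_top (le_nrm_Opi _ _) (pgroup_of_forall
      fun q hq hd => (pr q hq (hd.trans (card_subgroup_dvd_card _))).resolve_left fun e => not_dvd_Op' 2 ⊤ (e ▸ hd)))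
    have h1 := cen_Op_le (solv_top.2 hs) c2
    have h2 : P = Op 2 ⊤ := le_antisymm ((le_inf le_top ((isComm_iff.1 aP).trans (cen_anti (Op_le_of_sylow hP)))).trans h1)
      (Op_le_of_sylow hP)
    have nP : ⊤ ≤ nrm P := h2 ▸ le_nrm_Opi _ _
    have o := oc 3 Q hQ le_rfl ((rg P Q hP.isPGroup hQ.isPGroup).2.cyc (le_top.trans nP) (syl_ne_bot hP (by
      obtain ⟨x, e⟩ : 2 ∈ Set.range (orderOf : G → ℕ) := h ▸ ⟨by norm_num, by norm_num⟩
      exact e ▸ orderOf_dvd_card' (mem_top x))) (by norm_num) hQ.isPGroup le_rfl)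
    refine .inr ⟨P, normal_of nP, ea_iff.2 ⟨isComm_iff.1 aP, ex 2 P hP.isPGroup⟩, ?_⟩
    exact Nat.eq_of_mul_eq_mul_left (card_pos' P) (by rw [card_mul_index, ← e, o])
  · have cy := (rg P _ hP.isPGroup (isPGroup_Op 3 ⊤)).1.cyc_of_comm (le_top.trans (le_nrm_Opi _ _)) c le_rfl aP
    have o := oc 2 P hP (by norm_num) cy
    have hn := npc_burnside hP ((le_inf inf_le_left inf_le_right).trans (by
      classical
      intro g hg
      refine mem_cen.2 fun y hy => ?_
      by_cases y1 : y = 1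
      · simp [y1]
      have k := eq_zpowers_of_card o hy y1
      have : g * y * g⁻¹ ∈ P := nconj_mem hg.2 hy
      rw [k, mem_zpowers_iff_mem_range_orderOf, ← card_zpowers_eq, ← k, o] at this
      obtain ⟨j, hj, e⟩ := Finset.mem_image.1 this
      have := Finset.mem_range.1 hj
      interval_cases j
      · exact (y1 (by simpa using e.symm)).elim
      · exact eq_mul_inv_iff_mul_eq.1 (by simpa using e)))
    have h2 : IsPGroup 3 (Op' 2 (⊤ : Subgroup G)) := pgroup_of_forall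
      fun q hq hd => (pr q hq (hd.trans (card_subgroup_dvd_card _))).resolve_left fun e => not_dvd_Op' 2 ⊤ (e ▸ hd)
    obtain ⟨t, ht, o2⟩ := exists_orderOf_eq Nat.prime_two o.symm.dvd
    refine .inl ⟨_, normal_of (le_nrm_Opi {2}ᶜ ⊤), ea_iff.2 ⟨isComm_iff.1 (ea_of_fpf_inv (t := t)
      (by rw [← pow_two]; exact ex 2 P hP.isPGroup t ht) (le_nrm_Opi _ _ (mem_top t))
      ((rg P _ hP.isPGroup h2).1 t ht (ne_one_of_orderOf o2))).1, ex 3 _ h2⟩, ?_⟩
    rw [← relIndex_top_right]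
    exact (hn.hall.card_eq_relIndex (by rw [compl_compl]; exact hall_single.2 hP)).symm.trans o

end Cfsg.Agent.S4005
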