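import Cfsg.Statements.S4006
import Cfsg.Agent.H1.F3
import Cfsg.Agent.H1.V3
import Cfsg.Agent.H1.Two5
import Cfsg.Agent.H1.Frob
import Cfsg.Agent.H3.Integral
import Cfsg.Agent.H4.Dihed
import Cfsg.Agent.H7.S4

set_option autoImplicit false
open Cfsg

namespace Cfsg.Agent.S4006

open H7 H1B Subgroup
open H2 (cj IsSylowIn)
open scoped commutatorElement

instance : Fact (Nat.Prime 3) := ⟨Nat.prime_three⟩

theorem six {K : Type*} [Group K] [Finite K] (hs : Group.IsSolvable K) (pr : ∀ q, q.Prime → q ∣ Nat.card K → q = 2 ∨ q = 3)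
    (h2 : Op 2 (⊤ : Subgroup K) = ⊥) (h9 : ¬ 9 ∣ Nat.card K) (h3 : 3 ∣ Nat.card K) :
    Nat.card K = 3 ∨ Nonempty (K ≃* Equiv.Perm (Fin 3)) := by
  have h1 := cen_Op_le (p := 3) (solv_top.2 hs) (eq_bot_iff.2 (h2 ▸ le_Op le_top (le_nrm_Opi _ _) (H1B.pgroup_of_forall
    fun q hq hd => (pr q hq (hd.trans (card_subgroup_dvd_card _))).resolve_right fun e => not_dvd_Op' 3 ⊤ (e ▸ hd))))
  have nV : ⊤ ≤ nrm (Op 3 (⊤ : Subgroup K)) := le_nrm_Opi _ _
  obtain ⟨k, hk⟩ := card_pgroup (isPGroup_Op 3 (⊤ : Subgroup K))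
  generalize Op 3 (⊤ : Subgroup K) = V at *
  rw [top_inf_eq] at h1
  have o : ord V = 3 := by
    rcases k with _ | _ | k
    · rw [card_eq_one.1 hk] at h1
      rw [← card_top, le_bot_iff.1 ((le_cen_bot ⊤).trans h1), card_bot] at h3
      omega
    · exact hk
    · exact (h9 (Dvd.dvd.trans ⟨3 ^ k, by rw [hk]; ring⟩ (card_subgroup_dvd_card V))).elim
  refine or_iff_not_imp_left.2 fun ne => ?_
  obtain ⟨t, -, ht⟩ := SetLike.exists_of_lt (lt_top_iff_ne_top.2 fun e : V = ⊤ => ne (by rw [← o, e, card_top]))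
  obtain ⟨y, hy, oy⟩ := exists_orderOf_eq Nat.prime_three o.symm.dvd
  have y1 := ne_one_of_orderOf oy
  have cy : ∀ g, ∀ y ∈ V, y ≠ 1 → g * y = y * g → g ∈ V := fun g y hy y1 e => h1 (by
    rw [eq_zpowers_of_card o hy y1, cen_zpowers]; exact mem_cen1.2 e)
  have iv : ∀ g, g ∉ V → g * y * g⁻¹ = y⁻¹ := fun g hg => by
    classical
    have := nconj_mem (nV (mem_top g)) hy
    rw [eq_zpowers_of_card o hy y1, mem_zpowers_iff_mem_range_orderOf, oy] at this
    obtain ⟨j, hj, e⟩ := Finset.mem_image.1 this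
    have := Finset.mem_range.1 hj
    interval_cases j
    · exact (y1 (by simpa using e.symm)).elim
    · exact (hg (cy g y hy y1 (mul_inv_eq_iff_eq_mul.1 (by simpa using e.symm)))).elim
    · rw [← e, eq_inv_iff_mul_eq_one, ← pow_succ]
      exact orderOf_dvd_iff_pow_eq_one.1 oy.dvd
  have i2 : V.index = 2 := index_eq_two_iff_exists_notMem_and.2 ⟨t, ht, fun g => or_iff_not_imp_right.2 fun hg =>
    cy _ y hy y1 (by
      rw [← mul_inv_eq_iff_eq_mul]
      calc _ = g * (t * y * t⁻¹) * g⁻¹ := by group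
        _ = (g * y * g⁻¹)⁻¹ := by rw [iv t ht]; group
        _ = y := by rw [iv g hg, inv_inv])⟩
  haveI : IsCyclic V := isCyclic_of_prime_card o
  obtain ⟨e⟩ := H4.equiv_dihedral_of_index_two V i2 fun g hg => by_contra fun k =>
    hg (cy g _ (mul_self_mem_of_index_two i2 g) k (mul_assoc _ _ _).symm)
  obtain ⟨f⟩ := H4.equiv_dihedral (n := 3) (a := (finRotate 3 : Equiv.Perm (Fin 3))) (b := Equiv.swap 0 1)
    (orderOf_eq_prime (by decide) (by decide)) (by decide) (by decide) (fun h => absurd (show Equiv.swap (0 : Fin 3) 1 ^ 3 = 1 from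
      orderOf_dvd_iff_pow_eq_one.1 ((orderOf_dvd_of_mem_zpowers h).trans (orderOf_dvd_of_pow_eq_one (by decide)))) (by decide))
    (by simp [Fintype.card_perm]; rfl)
  rw [o] at e
  exact ⟨e.trans f.symm⟩

/-- A finite group whose set of element orders is exactly {1, 2, 3, 4} has a normal subgroup N such that either N is a 2-group of exponent 4 and nilpotency class at most 2 with G/N of order 3, or N is an elementary abelian 2-group with G/N isomorphic to the symmetric group of degree 3, or N is an elementary abelian 3-group with G/N cyclic of order 4 or quaternion of order 8. -/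
theorem result {G : Type*} [Group G] [Finite G] (h : Set.range (orderOf : G → ℕ) = {k : ℕ | 1 ≤ k ∧ k ≤ 4}) :
    ∃ (N : Subgroup G) (_ : N.Normal),
      (IsPGroup 2 ↥N ∧ Monoid.exponent ↥N = 4 ∧ Group.nilpotencyClass ↥N ≤ 2 ∧ N.index = 3) ∨
      (Cfsg.IsElementaryAbelian 2 N ∧ Nonempty (G ⧸ N ≃* Equiv.Perm (Fin 3))) ∨
      (Cfsg.IsElementaryAbelian 3 N ∧ ((IsCyclic (G ⧸ N) ∧ N.index = 4) ∨ Nonempty (G ⧸ N ≃* QuaternionGroup 2))) := by
  have ho : ∀ x : G, orderOf x = 1 ∨ orderOf x = 2 ∨ orderOf x = 3 ∨ orderOf x = 4 := fun x => by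
    have : orderOf x ∈ {k : ℕ | 1 ≤ k ∧ k ≤ 4} := h ▸ ⟨x, rfl⟩
    obtain ⟨h1, h2⟩ := this; omega
  have hp : ∀ x : G, x ^ 3 = 1 ∨ x ^ 4 = 1 := fun x => by
    rw [← orderOf_dvd_iff_pow_eq_one, ← orderOf_dvd_iff_pow_eq_one]
    rcases ho x with e | e | e | e <;> simp [e]
  have pr : ∀ q, q.Prime → q ∣ Nat.card G → q = 2 ∨ q = 3 := fun q hq hd => by
    obtain ⟨x, -, e⟩ := exists_orderOf_eq hq (card_top (G := G) ▸ hd)
    have := ho x
    have := hq.two_le
    have : q ≠ 4 := fun k => absurd (k ▸ hq) (by decide)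
    omega
  have e4 : ∀ {P : Subgroup G}, IsPGroup 2 P → ∀ g ∈ P, g ^ 4 = 1 := fun hP g hg => (hp g).elim (fun k => by
    rw [eq_one_of_coprime hP hg (Nat.Coprime.coprime_dvd_left (orderOf_dvd_of_pow_eq_one k) (by norm_num)), one_pow]) id
  have e3 : ∀ {P : Subgroup G}, IsPGroup 3 P → ∀ g ∈ P, g ^ 3 = 1 := fun hP g hg => (hp g).elim id fun k => by
    rw [eq_one_of_coprime hP hg (Nat.Coprime.coprime_dvd_left (orderOf_dvd_of_pow_eq_one k) (by norm_num)), one_pow]
  have cm : ∀ {K : Type _} [Group K] (π : G →* K) (a b : G), Commute (π a) (π b) → π a ^ 4 = 1 → π b ^ 3 = 1 → π a = 1 ∨ π b = 1 :=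
    fun π a b c p q => (hp (a * b)).imp (fun k => by
      have := congrArg π k
      rw [map_pow, map_mul, c.mul_pow, q, mul_one, map_one] at this
      rwa [pow_succ, this, one_mul] at p) fun k => by
      have := congrArg π k
      rwa [map_pow, map_mul, c.mul_pow, p, one_mul, map_one, pow_succ, q, one_mul] at this
  have rg : ∀ P Q : Subgroup G, IsPGroup 2 P → IsPGroup 3 Q → H1B.Reg P Q ∧ H1B.Reg Q P := fun P Q hP hQ =>
    ⟨fun x hx h1 => eq_bot_iff.2 fun y hy =>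
      (cm (.id G) x y (mem_cen1.1 hy.2).symm (e4 hP x hx) (e3 hQ y hy.1)).resolve_left h1,
    fun y hy h1 => eq_bot_iff.2 fun x hx => (cm (.id G) x y (mem_cen1.1 hx.2) (e4 hP x hx.1) (e3 hQ y hy)).resolve_right h1⟩
  obtain ⟨P, hP⟩ := exists_syl 2 (⊤ : Subgroup G)
  obtain ⟨Q, hQ⟩ := exists_syl 3 (⊤ : Subgroup G)
  have e : ord P * ord Q = Nat.card G := by
    rw [← card_top (G := G)]
    exact (hall_single.2 hP).card_mul ((hall_single.2 hQ).congr fun p hp hd => by
      have := pr p hp (card_top (G := G) ▸ hd); simp; omega)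
  obtain ⟨a, ha⟩ := card_pgroup hP.isPGroup
  obtain ⟨b, hb⟩ := card_pgroup hQ.isPGroup
  have hs : Group.IsSolvable G := H3.burnside_pq Nat.prime_two Nat.prime_three (by rw [← e, ha, hb])
  obtain ⟨g, g4⟩ : 4 ∈ Set.range (orderOf : G → ℕ) := h ▸ ⟨by norm_num, by norm_num⟩
  obtain ⟨x, x3⟩ : 3 ∈ Set.range (orderOf : G → ℕ) := h ▸ ⟨by norm_num, by norm_num⟩
  obtain ⟨t, t2⟩ : 2 ∈ Set.range (orderOf : G → ℕ) := h ▸ ⟨by norm_num, by norm_num⟩
  by_cases c : Op 3 (⊤ : Subgroup G) = ⊥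
  · have h1 := cen_Op_le (p := 2) (solv_top.2 hs) (eq_bot_iff.2 (c ▸ le_Op le_top (le_nrm_Opi _ _) (H1B.pgroup_of_forall
      fun q hq hd => (pr q hq (hd.trans (card_subgroup_dvd_card _))).resolve_left fun e => not_dvd_Op' 2 ⊤ (e ▸ hd))))
    have pN := isPGroup_Op 2 (⊤ : Subgroup G)
    rw [← pCore_eq] at h1 pN
    have q0 := H1.pCore_quotient_pCore (p := 2) (G := G)
    rw [pCore_eq 2 (G := G ⧸ _)] at q0
    have nN := pCore_normal 2 G
    set N := pCore 2 G
    have n1 : N ≠ ⊥ := fun k => ne_one_of_orderOf x3 (k.le (h1 ⟨trivial, k ▸ le_cen_bot ⊤ trivial⟩))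
    obtain ⟨y, rfl⟩ := H7.cyc_iff.1 ((rg N Q pN hQ.isPGroup).2.cyc (le_nrm_of_normal _ _) n1 (by norm_num) hQ.isPGroup le_rfl)
    have c3 : ∀ x : G, x ^ 3 = 1 → x ≠ 1 → C3 N x ∧ ∀ y ∈ N, x * y * x⁻¹ = y → y = 1 := fun x p x1 =>
      ⟨fun u hu => (hp _).elim id fun k => by
        have := congrArg (QuotientGroup.mk' N) k
        rw [map_pow, map_mul, show QuotientGroup.mk' N u = 1 from (QuotientGroup.eq_one_iff u).2 hu, one_mul, pow_succ, ← map_pow, p,
          map_one, one_mul] at this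
        have := e4 pN x ((QuotientGroup.eq_one_iff x).1 this)
        exact (x1 (by rwa [pow_succ, p, one_mul] at this)).elim,
      fun y hy k => (cm (.id G) y x (mul_inv_eq_iff_eq_mul.1 k).symm (e4 pN y hy) p).resolve_right x1⟩
    obtain ⟨n, hn⟩ := card_pgroup pN
    refine ⟨N, nN, ?_⟩
    rcases six (K := G ⧸ N) inferInstance (fun q hq hd => pr q hq (hd.trans (card_quotient_dvd_card N))) q0 (fun k => by
      have := k.trans (card_quotient_dvd_card N)
      rw [← e, ha] at this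
      have := (Nat.Coprime.dvd_of_dvd_mul_left (Nat.Coprime.pow_right a (by norm_num)) this).trans
        (card_zpowers_eq y ▸ orderOf_dvd_of_pow_eq_one (e3 hQ.isPGroup y (mem_zpowers y)))
      omega) (Nat.Coprime.dvd_of_dvd_mul_right (Nat.Coprime.pow_right n (show Nat.Coprime 3 2 by norm_num)) (by
        rw [← hn, ← card_eq_card_quotient_mul_card_subgroup, ← x3]; exact orderOf_dvd_natCard x)) with k | ⟨⟨f⟩⟩
    · have gN : g ∈ N := (QuotientGroup.eq_one_iff g).1 (by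
        have p : (g : G ⧸ N) ^ 4 = 1 := by rw [← QuotientGroup.mk_pow, ← g4, pow_orderOf_eq_one]; rfl
        rwa [pow_succ, ← k, pow_card_eq_one', one_mul] at p)
      haveI := pN.isNilpotent
      obtain ⟨p, q⟩ := c3 x (by rw [← x3, pow_orderOf_eq_one]) (ne_one_of_orderOf x3)
      refine .inl ⟨pN, Nat.dvd_antisymm (Monoid.exponent_dvd_of_forall_pow_eq_one fun u => Subtype.ext (e4 pN u u.2))
        (by rw [← g4, ← Subgroup.orderOf_mk g gN]; exact Monoid.order_dvd_exponent _),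
        Subgroup.lowerCentralSeries_eq_bot_iff_nilpotencyClass_le.1 (comm_eq_bot.2 (commutator_le.2 fun u _ v _ =>
          mem_cen.2 fun w _ => Subtype.ext (commutatorElement_eq_one_iff_mul_comm.1 (p.cls q w.2 u.2 v.2)))), k⟩
    obtain ⟨d, -, s, -, d3, s2, sd, dN⟩ := exists_inv3 (D := ⊤) (f := (f.toMonoidHom.comp (QuotientGroup.mk' N)).comp (Subgroup.subtype ⊤))
      (f.surjective.comp ((QuotientGroup.mk'_surjective N).comp fun u => ⟨⟨u, trivial⟩, rfl⟩))
    have d1 : d ≠ 1 := fun k => dN (k ▸ one_mem _)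
    have d3 := e3 d3 d (mem_zpowers d)
    obtain ⟨p, q⟩ := c3 d d3 d1
    have ss : s * s = 1 := (cm (.id G) (s * s) d (show s * s * d = d * (s * s) by
      rw [← mul_inv_eq_iff_eq_mul]
      calc _ = s * (s * d * s⁻¹) * s⁻¹ := by group
        _ = s * d⁻¹ * s⁻¹ := by rw [sd]
        _ = (s * d * s⁻¹)⁻¹ := by group
        _ = d := by rw [sd, inv_inv]) (e4 s2 _ (mul_mem (mem_zpowers s) (mem_zpowers s))) d3).resolve_right d1
    have sq1 : ∀ u ∈ N, u ^ 2 = 1 := fun u hu => p.sq_eq_one q ss sd (fun n hn => (hp _).elim (fun k => by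
      have := congrArg (QuotientGroup.mk' N) k
      rw [map_pow, map_mul, show QuotientGroup.mk' N n = 1 from (QuotientGroup.eq_one_iff n).2 hn, one_mul, pow_succ, sq, ← map_mul, ss,
        map_one, one_mul] at this
      have m := comm_memN ((QuotientGroup.eq_one_iff s).1 this) d
      rw [commutatorElement_def, sd, p.inv.mul_self, inv_inv] at m
      have := e4 pN d m
      exact (d1 (by rwa [pow_succ, d3, one_mul] at this)).elim) id) hu
    refine .inr (.inl ⟨⟨H7.isComm_iff'.2 fun a ha b hb => ?_, sq1⟩, ⟨f⟩⟩)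
    have k := sq1 _ (mul_mem ha hb)
    have x := sq1 a ha
    have y := sq1 b hb
    rw [sq] at k x y
    rw [eq_inv_of_mul_eq_one_left k, mul_inv_rev, ← eq_inv_of_mul_eq_one_left x, ← eq_inv_of_mul_eq_one_left y]
  have pN := isPGroup_Op 3 (⊤ : Subgroup G)
  have h1 := cen_Op_le (p := 3) (solv_top.2 hs) (by_contra fun k => c (le_bot_iff.1 (((rg _ _ (H1B.pgroup_of_forall
    fun q hq hd => (pr q hq (hd.trans (card_subgroup_dvd_card _))).resolve_right fun e => not_dvd_Op' 3 ⊤ (e ▸ hd)) pN).1.cen_eq k).le.trans'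
      (le_inf le_rfl (Op_le_cen 3 ⊤)))))
  haveI nN : (Op 3 (⊤ : Subgroup G)).Normal := normal_of (le_nrm_Opi _ _)
  have NQ := Op_le_of_sylow hQ
  generalize Op 3 (⊤ : Subgroup G) = N at *
  have tt : t * t = 1 := by rw [← sq, ← t2, pow_orderOf_eq_one]
  have iv : ∀ k ∈ N, t * k * t⁻¹ = k⁻¹ := fun k hk => H1.inverts_of_fpf_involution (tt ▸ one_mem _) (le_nrm_of_normal ⊤ N trivial)
    ((rg _ _ (isPGroup_zpowers_of_orderOf t2) pN).1 t (mem_zpowers t) (ne_one_of_orderOf t2)) hk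
  have ct : ∀ u, ⁅t, u⁆ ∈ N := fun u => h1 ⟨trivial, mem_cen.2 fun k hk => by
    rw [eq_comm, ← mul_inv_eq_iff_eq_mul]
    have := iv _ (nN.conj_mem' _ (inv_mem hk) u)
    calc _ = t * (u * (t⁻¹ * (u⁻¹ * k⁻¹ * u)⁻¹ * t) * u⁻¹) * t⁻¹ := by group
      _ = t * k⁻¹ * t⁻¹ := by rw [← this]; group
      _ = k := by rw [iv _ (inv_mem hk), inv_inv]⟩
  obtain rfl : N = Q := le_antisymm NQ fun u hu => (QuotientGroup.eq_one_iff u).1 ((cm (QuotientGroup.mk' N) t u (by
    rw [← commutatorElement_eq_one_iff_commute, ← map_commutatorElement]; exact (QuotientGroup.eq_one_iff _).2 (ct u))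
    (by rw [← map_pow, e4 (isPGroup_zpowers_of_orderOf t2) t (mem_zpowers t), map_one])
    (by rw [← map_pow, e3 hQ.isPGroup u hu, map_one])).resolve_left fun k => by
      have := e3 pN t ((QuotientGroup.eq_one_iff t).1 k)
      rw [pow_succ, sq, tt, one_mul] at this
      exact ne_one_of_orderOf t2 this)
  have f := (isComplement'_of_coprime e (by rw [ha, hb]; exact Nat.Coprime.pow _ _ (by norm_num))).QuotientMulEquiv
  have cy : ∀ A ≤ P, IsMulCommutative A → IsCyclic A := fun A hA k =>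
    (rg P N hP.isPGroup pN).1.cyc_of_comm (le_nrm_of_normal _ _) c hA k
  refine ⟨N, nN, .inr (.inr ⟨⟨H7.isComm_iff'.2 fun a ha b hb => ?_, e3 pN⟩, ?_⟩)⟩
  · rw [← inv_inj, ← iv _ (mul_mem ha hb), mul_inv_rev, ← iv a ha, ← iv b hb]
    group
  rcases mx_or_four hP.isPGroup with k | ⟨a, w, n, k⟩ | ⟨E, hE, -, k, o⟩
  · refine .inl ⟨f.isCyclic.2 k, (Nat.card_congr f.toEquiv).trans (Nat.dvd_antisymm ?_
      (Nat.Coprime.dvd_of_dvd_mul_right (Nat.Coprime.pow_right b (show Nat.Coprime 4 3 by norm_num)) (by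
        rw [← hb, e, ← g4]; exact orderOf_dvd_natCard g)))⟩
    obtain ⟨y, rfl⟩ := H7.cyc_iff.1 k
    exact card_zpowers_eq y ▸ orderOf_dvd_of_pow_eq_one (e4 hP.isPGroup y (mem_zpowers y))
  · obtain rfl : n = 0 := by
      have := Nat.le_of_dvd (by norm_num) (k.orda ▸ orderOf_dvd_of_pow_eq_one (e4 hP.isPGroup a k.mem))
      have := (Nat.pow_le_pow_iff_right (a := 2) (n := n + 2) (m := 2) (by norm_num)).1 this
      omega
    obtain ⟨b, hb, ba⟩ := k.ex
    obtain ⟨i⟩ := k.quat (k.hw.resolve_right fun l => by omega) hb ba ((k.sq_out hb ba).resolve_left fun l =>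
      klein_not_cyc (k.klein hb ba l) (cy _ (sup_le (zpowers_le.2 k.z_memP) (zpowers_le.2 hb)) (ea_of_klein (k.klein hb ba l)).1))
    exact .inr ⟨f.trans i⟩
  · exact (klein_not_cyc (klein_of_ea k o) (cy E hE k.1)).elim

end Cfsg.Agent.S4006
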