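import Cfsg.Statements.S4198
import Cfsg.Agent.H7.GK

set_option autoImplicit false
open Cfsg

namespace Cfsg.Agent.S4198
open H7
open scoped commutatorElement

section
open Subgroup

def PP : ℕ → Finset (Multiset ℕ)
  | 0 => {0}
  | n + 1 => (PP n).image (1 ::ₘ ·) ∪ (PP n).biUnion fun s => s.toFinset.image fun a => (a + 1) ::ₘ s.erase a

theorem mem_PP (n : ℕ) : ∀ s : Multiset ℕ, (∀ a ∈ s, 0 < a) → s.sum = n → s ∈ PP n := by
  induction n with
  | zero =>
    intro s h1 h2
    rw [PP, Finset.mem_singleton]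
    by_contra h
    obtain ⟨a, ha⟩ := Multiset.exists_mem_of_ne_zero h
    have := h1 a ha
    have := Multiset.sum_erase ha
    omega
  | succ n ih =>
    intro s h1 h2
    obtain ⟨a, ha⟩ := Multiset.exists_mem_of_ne_zero (s := s) (by rintro rfl; simp at h2)
    have a0 := h1 a ha
    have e := Multiset.sum_erase ha
    rw [PP, Finset.mem_union]
    by_cases h : a = 1
    · subst h
      exact Or.inl (Finset.mem_image.2 ⟨_, ih _ (fun b hb => h1 b (Multiset.mem_of_mem_erase hb)) (by omega),
        Multiset.cons_erase ha⟩)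
    · refine Or.inr (Finset.mem_biUnion.2 ⟨(a - 1) ::ₘ s.erase a, ih _ (fun b hb => ?_) (by rw [Multiset.sum_cons]; omega),
        Finset.mem_image.2 ⟨a - 1, by simp, ?_⟩⟩)
      · rcases Multiset.mem_cons.1 hb with rfl | hb
        · omega
        · exact h1 b (Multiset.mem_of_mem_erase hb)
      · rw [Multiset.erase_cons_head, Nat.sub_add_cancel a0, Multiset.cons_erase ha]

theorem card_PP : (PP 5).card = 7 := by decide +kernel

theorem p5 : Fintype.card (Nat.Partition 5) ≤ 8 := by
  have := Finset.card_le_card_of_injOn (s := (Finset.univ : Finset (Nat.Partition 5))) (t := PP 5) (fun l => l.parts)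
    (fun l _ => mem_PP 5 _ (fun a ha => l.parts_pos ha) l.parts_sum) (fun a _ b _ h => Nat.Partition.ext h)
  rw [card_PP, Finset.card_univ] at this
  omega

theorem pstep (n : ℕ) : Fintype.card (Nat.Partition (n + 1)) ≤ 2 * Fintype.card (Nat.Partition n) := by
  classical
  have ex : ∀ l : Nat.Partition (n + 1), ∃ d : Bool × Nat.Partition n, ∃ a ∈ l.parts, (∀ b ∈ l.parts, a ≤ b) ∧
      ((a = 1 ∧ d.1 = false ∧ d.2.parts = l.parts.erase a) ∨ (1 < a ∧ d.1 = true ∧ d.2.parts = (a - 1) ::ₘ l.parts.erase a)) := by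
    intro l
    have hne : l.parts.toFinset.Nonempty := by
      rw [Multiset.toFinset_nonempty]
      intro e
      have := l.parts_sum
      rw [e] at this
      simp at this
    obtain ⟨a, ha, hmin⟩ := l.parts.toFinset.exists_min_image id hne
    rw [Multiset.mem_toFinset] at ha
    have hs : a + (l.parts.erase a).sum = n + 1 := by rw [Multiset.sum_erase ha, l.parts_sum]
    have a0 := l.parts_pos ha
    by_cases h1 : a = 1
    · exact ⟨(false, ⟨l.parts.erase a, fun h => l.parts_pos (Multiset.mem_of_mem_erase h), by omega⟩), a, ha,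
        fun b hb => hmin b (Multiset.mem_toFinset.2 hb), Or.inl ⟨h1, rfl, rfl⟩⟩
    · refine ⟨(true, ⟨(a - 1) ::ₘ l.parts.erase a, fun h => ?_, by rw [Multiset.sum_cons]; omega⟩), a, ha,
        fun b hb => hmin b (Multiset.mem_toFinset.2 hb), Or.inr ⟨by omega, rfl, rfl⟩⟩
      rcases Multiset.mem_cons.1 h with rfl | h
      · omega
      · exact l.parts_pos (Multiset.mem_of_mem_erase h)
  choose f hf using ex
  have hinj : Function.Injective f := by
    intro l m e
    obtain ⟨a, ha, a1, a2⟩ := hf l
    obtain ⟨b, hb, b1, b2⟩ := hf m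
    rw [e] at a2
    apply Nat.Partition.ext
    rw [← Multiset.cons_erase ha, ← Multiset.cons_erase hb]
    rcases a2 with ⟨rfl, a3, a4⟩ | ⟨a2, a3, a4⟩ <;> rcases b2 with ⟨rfl, b3, b4⟩ | ⟨b2, b3, b4⟩
    · rw [← a4, ← b4]
    · exact absurd (a3.symm.trans b3) (by decide)
    · exact absurd (a3.symm.trans b3) (by decide)
    · have h := a4.symm.trans b4
      have hab : a = b := by
        by_contra hne
        have h1 : a - 1 ∈ (b - 1) ::ₘ m.parts.erase b := h ▸ Multiset.mem_cons_self _ _
        have h2 : b - 1 ∈ (a - 1) ::ₘ l.parts.erase a := h ▸ Multiset.mem_cons_self _ _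
        rcases Multiset.mem_cons.1 h1 with h1 | h1
        · omega
        rcases Multiset.mem_cons.1 h2 with h2 | h2
        · omega
        have := b1 _ (Multiset.mem_of_mem_erase h1)
        have := a1 _ (Multiset.mem_of_mem_erase h2)
        omega
      subst hab
      rw [(Multiset.cons_inj_right _).1 h]
  simpa using Fintype.card_le_of_injective f hinj

theorem pbound (n : ℕ) (hn : 5 ≤ n) : Fintype.card (Nat.Partition n) ≤ 2 ^ (n - 2) := by
  induction n, hn using Nat.le_induction with
  | base => exact p5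
  | succ n hn ih =>
    have := pstep n
    rw [show n + 1 - 2 = (n - 2) + 1 by omega, pow_succ]
    omega

theorem odd_conj {α : Type*} [Fintype α] [DecidableEq α] {x y : alternatingGroup α}
    (h : IsConj (x : Equiv.Perm α) y) (h' : ¬ IsConj x y) :
    ∃ g : Equiv.Perm α, Equiv.Perm.sign g = -1 ∧ g * x * g⁻¹ = y := by
  obtain ⟨g, hg⟩ := isConj_iff.1 h
  refine ⟨g, (Int.units_eq_one_or _).resolve_left fun e => h' (isConj_iff.2 ⟨⟨g, e⟩, Subtype.ext hg⟩), hg⟩

end

/-- For n ≥ 5 the alternating group of degree n has strictly fewer conjugacy classes than the symmetric group of degree n, and the symmetric group of degree n (whose classes correspond to the partitions of n) has at most 2^(n−2) conjugacy classes. -/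
theorem result (n : ℕ) (hn : 5 ≤ n) : Nat.card (ConjClasses (alternatingGroup (Fin n))) < Nat.card (ConjClasses (Equiv.Perm (Fin n))) ∧ Nat.card (ConjClasses (Equiv.Perm (Fin n))) ≤ 2 ^ (n - 2) := by
  open Subgroup in
  classical
  constructor
  · let π : ConjClasses (alternatingGroup (Fin n)) → ConjClasses (Equiv.Perm (Fin n)) :=
      ConjClasses.map (alternatingGroup (Fin n)).subtype
    have hπ : ∀ x : alternatingGroup (Fin n), π (ConjClasses.mk x) = ConjClasses.mk (x : Equiv.Perm (Fin n)) := fun _ => rfl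
    let s := fun c => Function.invFun π (π c)
    have hs : ∀ c, π (s c) = π c := fun c => Function.invFun_eq ⟨c, rfl⟩
    have ex : ∀ c : ConjClasses (alternatingGroup (Fin n)), ∃ τ : Equiv.Perm (Fin n), ∃ x : alternatingGroup (Fin n),
        ConjClasses.mk x = c ∧ ((c = s c ∧ τ = x) ∨ (c ≠ s c ∧ Equiv.Perm.sign τ = -1 ∧
          (∀ b ∈ (x : Equiv.Perm (Fin n)).cycleType, Odd b) ∧ 4 ≤ (x : Equiv.Perm (Fin n)).cycleType.sum ∧
          ∃ a ∈ (x : Equiv.Perm (Fin n)).cycleType, τ.cycleType = (a - 1) ::ₘ (x : Equiv.Perm (Fin n)).cycleType.erase a)) := by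
      intro c
      obtain ⟨x, rfl⟩ := ConjClasses.mk_surjective c
      by_cases hc : ConjClasses.mk x = s (ConjClasses.mk x)
      · exact ⟨x, x, rfl, Or.inl ⟨hc, rfl⟩⟩
      obtain ⟨y, hy⟩ := ConjClasses.mk_surjective (s (ConjClasses.mk x))
      have h1 := hs (ConjClasses.mk x)
      rw [← hy, hπ, hπ, ConjClasses.mk_eq_mk_iff_isConj] at h1
      have h2 : ¬ IsConj x y := fun h => hc (hy ▸ ConjClasses.mk_eq_mk_iff_isConj.2 h)
      obtain ⟨g, hg, hg'⟩ := odd_conj h1.symm h2
      have h3 : Subgroup.centralizer {(x : Equiv.Perm (Fin n))} ≤ alternatingGroup (Fin n) := by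
        intro z hz
        refine (Int.units_eq_one_or _).resolve_right fun e => h2 (isConj_iff.2 ⟨⟨g * z, ?_⟩, Subtype.ext ?_⟩)
        · rw [Equiv.Perm.mem_alternatingGroup, map_mul, hg, e]; decide
        · have := hz x rfl
          show g * z * x * (g * z)⁻¹ = y
          rw [← hg', mul_assoc g, ← this]; group
      obtain ⟨o1, o2, -⟩ := Equiv.Perm.centralizer_le_alternating_iff.1 h3
      rw [Fintype.card_fin] at o2
      obtain ⟨a, ha⟩ : ∃ a, a ∈ (x : Equiv.Perm (Fin n)).cycleType := Multiset.exists_mem_of_ne_zero fun e => by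
        rw [e] at o2; simp at o2; omega
      have a2 := Equiv.Perm.two_le_of_mem_cycleType ha
      obtain ⟨k, hk⟩ := o1 a ha
      have e1 := Multiset.sum_erase ha
      have e2 := Equiv.Perm.sum_cycleType_le (x : Equiv.Perm (Fin n))
      obtain ⟨τ, hτ⟩ := (Equiv.Perm.exists_with_cycleType_iff (Fin n)
        (m := (a - 1) ::ₘ (x : Equiv.Perm (Fin n)).cycleType.erase a)).2 ⟨by rw [Multiset.sum_cons]; omega, fun b hb => by
          rcases Multiset.mem_cons.1 hb with rfl | hb
          · omega
          · exact Equiv.Perm.two_le_of_mem_cycleType (Multiset.mem_of_mem_erase hb)⟩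
      refine ⟨τ, x, rfl, Or.inr ⟨hc, ?_, o1, by omega, a, ha, hτ⟩⟩
      have e3 : Equiv.Perm.sign (x : Equiv.Perm (Fin n)) = 1 := x.2
      rw [Equiv.Perm.sign_of_cycleType] at e3 ⊢
      have e4 : (x : Equiv.Perm (Fin n)).cycleType.sum + (x : Equiv.Perm (Fin n)).cycleType.card =
          τ.cycleType.sum + τ.cycleType.card + 1 := by
        have := Multiset.card_erase_add_one ha
        rw [hτ, Multiset.sum_cons, Multiset.card_cons]; omega
      rw [e4, pow_succ] at e3
      rcases Int.units_eq_one_or ((-1 : ℤˣ) ^ (τ.cycleType.sum + τ.cycleType.card)) with h | h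
      · rw [h] at e3; exact absurd e3 (by decide)
      · exact h
    choose τ hτ using ex
    let f := fun c => ConjClasses.mk (τ c)
    have sg : ∀ {a b : Equiv.Perm (Fin n)}, IsConj a b → Equiv.Perm.sign a = Equiv.Perm.sign b := fun h =>
      isConj_iff_eq.1 (Equiv.Perm.sign.map_isConj h)
    have hinj : Function.Injective f := by
      intro c d e
      have e' : IsConj (τ c) (τ d) := ConjClasses.mk_eq_mk_iff_isConj.1 e
      obtain ⟨x, rfl, hx⟩ := hτ c
      obtain ⟨y, rfl, hy⟩ := hτ d
      rcases hx with ⟨x1, x2⟩ | ⟨x1, x2, x3, -, a, ha, x4⟩ <;> rcases hy with ⟨y1, y2⟩ | ⟨y1, y2, y3, -, b, hb, y4⟩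
      · rw [x1, y1]
        simp only [s]
        rw [hπ, hπ, ← x2, ← y2, ConjClasses.mk_eq_mk_iff_isConj.2 e']
      · have := sg e'
        rw [y2, x2, show Equiv.Perm.sign (x : Equiv.Perm (Fin n)) = 1 from x.2] at this
        exact absurd this (by decide)
      · have := sg e'
        rw [y2, x2, show Equiv.Perm.sign (y : Equiv.Perm (Fin n)) = 1 from y.2] at this
        exact absurd this (by decide)
      · have h := Equiv.Perm.isConj_iff_cycleType_eq.1 e'
        rw [x4, y4] at h
        have hab : a = b := by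
          have h1 : a - 1 ∈ (b - 1) ::ₘ (y : Equiv.Perm (Fin n)).cycleType.erase b := h ▸ Multiset.mem_cons_self _ _
          have a2 := Equiv.Perm.two_le_of_mem_cycleType ha
          have b2 := Equiv.Perm.two_le_of_mem_cycleType hb
          rcases Multiset.mem_cons.1 h1 with h1 | h1
          · omega
          obtain ⟨k, hk⟩ := y3 _ (Multiset.mem_of_mem_erase h1)
          obtain ⟨l, hl⟩ := x3 a ha
          omega
        subst hab
        have h2 : IsConj (x : Equiv.Perm (Fin n)) y := by
          rw [Equiv.Perm.isConj_iff_cycleType_eq, ← Multiset.cons_erase ha, ← Multiset.cons_erase hb,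
            (Multiset.cons_inj_right _).1 h]
        have h3 : s (ConjClasses.mk x) = s (ConjClasses.mk y) := by
          simp only [s]
          rw [hπ, hπ, ConjClasses.mk_eq_mk_iff_isConj.2 h2]
        obtain ⟨z, hz⟩ := ConjClasses.mk_surjective (s (ConjClasses.mk x))
        have h4 := hs (ConjClasses.mk x)
        rw [← hz, hπ, hπ, ConjClasses.mk_eq_mk_iff_isConj] at h4
        obtain ⟨g, g1, g2⟩ := odd_conj h4 fun h => x1 (hz ▸ (ConjClasses.mk_eq_mk_iff_isConj.2 h).symm)
        obtain ⟨k, k1, k2⟩ := odd_conj (h4.trans h2) fun h => y1 (h3 ▸ hz ▸ (ConjClasses.mk_eq_mk_iff_isConj.2 h).symm)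
        refine ConjClasses.mk_eq_mk_iff_isConj.2 (isConj_iff.2 ⟨⟨k * g⁻¹, ?_⟩, Subtype.ext ?_⟩)
        · rw [Equiv.Perm.mem_alternatingGroup, map_mul, map_inv, g1, k1]; decide
        · show k * g⁻¹ * x * (k * g⁻¹)⁻¹ = y
          rw [← g2, ← k2]; group
    haveI := Fintype.ofFinite (ConjClasses (alternatingGroup (Fin n)))
    haveI := Fintype.ofFinite (ConjClasses (Equiv.Perm (Fin n)))
    rw [Nat.card_eq_fintype_card, Nat.card_eq_fintype_card]
    have h01 : (⟨0, by omega⟩ : Fin n) ≠ ⟨1, by omega⟩ := by simp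
    refine Fintype.card_lt_of_injective_of_notMem f hinj (b := ConjClasses.mk (Equiv.swap ⟨0, by omega⟩ ⟨1, by omega⟩)) ?_
    rintro ⟨c, hc⟩
    have e' := ConjClasses.mk_eq_mk_iff_isConj.1 hc
    obtain ⟨x, rfl, hx⟩ := hτ c
    rcases hx with ⟨x1, x2⟩ | ⟨x1, x2, x3, x5, a, ha, x4⟩
    · have := sg e'
      rw [x2, show Equiv.Perm.sign (x : Equiv.Perm (Fin n)) = 1 from x.2, Equiv.Perm.sign_swap h01] at this
      exact absurd this (by decide)
    · have h := Equiv.Perm.isConj_iff_cycleType_eq.1 e'
      rw [x4, Equiv.Perm.isSwap_iff_cycleType.1 (Equiv.Perm.swap_isSwap_iff.2 h01)] at h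
      have h1 := congrArg Multiset.sum h
      have e1 := Multiset.sum_erase ha
      rw [Multiset.sum_cons, Multiset.sum_singleton] at h1
      omega
  · refine le_trans ?_ (pbound n hn)
    let f : ConjClasses (Equiv.Perm (Fin n)) → (Fintype.card (Fin n)).Partition :=
      Quotient.lift Equiv.Perm.partition fun a b h => Equiv.Perm.partition_eq_of_isConj.1 h
    have hf : Function.Injective f := by
      intro c d e
      obtain ⟨x, rfl⟩ := ConjClasses.mk_surjective c
      obtain ⟨y, rfl⟩ := ConjClasses.mk_surjective d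
      exact ConjClasses.mk_eq_mk_iff_isConj.2 (Equiv.Perm.partition_eq_of_isConj.2 e)
    have := Nat.card_le_card_of_injective f hf
    rwa [Fintype.card_fin, Nat.card_eq_fintype_card (α := n.Partition)] at this

end Cfsg.Agent.S4198
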