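import Cfsg.Statements.S4200
import Mathlib
import Cfsg.Agent.H8.ClassCount

set_option autoImplicit false
open Cfsg

namespace Cfsg.Agent.S4200

open Subgroup in
lemma card_centralizer_sub {X : Type*} [Group X] (Y : Subgroup X) (y : Y) :
    Nat.card (centralizer ({y} : Set Y)) =
      Nat.card (Y ⊓ centralizer ({(y : X)} : Set X) : Subgroup X) := by
  rw [inf_comm, ← H1.card_subgroupOf]
  congr 2
  ext z
  simp only [mem_subgroupOf, mem_centralizer_singleton_iff, Subtype.ext_iff, coe_mul]

open Subgroup in
lemma card_le_mul {X : Type*} [Group X] [Finite X] (Y C : Subgroup X) :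
    Nat.card C ≤ Y.index * Nat.card (Y ⊓ C : Subgroup X) := by
  rw [← H1.card_inf_mul_relIndex Y C, mul_comm]
  refine Nat.mul_le_mul_right _ ?_
  rw [← relIndex_top_right]
  exact relIndex_le_of_le_right le_top (by simpa using Y.index_ne_zero_of_finite)

/-- Let Y be a subgroup of the finite group X, of index m. Then the numbers of conjugacy classes satisfy k(Y) ≤ m·k(X) and k(X) ≤ m·k(Y), and the second inequality is strict unless Y is normal in X. -/
theorem result {X : Type*} [Group X] [Finite X] (Y : Subgroup X) : Nat.card (ConjClasses Y) ≤ Y.index * Nat.card (ConjClasses X) ∧ Nat.card (ConjClasses X) ≤ Y.index * Nat.card (ConjClasses Y) ∧ (¬ Y.Normal → Nat.card (ConjClasses X) < Y.index * Nat.card (ConjClasses Y)) := by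
  classical
  have := Fintype.ofFinite X
  have hX := H8.sum_card_centralizer_univ (G := X)
  have hY := H8.sum_card_centralizer_univ (G := Y)
  have hc := Y.card_mul_index
  have hYp : 0 < Nat.card Y := Nat.card_pos
  have hXp : 0 < Nat.card X := Nat.card_pos
  have hswap : ∑ x : X, Nat.card (Y ⊓ Subgroup.centralizer ({x} : Set X) : Subgroup X) =
      ∑ y : Y, Nat.card (Subgroup.centralizer ({(y : X)} : Set X)) := by
    have h1 : ∀ x : X, Nat.card (Y ⊓ Subgroup.centralizer ({x} : Set X) : Subgroup X) =
        ∑ y : Y, if (y : X) * x = x * y then 1 else 0 := by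
      intro x
      rw [inf_comm, ← H1.card_subgroupOf, Nat.card_eq_fintype_card, Fintype.card_subtype,
        Finset.card_filter]
      simp only [Subgroup.mem_subgroupOf, Subgroup.mem_centralizer_singleton_iff]
    have h2 : ∀ y : Y, Nat.card (Subgroup.centralizer ({(y : X)} : Set X)) =
        ∑ x : X, if (y : X) * x = x * y then 1 else 0 := by
      intro y
      rw [Nat.card_eq_fintype_card, Fintype.card_subtype, Finset.card_filter]
      simp only [Subgroup.mem_centralizer_singleton_iff, eq_comm]
    simp only [h1, h2]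
    exact Finset.sum_comm
  have hB : ∑ y : Y, Nat.card (Subgroup.centralizer ({(y : X)} : Set X)) ≤
      Y.index * (Nat.card (ConjClasses Y) * Nat.card Y) := by
    rw [← hY, Finset.mul_sum]
    exact Finset.sum_le_sum fun y _ => by rw [card_centralizer_sub]; exact card_le_mul _ _
  have hA : Nat.card (ConjClasses X) * Nat.card X ≤ Y.index *
      ∑ y : Y, Nat.card (Subgroup.centralizer ({(y : X)} : Set X)) := by
    rw [← hX, ← hswap, Finset.mul_sum]
    exact Finset.sum_le_sum fun x _ => card_le_mul _ _
  refine ⟨?_, ?_, fun hn => ?_⟩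
  · refine Nat.le_of_mul_le_mul_right ?_ hYp
    have : Y.index * Nat.card (ConjClasses X) * Nat.card Y =
      Nat.card (ConjClasses X) * Nat.card X := by rw [← hc]; ring
    rw [this, ← hX, ← hY]
    calc _ ≤ ∑ y : Y, Nat.card (Subgroup.centralizer ({(y : X)} : Set X)) :=
          Finset.sum_le_sum fun y _ => by
            rw [card_centralizer_sub]; exact Subgroup.card_le_of_le inf_le_right
      _ = ∑ x ∈ Finset.univ.filter (· ∈ Y), Nat.card (Subgroup.centralizer ({x} : Set X)) :=
          (Finset.sum_subtype _ (by simp) (fun x => Nat.card (Subgroup.centralizer ({x} : Set X)))).symm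
      _ ≤ _ := Finset.sum_le_sum_of_subset (Finset.filter_subset _ _)
  · refine Nat.le_of_mul_le_mul_right ?_ hXp
    refine hA.trans ((Nat.mul_le_mul_left _ hB).trans (le_of_eq ?_))
    rw [← hc]; ring
  · refine Nat.lt_of_mul_lt_mul_right (a := Nat.card X) ?_
    have hB' : ∑ y : Y, Nat.card (Subgroup.centralizer ({(y : X)} : Set X)) <
        Y.index * (Nat.card (ConjClasses Y) * Nat.card Y) := by
      rw [← hY, Finset.mul_sum]
      refine Finset.sum_lt_sum (fun y _ => by rw [card_centralizer_sub]; exact card_le_mul _ _) ?_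
      by_contra hcon
      push Not at hcon
      apply hn
      refine ⟨fun y hy g => ?_⟩
      have h1 := hcon ⟨y, hy⟩ (Finset.mem_univ _)
      rw [card_centralizer_sub] at h1
      obtain ⟨a, ha, b, hb, rfl⟩ := H1.mul_eq_univ_of_card (H := Y)
        (K := Subgroup.centralizer ({y} : Set X)) (by
          rw [← hc, mul_assoc]; exact Nat.mul_le_mul_left _ h1) g
      rw [Subgroup.mem_centralizer_singleton_iff] at hb
      have : a * b * y * (a * b)⁻¹ = a * y * a⁻¹ := by rw [mul_assoc a b y, hb]; group
      rw [this]
      exact Y.mul_mem (Y.mul_mem ha hy) (Y.inv_mem ha)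
    refine hA.trans_lt ((Nat.mul_lt_mul_of_pos_left hB'
      (Nat.pos_of_ne_zero Y.index_ne_zero_of_finite)).trans_le (le_of_eq ?_))
    rw [← hc]; ring

end Cfsg.Agent.S4200
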