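import Cfsg.Statements.S4203
import Mathlib
import Cfsg.Agent.H8.ClassCount
import Cfsg.Agent.H3.Integral

set_option autoImplicit false
open Cfsg

namespace Cfsg.Agent.S4203

universe u in
lemma aux (n : ℕ) : ∀ (G : Type u) [Group G] [Finite G], Nat.card G = n →
    (∀ M : Subgroup G, IsCoatom M → ∃ p : ℕ, p.Prime ∧ (M.index = p ∨ M.index = p ^ 2)) →
    Group.IsSolvable G := by
  induction n using Nat.strong_induction_on with
  | _ n ih =>
  intro G _ _ hn h
  rcases subsingleton_or_nontrivial G with hG | hG
  · infer_instance
  have h1 : 1 < Nat.card G := Finite.one_lt_card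
  have hne : (Nat.card G).primeFactors.Nonempty := Nat.nonempty_primeFactors.2 h1
  set p := (Nat.card G).primeFactors.max' hne
  have hpm : p ∈ (Nat.card G).primeFactors := Finset.max'_mem _ _
  have hp : p.Prime := Nat.prime_of_mem_primeFactors hpm
  have hmax : ∀ q, q.Prime → q ∣ Nat.card G → q ≤ p := fun q hq hd =>
    Finset.le_max' _ _ (Nat.mem_primeFactors.2 ⟨hq, hd, by omega⟩)
  haveI := Fact.mk hp
  obtain ⟨P⟩ : Nonempty (Sylow p G) := inferInstance
  by_cases hP : (P : Subgroup G).Normal
  · haveI := H1.isSolvable_of_isPGroup P.isPGroup'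
    haveI := ih _ (hn ▸ H1.card_quotient_lt (P.ne_bot_of_dvd_card (Nat.dvd_of_mem_primeFactors hpm)))
      (G ⧸ (P : Subgroup G)) rfl (fun M hM => by
        have := h _ (Subgroup.isCoatom_comap_of_surjective (QuotientGroup.mk'_surjective _) hM)
        rwa [Subgroup.index_comap_of_surjective _ (QuotientGroup.mk'_surjective _)] at this)
    exact H1.isSolvable_of_normal_of_quotient (P : Subgroup G)
  · obtain ⟨M, hM, hle⟩ := H1.exists_coatom_ge (mt Subgroup.normalizer_eq_top_iff.1 hP)
    have hPM : (P : Subgroup G) ≤ M := Subgroup.le_normalizer.trans hle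
    -- the index of M is 1 mod p
    have hmod : M.index ≡ 1 [MOD p] := by
      have h2 := card_sylow_modEq_one p G
      have h3 := card_sylow_modEq_one p M
      rw [P.card_eq_index_normalizer] at h2
      replace h2 : (Subgroup.normalizer ((P : Subgroup G) : Set G)).index ≡ 1 [MOD p] := h2
      rw [← Subgroup.relIndex_mul_index hle] at h2
      rw [(P.subtype hPM).card_eq_index_normalizer] at h3
      have h4 : (Subgroup.normalizer ((P.subtype hPM : Sylow p M) : Set M)).index =
          (Subgroup.normalizer ((P : Subgroup G) : Set G)).relIndex M := by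
        rw [Subgroup.relIndex]
        congr 1
        exact (Subgroup.subgroupOf_normalizer_eq hPM).symm
      rw [h4] at h3
      have := h3.mul_right M.index
      rw [one_mul] at this
      exact this.symm.trans h2
    obtain ⟨q, hq, hqi⟩ := h M hM
    have hqd : q ∣ M.index := by
      rcases hqi with h | h <;> rw [h]
      exact dvd_pow_self q two_ne_zero
    have hqp := hmax q hq (hqd.trans M.index_dvd_card)
    have hq2 := hq.two_le
    have hp3 : p ≤ 3 := by
      rcases hqi with h | h
      · rw [h] at hmod
        have := Nat.le_of_dvd (by omega) ((Nat.modEq_iff_dvd' hq.one_lt.le).1 hmod.symm)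
        omega
      · rw [h] at hmod
        have h5 := (Nat.modEq_iff_dvd' (Nat.one_le_pow _ _ hq.pos)).1 hmod.symm
        rw [show q ^ 2 - 1 = (q + 1) * (q - 1) by simpa using Nat.sq_sub_sq q 1] at h5
        rcases (Nat.Prime.dvd_mul hp).1 h5 with h6 | h6
        · have h7 := Nat.le_of_dvd (by omega) h6
          rcases (by omega : p = q ∨ p = q + 1) with h8 | h8
          · rw [h8] at h6
            have := (Nat.dvd_add_right dvd_rfl).1 h6
            exact absurd (Nat.dvd_one.1 this) hq.one_lt.ne'
          · rcases hq.eq_two_or_odd with h9 | h9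
            · omega
            · rcases hp.eq_two_or_odd with h10 | h10 <;> omega
        · have := Nat.le_of_dvd (by omega) h6
          omega
    refine H3.burnside_pq (p := 2) (q := 3) (a := (Nat.card G).factorization 2)
      (b := (Nat.card G).factorization 3) Nat.prime_two Nat.prime_three ?_
    rw [Nat.dvd_iff_prime_pow_dvd_dvd]
    intro r k hr hk
    rcases k with _ | k
    · simp
    have hr3 := (hmax r hr ((dvd_pow_self r (by omega)).trans hk)).trans hp3
    have hle := (hr.pow_dvd_iff_le_factorization (by omega)).1 hk
    have := hr.two_le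
    interval_cases r
    · exact Dvd.dvd.mul_right (pow_dvd_pow _ hle) _
    · exact Dvd.dvd.mul_left (pow_dvd_pow _ hle) _

/-- A finite group in which every maximal subgroup has index a prime or the square of a prime is solvable. -/
theorem result {G : Type*} [Group G] [Finite G] (h : ∀ M : Subgroup G, IsCoatom M → ∃ p : ℕ, p.Prime ∧ (M.index = p ∨ M.index = p ^ 2)) : Group.IsSolvable G := by
  exact aux _ G rfl h

end Cfsg.Agent.S4203
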