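import Cfsg.Statements.S4204
import Mathlib
import Cfsg.Agent.H8.ClassCount

set_option autoImplicit false
open Cfsg

namespace Cfsg.Agent.S4204

open Subgroup in
lemma comm_sup_le {G : Type*} [Group G] {A H K N : Subgroup G} [N.Normal] (h1 : ⁅A, H⁆ ≤ N)
    (h2 : ⁅A, K⁆ ≤ N) : ⁅A, H ⊔ K⁆ ≤ N := by
  have key : ∀ X : Subgroup G, ⁅A, X⁆ ≤ N ↔
      X ≤ (centralizer (A.map (QuotientGroup.mk' N) : Set (G ⧸ N))).comap (QuotientGroup.mk' N) := by
    intro X
    rw [← map_le_iff_le_comap, ← commutator_eq_bot_iff_le_centralizer, ← map_commutator,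
      Subgroup.map_eq_bot_iff, QuotientGroup.ker_mk', commutator_comm]
  rw [key] at *
  exact sup_le h1 h2

open Subgroup in
lemma iSup_comm_le {G : Type*} [Group G] {ι : Sort*} {A : ι → Subgroup G} {H N : Subgroup G}
    [N.Normal] (h1 : ∀ i, ⁅A i, H⁆ ≤ N) : ⁅⨆ i, A i, H⁆ ≤ N := by
  have key : ∀ X : Subgroup G, ⁅X, H⁆ ≤ N ↔
      X ≤ (centralizer (H.map (QuotientGroup.mk' N) : Set (G ⧸ N))).comap (QuotientGroup.mk' N) := by
    intro X
    rw [← map_le_iff_le_comap, ← commutator_eq_bot_iff_le_centralizer, ← map_commutator,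
      Subgroup.map_eq_bot_iff, QuotientGroup.ker_mk']
  simp only [key] at *
  exact iSup_le h1

def ser {G : Type*} [Group G] (H : Subgroup G) : ℕ → Subgroup G
  | 0 => ⊤
  | n + 1 => H.lowerCentralSeries n

lemma ser_normal {G : Type*} [Group G] (H : Subgroup G) [H.Normal] : ∀ n, (ser H n).Normal
  | 0 => by show (⊤ : Subgroup G).Normal; infer_instance
  | n + 1 => by show (H.lowerCentralSeries n).Normal; infer_instance

lemma ser_comm {G : Type*} [Group G] (H : Subgroup G) [H.Normal] : ∀ n, ⁅ser H n, H⁆ ≤ ser H (n + 1)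
  | 0 => by show ⁅⊤, H⁆ ≤ H; exact Subgroup.commutator_le_right _ _
  | n + 1 => le_rfl

/-- If `H` and `K` are normal subgroups of a finite group with `H` nilpotent of class at most `c` and `K` nilpotent of class at most `d` (the terms with index `c`, respectively `d`, of their lower central series are trivial, indices starting at `0`), then `HK` is nilpotent of class at most `c + d`. -/
theorem result {G : Type*} [Group G] [Finite G] (H K : Subgroup G) [H.Normal] [K.Normal] (c d : ℕ) (hH : H.lowerCentralSeries c = ⊥) (hK : K.lowerCentralSeries d = ⊥) : (H ⊔ K).lowerCentralSeries (c + d) = ⊥ := by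
  haveI := ser_normal H
  haveI := ser_normal K
  have key : ∀ n, (H ⊔ K).lowerCentralSeries n ≤
      ⨆ (q : {q : ℕ × ℕ // q.1 + q.2 = n + 1}), ser H q.1.1 ⊓ ser K q.1.2 := by
    intro n
    induction n with
    | zero =>
      refine sup_le ?_ ?_
      · exact le_iSup_of_le ⟨(1, 0), rfl⟩ (le_inf le_rfl le_top)
      · exact le_iSup_of_le ⟨(0, 1), rfl⟩ (le_inf le_top le_rfl)
    | succ n ih =>
      rw [Subgroup.lowerCentralSeries_succ]
      refine (Subgroup.commutator_mono ih le_rfl).trans (iSup_comm_le ?_)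
      rintro ⟨⟨i, j⟩, hij⟩
      refine comm_sup_le ?_ ?_
      · refine le_iSup_of_le ⟨(i + 1, j), by simp at hij ⊢; omega⟩ (le_inf ?_ ?_)
        · exact (Subgroup.commutator_mono inf_le_left le_rfl).trans (ser_comm H i)
        · exact (Subgroup.commutator_le_left _ _).trans inf_le_right
      · refine le_iSup_of_le ⟨(i, j + 1), by simp at hij ⊢; omega⟩ (le_inf ?_ ?_)
        · exact (Subgroup.commutator_le_left _ _).trans inf_le_left
        · exact (Subgroup.commutator_mono inf_le_right le_rfl).trans (ser_comm K j)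
  rw [eq_bot_iff]
  refine (key _).trans (iSup_le ?_)
  rintro ⟨⟨i, j⟩, hij⟩
  simp only at hij ⊢
  rcases le_or_gt i c with h | h
  · obtain ⟨j, rfl⟩ : ∃ k, j = k + 1 := ⟨j - 1, by omega⟩
    refine inf_le_right.trans ?_
    rw [← hK]
    exact Subgroup.lowerCentralSeries_antitone K (by omega)
  · obtain ⟨i, rfl⟩ : ∃ k, i = k + 1 := ⟨i - 1, by omega⟩
    refine inf_le_left.trans ?_
    rw [← hH]
    exact Subgroup.lowerCentralSeries_antitone H (by omega)

end Cfsg.Agent.S4204
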