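import Cfsg.Statements.S4205
import Mathlib

set_option autoImplicit false
open Cfsg

namespace Cfsg.Agent.S4205

/-- In a finite group whose upper central series reaches the whole group at step `c` (nilpotent of class at most `c`), starting from any subgroup and taking normalizers `c` times reaches the whole group. -/
theorem result {G : Type*} [Group G] [Finite G] (c : ℕ) (hG : Subgroup.upperCentralSeries G c = ⊤) (H : Subgroup G) : (fun K : Subgroup G => Subgroup.normalizer (K : Set G))^[c] H = ⊤ := by
  have key : ∀ n : ℕ, Subgroup.upperCentralSeries G n ⊔ H ≤
      (fun K : Subgroup G => Subgroup.normalizer (K : Set G))^[n] H := by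
    intro n
    induction n with
    | zero => simp
    | succ n ih =>
      rw [Function.iterate_succ_apply']
      refine sup_le ?_ ((le_sup_right.trans ih).trans Subgroup.le_normalizer)
      intro x hx
      rw [Subgroup.mem_upperCentralSeries_succ_iff] at hx
      apply Subgroup.mem_normalizer_fintype
      intro y hy
      have h1 := ih (Subgroup.mem_sup_left (hx y))
      have := Subgroup.mul_mem _ h1 hy
      simpa [commutatorElement_def, mul_assoc] using this
  rw [eq_top_iff, ← hG]
  exact le_sup_left.trans (key c)

end Cfsg.Agent.S4205
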