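import Cfsg.Statements.S4207
import Mathlib
import Cfsg.Agent.H8.Basis

set_option autoImplicit false
open Cfsg

namespace Cfsg.Agent.S4207

/-- Let `P` be a group of order `p^n` whose Frattini subgroup has index `p^r`. Then any group of automorphisms of `P` each of which induces the identity on the Frattini quotient has order dividing `p^(r(n-r))`; in particular it is a `p`-group. -/
theorem result {P : Type*} [Group P] [Finite P] {p n r : ℕ} [Fact p.Prime] (hP : Nat.card P = p ^ n) (hr : (frattini P).index = p ^ r) (A : Subgroup (MulAut P)) (hA : ∀ α ∈ A, ∀ x : P, α x * x⁻¹ ∈ frattini P) : Nat.card A ∣ p ^ (r * (n - r)) := by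
  have hp : p.Prime := Fact.out
  have hG : IsPGroup p P := IsPGroup.of_card hP
  obtain ⟨s0, hs0⟩ := H8.exists_gen_tuple hG hr
  have hc : Nat.card (frattini P) = p ^ (n - r) := by
    have := (frattini P).card_mul_index
    rw [hr, hP] at this
    have hle : r ≤ n := (Nat.pow_dvd_pow_iff_le_right hp.one_lt).1 (Dvd.intro_left _ this)
    rw [← Nat.sub_add_cancel hle, pow_add] at this
    exact Nat.eq_of_mul_eq_mul_right (pow_pos hp.pos _) this
  have := H8.card_dvd_of_invariant_tuples A {s | ∀ i, (s i : P ⧸ frattini P) = s0 i}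
    (fun α hα s hs i => by
      rw [← hs i, ← mul_inv_eq_one, ← QuotientGroup.mk_inv, ← QuotientGroup.mk_mul,
        QuotientGroup.eq_one_iff]
      exact hA α hα _)
    (fun s hs => by
      rw [← H8.closure_eq_top_iff_frattini, ← Set.range_comp] at hs0 ⊢
      convert hs0 using 3
      ext i; exact hs i)
  rwa [Nat.card_coe_set_eq, H8.ncard_tuples_fiber, hc, Fintype.card_fin, ← pow_mul, mul_comm] at this

end Cfsg.Agent.S4207
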