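import Cfsg.Statements.S4208
import Mathlib
import Cfsg.Agent.H8.Basis

set_option autoImplicit false
open Cfsg

namespace Cfsg.Agent.S4208

/-- Let `P` be a group of order `p^n` whose Frattini subgroup has index `p^r`. Then the order of the automorphism group of `P` divides `p^(r(n-r)) · (p^r - 1)(p^r - p) ⋯ (p^r - p^(r-1))`. -/
theorem result {P : Type*} [Group P] [Finite P] {p n r : ℕ} [Fact p.Prime] (hP : Nat.card P = p ^ n) (hr : (frattini P).index = p ^ r) : Nat.card (MulAut P) ∣ p ^ (r * (n - r)) * ∏ i ∈ Finset.range r, (p ^ r - p ^ i) := by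
  have hp : p.Prime := Fact.out
  have hG : IsPGroup p P := IsPGroup.of_card hP
  have hc : Nat.card (frattini P) = p ^ (n - r) := by
    have := (frattini P).card_mul_index
    rw [hr, hP] at this
    have hle : r ≤ n := (Nat.pow_dvd_pow_iff_le_right hp.one_lt).1 (Dvd.intro_left _ this)
    rw [← Nat.sub_add_cancel hle, pow_add] at this
    exact Nat.eq_of_mul_eq_mul_right (pow_pos hp.pos _) this
  have := H8.card_dvd_of_invariant_tuples ⊤
    {s : Fin r → P | Subgroup.closure (Set.range s) = ⊤}
    (fun α _ s hs => by
      have := congrArg (Subgroup.map α.toMonoidHom) hs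
      rw [MonoidHom.map_closure, ← Set.range_comp,
        Subgroup.map_top_of_surjective _ α.surjective] at this
      exact this)
    (fun s hs => hs)
  rw [Subgroup.card_top] at this
  have h2 := H8.card_gen_tuples hG hr
  rw [hc, ← pow_mul, mul_comm, mul_comm (n - r)] at h2
  exact h2 ▸ this

end Cfsg.Agent.S4208
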