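import Cfsg.Statements.S4211
import Cfsg.Agent.H7.GK
import Cfsg.Agent.H8.Dihedral

set_option autoImplicit false
open Cfsg

namespace Cfsg.Agent.S4211
open H7
open scoped commutatorElement

section
open Subgroup

open Subgroup H2 H7 in
theorem ham_key {G : Type*} [Group G] [Finite G] (hn : ∀ H : Subgroup G, H.Normal) (H : Subgroup G)
    (h : ¬ H ≤ cen H) : ∃ x ∈ H, ∃ y ∈ H, orderOf x = 4 ∧ orderOf y = 4 ∧ x * y ≠ y * x := by
  classical
  have hex : ∃ n, ∃ x ∈ H, ∃ y ∈ H, x * y ≠ y * x ∧ orderOf x + orderOf y = n := by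
    rw [le_cen_iff] at h
    push Not at h
    obtain ⟨x, hx, y, hy, e⟩ := h
    exact ⟨_, x, hx, y, hy, e, rfl⟩
  have hmin : ∀ x ∈ H, ∀ y ∈ H, x * y ≠ y * x → Nat.find hex ≤ orderOf x + orderOf y :=
    fun x hx y hy e => Nat.find_min' hex ⟨x, hx, y, hy, e, rfl⟩
  have mem : ∀ x y : G, ⁅x, y⁆ ∈ zpowers x ∧ ⁅x, y⁆ ∈ zpowers y := by
    intro x y
    constructor
    · rw [commutatorElement_def, mul_assoc, mul_assoc, ← mul_assoc y]
      exact mul_mem (mem_zpowers x) ((hn _).conj_mem _ (inv_mem (mem_zpowers x)) y)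
    · rw [commutatorElement_def]
      exact mul_mem ((hn _).conj_mem _ (mem_zpowers y) x) (inv_mem (mem_zpowers y))
  have cm : ∀ x c : G, c ∈ zpowers x → Commute c x := by
    rintro x _ ⟨k, rfl⟩; exact (Commute.refl x).zpow_left k
  have pw : ∀ x y : G, ∀ k : ℕ, ⁅x ^ k, y⁆ = ⁅x, y⁆ ^ k := by
    intro x y k
    induction k with
    | zero => simp
    | succ k ih =>
      have : ⁅x ^ (k + 1), y⁆ = x * ⁅x ^ k, y⁆ * x⁻¹ * ⁅x, y⁆ := by simp only [commutatorElement_def, pow_succ']; group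
      rw [this, ih, ← ((cm x _ (mem x y).1).pow_left k).eq, mul_inv_cancel_right, pow_succ]
  have lt : ∀ x ∈ H, ∀ y ∈ H, x * y ≠ y * x → orderOf x + orderOf y = Nat.find hex → ∀ r : ℕ, r.Prime → r ∣ orderOf x →
      x ^ r * y = y * x ^ r ∧ orderOf ⁅x, y⁆ = r := by
    intro x hx y hy e hs r hr hd
    have h1 : x ^ r * y = y * x ^ r := by
      by_contra h1
      have := hmin _ (pow_mem hx r) y hy h1
      rw [orderOf_pow_of_dvd hr.ne_zero hd] at this
      have := Nat.div_lt_self (orderOf_pos x) hr.one_lt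
      omega
    haveI := Fact.mk hr
    refine ⟨h1, orderOf_eq_prime ?_ fun h => e (commutatorElement_eq_one_iff_mul_comm.1 h)⟩
    rw [← pw, commutatorElement_eq_one_iff_mul_comm, h1]
  have main : ∀ x ∈ H, ∀ y ∈ H, x * y ≠ y * x → orderOf x + orderOf y = Nat.find hex → orderOf y ≤ orderOf x →
      orderOf x = 4 ∧ orderOf y = 4 := by
    intro x hx y hy e hs hle
    have x1 : orderOf x ≠ 1 := fun h => e (by rw [orderOf_eq_one_iff.1 h]; simp)
    obtain ⟨p, hp, hpx⟩ := Nat.exists_prime_and_dvd x1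
    haveI := Fact.mk hp
    obtain ⟨cx, oc⟩ := lt x hx y hy e hs p hp hpx
    have oc' : orderOf ⁅y, x⁆ = p := by rw [← commutatorElement_inv, orderOf_inv, oc]
    obtain ⟨m, hm⟩ : ∃ m, orderOf x = p ^ m := ⟨_, Nat.eq_prime_pow_of_unique_prime_dvd (orderOf_pos x).ne'
      fun hr hd => (lt x hx y hy e hs _ hr hd).2.symm.trans oc⟩
    obtain ⟨n, hn'⟩ : ∃ m, orderOf y = p ^ m := ⟨_, Nat.eq_prime_pow_of_unique_prime_dvd (orderOf_pos y).ne'
      fun hr hd => (lt y hy x hx (Ne.symm e) (by omega) _ hr hd).2.symm.trans oc'⟩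
    have hnm : n ≤ m := (Nat.pow_le_pow_iff_right hp.one_lt).1 (by rw [← hm, ← hn']; exact hle)
    have om : ∀ (z : G) (k : ℕ), orderOf z = p ^ (k + 1) → ⁅x, y⁆ ∈ zpowers z → zpowers (z ^ p ^ k) = zpowers ⁅x, y⁆ := by
      intro z k hz hc
      have a : ord (zpowers (z ^ p ^ k)) = p := by
        rw [Nat.card_zpowers, orderOf_pow_of_dvd (pow_pos hp.pos k).ne' (hz ▸ pow_dvd_pow p k.le_succ), hz, pow_succ,
          Nat.mul_div_cancel_left _ (pow_pos hp.pos k)]
      rw [eq_Om_of_cyc (R := zpowers z) inferInstance (zpowers_le.2 (pow_mem (mem_zpowers z) _)) a,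
        eq_Om_of_cyc (R := zpowers z) inferInstance (zpowers_le.2 hc) (by rw [Nat.card_zpowers, oc])]
    obtain ⟨n, rfl⟩ : ∃ k, n = k + 1 := by
      refine ⟨n - 1, ?_⟩
      have : n ≠ 0 := by rintro rfl; exact e (by rw [orderOf_eq_one_iff.1 hn']; simp)
      omega
    obtain ⟨d, rfl⟩ : ∃ d, m = d + n + 1 := ⟨m - (n + 1), by omega⟩
    have e1 := om y n hn' (mem x y).2
    have e2 := om x _ hm (mem x y).1
    have hn0 : n ≠ 0 := by
      rintro rfl
      rw [pow_zero, pow_one] at e1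
      exact e (cm _ y (e1 ▸ mem_zpowers y) |> fun _ => by
        have : y ∈ zpowers x := zpowers_le.2 (mem x y).1 (e1 ▸ mem_zpowers y)
        exact (cm x y this).eq.symm)
    obtain ⟨k, hk⟩ : ∃ k : ℕ, (x ^ p ^ (d + n)) ^ k = (y ^ p ^ n)⁻¹ :=
      (Submonoid.mem_powers_iff _ _).1 (mem_powers_iff_mem_zpowers.2 (by rw [e2, ← e1]; exact inv_mem (mem_zpowers _)))
    set u := (x ^ p ^ d) ^ k with hu
    have hu1 : u ^ p ^ n * y ^ p ^ n = 1 := by
      rw [hu, ← pow_mul, mul_comm k, pow_mul, ← pow_mul x, ← pow_add, hk, inv_mul_cancel]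
    have hux : Commute u x := ((Commute.refl x).pow_left _).pow_left _
    have hne : x * (u * y) ≠ u * y * x := by
      rw [← mul_assoc, ← hux.eq, mul_assoc, mul_assoc]
      exact fun h => e (mul_left_cancel h)
    have h1 := hmin x hx (u * y) (mul_mem (pow_mem (pow_mem hx _) _) hy) hne
    have h2 : (u * y) ^ p ^ n ≠ 1 := by
      intro h
      have := orderOf_le_of_pow_eq_one (pow_pos hp.pos n) h
      have : p ^ n < p ^ (n + 1) := Nat.pow_lt_pow_right hp.one_lt n.lt_succ_self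
      omega
    rw [mul_pow_of_comm (cm u _ (mem y u).2) (cm y _ (mem y u).1), hu1, mul_one] at h2
    have h3 : ⁅y, u⁆ ^ p = 1 := by
      rw [← commutatorElement_inv, hu, ← pow_mul, pw, inv_pow, ← pow_mul, mul_comm, pow_mul, ← oc, pow_orderOf_eq_one,
        one_pow, inv_one]
    have h4 : ¬ p ∣ (p ^ n).choose 2 := by
      rintro ⟨j, hj⟩
      rw [hj, pow_mul, h3, one_pow] at h2
      exact h2 rfl
    have hd0 : d = 0 := by
      by_contra hd
      obtain ⟨d, rfl⟩ := Nat.exists_eq_succ_of_ne_zero hd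
      apply h2
      have : Commute y u := by
        rw [hu, pow_succ', pow_mul]
        exact ((show Commute (x ^ p) y from cx).symm.pow_right _).pow_right _
      rw [commutatorElement_eq_one_iff_commute.2 this, one_pow]
    have h5 : 2 * (p ^ n).choose 2 = p ^ n * (p ^ n - 1) := by
      rw [Nat.choose_two_right, Nat.mul_div_cancel' (Nat.two_dvd_mul_sub_one _)]
    have hp2 : p = 2 := by
      by_contra h
      apply h4
      have : p ∣ 2 * (p ^ n).choose 2 := h5 ▸ (dvd_pow_self p hn0).mul_right _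
      exact ((Nat.coprime_primes hp Nat.prime_two).2 h).dvd_of_dvd_mul_left this
    subst hp2
    have hn1 : n = 1 := by
      by_contra h
      apply h4
      obtain ⟨n, rfl⟩ : ∃ k, n = k + 2 := ⟨n - 2, by omega⟩
      refine Nat.dvd_of_mul_dvd_mul_left two_pos ?_
      rw [h5, pow_add]
      exact (Dvd.intro_left _ rfl).mul_right _
    subst hn1 hd0
    exact ⟨hm, hn'⟩
  obtain ⟨x, hx, y, hy, e, hs⟩ := Nat.find_spec hex
  rcases le_total (orderOf y) (orderOf x) with h | h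
  · obtain ⟨a, b⟩ := main x hx y hy e hs h
    exact ⟨x, hx, y, hy, a, b, e⟩
  · obtain ⟨a, b⟩ := main y hy x hx (Ne.symm e) (by omega) h
    exact ⟨x, hx, y, hy, b, a, e⟩

end

/-- A finite non-abelian group in which every subgroup is normal is the internal direct product of a subgroup isomorphic to the quaternion group of order `8`, an elementary abelian `2`-subgroup and an abelian subgroup of odd order. -/
theorem result {G : Type*} [Group G] [Finite G] (hna : ¬ IsMulCommutative G) (hn : ∀ H : Subgroup G, H.Normal) : ∃ Q E A : Subgroup G, Nonempty (Q ≃* QuaternionGroup 2) ∧ Cfsg.IsElementaryAbelian 2 E ∧ IsMulCommutative A ∧ Odd (Nat.card A) ∧ E ⊓ A = ⊥ ∧ Q ⊓ (E ⊔ A) = ⊥ ∧ Q ⊔ (E ⊔ A) = ⊤ := by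
  open Subgroup in
  open Subgroup H2 H7 in
  haveI : Fact (Nat.Prime 2) := Nat.fact_prime_two
  obtain ⟨x, -, y, -, ox, oy, hxy⟩ := ham_key hn ⊤ (fun h => hna ⟨⟨fun a b => comm_of_le_cen h (mem_top a) (mem_top b)⟩⟩)
  have hnil : Group.IsNilpotent G := (Group.isNilpotent_of_finite_tfae (G := G)).out 2 0 |>.1 (fun (H : Subgroup G) (_ : IsCoatom H) => hn H)
  have ne2 : ∀ x : G, orderOf x = 4 → x * x ≠ 1 := fun x hx h => by
    have := orderOf_dvd_of_pow_eq_one ((pow_two x).trans h)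
    rw [hx] at this; exact absurd this (by decide)
  have p4 : ∀ x : G, orderOf x = 4 → x ^ 4 = 1 := fun x hx => by rw [← hx, pow_orderOf_eq_one]
  have cj4 : ∀ w g : G, w ^ 4 = 1 → g * w * g⁻¹ = 1 ∨ g * w * g⁻¹ = w ∨ g * w * g⁻¹ = w * w ∨ g * w * g⁻¹ = w⁻¹ := by
    intro w g hw
    obtain ⟨k, hk⟩ : ∃ k : ℕ, w ^ k = g * w * g⁻¹ :=
      (Submonoid.mem_powers_iff _ _).1 (mem_powers_iff_mem_zpowers.2 ((hn _).conj_mem _ (mem_zpowers w) g))
    rw [pow_eq_pow_mod k hw] at hk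
    have : k % 4 < 4 := Nat.mod_lt _ (by norm_num)
    rw [← hk]
    interval_cases k % 4
    · simp
    · simp
    · simp [pow_two]
    · right; right; right
      rw [eq_inv_iff_mul_eq_one, ← pow_succ, hw]
  have cj4' : ∀ w g : G, orderOf w = 4 → g * w * g⁻¹ = w ∨ g * w * g⁻¹ = w⁻¹ := by
    intro w g hw
    rcases cj4 w g (p4 w hw) with h | h | h | h
    · exact absurd (by rw [conj_eq_one_iff.1 h, one_mul]) (ne2 w hw)
    · exact Or.inl h
    · refine absurd ((conj_eq_one_iff (a := g)).1 ?_) (ne2 w hw)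
      rw [← conj_mul, h, ← p4 w hw]; simp [pow_succ, mul_assoc]
    · exact Or.inr h
  have hyx : y * x * y⁻¹ = x⁻¹ := (cj4' x y ox).resolve_left fun h => hxy (by rw [mul_inv_eq_iff_eq_mul] at h; exact h.symm)
  have hxy' : x * y * x⁻¹ = y⁻¹ := (cj4' y x oy).resolve_left fun h => hxy (by rw [mul_inv_eq_iff_eq_mul] at h; exact h)
  have hyy : y * y = x ^ 2 := by
    have h1 : x * x = y⁻¹ * y⁻¹ := by
      calc x * x = x * (y * x * y⁻¹)⁻¹ := by rw [hyx, inv_inv]
        _ = (x * y * x⁻¹) * y⁻¹ := by group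
        _ = _ := by rw [hxy']
    rw [pow_two, h1, ← mul_inv_rev, eq_inv_iff_mul_eq_one, ← p4 y oy]; simp [pow_succ, mul_assoc]
  obtain ⟨e⟩ := H8.nonempty_equiv_quaternion (n := 2) ox hyy hyx (by
    rintro ⟨k, rfl⟩; exact hxy ((Commute.refl x).zpow_right k).eq) _ rfl
  have nt : ∀ H : Subgroup G, ⊤ ≤ nrm H := fun H => by haveI := hn H; rw [normalizer_eq_top]
  have inP : ∀ w : G, orderOf w = 4 → w ∈ Op 2 (⊤ : Subgroup G) := fun w hw =>
    le_Op le_top (nt _) (IsPGroup.of_card (n := 2) (by rw [Nat.card_zpowers, hw]; rfl)) (mem_zpowers w)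
  set P := Op 2 (⊤ : Subgroup G) with hP
  set A := Op' 2 (⊤ : Subgroup G) with hA
  have hPA : P ⊓ A = ⊥ := Opi_inf_compl _ _ _
  have hsup : P ⊔ A = ⊤ := nilp_Opi_sup inferInstance _
  have hodd : Odd (ord A) := (Nat.coprime_two_right).1 (coprime_Op' 2 _)
  set C := P ⊓ cen1 x ⊓ cen1 y with hC
  have hsq : ∀ g ∈ C, g ^ 2 = 1 := by
    intro g hg
    by_contra hg2
    obtain ⟨k, hk⟩ := (IsPGroup.iff_orderOf.1 (isPGroup_Op 2 (⊤ : Subgroup G))) ⟨g, hg.1.1⟩
    rw [orderOf_mk] at hk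
    have h4 : 4 ∣ orderOf g := by
      rw [hk]
      refine pow_dvd_pow 2 (show 2 ≤ k from ?_)
      by_contra hlt
      exact hg2 (orderOf_dvd_iff_pow_eq_one.1 (hk ▸ (pow_dvd_pow 2 (show k ≤ 1 by omega)).trans (by norm_num)))
    obtain ⟨h, hh, oh⟩ := exists_ord_of_dvd h4
    have hh' : h ∈ C := zpowers_le.2 hg hh
    have c1 : h * x = x * h := mem_centralizer_singleton_iff.1 hh'.1.2
    have c2 : h * y = y * h := mem_centralizer_singleton_iff.1 hh'.2
    have e1 : y * (x * h) * y⁻¹ = x⁻¹ * h := by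
      rw [← hyx, ← mul_assoc, mul_assoc (y * x), mul_assoc (y * x), (show Commute h y from c2).inv_right.eq]
    have hcm : ∀ k : ℕ, x⁻¹ ≠ h ^ k := by
      intro k hk
      apply hxy
      rw [← inv_inv x, hk]
      exact ((show Commute h y from c2).pow_left k).inv_left.eq
    rcases cj4 (x * h) y (by rw [(show Commute x h from c1.symm).mul_pow, p4 x ox, p4 h oh, mul_one]) with h1 | h1 | h1 | h1
    · exact hcm 1 (by rw [pow_one, inv_eq_iff_mul_eq_one]; exact conj_eq_one_iff.1 h1)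
    · rw [e1] at h1
      exact ne2 x ox (by rw [← mul_right_cancel h1, mul_inv_eq_one, mul_right_cancel h1])
    · rw [e1] at h1
      have h2 : x⁻¹ = x * (h * x) := by rw [← mul_assoc]; exact mul_right_cancel (h1.trans (mul_assoc _ _ _).symm)
      refine hcm 3 ?_
      have h3 : x ^ 4 * h = x := by
        calc x ^ 4 * h = x * x * (x * (x * h)) := by simp [pow_succ, mul_assoc]
          _ = x := by rw [← c1, ← h2]; group
      rw [p4 x ox, one_mul] at h3
      rw [← h3, inv_eq_iff_mul_eq_one, ← pow_succ', p4 h oh]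
    · rw [e1, ← c1, mul_inv_rev] at h1
      exact ne2 h oh (by rw [← eq_inv_iff_mul_eq_one]; exact mul_left_cancel h1)
  have hz : x ^ 2 ∈ C := ⟨⟨pow_mem (inP x ox) 2, mem_centralizer_singleton_iff.2 ((Commute.refl x).pow_left 2).eq⟩,
    mem_centralizer_singleton_iff.2 (by rw [← hyy, mul_assoc])⟩
  have hz1 : x ^ 2 ≠ 1 := by rw [pow_two]; exact ne2 x ox
  obtain ⟨E, -, hE⟩ := Finite.exists_le_maximal (p := fun E : Subgroup G => E ≤ C ∧ x ^ 2 ∉ E) (a := ⊥) ⟨bot_le, by simpa using hz1⟩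
  set Q := closure ({x, y} : Set G) with hQ
  have xQ : x ∈ Q := subset_closure (by simp)
  have yQ : y ∈ Q := subset_closure (by simp)
  have hCE : C ≤ Q ⊔ E := by
    intro c hc
    by_cases h : x ^ 2 ∈ E ⊔ zpowers c
    · haveI := hn E
      obtain ⟨a, ha, b, hb, e1⟩ := (mem_sup_of_le_normalizer' (le_top.trans (nt E))).1 h
      obtain ⟨k, rfl⟩ : ∃ k : ℕ, c ^ k = b := (Submonoid.mem_powers_iff _ _).1 (mem_powers_iff_mem_zpowers.2 hb)
      rw [pow_eq_pow_mod k (hsq c hc)] at e1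
      rcases Nat.mod_two_eq_zero_or_one k with h2 | h2 <;> rw [h2] at e1
      · exact absurd (by rw [← e1]; simpa using ha) hE.1.2
      · rw [pow_one] at e1
        rw [eq_inv_mul_of_mul_eq e1]
        exact mul_mem (mem_sup_right (inv_mem ha)) (mem_sup_left (pow_mem xQ 2))
    · exact mem_sup_right (hE.2 ⟨sup_le hE.1.1 (zpowers_le.2 hc), h⟩ le_sup_left (mem_sup_right (mem_zpowers c)))
  have QP : Q ≤ P := by
    rw [hQ, closure_le]; rintro _ (rfl | rfl)
    · exact inP _ ox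
    · exact inP _ oy
  have EP : E ≤ P := hE.1.1.trans (inf_le_left.trans inf_le_left)
  refine ⟨Q, E, A, ⟨e⟩, ea_iff.2 ⟨le_cen_iff.2 fun a ha b hb => by
    have i : ∀ c ∈ E, c⁻¹ = c := fun c hc => by rw [inv_eq_iff_mul_eq_one, ← pow_two, hsq c (hE.1.1 hc)]
    rw [← i _ (mul_mem ha hb), mul_inv_rev, i a ha, i b hb], fun a ha => hsq a (hE.1.1 ha)⟩, ?_, hodd, le_bot_iff.1 (hPA ▸ inf_le_inf_right _ EP), ?_, ?_⟩
  · rw [← le_centralizer_iff_isMulCommutative]
    by_contra h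
    obtain ⟨a, ha, -, -, oa, -⟩ := ham_key hn A h
    have := Odd.of_dvd_nat hodd (orderOf_dvd_natCard A ha)
    rw [oa] at this; exact absurd this (by decide)
  · rw [eq_bot_iff]
    rintro q ⟨hq, hq'⟩
    obtain ⟨a, ha, b, hb, rfl⟩ := (mem_sup_of_le_normalizer' (le_top.trans (nt E))).1 hq'
    have hb1 : b = 1 := by
      rw [← mem_bot (G := G), ← hPA]
      exact ⟨by simpa using mul_mem (inv_mem (EP ha)) (QP hq), hb⟩
    rw [hb1, mul_one] at hq ⊢
    by_contra h1
    have u : ∀ u v : QuaternionGroup 2, u ^ 2 = 1 → v ^ 2 = 1 → u ≠ 1 → v ≠ 1 → u = v := by decide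
    have := u (e ⟨a, hq⟩) (e ⟨x ^ 2, pow_mem xQ 2⟩) (by rw [← map_pow, ← map_one e]; congr 1; exact Subtype.ext (hsq a (hE.1.1 ha)))
      (by rw [← map_pow, ← map_one e]; congr 1; exact Subtype.ext (hsq _ hz))
      (fun h => h1 (congrArg Subtype.val (e.map_eq_one_iff.1 h))) (fun h => hz1 (congrArg Subtype.val (e.map_eq_one_iff.1 h)))
    have h2 : a = x ^ 2 := congrArg Subtype.val (e.injective this)
    exact hE.1.2 (h2 ▸ ha)
  · rw [eq_top_iff, ← hsup, ← sup_assoc]
    refine sup_le_sup_right (fun g hg => ?_) _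
    have fin : ∀ q ∈ Q, (q * g) * x * (q * g)⁻¹ = x → (q * g) * y * (q * g)⁻¹ = y → g ∈ Q ⊔ E := by
      intro q hq h1 h2
      have := hCE ⟨⟨mul_mem (QP hq) hg, mem_centralizer_singleton_iff.2 (mul_inv_eq_iff_eq_mul.1 h1)⟩,
        mem_centralizer_singleton_iff.2 (mul_inv_eq_iff_eq_mul.1 h2)⟩
      simpa using mul_mem (mem_sup_left (inv_mem hq)) this
    have cc : ∀ q w : G, (q * g) * w * (q * g)⁻¹ = q * (g * w * g⁻¹) * q⁻¹ := fun q w => by group
    rcases cj4' x g ox with h1 | h1 <;> rcases cj4' y g oy with h2 | h2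
    · exact fin 1 (one_mem _) (by simpa using h1) (by simpa using h2)
    · exact fin x xQ (by rw [cc, h1]; group) (by rw [cc, h2, ← conj_inv, hxy', inv_inv])
    · exact fin y yQ (by rw [cc, h1, ← conj_inv, hyx, inv_inv]) (by rw [cc, h2]; group)
    · refine fin (x * y) (mul_mem xQ yQ) ?_ ?_
      · rw [cc, h1]
        calc x * y * x⁻¹ * (x * y)⁻¹ = x * (y * x * y⁻¹)⁻¹ * x⁻¹ := by group
          _ = x := by rw [hyx]; group
      · rw [cc, h2]
        calc x * y * y⁻¹ * (x * y)⁻¹ = (x * y * x⁻¹)⁻¹ := by group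
          _ = y := by rw [hxy', inv_inv]

end Cfsg.Agent.S4211
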