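import Cfsg.Statements.S4213
import Mathlib
import Cfsg.Agent.H8.ClassCount

set_option autoImplicit false
open Cfsg

namespace Cfsg.Agent.S4213

lemma ncard_preimage {G : Type*} [Group G] [Finite G] (K : Subgroup G) [K.Normal]
    (T : Set (G ⧸ K)) : {x : G | (x : G ⧸ K) ∈ T}.ncard = T.ncard * Nat.card K := by
  rw [← Nat.card_coe_set_eq, ← Nat.card_coe_set_eq, mul_comm, ← Nat.card_prod]
  exact Nat.card_congr (QuotientGroup.preimageMkEquivSubgroupProdSet K T)

universe u in
lemma aux (m : ℕ) : ∀ (G : Type u) [Group G] [Finite G] [Group.IsSolvable G], Nat.card G = m →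
    ∀ n, n ∣ Nat.card G → {x : G | x ^ n = 1}.ncard = n →
    ∃ H : Subgroup G, (H : Set G) = {x : G | x ^ n = 1} := by
  induction m using Nat.strong_induction_on with
  | _ m ih =>
  intro G _ _ _ hm n hn hcount
  have hn0 : 0 < n := Nat.pos_of_dvd_of_pos hn Nat.card_pos
  rcases subsingleton_or_nontrivial G with hG | hG
  · exact ⟨⊤, by ext x; simp [Subsingleton.elim x 1]⟩
  obtain ⟨K, hK⟩ := H1.exists_isMinNormal (G := G)
  haveI := hK.normal
  obtain ⟨-, p, hp, hpK, hKp⟩ := hK.elementary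
  haveI := Fact.mk hp
  obtain ⟨i, hi⟩ := (H1.isPGroup_of_pow_eq_one hKp).exists_card_eq
  have hlt : Nat.card (G ⧸ K) < m := hm ▸ H1.card_quotient_lt hK.ne_bot
  have hGK := Subgroup.card_eq_card_quotient_mul_card_subgroup K
  have hfin : ∀ H : Subgroup G, Nat.card H = n → (H : Set G) = {x : G | x ^ n = 1} := by
    intro H hH
    refine Set.eq_of_subset_of_ncard_le (fun x hx => ?_) (by rw [hcount, ← hH]; rfl)
    exact orderOf_dvd_iff_pow_eq_one.1 (hH ▸ H.orderOf_dvd_natCard hx)
  by_cases hpn : p ∣ n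
  · -- u = n / gcd (n, |K|)
    set d := n.gcd (Nat.card K) with hd
    obtain ⟨u, hu⟩ : d ∣ n := Nat.gcd_dvd_left _ _
    obtain ⟨v, hv⟩ : d ∣ Nat.card K := Nat.gcd_dvd_right _ _
    have hd0 : 0 < d := Nat.gcd_pos_of_pos_left _ hn0
    have huv : u.Coprime v := by
      have := hd
      rw [hu, hv, Nat.gcd_mul_left] at this
      exact Nat.eq_of_mul_eq_mul_left hd0 (by rw [mul_one]; exact this.symm)
    have hud : u ∣ Nat.card (G ⧸ K) := by
      rw [hGK, hu, hv, mul_left_comm] at hn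
      exact huv.dvd_of_dvd_mul_right (Nat.dvd_of_mul_dvd_mul_left hd0 hn)
    obtain ⟨k, hk⟩ := H8.dvd_card_pow_eq_one hud
    have hk' : {z : G ⧸ K | z ^ u = 1}.ncard = u * k := hk
    have hk0 : 0 < u * k := by
      rw [← hk']; exact (Set.ncard_pos).2 ⟨1, by simp⟩
    have hsub : {x : G | (x : G ⧸ K) ∈ {z : G ⧸ K | z ^ u = 1}} ⊆ {x : G | x ^ n = 1} := by
      intro x hx
      have h1 : x ^ u ∈ K := by
        rw [← QuotientGroup.eq_one_iff]; exact hx
      obtain ⟨e, he⟩ : p ∣ d := Nat.dvd_gcd hpn hpK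
      show x ^ n = 1
      rw [hu, he, mul_comm, pow_mul, pow_mul, hKp _ h1, one_pow]
    have hle := Set.ncard_le_ncard hsub
    rw [ncard_preimage, hk', hcount, hv, hu] at hle
    have hu0 : 0 < u := Nat.pos_of_mul_pos_right hk0
    have hkv : k * v ≤ 1 := by
      refine Nat.le_of_mul_le_mul_left (c := d * u) ?_ (Nat.mul_pos hd0 hu0)
      calc _ = u * k * (d * v) := by ring
        _ ≤ _ := by simpa using hle
    have hv0 : 0 < v := by
      have : 0 < d * v := hv ▸ Nat.card_pos
      exact Nat.pos_of_mul_pos_left this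
    have hk1 : 0 < k := Nat.pos_of_mul_pos_left hk0
    have hkv1 : k * v = 1 := le_antisymm hkv (Nat.mul_pos hk1 hv0)
    obtain rfl : k = 1 := Nat.eq_one_of_mul_eq_one_right hkv1
    obtain rfl : v = 1 := by simpa using hkv1
    obtain ⟨L, hL⟩ := ih _ hlt (G ⧸ K) rfl u hud (by simpa using hk')
    refine ⟨L.comap (QuotientGroup.mk' K), hfin _ ?_⟩
    rw [H1.card_comap_mk', hu, hv]
    have : Nat.card L = u := by
      rw [← mul_one u, ← hk', ← hL]; rfl
    rw [this]; ring
  · have hco : n.Coprime (Nat.card K) := by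
      rw [hi]; exact Nat.Coprime.pow_right _ ((hp.coprime_iff_not_dvd.2 hpn).symm)
    have hud : n ∣ Nat.card (G ⧸ K) := by
      rw [hGK] at hn; exact hco.dvd_of_dvd_mul_right hn
    have hsub : {z : G ⧸ K | z ^ n = 1} ⊆ (fun x : G => (x : G ⧸ K)) '' {x : G | x ^ n = 1} := by
      intro z hz
      obtain ⟨y, rfl⟩ := QuotientGroup.mk_surjective z
      have h1 : y ^ n ∈ K := by
        rw [← QuotientGroup.eq_one_iff]; exact hz
      obtain ⟨a, ha⟩ := exists_pow_eq_self_of_coprime (x := (y : G ⧸ K)) (n := p)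
        (Nat.Coprime.coprime_dvd_right (orderOf_dvd_of_pow_eq_one hz)
          (hp.coprime_iff_not_dvd.2 hpn))
      refine ⟨(y ^ p) ^ a, ?_, ha⟩
      show ((y ^ p) ^ a) ^ n = 1
      rw [← pow_mul, ← pow_mul, show p * (a * n) = n * p * a by ring, pow_mul, pow_mul, hKp _ h1,
        one_pow]
    have hle := (Set.ncard_le_ncard hsub).trans (Set.ncard_image_le (Set.toFinite _))
    rw [hcount] at hle
    have heq : {z : G ⧸ K | z ^ n = 1}.ncard = n := le_antisymm hle
      (Nat.le_of_dvd ((Set.ncard_pos).2 ⟨1, by simp⟩) (H8.dvd_card_pow_eq_one hud))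
    obtain ⟨L, hL⟩ := ih _ hlt (G ⧸ K) rfl n hud heq
    have hLc : Nat.card L = n := by rw [← heq, ← hL]; rfl
    have hKL : K ≤ L.comap (QuotientGroup.mk' K) := QuotientGroup.le_comap_mk' K L
    have hrel : K.relIndex (L.comap (QuotientGroup.mk' K)) = n := by
      have := H1.card_mul_relIndex hKL
      rw [H1.card_comap_mk', hLc, mul_comm n] at this
      exact Nat.eq_of_mul_eq_mul_left Nat.card_pos this
    obtain ⟨H, -, -, hH⟩ := H1.sz_exists_ambient hKL
      (by rw [Subgroup.normalizer_eq_top]; exact le_top) (by rw [hrel]; exact hco.symm)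
    exact ⟨H, hfin H (hH.trans hrel)⟩

/-- If `G` is a finite solvable group and `n` divides the order of `G` and exactly `n` elements `x` of `G` satisfy `x^n = 1`, then these elements form a normal subgroup. -/
theorem result {G : Type*} [Group G] [Finite G] [Group.IsSolvable G] (n : ℕ) (hn : n ∣ Nat.card G) (hcount : Nat.card {x : G // x ^ n = 1} = n) : ∃ H : Subgroup G, H.Normal ∧ (H : Set G) = {x : G | x ^ n = 1} := by
  obtain ⟨H, hH⟩ := aux _ G rfl n hn hcount
  refine ⟨H, ⟨fun x hx g => ?_⟩, hH⟩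
  have : x ∈ (H : Set G) := hx
  show _ ∈ (H : Set G)
  rw [hH] at this ⊢
  show _ = _
  rw [conj_pow, this]; simp

end Cfsg.Agent.S4213
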