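import Cfsg.Statements.S4214
import Cfsg.Agent.H2.Ms2
import Cfsg.Agent.H1.BG3d
import Cfsg.Agent.H1.U1
import Cfsg.Agent.H8.SylNum

set_option autoImplicit false
open Cfsg

namespace Cfsg.Agent.S4214

open Subgroup hiding upperCentralSeries
open H2 Cfsg.FusionSystem

open Subgroup H2 H7 H1B
theorem aux {G : Type*} [Group G] [Finite G] {V B : Subgroup G} (s : Group.IsSolvable B) (n : B ≤ nrm V)
    (c : (ord V).Coprime (ord B)) : ∃ l : List ℕ, (cen B).relIndex V = l.prod ∧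
      ∀ a ∈ l, a ∣ ord V ∧ ∃ q, q.Prime ∧ q ∣ ord B ∧ a ≡ 1 [MOD q] := by
  induction B using WellFoundedLT.induction with | ind B ih
  by_cases e : B = ⊥
  · exact ⟨[], by simp [e], by simp⟩
  obtain ⟨N, l, -, m, ⟨q, hq, a⟩, -⟩ := exists_top_section s e (le_nrm_self B)
  haveI := Fact.mk hq
  obtain ⟨Q, hQ⟩ := H2.exists_isSylowIn q B
  have t := syl_sup_normal hQ l.le (card_im_qm m ▸ piN_iff_isPGroup.2 a.isPGroup)
  have d := (dvd_card_of_ne_bot hQ.isPGroup fun e => l.ne (by rwa [e, sup_bot_eq] at t)).trans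
    (card_dvd_of_le hQ.le)
  obtain ⟨L, h1, h2⟩ := ih N l (solv_of_le l.le s) (l.le.trans n) (c.coprime_dvd_right (card_dvd_of_le l.le))
  refine ⟨(cen Q).relIndex (V ⊓ cen N) :: L, ?_, fun a ha => ?_⟩
  · rw [List.prod_cons, ← h1, ← inf_relIndex_left V (cen N), ← inf_relIndex_left (V ⊓ cen N),
      relIndex_mul_relIndex _ _ _ inf_le_left inf_le_left, inf_assoc, ← cen_sup, t, inf_relIndex_left]
  rcases List.mem_cons.1 ha with rfl | ha
  · exact ⟨(relIndex_dvd_card _ _).trans (card_dvd_of_le inf_le_left), q, hq, d,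
      H8.cen_relIndex_modEq hQ.isPGroup ((c.coprime_dvd_left (card_dvd_of_le inf_le_left)).coprime_dvd_right d)
        (nrm_inf (hQ.le.trans n) (nrm_cen (hQ.le.trans m)))⟩
  · obtain ⟨a, q, b, c, d⟩ := h2 a ha
    exact ⟨a, q, b, c.trans (card_dvd_of_le l.le), d⟩

/-- Let `G` be a finite solvable group of order `mn` with `gcd(m, n) = 1`. Then the number of subgroups of order `m` is a product of natural numbers each of which is a power of a prime, divides the order of some chief factor of `G` (a quotient `L/K` of normal subgroups `K < L` of `G` with no normal subgroup of `G` strictly between them), and is congruent to `1` modulo some prime divisor of `m`. -/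
theorem result {G : Type*} [Group G] [Finite G] [Group.IsSolvable G] (m n : ℕ) (hG : Nat.card G = m * n) (hmn : Nat.Coprime m n) : ∃ (k : ℕ) (f : Fin k → ℕ), Nat.card {H : Subgroup G // Nat.card H = m} = ∏ i, f i ∧ ∀ i, (∃ q e : ℕ, q.Prime ∧ f i = q ^ e) ∧ (∃ K L : Subgroup G, K.Normal ∧ L.Normal ∧ K < L ∧ (∀ M : Subgroup G, M.Normal → K ≤ M → M ≤ L → M = K ∨ M = L) ∧ f i ∣ K.relIndex L) ∧ (∃ q : ℕ, q.Prime ∧ q ∣ m ∧ f i ≡ 1 [MOD q]) := by
  have s : Group.IsSolvable (⊤ : Subgroup G) := inferInstance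
  obtain ⟨H, hH⟩ := exists_hall {p | p ∣ m} s
  have pm : PiN {p | p ∣ m} m := fun _ _ h => h
  have o : ord H = m := by
    have a := H.card_mul_index
    rw [hG, ← relIndex_top_right] at a
    refine Nat.dvd_antisymm (Nat.Coprime.dvd_of_dvd_mul_right ?_ (Dvd.intro _ a))
      ((pm.coprime hH.idx).dvd_of_dvd_mul_right (Dvd.intro _ a.symm))
    exact Nat.coprime_of_dvd fun p hp d d' => hp.ne_one (Nat.eq_one_of_dvd_coprimes hmn (hH.pi p hp d) d')
  have c : Nat.card {H : Subgroup G // Nat.card H = m} = (nrm (H ⊔ ⊥)).index := by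
    letI : MulAction G (Subgroup G) := 
      { smul := fun g K => cj g K, one_smul := fun K => H2.cj_one K, mul_smul := H7.cj_mul }
    rw [sup_bot_eq, show nrm H = MulAction.stabilizer G H from Subgroup.ext fun _ => cj_eq_self_iff.symm,
      MulAction.index_stabilizer]
    refine Nat.card_congr (Equiv.subtypeEquivRight fun K => ⟨fun h => ?_, ?_⟩)
    · exact (hH.conj (hH.of_card_le le_top (h ▸ pm) (o.trans h.symm).le) s).imp fun _ h => h.2
    · rintro ⟨g, rfl⟩
      exact (H7.card_cj g H).trans o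
  rw [c]
  suffices ∀ K : Subgroup G, K.Normal → ∃ l : List ℕ, (nrm (H ⊔ K)).index = l.prod ∧ ∀ a ∈ l,
      (∃ q e : ℕ, q.Prime ∧ a = q ^ e) ∧ (∃ K L : Subgroup G, K.Normal ∧ L.Normal ∧ K < L ∧
        (∀ M : Subgroup G, M.Normal → K ≤ M → M ≤ L → M = K ∨ M = L) ∧ a ∣ K.relIndex L) ∧
          ∃ q : ℕ, q.Prime ∧ q ∣ m ∧ a ≡ 1 [MOD q] by
    obtain ⟨l, a, b⟩ := this ⊥ inferInstance
    exact ⟨l.length, fun i => l[i.1], a.trans (Fin.prod_univ_getElem l).symm, fun i => b _ (List.getElem_mem _)⟩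
  intro K hK
  induction K using WellFoundedGT.induction with | ind K ih
  by_cases e : K = ⊤
  · exact ⟨[], by simp [e], by simp⟩
  have nK := le_nrm_of_normal ⊤ K
  obtain ⟨L, l, -, nL, mx, p, hp, V⟩ := exists_chief_above s (lt_top_iff_ne_top.2 e) (le_nrm_self _) nK nK
  haveI := Fact.mk hp
  haveI hL := normal_iff_top_le_nrm.2 nL
  obtain ⟨l1, h1, h2⟩ := ih L l hL
  have a : nrm (H ⊔ K) ≤ nrm (H ⊔ L) := by
    rw [← sup_eq_right.2 l.le, ← sup_assoc]
    exact nrm_sup le_rfl (le_nrm_of_normal _ _)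
  have b : nrm (H ⊔ K) ⊔ L = nrm (H ⊔ L) := le_antisymm (sup_le a (le_sup_right.trans (le_nrm_self _))) (by
    rw [← (hH.mono le_sup_left le_top).frattini (solv_of_le le_top s) (le_nrm_self (H ⊔ L)) le_rfl]
    exact sup_le (le_sup_of_le_left (inf_le_right.trans (nrm_sup le_rfl (le_nrm_of_normal _ _))))
      (sup_le_sup_right (le_sup_left.trans (le_nrm_self _)) _))
  have o2 := card_im_qm (le_top.trans nK : L ≤ _)
  obtain ⟨l2, h3, h4⟩ : ∃ l : List ℕ, (nrm (H ⊔ K)).relIndex L = l.prod ∧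
      ∀ a ∈ l, a ∣ ord (im (qm K) L) ∧ ∃ q, q.Prime ∧ q ∣ m ∧ a ≡ 1 [MOD q] := by
    by_cases d : p ∣ m
    · refine ⟨[], relIndex_eq_one.2 (.trans ?_ (le_nrm_self _)), by simp⟩
      rw [← (hH.inf le_top (le_nrm_of_normal H L)).sup_normal l.le
        ((o2 ▸ piN_iff_isPGroup.2 V.isPGroup).mono (Set.singleton_subset_iff.2 d))]
      exact sup_le_sup_right inf_le_left _
    have cp : (ord (im (qm K) H)).Coprime p := coprime_im _ (o ▸ coprime_iff_not_dvd.2 d)
    have n := im_le_nrm (qm K) (le_nrm_of_normal H L)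
    obtain ⟨l', a, b⟩ := aux (solv_im (qm K) (solv_of_le le_top s)) n (coprime_of_isPGroup V.isPGroup cp).symm
    refine ⟨l', ?_, fun x hx => ⟨(b x hx).1, (b x hx).2.imp fun q h =>
      ⟨h.1, h.2.1.trans (o ▸ card_im_dvd _ _), h.2.2⟩⟩⟩
    rw [← a, ← inf_relIndex_left, ← inf_relIndex_left _ (cen _), ← H8.nrm_inf_eq_cen n
      ((inf_comm _ _).trans (H7.inf_eq_bot_of_isPGroup V.isPGroup cp)), ← im_qm_sup (A := H) (le_top.trans nK),
      ← im_nrm_inf (le_top.trans nK) (le_top.trans nK) ((kr_qm K).le.trans le_sup_right),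
      relIndex_im (le_top.trans nK) ((kr_qm K).le.trans (le_inf l.le (le_sup_right.trans (le_nrm_self _))))]
  refine ⟨l2 ++ l1, ?_, fun x hx => (List.mem_append.1 hx).elim (fun hx => ?_) (h2 x)⟩
  · rw [List.prod_append, ← h1, ← h3, ← relIndex_mul_index a, ← b,
      H8.relIndex_sup_of_le le_rfl (le_nrm_of_normal _ _)]
  obtain ⟨k, hk⟩ := V.isPGroup.exists_card_eq
  refine ⟨?_, ⟨K, L, hK, hL, l, fun M hM a b => mx M a b (le_nrm_of_normal _ _), o2 ▸ (h4 x hx).1⟩, (h4 x hx).2⟩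
  obtain ⟨j, -, e⟩ := (Nat.dvd_prime_pow hp).1 (hk ▸ (h4 x hx).1)
  exact ⟨p, j, hp, e⟩

end Cfsg.Agent.S4214
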