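import Cfsg.Statements.S4216
import Cfsg.Agent.H7.Tk7

set_option autoImplicit false
open Cfsg

namespace Cfsg.Agent.S4216
open H7
open scoped commutatorElement

/-- Grün's first Theorem: if `P` is a Sylow `p`-subgroup of the finite group `G`, then `P ∩ G'` is the subgroup generated by `P ∩ N_G(P)'` together with the subgroups `P ∩ z P' z⁻¹` for all `z ∈ G`, where `'` denotes the derived subgroup and `N_G(P)` the normalizer of `P`. -/
theorem result {G : Type*} [Group G] [Finite G] {p : ℕ} [Fact p.Prime] (P : Sylow p G) : (P : Subgroup G) ⊓ commutator G = ((P : Subgroup G) ⊓ ⁅Subgroup.normalizer ((P : Subgroup G) : Set G), Subgroup.normalizer ((P : Subgroup G) : Set G)⁆) ⊔ ⨆ z : G, (P : Subgroup G) ⊓ (⁅(P : Subgroup G), (P : Subgroup G)⁆).map (MulAut.conj z).toMonoidHom := by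
  open Subgroup in
  have hP := H2.sylow_isSylowIn_top P
  refine le_antisymm ?_ (le_inf (sup_le inf_le_left (iSup_le fun _ => inf_le_left)) (sup_le (inf_le_right.trans
    (commutator_mono le_top le_top)) (iSup_le fun z => inf_le_right.trans ((map_commutator _ _ _).le.trans
      (commutator_mono le_top le_top)))))
  rw [inf_comm, H2.sylow_commutator_inf_eq_foc]
  refine foc_le_of_tame hP (le_sup_of_le_left (le_inf (comm_le_left le_rfl) (commutator_mono (le_nrm_self _) le_rfl)))
    fun D ⟨Q, q1, q2, q3, q4⟩ x hx px => le_sup_of_le_right ?_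
  have l : D ≤ P := q2.ge.trans inf_le_left
  obtain ⟨g, -, hg⟩ := hP.exists_cj_le (isPGroup_sup (zpowers_le.2 hx) px (hP.isPGroup.to_le l)) le_top
  refine le_iSup_of_le g⁻¹ (le_inf ((comm_le_left (zpowers_le.2 hx)).trans l) ?_)
  change _ ≤ H2.cj g⁻¹ _
  rw [cj_commutator]
  rw [cj_le_iff] at hg
  exact commutator_mono (le_sup_right.trans hg) (le_sup_left.trans hg)

end Cfsg.Agent.S4216
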