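import Cfsg.Statements.S4217
import Mathlib
import Cfsg.Agent.H8.ClassCount
import Cfsg.Agent.H1.Gaschutz

set_option autoImplicit false
open Cfsg

namespace Cfsg.Agent.S4217

open Subgroup H1 in
open scoped IsMulCommutative in
lemma crossed_transfer {G : Type*} [Group G] [Finite G] {K U : Subgroup G} [K.Normal]
    [IsMulCommutative K] (hKU : K ≤ U) {A : Subgroup G} (hAK : A ⊓ K = ⊥) (hKA : K ⊔ A = U) :
    ∃ C : G → K, (∀ g h, C (g * h) = C g * MulAut.conjNormal g (C h)) ∧
      ∀ k : K, C k = k ^ U.index := by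
  obtain ⟨δ, h1, h2, -⟩ := exists_crossed_of_complement hAK hKA
  have := Fintype.ofFinite (G ⧸ U)
  have hc : ∀ (g : G) (t : G ⧸ U), (g • t).out⁻¹ * g * t.out ∈ U := fun g t => by
    rw [mul_assoc, ← QuotientGroup.eq, QuotientGroup.out_eq', ← smul_eq_mul,
      ← MulAction.Quotient.smul_mk, QuotientGroup.out_eq']
  let C : G → K := fun g =>
    ∏ t : G ⧸ U, MulAut.conjNormal (g • t).out (δ ((g • t).out⁻¹ * g * t.out))
  refine ⟨C, fun g h => ?_, fun k => ?_⟩
  · simp only [C]
    rw [map_prod, ← Equiv.prod_comp (MulAction.toPerm h)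
      (fun t : G ⧸ U => MulAut.conjNormal (g • t).out (δ ((g • t).out⁻¹ * g * t.out))),
      ← Finset.prod_mul_distrib]
    refine Finset.prod_congr rfl fun t _ => ?_
    rw [MulAction.toPerm_apply, mul_smul, show (g • h • t).out⁻¹ * (g * h) * t.out =
      ((g • h • t).out⁻¹ * g * (h • t).out) * ((h • t).out⁻¹ * h * t.out) by group,
      h1 _ (hc _ _) _ (hc _ _), map_mul, ← conjNormal_mul, ← conjNormal_mul]
    congr 3
    group
  · have : ∀ t : G ⧸ U, (k : G) • t = t := fun t => by
      induction t using QuotientGroup.induction_on with | H x =>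
      rw [MulAction.Quotient.smul_mk, QuotientGroup.eq]
      apply hKU
      have := ‹K.Normal›.conj_mem' _ (K.inv_mem k.2) x
      simpa [mul_assoc] using this
    simp only [C, this]
    rw [Finset.prod_congr rfl fun (t : G ⧸ U) _ => show MulAut.conjNormal t.out
      (δ (t.out⁻¹ * k * t.out)) = k by
        rw [show t.out⁻¹ * k * t.out = (MulAut.conjNormal t.out⁻¹ k : K) by simp, h2,
          ← conjNormal_mul]; simp]
    rw [Finset.prod_const, Finset.card_univ, Fintype.card_eq_nat_card, ← index_eq_card]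

/-- Let `A` be an abelian normal subgroup of the finite group `G`. Then `A` has a complement in `G` if and only if, for every prime `p` dividing the index of `A`, there are a Sylow `p`-subgroup `S` of `G/A` and a subgroup `K` of `G` with `K ∩ A = 1` and `KA` equal to the preimage of `S` (that is, `A` has a complement in the preimage of a Sylow `p`-subgroup of `G/A`). -/
theorem result {G : Type*} [Group G] [Finite G] (A : Subgroup G) [A.Normal] (hA : IsMulCommutative A) : (∃ K : Subgroup G, K.IsComplement' A) ↔ ∀ p : ℕ, p.Prime → p ∣ A.index → ∃ (S : Sylow p (G ⧸ A)) (K : Subgroup G), K ⊓ A = ⊥ ∧ K ⊔ A = (S : Subgroup (G ⧸ A)).comap (QuotientGroup.mk' A) := by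
  constructor
  · rintro ⟨K, hK⟩ p hp _
    haveI := Fact.mk hp
    obtain ⟨S⟩ : Nonempty (Sylow p (G ⧸ A)) := inferInstance
    have h := H1.isComplement'_iff_sup_inf.1 hK.symm
    refine ⟨S, K ⊓ (S : Subgroup (G ⧸ A)).comap (QuotientGroup.mk' A), ?_, ?_⟩
    · rw [eq_bot_iff, ← h.2]; exact inf_le_inf_right _ inf_le_left
    · rw [← H1.dedekind_right Subgroup.le_normalizer_of_normal (QuotientGroup.le_comap_mk' A _),
        h.1, top_inf_eq]
  · intro h
    open scoped IsMulCommutative in
    let T : AddSubgroup ℤ :=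
      { carrier := {n | ∃ C : G → A, (∀ g h, C (g * h) = C g * MulAut.conjNormal g (C h)) ∧
          ∀ k : A, C k = k ^ n}
        zero_mem' := ⟨fun _ => 1, by simp, by simp⟩
        add_mem' := by
          rintro a b ⟨C, h1, h2⟩ ⟨D, h3, h4⟩
          refine ⟨fun g => C g * D g, fun g h => ?_, fun k => by simp only [h2, h4, zpow_add]⟩
          simp only [h1, h3, map_mul]
          exact mul_mul_mul_comm _ _ _ _
        neg_mem' := by
          rintro a ⟨C, h1, h2⟩
          refine ⟨fun g => (C g)⁻¹, fun g h => ?_, fun k => by simp only [h2, zpow_neg]⟩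
          simp only [h1, map_inv, mul_inv] }
    have hT : ∀ U K : Subgroup G, K ⊓ A = ⊥ → K ⊔ A = U → (U.index : ℤ) ∈ T := by
      intro U K h1 h2
      obtain ⟨C, h3, h4⟩ := crossed_transfer (K := A) (U := U) (h2 ▸ le_sup_right) h1
        ((sup_comm _ _).trans h2)
      exact ⟨C, h3, fun k => by rw [h4, zpow_natCast]⟩
    obtain ⟨d, hd⟩ := Int.subgroup_cyclic T
    have hdvd : ∀ n : ℕ, (n : ℤ) ∈ T → d.natAbs ∣ n := by
      intro n hn
      rw [hd, AddSubgroup.mem_closure_singleton] at hn
      obtain ⟨m, hm⟩ := hn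
      exact Int.natAbs_dvd_natAbs.2 (show d ∣ (n : ℤ) from ⟨m, by rw [← hm]; simp [mul_comm]⟩)
    have h1 : d.natAbs = 1 := by
      by_contra hne
      obtain ⟨p, hp, hpd⟩ := Nat.exists_prime_and_dvd hne
      haveI := Fact.mk hp
      obtain ⟨S, K, h2, h3⟩ := h p hp (hpd.trans (hdvd _ (hT A ⊥ (by simp) (by simp))))
      have := hpd.trans (hdvd _ (hT _ K h2 h3))
      rw [Subgroup.index_comap_of_surjective _ (QuotientGroup.mk'_surjective A)] at this
      exact S.not_dvd_index this
    have h2 : (1 : ℤ) ∈ T := by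
      have hdT : d ∈ T := by rw [hd]; exact AddSubgroup.subset_closure rfl
      rcases Int.natAbs_eq_iff.1 h1 with h | h
      · simpa [h] using hdT
      · simpa [h] using T.neg_mem hdT
    obtain ⟨C, h3, h4⟩ := h2
    obtain ⟨H, hH⟩ := H1.isComplement'_of_crossed C h3 (fun k => by rw [h4, zpow_one])
    exact ⟨H, hH.symm⟩

end Cfsg.Agent.S4217
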