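import Cfsg.Statements.S4218
import Mathlib
import Cfsg.Agent.H8.ClassCount
import Cfsg.Agent.H1.Coprime

set_option autoImplicit false
open Cfsg

namespace Cfsg.Agent.S4218

open Subgroup in
lemma mem_frattini_iff {X Y : Type*} [Group X] [Group Y] {f : X →* Y} (hf : Function.Surjective f)
    (x : X) : f x ∈ frattini Y ↔ ∀ M : Subgroup X, IsCoatom M → f.ker ≤ M → x ∈ M := by
  rw [← zpowers_le, H1.le_frattini_iff]
  simp only [zpowers_le]
  constructor
  · intro h M hM hk
    have := h _ (H8.isCoatom_map_of_surjective hf hM hk)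
    rwa [← mem_comap, comap_map_eq, sup_eq_left.2 hk] at this
  · intro h M hM
    exact h _ (isCoatom_comap_of_surjective hf hM) (ker_le_comap f M)

open Subgroup in
lemma core {G : Type*} [Group G] [Finite G] {p : ℕ} [Fact p.Prime] (hG : Cfsg.IsPSolvable p G)
    (h1 : Cfsg.pPrimeCore p G = ⊥) (g : G) :
    (∀ x ∈ Cfsg.pCore p G, g * x * g⁻¹ * x⁻¹ ∈ (frattini (Cfsg.pCore p G)).map (Cfsg.pCore p G).subtype) ↔
      g ∈ Cfsg.pCore p G := by
  have hp : p.Prime := Fact.out
  set P := Cfsg.pCore p G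
  set F := (frattini P).map P.subtype
  constructor
  · intro h
    let C := (centralizer (P.map (QuotientGroup.mk' F) : Set (G ⧸ F))).comap (QuotientGroup.mk' F)
    haveI : (P.map (QuotientGroup.mk' F)).Normal :=
      Normal.map inferInstance _ (QuotientGroup.mk'_surjective F)
    have hC : ∀ X : Subgroup G, X ≤ C ↔ ⁅X, P⁆ ≤ F := by
      intro X
      rw [← map_le_iff_le_comap, ← commutator_eq_bot_iff_le_centralizer, ← map_commutator,
        Subgroup.map_eq_bot_iff, QuotientGroup.ker_mk']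
    have hg : g ∈ C := by
      rintro _ ⟨x, hx, rfl⟩
      have := (QuotientGroup.eq_one_iff _).2 (h x hx)
      simp only [QuotientGroup.mk_mul, QuotientGroup.mk_inv] at this
      simp only [QuotientGroup.mk'_apply]
      rw [mul_inv_eq_one, mul_inv_eq_iff_eq_mul] at this
      exact this.symm
    refine H1.le_pCore (N := C) ?_ hg
    rw [H1.isPGroup_iff_piNum]
    intro q hq hd
    by_contra hqp
    obtain ⟨y, hy, hyo⟩ := H1.exists_mem_orderOf_eq_prime hq hd
    have hc : (Nat.card (zpowers y)).Coprime p := by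
      rw [Nat.card_zpowers, hyo]; exact (Nat.coprime_primes hq hp).2 hqp
    have h2 := H1.coprime_centralizes_of_frattini (A := zpowers y) (K := P) le_normalizer_of_normal
      (H1.IsPGroup.coprime_card_of_coprime (H1.isPGroup_pCore.to_subgroup _) hc).symm
      (by rw [commutator_comm]; exact (hC _).1 (zpowers_le.2 hy))
    have h3 := h2.trans (H1.centralizer_pCore_le_of_isPSolvable hG h1)
    have h4 := H1.IsPGroup.coprime_card_of_coprime (H1.isPGroup_pCore.to_le h3) hc
    rw [Nat.coprime_self, Nat.card_zpowers, hyo] at h4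
    exact hq.one_lt.ne' h4
  · intro hg x hx
    haveI : Group.IsNilpotent P := H1.isPGroup_pCore.isNilpotent
    exact H1.commutator_le_map_frattini P (commutator_mem_commutator hg hx)

/-- Let `G` be a finite `p`-solvable group, `N₀ = O_{p'}(G)`, `P₁ = O_{p',p}(G)`, and let `F ≤ P₁` be the preimage of the Frattini subgroup of `P₁/N₀`. Then an element `g` of `G` induces the identity on `P₁/F` by conjugation (that is, `g x g⁻¹ x⁻¹ ∈ F` for all `x ∈ P₁`) if and only if `g ∈ P₁`: the group `G/P₁` acts faithfully on `P₁/F`. -/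
theorem result {G : Type*} [Group G] [Finite G] {p : ℕ} [Fact p.Prime] (hG : Cfsg.IsPSolvable p G) (g : G) : (∀ x ∈ Cfsg.pPrimePCore p G, g * x * g⁻¹ * x⁻¹ ∈ ((frattini (↥(Cfsg.pPrimePCore p G) ⧸ (Cfsg.pPrimeCore p G).subgroupOf (Cfsg.pPrimePCore p G))).comap (QuotientGroup.mk' ((Cfsg.pPrimeCore p G).subgroupOf (Cfsg.pPrimePCore p G)))).map (Cfsg.pPrimePCore p G).subtype) ↔ g ∈ Cfsg.pPrimePCore p G := by
  have hp : p.Prime := Fact.out
  set N := Cfsg.pPrimeCore p G
  have hG' : Cfsg.IsPSolvable p (G ⧸ N) := by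
    rw [H1.isPSolvable_iff_piSep hp] at hG ⊢
    exact hG.quotient N
  have h := core hG' H1.pPrimeCore_quotient_pPrimeCore (g : G ⧸ N)
  refine Iff.trans ?_ h
  let f : Cfsg.pPrimePCore p G →* Cfsg.pCore p (G ⧸ N) := (QuotientGroup.mk' N).subgroupComap _
  have hf : Function.Surjective f :=
    MonoidHom.subgroupComap_surjective_of_surjective _ _ (QuotientGroup.mk'_surjective N)
  have hk : f.ker = (QuotientGroup.mk' (N.subgroupOf (Cfsg.pPrimePCore p G))).ker := by
    ext x
    rw [QuotientGroup.ker_mk', MonoidHom.mem_ker, Subtype.ext_iff, Subgroup.mem_subgroupOf,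
      ← QuotientGroup.eq_one_iff]
    rfl
  have key : ∀ y : Cfsg.pPrimePCore p G, QuotientGroup.mk' (N.subgroupOf (Cfsg.pPrimePCore p G)) y ∈
      frattini _ ↔ f y ∈ frattini _ := by
    intro y
    rw [mem_frattini_iff hf, mem_frattini_iff (QuotientGroup.mk'_surjective _), hk]
  constructor
  · intro h x hx
    obtain ⟨x, rfl⟩ := QuotientGroup.mk_surjective x
    obtain ⟨y, hy, e⟩ := h x hx
    exact ⟨f y, (key y).1 hy, congrArg (QuotientGroup.mk' N) e⟩
  · intro h x hx
    obtain ⟨y, hy, e⟩ := h x hx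
    have hm : g * x * g⁻¹ * x⁻¹ ∈ Cfsg.pPrimePCore p G := by
      show ((g * x * g⁻¹ * x⁻¹ : G) : G ⧸ N) ∈ Cfsg.pCore p (G ⧸ N)
      have : ((g * x * g⁻¹ * x⁻¹ : G) : G ⧸ N) = y := e.symm
      rw [this]; exact y.2
    refine ⟨⟨_, hm⟩, (key _).2 ?_, rfl⟩
    have : f ⟨_, hm⟩ = y := Subtype.ext e.symm
    rw [this]; exact hy

end Cfsg.Agent.S4218
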