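import Cfsg.Statements.S4219
import Mathlib
import Cfsg.Agent.H8.TwoTrans
import Cfsg.Agent.H1.SylowIn

set_option autoImplicit false
open Cfsg

namespace Cfsg.Agent.S4219

/-- Let a finite group `G` act `t`-fold transitively on a finite set, let `H` be the stabilizer of `t` distinct points and `P` a Sylow `p`-subgroup of `H`. Then the normalizer of `P` in `G` is `t`-fold transitive on the fixed points of `P`: any `t` distinct fixed points of `P` can be carried to any other `t` distinct fixed points of `P` by an element normalizing `P`. -/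
theorem result {G : Type*} [Group G] [Finite G] {α : Type*} [Fintype α] [MulAction G α] {t : ℕ} (hG : MulAction.IsMultiplyPretransitive G α t) (x : Fin t ↪ α) {p : ℕ} [Fact p.Prime] (P : Sylow p (MulAction.stabilizer G x)) (a b : Fin t ↪ α) (ha : ∀ i, a i ∈ MulAction.fixedPoints ((P : Subgroup (MulAction.stabilizer G x)).map (MulAction.stabilizer G x).subtype) α) (hb : ∀ i, b i ∈ MulAction.fixedPoints ((P : Subgroup (MulAction.stabilizer G x)).map (MulAction.stabilizer G x).subtype) α) : ∃ g ∈ Subgroup.normalizer ((((P : Subgroup (MulAction.stabilizer G x)).map (MulAction.stabilizer G x).subtype) : Subgroup G) : Set G), g • a = b := by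
  set S := (P : Subgroup (MulAction.stabilizer G x)).map (MulAction.stabilizer G x).subtype
  have hS : H1.IsSylowIn p S (MulAction.stabilizer G x) := H1.isSylowIn_map_subtype P
  have key : ∀ c : Fin t ↪ α, (∀ i, c i ∈ MulAction.fixedPoints S α) →
      ∃ g ∈ Subgroup.normalizer (S : Set G), g • c = x := by
    intro c hc
    obtain ⟨g, hg⟩ := hG.exists_smul_eq c x
    obtain ⟨h, hh, hn⟩ := H8.exists_mul_mem_normalizer_of_sylow hS.isPGroup hS.le hS.not_dvd
      (g := g) (by
        intro s hs
        have : s • c = c := by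
          ext i; exact hc i ⟨s, hs⟩
        rw [MulAction.mem_stabilizer_iff, ← hg, mul_smul, inv_smul_smul, mul_smul, this])
    exact ⟨h * g, hn, by rw [mul_smul, hg]; exact hh⟩
  obtain ⟨g, hg, e1⟩ := key a ha
  obtain ⟨h, hh, e2⟩ := key b hb
  exact ⟨h⁻¹ * g, Subgroup.mul_mem _ (Subgroup.inv_mem _ hh) hg, by
    rw [mul_smul, e1, inv_smul_eq_iff, e2]⟩

end Cfsg.Agent.S4219
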