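import Cfsg.Statements.S4220
import Mathlib
import Cfsg.Agent.H8.JK3
import Cfsg.Agent.S0415

set_option autoImplicit false
open Cfsg

namespace Cfsg.Agent.S4220

/-- Let `n = kp + r` with `p` prime, `1 ≤ k < p` and `r > k`, excluding the case `k = 1, r = 2`. Then a permutation group of degree `n` that is `(r + 1)`-fold transitive contains the alternating group. -/
theorem result {α : Type*} [Fintype α] [DecidableEq α] (G : Subgroup (Equiv.Perm α)) {k p r : ℕ} (hp : p.Prime) (hn : Fintype.card α = k * p + r) (hk : 1 ≤ k) (hpk : k < p) (hrk : k < r) (hex : ¬ (k = 1 ∧ r = 2)) (hG : MulAction.IsMultiplyPretransitive G α (r + 1)) : alternatingGroup α ≤ G := by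
  classical
  haveI := Fact.mk hp
  by_contra hA
  have hΩ : Nat.card α = k * p + r := Nat.card_eq_fintype_card.trans hn
  have kp : k * 2 ≤ k * p := Nat.mul_le_mul_left k hp.two_le
  have r3 : 3 ≤ r := by omega
  have cr : r + 1 ≤ Nat.card α := by omega
  have h4 : MulAction.IsMultiplyPretransitive G α 4 :=
    MulAction.isMultiplyPretransitive_of_le (n := r + 1) (by omega) cr
  have prim := MulAction.isPreprimitive_of_is_two_pretransitive
    (MulAction.isMultiplyPretransitive_of_le (G := G) (α := α) (n := r + 1) (by omega) cr)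
  have sp : ∀ g : G, {y : α | g • y ≠ y}.ncard = g.1.support.card := fun g => by
    rw [← Set.ncard_coe_finset]; congr 1; ext y; simp [Subgroup.smul_def]
  have small : 8 ≤ Nat.card α → ∀ e : G, {y : α | e • y ≠ y}.ncard ≤ 4 → e = 1 := fun c e h =>
    by_contra fun e1 => hA ((H8.alt_of_small h4 c e1 h).trans (by rintro _ ⟨g, rfl⟩; exact g.2))
  have nc : ∀ q : ℕ, q.Prime → q + 3 ≤ Nat.card α → ∀ x : G, orderOf x = q →
      2 * q ≤ {y : α | x • y ≠ y}.ncard := fun q hq h3 x o => by
    by_contra h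
    rw [← Subgroup.orderOf_coe] at o
    have c := Equiv.Perm.isCycle_of_prime_order (o ▸ hq) (by rw [o, ← sp]; omega)
    exact hA (H8.jordan_prime_cycle _ prim hq (by rwa [← Nat.card_eq_fintype_card]) c
      (c.orderOf.symm.trans o) x.2)
  by_cases n9 : Nat.card α = 9
  · have := Cfsg.Agent.S0415.result G (by omega) fun x => by
      by_contra h
      obtain ⟨q, hq, hd⟩ := Nat.exists_prime_and_dvd (mt Subgroup.card_eq_one.1 h)
      haveI := Fact.mk hq
      obtain ⟨e, he⟩ := exists_prime_orderOf_dvd_card' q hd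
      rw [← Subgroup.orderOf_coe] at he
      have a := Set.ncard_le_ncard (show {y : α | e.1 • y ≠ y} ⊆ (Set.range x)ᶜ by
        rintro _ h ⟨i, rfl⟩; exact h (DFunLike.congr_fun e.2 i))
      have b := Set.ncard_add_ncard_compl (Set.range x)
      rw [Set.ncard_range_of_injective x.injective, Nat.card_eq_fintype_card, Fintype.card_fin] at b
      have c : ¬ {y : α | e.1 • y ≠ y}.ncard ≤ 4 := fun h => by
        rw [small (by omega) _ h, orderOf_one] at he; exact hq.one_lt.ne he
      obtain ⟨j, hj⟩ := Equiv.Perm.cycleType_prime_order (σ := e.1.1)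
        (by rwa [Subgroup.orderOf_coe, he])
      have d := e.1.1.sum_cycleType
      rw [hj, Multiset.sum_replicate, Subgroup.orderOf_coe, he, ← sp, smul_eq_mul,
        show {y : α | e.1 • y ≠ y}.ncard = 5 by omega] at d
      obtain rfl := (Nat.prime_dvd_prime_iff_eq hq Nat.prime_five).1 (Dvd.intro_left _ d)
      have := nc 5 hq (by omega) _ he
      omega
    omega
  obtain ⟨U, -, hU⟩ := Finset.exists_subset_card_eq (s := (Finset.univ : Finset α)) (n := r)
    (by rw [Finset.card_univ]; omega)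
  let F : Set α := U
  have cF : F.ncard = r := (Set.ncard_coe_finset U).trans hU
  have hΔ : Fᶜ.ncard = k * p := by
    have := Set.ncard_add_ncard_compl F
    omega
  let L := fixingSubgroup G F
  let Y := Subgroup.normalizer (L : Set G)
  let L' := L.subgroupOf Y
  haveI : L'.Normal := Subgroup.normal_in_normalizer
  have mL : ∀ g : G, g ∈ L ↔ ∀ y ∈ F, g • y = y := fun g => mem_fixingSubgroup_iff ..
  obtain ⟨P⟩ : Nonempty (Sylow p L') := inferInstance
  let R0 := (P : Subgroup L').map L'.subtype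
  let N := Subgroup.normalizer (R0 : Set Y)
  let R := R0.subgroupOf N
  haveI hn : R.Normal := Subgroup.normal_in_normalizer
  have hR : IsPGroup p R := (P.isPGroup'.map _).comap_subtype
  have hF : ∀ y, y ∈ F ↔ ∀ x ∈ R, x • y = y := fun y => by
    refine ⟨?_, fun h => by_contra fun hy => P.not_dvd_index ?_⟩
    · rintro hy x ⟨u, -, hu⟩
      exact (mL _).1 (show x.1 ∈ L' from (show u.1 = x.1 from hu) ▸ u.2) y hy
    refine .trans ?_ (Subgroup.index_dvd_of_le (show (P : Subgroup L') ≤ MulAction.stabilizer L' y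
      from fun u hu => h ⟨u.1, Subgroup.le_normalizer (Subgroup.mem_map_of_mem _ hu)⟩
        (Subgroup.mem_map_of_mem L'.subtype hu)))
    rw [MulAction.index_stabilizer, show MulAction.orbit L' y = Fᶜ from ?_, hΔ]
    · exact dvd_mul_left ..
    refine Set.ext fun z => ⟨?_, fun hz => ?_⟩
    · rintro ⟨g, rfl⟩ hi
      exact hy (smul_left_cancel (g.1 : G) ((mL _).1 g.2 _ hi) ▸ hi)
    · obtain ⟨g, h1, h2⟩ := H8.fixing_of_isMPT hG cr U (by omega) (x := y) (y := z) hy hz
      have : g ∈ L := (mL g).2 h1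
      exact ⟨⟨⟨g, Subgroup.le_normalizer this⟩, this⟩, h2⟩
  have ns : ∀ x ∈ R, x ≠ 1 → x ^ p = 1 → 2 * p ≤ {y : α | x • y ≠ y}.ncard := fun x _ x1 xr =>
    nc p hp (by nlinarith) x.1.1 (by
      rw [Subgroup.orderOf_coe, Subgroup.orderOf_coe, orderOf_eq_prime xr x1])
  have k2 : 2 ≤ k := by
    obtain ⟨y, hy⟩ := Set.nonempty_of_ncard_ne_zero (s := Fᶜ) (by omega)
    obtain ⟨x, hx⟩ := exists_prime_orderOf_dvd_card' p (hR.card_eq_or_dvd.resolve_left fun h =>
      hy ((hF y).2 fun x hx => by rw [Subgroup.card_eq_one.1 h] at hx; simp [Subgroup.mem_bot.1 hx]))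
    rw [← Subgroup.orderOf_coe] at hx
    have := (ns x.1 x.2 (fun h => hp.one_lt.ne (by rw [← hx, h, orderOf_one]))
      (hx ▸ pow_orderOf_eq_one _)).trans (Set.ncard_le_ncard (t := Fᶜ)
        fun z hz f => hz ((hF z).1 f _ x.2))
    exact Nat.le_of_mul_le_mul_right (hΔ ▸ this) hp.pos
  have c8 : 8 ≤ Nat.card α := by nlinarith
  let T : SubMulAction N α := ⟨F, fun g y hy => (hF _).2 fun x hx => by
    simpa [mul_smul, inv_smul_eq_iff] using (hF _).1 hy _ (hn.conj_mem' x hx g)⟩
  let σ := MulAction.toPermHom N T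
  have sur : Function.Surjective σ := fun π => by
    obtain ⟨g, hg⟩ := H8.exists_smul_eq_of_isMPT hG cr (ι := T) (cF.le.trans r.le_succ)
      Subtype.val_injective (Subtype.val_injective.comp π.injective)
    have : g ∈ Y := Subgroup.mem_normalizer_fintype fun n hn => (mL _).2 fun y hy => by
      obtain ⟨j, e⟩ := π.surjective ⟨y, hy⟩
      obtain rfl : g • j.1 = y := (hg j).trans (congrArg Subtype.val e)
      rw [smul_smul, inv_mul_cancel_right, mul_smul, (mL n).1 hn _ j.2]
    obtain ⟨u, hu, v, hv, e⟩ := Subgroup.mem_sup_of_normal_right.1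
      (P.normalizer_sup_eq_top.ge (Subgroup.mem_top ⟨g, this⟩))
    refine ⟨⟨u, hu⟩, Equiv.ext fun i => Subtype.ext (.trans ?_ (hg i))⟩
    rw [← show u.1 * v.1 = g from congrArg Subtype.val e, mul_smul, (mL v.1).1 hv _ i.2]; rfl
  haveI := Fintype.ofFinite T
  have cT : Fintype.card T = r := Nat.card_eq_fintype_card.symm.trans cF
  have fin : ∀ s ≤ 4, ∀ (ι : Fin s ↪ T) (d : N) (δ : Equiv.Perm (Fin s)), s < p ∨ δ ^ 2 = 1 →
      σ d = Equiv.Perm.viaEmbeddingHom ι δ → (∀ y ∉ F, d ^ p • y = y) → δ = 1 :=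
    fun s s4 ι d δ h e hd => by
    have a := small c8 (d ^ p).1.1 ((Set.ncard_le_ncard (show {y : α | (d ^ p).1.1 • y ≠ y} ⊆
      Set.range (Subtype.val ∘ ι) from fun y hy => by_contra fun hι => hy (by
        by_cases f : y ∈ F
        · have e1 : σ (d ^ p) = Equiv.Perm.viaEmbeddingHom ι (δ ^ p) := by
            rw [map_pow, e, ← map_pow]
          have e2 : σ (d ^ p) ⟨y, f⟩ = ⟨y, f⟩ := by
            rw [e1]
            refine Equiv.Perm.viaEmbedding_apply_of_notMem (δ ^ p) ι ⟨y, f⟩ ?_
            rintro ⟨i, hi⟩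
            exact hι ⟨i, congrArg Subtype.val hi⟩
          exact congrArg Subtype.val e2
        · exact hd y f))).trans (by
      rw [Set.ncard_range_of_injective (Subtype.val_injective.comp ι.injective)]; simpa))
    have b : δ ^ p = 1 := Equiv.Perm.viaEmbeddingHom_injective ι (by
      rw [map_pow, ← e, ← map_pow, show d ^ p = 1 from Subtype.ext (Subtype.ext a), map_one, map_one])
    by_contra h1
    have o := orderOf_eq_prime b h1
    rcases h with h | h
    · have := orderOf_dvd_card (x := δ)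
      rw [o, Fintype.card_perm, Fintype.card_fin, hp.dvd_factorial] at this
      omega
    · have := orderOf_eq_prime h h1
      omega
  by_cases hr : r = k + 1 ∧ k ≤ 3
  · obtain ⟨ι⟩ := Function.Embedding.nonempty_of_card_le (show Fintype.card (Fin (k + 1)) ≤
      Fintype.card T by simp [cT, hr.1])
    obtain ⟨n, hn⟩ := sur (Equiv.Perm.viaEmbeddingHom ι (finRotate _))
    obtain ⟨t, ht⟩ := sur (Equiv.Perm.viaEmbeddingHom ι (Equiv.swap 0 1))
    have p4 : p ≠ 4 := by rintro rfl; exact absurd hp (by norm_num)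
    have := DFunLike.congr_fun (fin (k + 1) (by omega) ι _ (Equiv.swap 0 1 * finRotate _ ^
      k.factorial * (Equiv.swap 0 1)⁻¹ * (finRotate _ ^ k.factorial)⁻¹) (.inl (by
        by_contra h
        obtain rfl : p = k + 1 := by omega
        obtain rfl : k = 2 := by omega
        omega)) (by simp only [map_mul, map_inv, map_pow, hn, ht])
      (H8.jk_core hp hpk hr.2 R hR F hF hΔ ns n t)) 0
    obtain rfl | rfl : k = 2 ∨ k = 3 := by omega
    all_goals revert this; decide +kernel
  obtain ⟨M, nM, iM, hM⟩ := H8.jk_core2 hp hpk R hR F hF hΔ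
  obtain ⟨ι⟩ := Function.Embedding.nonempty_of_card_le (show Fintype.card (Fin 4) ≤
    Fintype.card T by rw [cT, Fintype.card_fin]; omega)
  have hM' : alternatingGroup T ≤ M.map σ := by
    have a := (Nat.le_of_dvd (Nat.pos_of_ne_zero Subgroup.index_ne_zero_of_finite)
      (M.index_map_dvd sur)).trans iM
    by_cases r5 : 5 ≤ r
    · haveI := nM.map σ sur
      refine Equiv.Perm.alternatingGroup_le_of_normal (r5.trans cF.ge)
        ((Subgroup.nontrivial_iff_ne_bot _).2 fun h => ?_)
      rw [h, Subgroup.index_bot, Nat.card_perm, Nat.card_eq_fintype_card, cT] at a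
      exact a.not_gt ((Nat.factorial_lt (by omega)).2 hrk)
    · obtain rfl : k = 2 := by omega
      exact Equiv.Perm.alternatingGroup_le_of_index_le_two a
  have sq : ∀ π : Equiv.Perm (Fin 4), ∃ c ∈ M, σ c = Equiv.Perm.viaEmbeddingHom ι (π ^ 2) :=
    fun π => hM' (by simp [Equiv.Perm.mem_alternatingGroup, Int.units_sq])
  obtain ⟨c, hc, ec⟩ := sq (finRotate 4)
  obtain ⟨d, hd, ed⟩ := sq (Equiv.swap 0 1 * Equiv.swap 1 2)
  have := fin 4 le_rfl ι _ (((Equiv.swap 0 1 * Equiv.swap 1 2) ^ 2 * finRotate 4 ^ 2)⁻¹ *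
    (finRotate 4 ^ 2 * (Equiv.swap 0 1 * Equiv.swap 1 2) ^ 2)) (.inr (by decide +kernel))
    (by simp only [map_mul, map_inv, ec, ed]) (hM c hc d hd)
  revert this; decide +kernel

end Cfsg.Agent.S4220
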