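import Cfsg.Statements.S4223
import Cfsg.Agent.H1.Basic

set_option autoImplicit false
open Cfsg

namespace Cfsg.Agent.S4223

open Subgroup Function

def Ind (A : Type*) [Group A] : Prop := Nontrivial A ∧
  ∀ H K : Subgroup A, H.Normal → K.Normal → H ⊓ K = ⊥ → H ⊔ K = ⊤ → H = ⊥ ∨ K = ⊥

def Nm {A : Type*} [Group A] (ψ : A →* A) : Prop := ∀ x a, ψ (x * a * x⁻¹) = x * ψ a * x⁻¹

theorem fit {A : Type*} [Group A] [Finite A] (h : Ind A) (ψ : Monoid.End A) (n : Nm ψ) :
    Injective ψ ∨ ∃ N, ∀ a, (ψ : A → A)^[N] a = 1 := by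
  haveI : Finite (Monoid.End A) := Finite.of_injective _ (DFunLike.coe_injective (F := A →* A))
  obtain ⟨a, d, e⟩ : ∃ a d : ℕ, ψ ^ (a + (d + 1)) = ψ ^ a := by
    obtain ⟨a, b, hab, e⟩ := Finite.exists_ne_map_eq_of_infinite (fun k : ℕ => ψ ^ k)
    rcases lt_or_gt_of_ne hab with l | l
    · exact ⟨a, b - a - 1, by rw [show a + (b - a - 1 + 1) = b by omega]; exact e.symm⟩
    · exact ⟨b, a - b - 1, by rw [show b + (a - b - 1 + 1) = a by omega]; exact e⟩
  have e1 : ∀ k, ψ ^ (a + k * (d + 1)) = ψ ^ a := fun k => by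
    induction k with
    | zero => simp
    | succ k ih => rw [add_mul, one_mul, ← add_assoc, pow_add, ih, ← pow_add, e]
  obtain ⟨c, hc⟩ : ∃ c, (a + 1) * (d + 1) = c + 1 + a := ⟨(a + 1) * d, by ring⟩
  have e2 : ψ ^ (c + 1 + a) * ψ ^ (c + 1 + a) = ψ ^ (c + 1 + a) := by
    rw [← pow_add, add_assoc (c + 1), ← hc, pow_add, e1, ← pow_add, hc]
  have nn : ∀ k, Nm (ψ ^ k : Monoid.End A) := fun k => by
    induction k with
    | zero => exact fun x a => rfl
    | succ k ih => exact fun x a => by rw [pow_succ]; exact (congrArg _ (n x a)).trans (ih x _)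
  have e3 : ∀ y, (ψ ^ (c + 1 + a)) ((ψ ^ (c + 1 + a)) y) = (ψ ^ (c + 1 + a)) y := fun y => DFunLike.congr_fun e2 y
  rcases h.2 (MonoidHom.ker (ψ ^ (c + 1 + a))) (MonoidHom.range (ψ ^ (c + 1 + a))) inferInstance
    ⟨by rintro _ ⟨y, rfl⟩ x; exact ⟨_, nn _ x y⟩⟩
    (eq_bot_iff.2 (by rintro _ ⟨u, y, rfl⟩; exact (e3 y).symm.trans u))
    (eq_top_iff.2 fun y _ => by
      rw [← inv_mul_cancel_right y ((ψ ^ (c + 1 + a)) y)]
      exact mul_mem (mem_sup_left (show (ψ ^ (c + 1 + a)) _ = 1 by rw [map_mul, map_inv]; exact mul_inv_eq_one.2 (e3 y).symm))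
        (mem_sup_right ⟨y, rfl⟩)) with k | k
  · have := (MonoidHom.ker_eq_bot_iff _).1 k
    rw [add_right_comm, pow_succ] at this
    exact .inl (Injective.of_comp (f := (ψ ^ (c + a) : Monoid.End A)) this)
  · exact .inr ⟨c + 1 + a, fun y => by rw [← Monoid.End.coe_pow]; exact (k.le ⟨y, rfl⟩ :)⟩

theorem loc {A : Type*} [Group A] [Finite A] (h : Ind A) {φ α β : A →* A} (e : ∀ a, φ a = α a * β a)
    (nφ : Nm φ) (nα : Nm α) (i : Injective φ) : Injective α ∨ Injective β := by
  let E := MulEquiv.ofBijective φ (Finite.injective_iff_bijective.1 i)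
  rcases fit h (α.comp E.symm.toMonoidHom) (fun x a => by
    obtain ⟨a, rfl⟩ := E.surjective a
    rw [show x * E a * x⁻¹ = E (x * a * x⁻¹) from (nφ x a).symm]
    simpa using nα x a) with k | ⟨N, k⟩
  · exact .inl fun a b hab => E.injective (k (show α (E.symm (E a)) = α (E.symm (E b)) by simpa using hab))
  refine .inr ((injective_iff_map_eq_one _).2 fun a ha => i ?_)
  have f : ∀ k : ℕ, (α.comp E.symm.toMonoidHom)^[k] (E a) = E a := fun k => by
    induction k with
    | zero => rfl
    | succ k ih =>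
      rw [iterate_succ_apply]
      refine (congrArg _ ?_).trans ih
      show α (E.symm (E a)) = φ a
      rw [E.symm_apply_apply, e, ha, mul_one]
  exact ((f N).symm.trans (k _)).trans (map_one φ).symm

theorem Nm.tr {A G H : Type*} [Group A] [Group G] [Group H] {ρ : H →* H} (n : Nm ρ) (e : G ≃* H) (ι : A →* G) (π : G →* A)
    (h : ∀ a, π (ι a) = a) : Nm (π.comp (e.symm.toMonoidHom.comp (ρ.comp (e.toMonoidHom.comp ι)))) := fun x a => by
  simp only [MonoidHom.comp_apply, MulEquiv.coe_toMonoidHom]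
  rw [map_mul ι, map_mul ι, map_inv, map_mul e, map_mul e, map_inv, n]
  simp [h]

def rs {ι : Type*} [DecidableEq ι] (B : ι → Type*) [∀ j, Group (B j)] (S : Finset ι) : ((j : ι) → B j) →* ((j : ι) → B j) :=
  MonoidHom.pi fun j => if j ∈ S then Pi.evalMonoidHom B j else 1

theorem rs_apply {ι : Type*} [DecidableEq ι] {B : ι → Type*} [∀ j, Group (B j)] (S : Finset ι) (b : (j : ι) → B j) (j : ι) :
    rs B S b j = if j ∈ S then b j else 1 := by
  rw [rs, MonoidHom.pi_apply]
  split_ifs <;> rfl

theorem nm_rs {ι : Type*} [DecidableEq ι] (B : ι → Type*) [∀ j, Group (B j)] (S : Finset ι) : Nm (rs B S) := fun x a => by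
  ext j
  simp only [Pi.mul_apply, Pi.inv_apply, rs_apply]
  split_ifs <;> simp

theorem rs_single {ι : Type*} [DecidableEq ι] {B : ι → Type*} [∀ j, Group (B j)] (i : ι) (b : (j : ι) → B j) :
    rs B {i} b = Pi.mulSingle i (b i) := by
  ext j
  rw [rs_apply]
  by_cases h : j = i
  · subst h; simp
  · simp [h]

theorem key {ι κ : Type*} [DecidableEq ι] [DecidableEq κ] [Fintype κ] {A : ι → Type*} {B : κ → Type*} [∀ i, Group (A i)]
    [∀ j, Group (B j)] [∀ i, Finite (A i)] [∀ j, Finite (B j)] (i : ι) (hA : Ind (A i)) (hB : ∀ j, Ind (B j))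
    (e : ((i : ι) → A i) ≃* ((j : κ) → B j)) :
    ∃ j, Nonempty (A i ≃* B j) ∧ ∀ b : B j, e.symm (Pi.mulSingle j b) i = 1 → b = 1 := by
  let θ : Finset κ → A i →* A i := fun S => (Pi.evalMonoidHom A i).comp
    (e.symm.toMonoidHom.comp ((rs B S).comp (e.toMonoidHom.comp (MonoidHom.mulSingle A i))))
  have nθ : ∀ S, Nm (θ S) := fun S => (nm_rs B S).tr e _ _ fun a => by simp
  obtain ⟨a, ha⟩ := @exists_ne _ hA.1 1
  have ind : ∀ S, Injective (θ S) → ∃ j, Injective (θ {j}) := fun S => by
    induction S using Finset.induction_on with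
    | empty => exact fun h => (ha (h (by
        have : ∀ b, rs B ∅ b = 1 := fun b => by ext j; simp [rs_apply]
        simp [θ, this]))).elim
    | insert j S hj ih =>
      intro h
      refine (loc hA (α := θ {j}) (β := θ S) (fun a => ?_) (nθ _) (nθ _) h).elim (fun k => ⟨j, k⟩) ih
      have : ∀ b, rs B (insert j S) b = rs B {j} b * rs B S b := fun b => by
        ext k
        by_cases h : k = j
        · subst h; simp [rs_apply, hj]
        · simp [rs_apply, h]
      simp [θ, this]
  obtain ⟨j, hj⟩ := ind Finset.univ fun a b hab => by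
    have : ∀ b, rs B Finset.univ b = b := fun b => by ext j; simp [rs_apply]
    simpa [θ, this] using hab
  let f : A i →* B j := (Pi.evalMonoidHom B j).comp (e.toMonoidHom.comp (MonoidHom.mulSingle A i))
  let g : B j →* A i := (Pi.evalMonoidHom A i).comp (e.symm.toMonoidHom.comp (MonoidHom.mulSingle B j))
  have gf : ∀ a, θ {j} a = g (f a) := fun a => by simp [θ, f, g, rs_single]
  have ig : Injective g := by
    rcases fit (hB j) (f.comp g) (fun x a => by
      simpa [f, g, rs_single] using ((nm_rs A {i}).tr e.symm (MonoidHom.mulSingle B j) (Pi.evalMonoidHom B j)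
        fun a => by simp) x a) with k | ⟨N, k⟩
    · exact Injective.of_comp (f := f) k
    have : ∀ (k : ℕ) (a : A i), (f.comp g)^[k] (f a) = 1 → a = 1 := fun k => by
      induction k with
      | zero => exact fun a h => hj (by rw [gf, show f a = 1 from h, map_one, map_one])
      | succ k ih => exact fun a h => hj (by rw [iterate_succ_apply] at h; rw [gf, ih _ h, map_one])
    exact (ha (this N a (k _))).elim
  have sg : Surjective g := fun y => by
    obtain ⟨x, rfl⟩ := Finite.injective_iff_surjective.1 hj y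
    exact ⟨_, (gf x).symm⟩
  exact ⟨j, ⟨(MulEquiv.ofBijective g ⟨ig, sg⟩).symm⟩, fun b hb => ig (by rw [map_one]; exact hb)⟩

/-- If a finite group is isomorphic both to a direct product of `m` directly indecomposable nontrivial groups and to a direct product of `n` such groups (a group is directly indecomposable when it is not the internal direct product of two nontrivial normal subgroups), then `m = n` and the factors are isomorphic in pairs after a suitable matching. -/
theorem result {m n : ℕ} {A : Fin m → Type*} {B : Fin n → Type*} [∀ i, Group (A i)] [∀ j, Group (B j)] [∀ i, Finite (A i)] [∀ j, Finite (B j)] (hA : ∀ i, Nontrivial (A i) ∧ ∀ H K : Subgroup (A i), H.Normal → K.Normal → H ⊓ K = ⊥ → H ⊔ K = ⊤ → H = ⊥ ∨ K = ⊥) (hB : ∀ j, Nontrivial (B j) ∧ ∀ H K : Subgroup (B j), H.Normal → K.Normal → H ⊓ K = ⊥ → H ⊔ K = ⊤ → H = ⊥ ∨ K = ⊥) (e : ((i : Fin m) → A i) ≃* ((j : Fin n) → B j)) : ∃ σ : Fin m ≃ Fin n, ∀ i, Nonempty (A i ≃* B (σ i)) := by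
  induction m generalizing n with
  | zero =>
    cases n with
    | zero => exact ⟨Equiv.refl _, fun i => i.elim0⟩
    | succ n =>
      obtain ⟨b, hb⟩ := @exists_ne _ (hB 0).1 1
      have := congrFun (e.symm.injective (Subsingleton.elim (e.symm (Pi.mulSingle 0 b)) (e.symm 1))) 0
      exact (hb (by simpa using this)).elim
  | succ m ih =>
    obtain ⟨j, ⟨E⟩, hj⟩ := key 0 (hA 0) hB e
    cases n with
    | zero => exact j.elim0
    | succ n =>
    let c : ((i : Fin m) → A i.succ) →* ((i : Fin (m + 1)) → A i) := MonoidHom.mk' (fun a => Fin.cons 1 a) fun a b => by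
      ext i
      refine Fin.cases ?_ (fun i => ?_) i <;> simp
    let F : ((i : Fin m) → A i.succ) →* ((k : Fin n) → B (j.succAbove k)) :=
      MonoidHom.pi fun k => (Pi.evalMonoidHom B _).comp (e.toMonoidHom.comp c)
    have iF : Injective F := (injective_iff_map_eq_one _).2 fun a ha => by
      have e1 : e (c a) = Pi.mulSingle j (e (c a) j) := by
        ext k
        refine Fin.succAboveCases j ?_ (fun k => ?_) k
        · simp
        · rw [Pi.mulSingle_eq_of_ne (Fin.succAbove_ne j k)]
          exact congrFun ha k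
      have e2 := hj (e (c a) j) (by rw [← e1, e.symm_apply_apply]; rfl)
      rw [e2, Pi.mulSingle_one, EmbeddingLike.map_eq_one_iff] at e1
      ext i
      exact congrFun e1 i.succ
    have cd := Nat.card_congr e.toEquiv
    rw [Nat.card_pi, Nat.card_pi, Fin.prod_univ_succ, Fin.prod_univ_succAbove _ j, Nat.card_congr E.toEquiv,
      Nat.mul_right_inj Nat.card_pos.ne', ← Nat.card_pi, ← Nat.card_pi] at cd
    obtain ⟨σ, hσ⟩ := ih (fun i => hA i.succ) (fun k => hB (j.succAbove k))
      (MulEquiv.ofBijective F ((Nat.bijective_iff_injective_and_card F).2 ⟨iF, cd⟩))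
    refine ⟨(finSuccEquiv m).trans (σ.optionCongr.trans (finSuccEquiv' j).symm), fun i => Fin.cases ?_ (fun i => ?_) i⟩
    · rw [show ((finSuccEquiv m).trans (σ.optionCongr.trans (finSuccEquiv' j).symm)) 0 = j by simp]
      exact ⟨E⟩
    · rw [show ((finSuccEquiv m).trans (σ.optionCongr.trans (finSuccEquiv' j).symm)) i.succ = j.succAbove (σ i) by simp]
      exact hσ i

end Cfsg.Agent.S4223
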