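import Cfsg.Statements.S4227
import Cfsg.Agent.H7.PLen
import Cfsg.Agent.H3.Integral

set_option autoImplicit false
open Cfsg

namespace Cfsg.Agent.S4227
open H7
open scoped commutatorElement

/-- A finite group in which every element has order dividing `6` has `2`-length at most `1` and `3`-length at most `1`. -/
theorem result {G : Type*} [Group G] [Finite G] (h : ∀ x : G, x ^ 6 = 1) : Cfsg.PLengthLE 2 1 G ∧ Cfsg.PLengthLE 3 1 G := by
  open Subgroup in
  haveI : Fact (Nat.Prime 3) := ⟨by norm_num⟩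
  have o : ∀ q, q.Prime → ∀ Q : Subgroup G, IsPGroup q Q → ∀ x ∈ Q, x ^ Nat.gcd 6 q = 1 := fun q qq Q pQ x hx => by
    haveI := Fact.mk qq
    obtain ⟨k, hk⟩ := H2.orderOf_eq_pow_of_mem pQ hx
    have d := orderOf_dvd_of_pow_eq_one (h x)
    rw [← orderOf_dvd_iff_pow_eq_one]
    refine Nat.dvd_gcd d ?_
    rw [hk] at d ⊢
    match k, d with
    | 0, _ => simp
    | 1, _ => simp
    | k + 2, d =>
      have d2 : q * q ∣ 6 := (Dvd.intro_left (q ^ k) (by ring)).trans d
      have := Nat.le_of_dvd (by norm_num) d2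
      have := qq.two_le
      have : q ≤ 2 := by nlinarith
      interval_cases q
      omega
  have s : Group.IsSolvable G := by
    refine H3.burnside_pq (a := Nat.card G) (b := Nat.card G) Nat.prime_two Nat.prime_three ?_
    rw [← mul_pow]
    refine (Nat.dvd_iff_prime_pow_dvd_dvd _ _).2 fun q k qq d => ?_
    rcases Nat.eq_zero_or_pos k with rfl | k0
    · simp
    haveI := Fact.mk qq
    obtain ⟨x, hx⟩ := exists_prime_orderOf_dvd_card' q ((dvd_pow_self q k0.ne').trans d)
    have e : q ∣ 2 * 3 := hx ▸ orderOf_dvd_of_pow_eq_one (h x)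
    exact (pow_dvd_pow q ((Nat.lt_pow_self qq.one_lt).le.trans (Nat.le_of_dvd Nat.card_pos d))).trans
      (pow_dvd_pow_of_dvd e _)
  have s' : Group.IsSolvable (⊤ : Subgroup G) := inferInstance
  have c : ∀ q, q.Prime → q ≠ 3 → ∀ Q : Subgroup G, IsPGroup q Q → IsMulCommutative Q := fun q qq e Q pQ => by
    have g : Nat.gcd 6 q ∣ 2 := by
      refine Nat.Coprime.dvd_of_dvd_mul_right (m := 2) (n := 3) ?_ (Nat.gcd_dvd_left 6 q)
      exact Nat.Coprime.coprime_dvd_left (Nat.gcd_dvd_right 6 q) ((Nat.coprime_primes qq Nat.prime_three).2 e)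
    have t : ∀ x ∈ Q, x * x = 1 := fun x hx => by
      rw [← sq, ← orderOf_dvd_iff_pow_eq_one]
      exact (orderOf_dvd_of_pow_eq_one (o q qq Q pQ x hx)).trans g
    refine isComm_iff.2 fun a ha b hb => ?_
    have h1 := t _ (mul_mem ha hb)
    calc b * a = (a * a) * (b * a) * (b * b) := by rw [t a ha, t b hb, one_mul, mul_one]
      _ = a * ((a * b) * (a * b)) * b := by simp only [mul_assoc]
      _ = a * b := by rw [h1, mul_one]
  constructor
  · obtain ⟨S, hS⟩ := H2.exists_isSylowIn 2 (⊤ : Subgroup G)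
    exact pLengthLE_one_top.2 (pl1_of_comm s' hS (c 2 Nat.prime_two (by norm_num) S hS.isPGroup))
  · exact pLen_iff.2 (Lp_of_exp 1 (ps_of_solv s') (fun q qq e Q _ pQ => c q qq e Q pQ) fun x _ px =>
      o 3 Nat.prime_three _ px x (mem_zpowers x))

end Cfsg.Agent.S4227
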