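import Cfsg.Statements.S4274
import Mathlib
import Cfsg.Agent.H8.ME

set_option autoImplicit false
open Cfsg

namespace Cfsg.Agent.S4274

/-- A finite group of order 175560 = 2³·3·5·7·11·19 is either simple or has a normal Sylow 19-subgroup. -/
theorem result {G : Type*} [Group G] [Finite G] (hG : Nat.card G = 175560) : IsSimpleGroup G ∨ ∀ P : Sylow 19 G, (P : Subgroup G).Normal := by
  haveI : Fact (Nat.Prime 19) := ⟨by norm_num⟩
  rcases H8.syl_red (p := 19) (m := 9240) (L := [2, 3, 5, 7, 11]) (by decide) (by decide)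
    (by decide +kernel) G (by rw [hG]) with e | ⟨S, _, _, b1, b2, b3, b4, b5, b6⟩
  · haveI := (Nat.card_eq_one_iff_unique.1 e).1
    exact .inr fun P => P.normal_of_subsingleton
  · exact .inl (b6 (((H8.chkD_sound H8.certs19_ok (by norm_num) (by norm_num) b2 b3
      (b4.trans hG.dvd)).resolve_right (by simp)).trans hG.symm))

end Cfsg.Agent.S4274
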