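import Cfsg.Statements.S4283
import Mathlib
import Cfsg.Agent.H8.Frob
import Cfsg.Agent.H8.FrobSol

set_option autoImplicit false
open Cfsg

namespace Cfsg.Agent.S4283

/-- Let G be a finite group with centre Z and let K, H be abelian subgroups of G containing Z such that G/Z is a Frobenius group with complement H/Z and kernel K/Z. Then the conjugacy class sizes of G are exactly 1, [G : K] and [G : H], and these two indices are coprime. (This is the converse half of the characterization of finite groups whose conjugacy class sizes are exactly 1, m and n with m and n coprime.) -/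
theorem result {G : Type*} [Group G] [Finite G] (K H : Subgroup G) (hZK : Subgroup.center G ≤ K) (hZH : Subgroup.center G ≤ H) (hK : IsMulCommutative K) (hH : IsMulCommutative H) (hFrob : Cfsg.IsFrobeniusComplement (H.map (QuotientGroup.mk' (Subgroup.center G)))) (hker : Cfsg.frobeniusKernel (H.map (QuotientGroup.mk' (Subgroup.center G))) = (K.map (QuotientGroup.mk' (Subgroup.center G)) : Set (G ⧸ Subgroup.center G))) : Set.range (fun x : G => (Subgroup.centralizer ({x} : Set G)).index) = ({1, K.index, H.index} : Set ℕ) ∧ K.index.Coprime H.index := by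
  set Z := Subgroup.center G
  set f := QuotientGroup.mk' Z
  have hmem : ∀ L : Subgroup G, Z ≤ L → ∀ x, f x ∈ L.map f ↔ x ∈ L := by
    intro L hL x
    rw [← Subgroup.mem_comap, Subgroup.comap_map_eq, QuotientGroup.ker_mk', sup_eq_left.2 hL]
  have hone : ∀ x, f x = 1 ↔ x ∈ Z := fun x => QuotientGroup.eq_one_iff x
  haveI := H8.normal_of_eq_frobeniusKernel hker
  have hsup := H8.sup_eq_top_of_kernel hFrob hker
  have hinf := H8.inf_eq_bot_of_kernel hker
  have hCK : ∀ x ∈ K, x ∉ Z → Subgroup.centralizer ({x} : Set G) = K := by
    intro x hx hxZ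
    ext g
    rw [Subgroup.mem_centralizer_singleton_iff]
    refine ⟨fun h => ?_, fun h => H1.comm_of_mem h hx⟩
    have := H8.mem_kernel_of_commute hFrob (k := f x) (g := f g)
      (by rw [hker]; exact (hmem K hZK x).2 hx) (mt (hone x).1 hxZ) (by rw [← map_mul, h, map_mul])
    rw [hker] at this
    exact (hmem K hZK g).1 this
  have hCH : ∀ x ∈ H, x ∉ Z → Subgroup.centralizer ({x} : Set G) = H := by
    intro x hx hxZ
    ext g
    rw [Subgroup.mem_centralizer_singleton_iff]
    refine ⟨fun h => ?_, fun h => H1.comm_of_mem h hx⟩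
    exact (hmem H hZH g).1 (H8.mem_of_commute_of_frob hFrob (x := f x) (g := f g)
      ((hmem H hZH x).2 hx) (mt (hone x).1 hxZ) (by rw [← map_mul, h, map_mul]))
  have hKi : K.index = Nat.card (H.map f) := by
    rw [← Subgroup.index_map_eq K (QuotientGroup.mk'_surjective Z) (by simpa using hZK)]
    exact (H1.isComplement'_of_sup_of_inf hsup hinf).symm.index_eq_card
  have hHi : H.index = Nat.card (K.map f) := by
    rw [← Subgroup.index_map_eq H (QuotientGroup.mk'_surjective Z) (by simpa using hZH)]
    exact (H1.isComplement'_of_sup_of_inf hsup hinf).index_eq_card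
  constructor
  · ext n
    constructor
    · rintro ⟨x, rfl⟩
      by_cases hxZ : x ∈ Z
      · left
        rw [Subgroup.index_eq_one, eq_top_iff]
        intro g _
        exact Subgroup.mem_centralizer_singleton_iff.2 (Subgroup.mem_center_iff.1 hxZ g)
      by_cases hxK : x ∈ K
      · right; left; simp only [hCK x hxK hxZ]
      right; right
      have : f x ∉ Cfsg.frobeniusKernel (H.map f) := by
        rw [hker]; exact fun h => hxK ((hmem K hZK x).1 h)
      simp only [Cfsg.frobeniusKernel, Set.mem_ofPred_eq, not_or, not_forall, not_not] at this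
      obtain ⟨-, g, hg⟩ := this
      obtain ⟨g, rfl⟩ := QuotientGroup.mk'_surjective Z g
      rw [H1.mem_conj_smul, ← map_inv, ← map_mul, ← map_mul, hmem H hZH] at hg
      have h1 := hCH _ hg (fun h => hxZ (by
        simpa [mul_assoc] using (inferInstance : Z.Normal).conj_mem _ h g))
      show (Subgroup.centralizer ({x} : Set G)).index = _
      rw [← h1, ← H8.ncard_isConj, ← H8.ncard_isConj]
      congr 1; ext y
      have : IsConj (g⁻¹ * x * g) x := isConj_iff.2 ⟨g, by group⟩
      exact ⟨fun h => this.trans h, fun h => this.symm.trans h⟩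
    · rintro (rfl | rfl | rfl)
      · exact ⟨1, by simp⟩
      · have : ¬ K ≤ Z := by
          intro h
          rw [(Subgroup.map_eq_bot_iff K).2 (by simpa [f] using h), sup_bot_eq] at hsup
          exact hFrob.2.1 hsup
        obtain ⟨x, hx, hxZ⟩ := SetLike.not_le_iff_exists.1 this
        exact ⟨x, by simp only [hCK x hx hxZ]⟩
      · have : ¬ H ≤ Z := fun h =>
          hFrob.1 ((Subgroup.map_eq_bot_iff H).2 (by simpa [f] using h))
        obtain ⟨x, hx, hxZ⟩ := SetLike.not_le_iff_exists.1 this
        exact ⟨x, by simp only [hCH x hx hxZ]⟩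
  · rw [hKi, hHi]
    exact H8.coprime_card_of_fpf (by rw [Subgroup.normalizer_eq_top]; exact le_top)
      (fun h hh n hn e => H8.fpf_of_frob hFrob hh (by rw [hker]; exact hn) e)

end Cfsg.Agent.S4283
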