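import Cfsg.Statements.S4297
import Mathlib
import Cfsg.Agent.H8.Frob

set_option autoImplicit false
open Cfsg

namespace Cfsg.Agent.S4297

/-- For every n ≥ 2 the dicyclic group of order 4n (generated by an element a of order 2n and an element x with x² = aⁿ and x a x⁻¹ = a⁻¹) occurs as a Frobenius complement of some finite Frobenius group. -/
theorem result (n : ℕ) (hn : 2 ≤ n) :
    ∃ (L : Type) (_ : Group L) (_ : Finite L) (H : Subgroup L), Cfsg.IsFrobeniusComplement H ∧ Nonempty (H ≃* QuaternionGroup n) := by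
  obtain ⟨p, hp, hp2, hmod⟩ := Nat.exists_prime_gt_modEq_one 2 (k := 2 * n) (by omega)
  haveI := Fact.mk hp
  haveI : NeZero n := ⟨by omega⟩
  haveI : NeZero (2 * n) := ⟨by omega⟩
  have hd : 2 * n ∣ Nat.card (ZMod p)ˣ := by
    rw [Nat.card_eq_fintype_card (α := (ZMod p)ˣ), ZMod.card_units]
    exact (Nat.modEq_iff_dvd' hp.one_lt.le).1 hmod.symm
  obtain ⟨g, hg⟩ := IsCyclic.exists_ofOrder_eq_natCard (α := (ZMod p)ˣ)
  have hu : orderOf (g ^ (orderOf g / (2 * n))) = 2 * n :=
    orderOf_pow_orderOf_div (orderOf_pos g).ne' (hg ▸ hd)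
  set u := g ^ (orderOf g / (2 * n))
  let χ : ZMod (2 * n) → ZMod p := fun i => ((u ^ i.val : (ZMod p)ˣ) : ZMod p)
  have hadd : ∀ i j, χ (i + j) = χ i * χ j := by
    intro i j
    simp only [χ]
    rw [← Units.val_mul, ← pow_add, ZMod.val_add]
    congr 1
    have := pow_mod_orderOf u (i.val + j.val)
    rwa [hu] at this
  have h0 : χ 0 = 1 := by simp [χ]
  have hinj : ∀ i, χ i = 1 → i = 0 := by
    intro i hi
    have : u ^ i.val = 1 := Units.ext hi
    have h1 := orderOf_dvd_of_pow_eq_one this
    rw [hu] at h1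
    exact (ZMod.val_eq_zero i).1 (Nat.eq_zero_of_dvd_of_lt h1 (ZMod.val_lt i))
  have hn1 : χ n = -1 := by
    have h1 : χ n * χ n = 1 := by
      rw [← hadd, ← h0]; congr 1
      have : ((2 * n : ℕ) : ZMod (2 * n)) = 0 := ZMod.natCast_self _
      rw [← this]; push_cast; ring
    rcases mul_self_eq_one_iff.1 h1 with h | h
    · have := hinj _ h
      rw [ZMod.natCast_eq_zero_iff] at this
      have := Nat.le_of_dvd (by omega) this
      omega
    · exact h
  have hsub : ∀ i j, χ (i - j) = χ i * χ (-j) := fun i j => by rw [sub_eq_add_neg, hadd]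
  have hnn : χ (-(n : ZMod (2 * n))) = -1 := by
    have := hadd n (-n)
    rw [add_neg_cancel, h0, hn1] at this
    linear_combination this
  let ρ : QuaternionGroup n →* Matrix (Fin 2) (Fin 2) (ZMod p) :=
    { toFun := fun x => match x with
        | .a i => !![χ i, 0; 0, χ (-i)]
        | .xa i => !![0, -χ (-i); χ i, 0]
      map_one' := by
        show !![χ 0, 0; 0, χ (-0)] = 1
        rw [neg_zero, h0, Matrix.one_fin_two]
      map_mul' := by
        rintro (i | i) (j | j)
        · rw [QuaternionGroup.a_mul_a]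
          simp [hadd, mul_comm]
        · rw [QuaternionGroup.a_mul_xa]
          simp [hsub, mul_comm]
        · rw [QuaternionGroup.xa_mul_a]
          simp [hadd, mul_comm]
        · rw [QuaternionGroup.xa_mul_xa]
          simp [hadd, hsub, mul_comm, hn1, hnn] }
  obtain ⟨L, _, _, H, h1, ⟨e⟩, -⟩ := H8.exists_frob_of_matrix ρ (by
    rintro (i | i) v e
    · by_cases hi : i = 0
      · left; rw [hi]; rfl
      right
      have e0 := congrFun e 0
      have e1 := congrFun e 1
      simp [ρ, Matrix.mulVec, dotProduct, Fin.sum_univ_two] at e0 e1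
      have h2 : χ i - 1 ≠ 0 := fun h => hi (hinj _ (sub_eq_zero.1 h))
      have h3 : χ (-i) - 1 ≠ 0 := fun h => hi (neg_eq_zero.1 (hinj _ (sub_eq_zero.1 h)))
      ext k; fin_cases k
      · exact (mul_eq_zero.1 (show (χ i - 1) * v 0 = 0 by linear_combination e0)).resolve_left h2
      · exact (mul_eq_zero.1 (show (χ (-i) - 1) * v 1 = 0 by linear_combination e1)).resolve_left h3
    · right
      have e0 := congrFun e 0
      have e1 := congrFun e 1
      simp [ρ, Matrix.mulVec, dotProduct, Fin.sum_univ_two] at e0 e1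
      have h2 := hadd i (-i)
      rw [add_neg_cancel, h0] at h2
      have h3 : (2 : ZMod p) ≠ 0 := by
        intro h
        have : ((2 : ℕ) : ZMod p) = 0 := by exact_mod_cast h
        rw [ZMod.natCast_eq_zero_iff] at this
        have := Nat.le_of_dvd (by omega) this
        omega
      have h4 : v 0 = 0 := (mul_eq_zero.1 (show 2 * v 0 = 0 by
        linear_combination (-1 : ZMod p) * e0 + χ (-i) * e1 + v 0 * h2)).resolve_left h3
      ext k; fin_cases k
      · exact h4
      · simpa [h4] using e1.symm)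
  exact ⟨L, inferInstance, inferInstance, H, h1, ⟨e.symm⟩⟩

end Cfsg.Agent.S4297
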