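import Cfsg.Statements.S4298
import Mathlib
import Cfsg.Agent.H8.Frob

set_option autoImplicit false
open Cfsg

namespace Cfsg.Agent.S4298

def tab (a b c d : ZMod 3) : ZMod 5 × ZMod 5 × ZMod 5 × ZMod 5 :=
  match a.val, b.val, c.val, d.val with
  | 0, 1, 2, 0 => (3, 0, 1, 2)
  | 0, 1, 2, 1 => (2, 2, 1, 4)
  | 0, 1, 2, 2 => (0, 3, 3, 4)
  | 0, 2, 1, 0 => (2, 0, 4, 3)
  | 0, 2, 1, 1 => (0, 2, 2, 1)
  | 0, 2, 1, 2 => (3, 3, 4, 1)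
  | 1, 0, 0, 1 => (1, 0, 0, 1)
  | 1, 0, 1, 1 => (2, 1, 3, 2)
  | 1, 0, 2, 1 => (2, 4, 2, 2)
  | 1, 1, 0, 1 => (0, 1, 4, 4)
  | 1, 1, 1, 2 => (4, 1, 3, 1)
  | 1, 1, 2, 0 => (1, 3, 3, 0)
  | 1, 2, 0, 1 => (4, 4, 1, 0)
  | 1, 2, 1, 0 => (4, 3, 4, 2)
  | 1, 2, 2, 2 => (2, 3, 0, 3)
  | 2, 0, 0, 2 => (4, 0, 0, 4)
  | 2, 0, 1, 2 => (3, 1, 3, 3)
  | 2, 0, 2, 2 => (3, 4, 2, 3)
  | 2, 1, 0, 2 => (1, 1, 4, 0)
  | 2, 1, 1, 1 => (3, 2, 0, 2)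
  | 2, 1, 2, 0 => (1, 2, 1, 3)
  | 2, 2, 0, 2 => (0, 4, 1, 1)
  | 2, 2, 1, 0 => (4, 2, 2, 0)
  | 2, 2, 2, 1 => (1, 4, 2, 4)
  | _, _, _, _ => (0, 0, 0, 0)

def mul4 (x y : ZMod 5 × ZMod 5 × ZMod 5 × ZMod 5) : ZMod 5 × ZMod 5 × ZMod 5 × ZMod 5 :=
  (x.1 * y.1 + x.2.1 * y.2.2.1, x.1 * y.2.1 + x.2.1 * y.2.2.2,
   x.2.2.1 * y.1 + x.2.2.2 * y.2.2.1, x.2.2.1 * y.2.1 + x.2.2.2 * y.2.2.2)

lemma tab_mul : ∀ a b c d : ZMod 3, a * d - b * c = 1 → ∀ e f g h : ZMod 3, e * h - f * g = 1 →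
    tab (a * e + b * g) (a * f + b * h) (c * e + d * g) (c * f + d * h) =
      mul4 (tab a b c d) (tab e f g h) := by decide +kernel

set_option synthInstance.maxSize 100000 in
lemma tab_fix : ∀ a b c d : ZMod 3, a * d - b * c = 1 → ∀ x y : ZMod 5,
    (tab a b c d).1 * x + (tab a b c d).2.1 * y = x →
    (tab a b c d).2.2.1 * x + (tab a b c d).2.2.2 * y = y →
    (a = 1 ∧ b = 0 ∧ c = 0 ∧ d = 1) ∨ (x = 0 ∧ y = 0) := by decide +kernel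

def toMat (x : ZMod 5 × ZMod 5 × ZMod 5 × ZMod 5) : Matrix (Fin 2) (Fin 2) (ZMod 5) :=
  !![x.1, x.2.1; x.2.2.1, x.2.2.2]

lemma toMat_mul (x y) : toMat (mul4 x y) = toMat x * toMat y := by
  simp [toMat, mul4]

lemma det_eq (A : Matrix.SpecialLinearGroup (Fin 2) (ZMod 3)) :
    A 0 0 * A 1 1 - A 0 1 * A 1 0 = 1 := by
  have := A.det_coe
  rwa [Matrix.det_fin_two] at this

/-- The group SL(2,3) of order 24 (the binary tetrahedral group) occurs as a Frobenius complement of some finite Frobenius group. -/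
theorem result :
    ∃ (L : Type) (_ : Group L) (_ : Finite L) (H : Subgroup L), Cfsg.IsFrobeniusComplement H ∧ Nonempty (H ≃* Matrix.SpecialLinearGroup (Fin 2) (ZMod 3)) := by
  let ρ : Matrix.SpecialLinearGroup (Fin 2) (ZMod 3) →* Matrix (Fin 2) (Fin 2) (ZMod 5) :=
    { toFun := fun A => toMat (tab (A 0 0) (A 0 1) (A 1 0) (A 1 1))
      map_one' := by
        show toMat (tab 1 0 0 1) = 1
        rw [Matrix.one_fin_two]; rfl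
      map_mul' := fun A B => by
        rw [← toMat_mul, ← tab_mul _ _ _ _ (det_eq A) _ _ _ _ (det_eq B)]
        simp [Matrix.mul_apply, Fin.sum_univ_two] }
  haveI : Fact (Nat.Prime 5) := ⟨by norm_num⟩
  haveI : Nontrivial (Matrix.SpecialLinearGroup (Fin 2) (ZMod 3)) :=
    ⟨⟨1, ⟨!![1, 1; 0, 1], by simp⟩, fun h => by
      have := congrArg (fun A : Matrix.SpecialLinearGroup (Fin 2) (ZMod 3) => A 0 1) h
      simp at this⟩⟩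
  obtain ⟨L, _, _, H, h1, ⟨e⟩, -⟩ := H8.exists_frob_of_matrix ρ (by
    intro A v e
    have e0 := congrFun e 0
    have e1 := congrFun e 1
    simp [ρ, toMat, Matrix.mulVec, dotProduct, Fin.sum_univ_two] at e0 e1
    rcases tab_fix _ _ _ _ (det_eq A) (v 0) (v 1) e0 e1 with ⟨h1, h2, h3, h4⟩ | ⟨h1, h2⟩
    · left
      ext i j; fin_cases i <;> fin_cases j <;> simp [h1, h2, h3, h4]
    · right
      ext i; fin_cases i <;> simp [h1, h2])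
  exact ⟨L, inferInstance, inferInstance, H, h1, ⟨e.symm⟩⟩

end Cfsg.Agent.S4298
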