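import Cfsg.Statements.S4299
import Mathlib
import Cfsg.Agent.H8.Frob

set_option autoImplicit false
open Cfsg

namespace Cfsg.Agent.S4299

/-- Every nontrivial finite cyclic group occurs as a Frobenius complement of some finite Frobenius group. -/
theorem result {C : Type*} [Group C] [Finite C] [IsCyclic C] [Nontrivial C] :
    ∃ (L : Type) (_ : Group L) (_ : Finite L) (H : Subgroup L), Cfsg.IsFrobeniusComplement H ∧ Nonempty (C ≃* H) := by
  have hn : 1 < Nat.card C := Finite.one_lt_card
  obtain ⟨p, hp, -, hmod⟩ := Nat.exists_prime_gt_modEq_one 0 (k := Nat.card C) (by omega)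
  haveI := Fact.mk hp
  have hd : Nat.card C ∣ Nat.card (ZMod p)ˣ := by
    rw [Nat.card_eq_fintype_card (α := (ZMod p)ˣ), ZMod.card_units]
    exact (Nat.modEq_iff_dvd' hp.one_lt.le).1 hmod.symm
  obtain ⟨g, hg⟩ := IsCyclic.exists_ofOrder_eq_natCard (α := (ZMod p)ˣ)
  have hu : orderOf (g ^ (orderOf g / Nat.card C)) = Nat.card C :=
    orderOf_pow_orderOf_div (orderOf_pos g).ne' (hg ▸ hd)
  set u := g ^ (orderOf g / Nat.card C)
  have hc : Nat.card C = Nat.card (Subgroup.zpowers u) := by rw [Nat.card_zpowers, hu]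
  haveI : Nontrivial (Subgroup.zpowers u) := by
    rw [← Finite.one_lt_card_iff_nontrivial, ← hc]; exact hn
  obtain ⟨L, _, _, H, h1, ⟨e⟩, -⟩ :=
    H8.exists_frob_of_distribMulAction (H := Subgroup.zpowers u) (V := ZMod p) (by
      intro h v e
      by_cases hv : v = 0
      · exact Or.inr hv
      · left
        have : ((h : (ZMod p)ˣ) : ZMod p) * v = 1 * v := by rw [one_mul]; exact e
        exact Subtype.ext (Units.ext (mul_right_cancel₀ hv this)))
  exact ⟨L, inferInstance, inferInstance, H, h1, ⟨(mulEquivOfCyclicCardEq hc).trans e⟩⟩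

end Cfsg.Agent.S4299
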