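import Cfsg.Statements.S4300
import Mathlib
import Cfsg.Agent.H8.Frob
import Cfsg.Agent.H8.TwoTrans

set_option autoImplicit false
open Cfsg

namespace Cfsg.Agent.S4300

/-- Let G act faithfully and primitively on a set X, and suppose the stabilizer of some point is a simple group. Then either G is simple, or G has a normal subgroup, neither trivial nor the whole group, that acts regularly on X (transitively with trivial point stabilizers). -/
theorem result {G : Type*} [Group G] {X : Type*} [MulAction G X] [FaithfulSMul G X]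
    (hprim : MulAction.IsPreprimitive G X) (x : X) (hsimple : IsSimpleGroup (MulAction.stabilizer G x)) :
    IsSimpleGroup G ∨ ∃ N : Subgroup G, N.Normal ∧ N ≠ ⊥ ∧ N ≠ ⊤ ∧
      MulAction.IsPretransitive N X ∧ ∀ y : X, MulAction.stabilizer N y = ⊥ := by
  by_cases hG : IsSimpleGroup G
  · exact Or.inl hG
  right
  haveI : Nontrivial G := by
    obtain ⟨a, ha⟩ := exists_ne (1 : MulAction.stabilizer G x)
    exact ⟨a, 1, fun h => ha (Subtype.ext h)⟩
  obtain ⟨N, hN, h1, h2⟩ : ∃ N : Subgroup G, N.Normal ∧ N ≠ ⊥ ∧ N ≠ ⊤ := by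
    by_contra hc
    push Not at hc
    exact hG ⟨fun N hN => by
      by_cases h : N = ⊥
      · exact Or.inl h
      · exact Or.inr (hc N hN h)⟩
  have htr : MulAction.IsPretransitive N X := H8.isPretransitive_of_normal_of_ne_bot hprim N h1
  refine ⟨N, hN, h1, h2, htr, ?_⟩
  have hx : ∀ n ∈ N, n • x = x → n = 1 := by
    rcases (hN.subgroupOf (MulAction.stabilizer G x)).eq_bot_or_eq_top with h | h
    · intro n hn e
      have : (⟨n, e⟩ : MulAction.stabilizer G x) ∈ N.subgroupOf (MulAction.stabilizer G x) := hn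
      rw [h] at this
      exact congrArg Subtype.val this
    · exfalso
      apply h2
      rw [eq_top_iff]
      intro g _
      obtain ⟨n, hn⟩ := htr.exists_smul_eq x (g • x)
      have h3 : (n : G)⁻¹ * g ∈ MulAction.stabilizer G x := by
        rw [MulAction.mem_stabilizer_iff, mul_smul, inv_smul_eq_iff]; exact hn.symm
      have : (⟨_, h3⟩ : MulAction.stabilizer G x) ∈ N.subgroupOf (MulAction.stabilizer G x) := by
        rw [h]; trivial
      simpa using N.mul_mem n.2 this
  intro y
  obtain ⟨m, rfl⟩ := htr.exists_smul_eq x y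
  rw [eq_bot_iff]
  intro n hn
  have := hx ((m : G)⁻¹ * n * m) (N.mul_mem (N.mul_mem (N.inv_mem m.2) n.2) m.2) (by
    rw [mul_smul, mul_smul, inv_smul_eq_iff]; exact hn)
  apply Subtype.ext
  calc (n : G) = m * ((m : G)⁻¹ * n * m) * (m : G)⁻¹ := by group
    _ = 1 := by rw [this]; group

end Cfsg.Agent.S4300
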