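import Cfsg.Statements.S4301
import Mathlib

set_option autoImplicit false
open Cfsg

namespace Cfsg.Agent.S4301

open Subgroup MulAction

/-- One-point extension of a multiply transitive group. Let X be a set and G a group of permutations of Option X (the set X with one extra point ∗ = none) all of whose elements fix ∗, such that G is k-transitive on the points of X for some k ≥ 2, X having at least k points. Suppose a permutation h of Option X and an element g of G satisfy: h interchanges ∗ with a point x of X and fixes a point y of X; g interchanges x and y; (g h)³ and h² lie in G; and for every f in G fixing x, the product h f h lies in G and fixes x. Then an element of the group generated by G and h fixes ∗ exactly when it lies in G, and that group acts (k+1)-transitively on Option X. -/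
theorem result {X : Type*} (G : Subgroup (Equiv.Perm (Option X))) (hfix : ∀ f ∈ G, f none = none)
    (k : ℕ) (hk : 2 ≤ k) (hkX : Nonempty (Fin k ↪ X))
    (htrans : ∀ a b : Fin k ↪ X, ∃ f ∈ G, ∀ i, f (some (a i)) = some (b i))
    (h g : Equiv.Perm (Option X)) (hg : g ∈ G) (x y : X)
    (h1 : h none = some x) (h2 : h (some x) = none) (h3 : h (some y) = some y)
    (h4 : g (some x) = some y) (h5 : g (some y) = some x)
    (h6 : (g * h) ^ 3 ∈ G) (h7 : h ^ 2 ∈ G)
    (h8 : ∀ f ∈ G, f (some x) = some x → h * f * h ∈ G ∧ (h * f * h) (some x) = some x) :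
    (∀ f ∈ Subgroup.closure ((G : Set (Equiv.Perm (Option X))) ∪ {h}), f none = none ↔ f ∈ G) ∧
      MulAction.IsMultiplyPretransitive (Subgroup.closure ((G : Set (Equiv.Perm (Option X))) ∪ {h})) (Option X) (k + 1) := by
  set_option maxSynthPendingDepth 3 in
  classical
  have xy : x ≠ y := fun e => by rw [← e, h2] at h3; cases h3
  have t2 : ∀ a b c d : X, a ≠ b → c ≠ d → ∃ f ∈ G, f (some a) = some c ∧ f (some b) = some d := fun a b c d n m => by
    obtain ⟨k, rfl⟩ := Nat.exists_eq_add_of_le' hk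
    obtain ⟨e⟩ := hkX
    have ex : ∀ a b : X, a ≠ b → ∃ u : Fin (k + 2) ↪ X, u 0 = a ∧ u 1 = b := fun a b n => by
      obtain ⟨σ, s⟩ := Equiv.Perm.exists_extending_pair (f := ![e 0, e 1]) (g := ![a, b])
        (by simp [Function.Injective, Fin.forall_fin_two]) (by simp [Function.Injective, Fin.forall_fin_two, n, n.symm])
      exact ⟨e.trans σ.toEmbedding, s 0, s 1⟩
    obtain ⟨u, rfl, rfl⟩ := ex a b n
    obtain ⟨v, rfl, rfl⟩ := ex c d m
    obtain ⟨f, l, r⟩ := htrans u v
    exact ⟨f, l, r 0, r 1⟩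
  have sm : ∀ f ∈ G, ∀ a : X, ∃ b, f (some a) = some b := fun f m a =>
    Option.ne_none_iff_exists'.1 fun z => Option.some_ne_none a (f.injective (z.trans (hfix f m).symm))
  have hi := inv_mem h7
  have key : ∀ f ∈ G, h * f * h ∈ G ∨ ∃ a ∈ G, ∃ b ∈ G, h * f * h = a * h * b := fun f m => by
    obtain ⟨z, e⟩ := sm f m x
    by_cases c : z = x
    · exact .inl (h8 f m (c ▸ e)).1
    obtain ⟨a, a1, a2, a3⟩ := t2 x y x z xy (Ne.symm c)
    have b := (h8 _ (mul_mem (inv_mem hg) (mul_mem (inv_mem a1) m)) (by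
      simp only [Equiv.Perm.mul_apply, e, Equiv.Perm.inv_eq_iff_eq, h4, a3])).1
    exact .inr ⟨_, mul_mem (mul_mem (mul_mem (mul_mem (h8 a a1 a2).1 hi) (inv_mem hg)) h6) hi, _,
      mul_mem (mul_mem (inv_mem hg) hi) b, by simp only [pow_succ, pow_zero]; group⟩
  have cl : ∀ f ∈ closure ((G : Set (Equiv.Perm (Option X))) ∪ {h}), f ∈ G ∨ ∃ a ∈ G, ∃ b ∈ G, f = a * h * b := by
    have s1 : ∀ u ∈ G, ∀ f, (f ∈ G ∨ ∃ a ∈ G, ∃ b ∈ G, f = a * h * b) → u * f ∈ G ∨ ∃ a ∈ G, ∃ b ∈ G, u * f = a * h * b := by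
      rintro u m _ (l | ⟨a, a1, b, b1, rfl⟩)
      exacts [.inl (mul_mem m l), .inr ⟨_, mul_mem m a1, b, b1, by group⟩]
    have s2 : ∀ f, (f ∈ G ∨ ∃ a ∈ G, ∃ b ∈ G, f = a * h * b) → h * f ∈ G ∨ ∃ a ∈ G, ∃ b ∈ G, h * f = a * h * b := by
      rintro _ (l | ⟨a, a1, b, b1, rfl⟩)
      · exact .inr ⟨1, one_mem _, _, l, by group⟩
      rcases key a a1 with l | ⟨c, c1, d, d1, e⟩
      · exact .inl (by simpa only [mul_assoc] using mul_mem l b1)
      · exact .inr ⟨c, c1, _, mul_mem d1 b1, by rw [← mul_assoc (c * h), ← e]; group⟩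
    intro f m
    induction m using closure_induction_left with
    | one => exact .inl (one_mem _)
    | mul_left u a f _ ih => exact a.elim (fun a => s1 u a f ih) fun a => a ▸ s2 f ih
    | inv_mul_cancel u a f _ ih =>
      refine a.elim (fun a => s1 _ (inv_mem a) f ih) fun a => ?_
      have := s1 _ hi _ (s2 f ih)
      rwa [show (h ^ 2)⁻¹ * (h * f) = u⁻¹ * f by rw [show u = h from a, pow_two]; group] at this
  have st : ∀ f ∈ closure ((G : Set (Equiv.Perm (Option X))) ∪ {h}), f none = none ↔ f ∈ G := fun f m =>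
    ⟨fun e => (cl f m).resolve_right fun ⟨a, a1, b, b1, r⟩ => by
      obtain ⟨z, w⟩ := sm a a1 x
      simp [r, hfix b b1, h1, w] at e, hfix f⟩
  refine ⟨st, ?_⟩
  have mg : ∀ {f}, f ∈ G → f ∈ closure ((G : Set (Equiv.Perm (Option X))) ∪ {h}) := fun m => subset_closure (.inl m)
  haveI : IsPretransitive (closure ((G : Set (Equiv.Perm (Option X))) ∪ {h})) (Option X) :=
    (isPretransitive_iff_base none).2 fun z => by
      rcases z with _ | z
      · exact ⟨1, rfl⟩
      obtain ⟨f, m, e⟩ : ∃ f ∈ G, f (some x) = some z := by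
        by_cases c : z = x
        · exact ⟨1, one_mem _, c ▸ rfl⟩
        · exact (t2 x y z x xy c).imp fun _ h => ⟨h.1, h.2.1⟩
      exact ⟨⟨f * h, mul_mem (mg m) (subset_closure (.inr rfl))⟩, show f (h none) = _ by rw [h1, e]⟩
  refine (SubMulAction.ofStabilizer.isMultiplyPretransitive (a := none)).2 ⟨fun u v => ?_⟩
  have ex : ∀ u : Fin k ↪ SubMulAction.ofStabilizer (closure ((G : Set (Equiv.Perm (Option X))) ∪ {h})) (none : Option X),
      ∃ a : Fin k ↪ X, ∀ i, (u i).1 = some (a i) := fun u => by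
    choose a e using fun i => Option.ne_none_iff_exists'.1 ((SubMulAction.mem_ofStabilizer_iff _ _).1 (u i).2)
    exact ⟨⟨a, fun i j z => u.injective (Subtype.ext (by rw [e, e, z]))⟩, e⟩
  obtain ⟨a, ea⟩ := ex u
  obtain ⟨b, eb⟩ := ex v
  obtain ⟨f, m, e⟩ := htrans a b
  exact ⟨⟨⟨f, mg m⟩, hfix f m⟩, Function.Embedding.ext fun i => Subtype.ext (show f (u i).1 = _ by rw [ea, eb, e])⟩

end Cfsg.Agent.S4301
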