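import Cfsg.Statements.S4304
import Mathlib
import Cfsg.Agent.H8.SylowCount

set_option autoImplicit false
open Cfsg

namespace Cfsg.Agent.S4304

/-- No finite group has exactly 15 Sylow 7-subgroups. -/
theorem result {G : Type*} [Group G] [Finite G] : Nat.card (Sylow 7 G) ≠ 15 := by
  have : Fact (Nat.Prime 7) := ⟨by norm_num⟩
  refine H8.sylow_count_reduction (fun G _ _ _ hred hn => ?_) G
  obtain ⟨hodd, k, hk, hG⟩ := H8.sylow_two_mul_add_one (by norm_num) hred hn
  have hk6 : k ≤ 6 := Nat.le_of_dvd (by norm_num) hk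
  obtain ⟨N, hN, hi⟩ := H8.exists_normal_index_of_card_prime (G := G) (p := 5) (by norm_num)
    (by omega) (by
      rw [hG]
      interval_cases k <;> simp_all) (by
      exact Nat.Coprime.pow_right 2 (Nat.coprime_two_right.mpr hodd))
  rw [hred N hN (by rw [hi]; norm_num)] at hi
  simp at hi

end Cfsg.Agent.S4304
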