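import Cfsg.Statements.S4305
import Mathlib
import Cfsg.Agent.H8.S3Act

set_option autoImplicit false
open Cfsg

namespace Cfsg.Agent.S4305

open Subgroup H7 H8 H1 SemidirectProduct

/-- Let the symmetric group of degree 3 act by automorphisms on a finite solvable group `G` of order prime to 6, so that only the identity of `G` is fixed by all of it. Then the derived subgroup of `G` is nilpotent. -/
theorem result {G : Type*} [Group G] [Finite G] [Group.IsSolvable G]
    [MulDistribMulAction (Equiv.Perm (Fin 3)) G] (hcop : (Nat.card G).Coprime 6)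
    (hfpf : ∀ g : G, (∀ a : Equiv.Perm (Fin 3), a • g = g) → g = 1) :
    Group.IsNilpotent ↥(commutator G) := by
  let φ := MulDistribMulAction.toMulAut (Equiv.Perm (Fin 3)) G
  let a : Equiv.Perm (Fin 3) := finRotate 3
  let b : Equiv.Perm (Fin 3) := Equiv.swap 0 1
  have R : S3R (inr a : G ⋊[φ] Equiv.Perm (Fin 3)) (inr b) :=
    ⟨by rw [← map_mul, ← map_mul, show a * a * a = 1 by decide, map_one],
      by rw [← map_mul, show b * b = 1 by decide, map_one],
      by rw [← map_inv, ← map_inv, ← map_mul, ← map_mul, show b * a * b⁻¹ = a⁻¹ by decide]⟩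
  have hall : ∀ c : Equiv.Perm (Fin 3), c = 1 ∨ c = a ∨ c = a * a ∨ c = b ∨ c = b * a ∨
      c = b * (a * a) := by decide
  have key : ∀ (c : Equiv.Perm (Fin 3)) (g : G), (inl g : G ⋊[φ] Equiv.Perm (Fin 3)) * inr c =
      inr c * inl g → c • g = g := fun c g h => by
    have := congrArg SemidirectProduct.left h
    simpa [φ] using this.symm
  have F : S3F (inr a : G ⋊[φ] Equiv.Perm (Fin 3)) (inr b) (sdL φ ⊤) :=
    ⟨sdR_le_normalizer_top ⊤ (inr_mem_sdR.2 trivial), sdR_le_normalizer_top ⊤ (inr_mem_sdR.2 trivial),
      by rwa [card_sdL_top], by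
        rintro _ ⟨g, -, rfl⟩ h1 h2
        have h3 := key a g h1
        have h4 := key b g h2
        rw [hfpf g fun c => by
          rcases hall c with e | e | e | e | e | e <;> simp only [e, mul_smul, one_smul, h3, h4],
          map_one]⟩
  have h := s3_nilp R F (Group.isSolvable_of_surjective (f := (sdLTopEquiv φ).toMonoidHom)
    (sdLTopEquiv φ).surjective)
  rw [← map_commutator] at h
  haveI : Group.IsNilpotent (sdL φ (_root_.commutator G)) := h
  exact Group.nilpotent_of_mulEquiv (sdLEquiv φ (_root_.commutator G)).symm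

end Cfsg.Agent.S4305
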