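import Cfsg.Statements.S4314
import Mathlib
import Cfsg.Agent.H8.Cls2

set_option autoImplicit false
open Cfsg

namespace Cfsg.Agent.S4314

open H8 H7 Subgroup
open scoped commutatorElement

/-- Let `G` be a finite group every conjugacy class of which has size 1 or a prime. Then either `G` is nilpotent of class at most 2, or `G/Z(G)` is a non-abelian group of order `pq` for distinct primes `p, q` (a Frobenius group of order `pq`). -/
theorem result {G : Type*} [Group G] [Finite G]
    (h : ∀ x : G, (Subgroup.centralizer ({x} : Set G)).index = 1 ∨ ((Subgroup.centralizer ({x} : Set G)).index).Prime) :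
    Subgroup.upperCentralSeries G 2 = ⊤ ∨
      ∃ p q : ℕ, p.Prime ∧ q.Prime ∧ p ≠ q ∧ Nat.card (G ⧸ Subgroup.center G) = p * q ∧ ¬ IsMulCommutative (G ⧸ Subgroup.center G) := by
  have h' : ∀ x : G, x ∉ center G → (cen1 x).index.Prime := fun x hx =>
    (h x).resolve_left (mt index_cen1_eq_one.1 hx)
  by_cases hh : ∃ x y : G, x ∉ center G ∧ y ∉ center G ∧ (cen1 x).index ≠ (cen1 y).index
  swap
  · push Not at hh
    left
    have key : ∀ u : G, _root_.commutator G ≤ cen1 u := fun u => by
      by_cases hu : u ∈ center G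
      · rw [index_eq_one.1 (index_cen1_eq_one.2 hu)]; exact le_top
      obtain ⟨p, hp, a, -, hz⟩ := ito_pow (fun x hx => hh x u hx hu) hu
      rw [H2.pRes_top] at hz
      obtain ⟨M, h1, h2, h3⟩ := H2.exists_normal_index_prime_of_pResidual_le
        (fun e => hu (index_cen1_eq_one.1 (index_eq_one.2 e))) (hz.trans (center_le_cen1 u))
      have h4 := (Nat.prime_dvd_prime_iff_eq hp.out (h' u hu)).1 (h2 ▸ index_dvd_of_le h3)
      rw [eq_of_index_le h3 (by rw [h2, h4])]
      exact H2.commutator_le_of_index_prime h2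
    refine eq_top_iff.2 fun x _ => Subgroup.mem_upperCentralSeries_succ_iff.2 fun y => ?_
    rw [Subgroup.upperCentralSeries_one]
    exact mem_center_iff.2 fun u =>
      (mem_cen1.1 (key u (commutator_mem_commutator (mem_top x) (mem_top y)))).symm
  obtain ⟨x, y, hx, hy, hxy⟩ := hh
  have e1 : ∀ {n : ℕ}, n.Prime → PiN {n} n := fun hn q hq hd =>
    (Nat.prime_dvd_prime_iff_eq hq hn).1 hd
  have e2 : ∀ {n m : ℕ}, n.Prime → m ≠ n → PiN {m}ᶜ n := fun hn h q hq hd e =>
    h (e.symm.trans ((Nat.prime_dvd_prime_iff_eq hq hn).1 hd))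
  obtain ⟨K, T, h1, h2, h3, h4, h5, h6, h7, h8⟩ := disc_struct (π := {(cen1 x).index}) (fun g => by
    by_cases hg : g ∈ center G
    · rw [index_cen1_eq_one.2 hg]; exact Or.inl fun q hq hd => (hq.not_dvd_one hd).elim
    by_cases e : (cen1 x).index = (cen1 g).index
    · rw [e]; exact Or.inl (e1 (h' g hg))
    · exact Or.inr (e2 (h' g hg) e)) hx (e1 (h' x hx)) hy (e2 (h' y hy) hxy)
  obtain ⟨l, hl, hl'⟩ := SetLike.not_le_iff_exists.1 h6
  obtain ⟨t, ht, ht'⟩ := SetLike.not_le_iff_exists.1 h7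
  have hf := H1.fac_of_normal h5
  have hK : K ≤ cen1 l := fun u hu => mem_cen1.2 (congrArg Subtype.val (h2.is_comm.comm ⟨u, hu⟩ ⟨l, hl⟩))
  have hT : T ≤ cen1 t := fun u hu => mem_cen1.2 (congrArg Subtype.val (h3.is_comm.comm ⟨u, hu⟩ ⟨t, ht⟩))
  have hc : (cen1 l).index.Coprime (cen1 t).index :=
    (h4.symm.coprime_dvd_left ((index_dvd_of_le hK).trans hf.symm.index_dvd)).coprime_dvd_right
      ((index_dvd_of_le hT).trans hf.index_dvd)
  have hZ : cen1 l ⊓ cen1 t = center G := by
    refine le_antisymm (fun g hg => ?_) (le_inf (center_le_cen1 _) (center_le_cen1 _))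
    obtain ⟨a, ha, b, hb, rfl⟩ := hf g
    refine mul_mem ((h8 l hl a ha ?_).resolve_left hl') ((h8 b hb t ht ?_).resolve_right ht')
    · rw [commutatorElement_eq_one_iff_mul_comm.2 (mem_cen1.1
        ((mul_mem_cancel_right (hK hb)).1 hg.1)).symm]
      exact one_mem _
    · rw [commutatorElement_eq_one_iff_mul_comm.2 (mem_cen1.1
        ((mul_mem_cancel_left (hT ha)).1 hg.2))]
      exact one_mem _
  refine Or.inr ⟨_, _, h' l hl', h' t ht', (Nat.coprime_primes (h' l hl') (h' t ht')).1 hc, ?_, fun e => ?_⟩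
  · rw [← H1.index_inf_of_coprime hc, hZ]; rfl
  · refine (h8 l hl t ht ((QuotientGroup.eq_one_iff _).1 ?_)).elim hl' ht'
    change QuotientGroup.mk' (center G) _ = 1
    rw [map_commutatorElement, commutatorElement_eq_one_iff_mul_comm]
    exact e.is_comm.comm _ _

end Cfsg.Agent.S4314
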