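import Cfsg.Statements.S4320
import Cfsg.Agent.H1.Basic

set_option autoImplicit false
open Cfsg

namespace Cfsg.Agent.S4320

open Subgroup Matrix

theorem witt {R E G : Type*} [CommRing R] [AddCommGroup E] [Module R E] [Group G] [Finite G] (ε : R →+* ℤ) (π : G → R)
    (hπ : ∀ g, ε (π g) = 1) (D : G → E) (hD : ∀ g h, D (g * h) = D g + π g • D h) :
    ∃ d : R, ε d = Nat.card (Abelianization G) ∧ ∀ g, d • D g = 0 := by
  classical
  haveI := Fintype.ofFinite G
  obtain ⟨ι, _, n, hn, ⟨e⟩⟩ := CommGroup.equiv_prod_multiplicative_zmod_of_finite (Abelianization G)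
  haveI : ∀ i, NeZero (n i) := fun i => ⟨by have := hn i; omega⟩
  choose x hx using fun i => QuotientGroup.mk_surjective (e.symm (Pi.mulSingle i (Multiplicative.ofAdd 1)))
  let v : ι ⊕ G → E := Sum.elim (fun i => D (x i)) D
  let W : Submodule R E := RingHom.ker ε • Submodule.span R (Set.range v)
  let φ : G →* Multiplicative (E ⧸ W) := MonoidHom.mk' (fun g => Multiplicative.ofAdd (W.mkQ (D g))) fun g h => by
    rw [← ofAdd_add, ← map_add, hD]
    refine congrArg _ ((Submodule.Quotient.eq W).2 ?_)
    rw [show D g + π g • D h - (D g + D h) = (π g - 1) • D h by rw [sub_smul, one_smul]; abel]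
    exact Submodule.smul_mem_smul (by simp [RingHom.mem_ker, hπ]) (Submodule.subset_span ⟨.inr h, rfl⟩)
  let ψ := (Abelianization.lift φ).comp e.symm.toMonoidHom
  have hψ : ∀ i, ψ (Pi.mulSingle i (Multiplicative.ofAdd 1)) = Multiplicative.ofAdd (W.mkQ (D (x i))) := fun i => by
    show Abelianization.lift φ (e.symm _) = _
    rw [← hx]
    rfl
  let M : Matrix (ι ⊕ G) (ι ⊕ G) ℤ := fromBlocks (diagonal fun i => (n i : ℤ)) 0
    (of fun g i => -((e (Abelianization.of g) i).toAdd.val : ℤ)) 1
  have row : ∀ r, ∑ j, (M r j : R) • v j ∈ W := fun r => by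
    rw [← Submodule.Quotient.mk_eq_zero, ← Submodule.mkQ_apply, Fintype.sum_sum_type]
    rcases r with i | g
    · have : ψ (Pi.mulSingle i (Multiplicative.ofAdd 1)) ^ n i = 1 := by
        rw [← map_pow, ← Pi.mulSingle_pow, ← ofAdd_nsmul]
        simp
      rw [hψ, ← ofAdd_nsmul, ofAdd_eq_one, ← map_nsmul] at this
      rw [← this]
      simp [M, v, diagonal_apply, Nat.cast_smul_eq_nsmul]
    · have : ψ (e (Abelianization.of g)) = ∏ i, ψ (Pi.mulSingle i (Multiplicative.ofAdd 1)) ^ (e (Abelianization.of g) i).toAdd.val := by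
        conv_lhs => rw [← Finset.univ_prod_mulSingle (e (Abelianization.of g)), map_prod]
        refine Finset.prod_congr rfl fun i _ => ?_
        rw [← map_pow, ← Pi.mulSingle_pow, ← ofAdd_nsmul]
        simp
      simp only [hψ, ← ofAdd_nsmul, ← ofAdd_sum] at this
      have e2 := Multiplicative.ofAdd.injective
        ((show Multiplicative.ofAdd (W.mkQ (D g)) = ψ (e (Abelianization.of g)) by simp [ψ, φ]).trans this)
      simp only [← map_nsmul, ← map_sum] at e2
      rw [← sub_eq_zero, ← map_sub] at e2
      rw [← e2]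
      simp [M, v, one_apply, Nat.cast_smul_eq_nsmul, -ZMod.natCast_val, neg_add_eq_sub]
  choose c hc hs using fun r => (Submodule.mem_ideal_smul_span_iff_exists_sum _ _ _).1 (row r)
  let a : Matrix (ι ⊕ G) (ι ⊕ G) R := of fun r j => M r j - c r j
  have ha : ∀ r, ∑ j, a r j • v j = 0 := fun r => by
    simp only [a, of_apply, sub_smul, Finset.sum_sub_distrib, ← hs, sub_eq_zero]
    exact Finsupp.sum_fintype _ _ fun _ => zero_smul _ _
  refine ⟨a.det, ?_, fun g => ?_⟩
  · rw [RingHom.map_det, show ε.mapMatrix a = M from ext fun r j => by simp [a, RingHom.mem_ker.1 (hc r j)],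
      det_fromBlocks_zero₁₂, det_one, det_diagonal, Nat.card_congr e.toEquiv, Nat.card_pi]
    simp
  · have : ∑ r, a.adjugate (.inr g) r • ∑ j, a r j • v j = 0 := by simp [ha]
    simp only [Finset.smul_sum, smul_smul] at this
    rw [Finset.sum_comm] at this
    simp only [← Finset.sum_smul, ← mul_apply, adjugate_mul] at this
    simpa [one_apply, v] using this

/-- The Principal Ideal Theorem of class field theory in its group-theoretic form: for every finite group `G`, the transfer homomorphism from `G` into the abelianization `G'/G''` of its derived subgroup `G'` is the trivial homomorphism. -/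
theorem result {G : Type*} [Group G] [Finite G] :
    MonoidHom.transfer (Abelianization.of : ↥(commutator G) →* Abelianization ↥(commutator G)) =
      (1 : G →* Abelianization ↥(commutator G)) := by
  classical
  haveI := Fintype.ofFinite (Abelianization G)
  let E := Abelianization G → Additive (Abelianization (commutator G)) × ℤ
  let ρ : Abelianization G →* Module.End ℤ E :=
    { toFun := fun s => LinearMap.funLeft ℤ _ fun q => s⁻¹ * q
      map_one' := by ext <;> simp
      map_mul' := fun s u => by ext <;> simp [mul_assoc, mul_left_comm] }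
  let θ := MonoidAlgebra.lift ℤ _ _ ρ
  letI : Module (MonoidAlgebra ℤ (Abelianization G)) E := Module.compHom E θ.toRingHom
  have sm : ∀ (d : MonoidAlgebra ℤ (Abelianization G)) (f : E) q, (d • f) q = ∑ s, d.coeff s • f (s⁻¹ * q) := fun d f q => by
    show θ d f q = _
    rw [MonoidAlgebra.lift_apply, Finsupp.sum_fintype _ _ (by simp), LinearMap.sum_apply, Finset.sum_apply]
    rfl
  let ψ : G → Abelianization (commutator G) := fun x => if h : x ∈ commutator G then Abelianization.of ⟨x, h⟩ else 1
  obtain ⟨t, ht⟩ : ∃ t : Abelianization G → G, ∀ q, Abelianization.of (t q) = q := ⟨fun q => q.out, fun q => q.out_eq⟩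
  have m : ∀ (g : G) (q : Abelianization G), (t q)⁻¹ * g * t ((Abelianization.of g)⁻¹ * q) ∈ commutator G := fun g q => by
    rw [← Abelianization.ker_of, MonoidHom.mem_ker, map_mul, map_mul, map_inv, ht, ht]
    group
  obtain ⟨d, e, hd⟩ := witt (MonoidAlgebra.lift ℤ ℤ (Abelianization G) 1).toRingHom
    (fun g : G => MonoidAlgebra.single (Abelianization.of g) 1) (by simp)
    (fun g => (fun q => (.ofMul (ψ ((t q)⁻¹ * g * t ((Abelianization.of g)⁻¹ * q))),
      (if q = Abelianization.of g then 1 else 0) - if q = 1 then 1 else 0) : E)) fun g h => by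
      ext q
      · rw [Pi.add_apply, sm, Finset.sum_eq_single (Abelianization.of g) (fun _ _ k => by simp [k.symm]) (by simp)]
        simp only [ψ, dif_pos (m _ _), MonoidAlgebra.coeff_single, Finsupp.single_eq_same, one_smul, Prod.fst_add, ← ofMul_mul,
          ← map_mul]
        congr 2
        simp [mul_assoc]
      · rw [Pi.add_apply, sm, Finset.sum_eq_single (Abelianization.of g) (fun _ _ k => by simp [k.symm]) (by simp)]
        simp [inv_mul_eq_iff_eq_mul]
  have c : ∀ q, d.coeff q = d.coeff 1 := fun q => by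
    obtain ⟨g, rfl⟩ : ∃ g, Abelianization.of g = q := ⟨t q, ht q⟩
    have := congrArg Prod.snd ((sm _ _ _).symm.trans (congrFun (hd g) (Abelianization.of g)))
    simp [Prod.snd_sum, mul_sub, inv_mul_eq_one, sub_eq_zero] at this
    exact this.symm
  have c1 : d.coeff 1 = 1 := by
    have : ∑ q, d.coeff q = Nat.card (Abelianization G) := by
      rw [← e]
      simp [MonoidAlgebra.lift_apply, Finsupp.sum_fintype]
    simp only [c] at this
    simpa using this
  ext g
  have := congrArg Prod.fst ((sm _ _ _).symm.trans (congrFun (hd g) 1))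
  simp only [c, c1, one_smul, Prod.fst_sum, mul_one, ← ofMul_prod, ψ, dif_pos (m _ _)] at this
  rw [MonoidHom.transfer_def _ ⟨_, isComplement_range_left (H := commutator G) (f := t) ht⟩, leftTransversals.diff]
  refine Eq.trans ?_ this
  refine @Fintype.prod_equiv _ _ _ (_) _ _ (Equiv.inv (Abelianization G)) _ _ fun q => congrArg _ (Subtype.ext ?_)
  simp only [Equiv.inv_apply, inv_inv, mul_assoc]
  have k := IsComplement.leftQuotientEquiv_apply (H := commutator G) (f := t) ht
  exact congrArg₂ (·⁻¹ * ·) (k q) ((smul_apply_eq_smul_apply_inv_smul g ⟨_, isComplement_range_left (H := commutator G) (f := t) ht⟩ q).trans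
    (congrArg (g * ·) (k _)))

end Cfsg.Agent.S4320
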