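import Cfsg.Statements.S4422
import Mathlib

set_option autoImplicit false
open Cfsg

namespace Cfsg.Agent.S4422

/-- Primitive divisors of `q^e - 1` are congruent to 1 modulo `e`. Let `q ≥ 2` and `e ≥ 1` be natural numbers and let `m` be a divisor of `q^e - 1` that is coprime to `q^i - 1` for every `1 ≤ i < e` (so `m` divides the primitive part of `q^e - 1`, the largest such divisor). Then `m ≡ 1 (mod e)`. -/
theorem result (q e m : ℕ) (hq : 2 ≤ q) (he : 1 ≤ e)
    (hm : m ∣ q ^ e - 1) (hcop : ∀ i : ℕ, 1 ≤ i → i < e → Nat.Coprime m (q ^ i - 1)) :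
    m % e = 1 % e := by
  have hpos : 0 < q ^ e - 1 := by
    have := Nat.one_lt_pow (n := e) (a := q) (by omega) (by omega)
    omega
  have key : ∀ p : ℕ, p.Prime → p ∣ m → p ≡ 1 [MOD e] := by
    intro p hp hpm
    haveI := Fact.mk hp
    have h1 : ∀ i, (q : ZMod p) ^ i = 1 ↔ p ∣ q ^ i - 1 := by
      intro i
      rw [← ZMod.natCast_eq_zero_iff, Nat.cast_sub (Nat.one_le_pow _ _ (by omega))]
      push_cast
      rw [sub_eq_zero]
    have he1 : (q : ZMod p) ^ e = 1 := (h1 e).2 (hpm.trans hm)
    have hord : orderOf (q : ZMod p) = e := by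
      rw [orderOf_eq_iff (by omega)]
      refine ⟨he1, fun i hi hi0 h => ?_⟩
      have := Nat.Coprime.eq_one_of_dvd
        (Nat.Coprime.coprime_dvd_left hpm (hcop i hi0 hi)) ((h1 i).1 h)
      exact hp.one_lt.ne' this
    have hq0 : (q : ZMod p) ≠ 0 := by
      intro h0
      rw [h0, zero_pow (by omega)] at he1
      exact zero_ne_one he1
    have := ZMod.orderOf_dvd_card_sub_one hq0
    rw [hord] at this
    exact ((Nat.modEq_iff_dvd' hp.one_lt.le).2 this).symm
  have hm0 : m ≠ 0 := by
    rintro rfl
    rw [zero_dvd_iff] at hm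
    omega
  clear hm hcop
  show m ≡ 1 [MOD e]
  induction m using Nat.recOnPrimeCoprime with
  | zero => exact absurd rfl hm0
  | prime_pow p n hp =>
    rcases n with _ | n
    · simp [Nat.ModEq.refl]
    · simpa using (key p hp (dvd_pow_self p (by omega))).pow (n + 1)
  | coprime a b ha hb hab iha ihb =>
    simpa using (iha (fun p hp h => key p hp (h.mul_right _)) (by omega)).mul
      (ihb (fun p hp h => key p hp (h.mul_left _)) (by omega))

end Cfsg.Agent.S4422
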