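import Cfsg.Statements.S4425
import Cfsg.Agent.H9.Zsp

set_option autoImplicit false
open Cfsg

namespace Cfsg.Agent.S4425
open H9 H3 MonoidAlgebra
open scoped Pointwise
set_option linter.style.haveILetI false
set_option linter.unusedVariables false


/-- Let χ be an irreducible character of the finite group G, p a prime, p^a the p-part of the order of G and p^b the p-part of the degree χ(1). Let χ̃ be the class function equal to p^a · χ on p-regular elements and zero on p-singular elements. Then p^(−b) · χ̃ is a generalized character of G, while p^(−(b+1)) · χ̃ is not. -/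
theorem result {G : Type*} [Group G] [Finite G] (p : ℕ) [Fact p.Prime] (χ : Cfsg.IrrCharacter G) : Cfsg.IsGeneralizedCharacter G (fun x : G => if p ∣ orderOf x then (0 : ℂ) else ((p ^ ((Nat.card G).factorization p - (Cfsg.charDegree (χ : G → ℂ)).factorization p) : ℕ) : ℂ) * (χ : G → ℂ) x) ∧ ¬ Cfsg.IsGeneralizedCharacter G (fun x : G => if p ∣ orderOf x then (0 : ℂ) else ((p ^ (Nat.card G).factorization p : ℕ) : ℂ) / ((p ^ ((Cfsg.charDegree (χ : G → ℂ)).factorization p + 1) : ℕ) : ℂ) * (χ : G → ℂ) x) := by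
  classical
  haveI := Fintype.ofFinite G
  obtain ⟨M, hM⟩ := exists_pmod (p := p) Fact.out
  haveI : PMod p M := ⟨hM⟩
  rw [if_reg_eq, if_reg_eq]
  set B := blk M χ
  have hχ : χ ∈ B.1 := mem_blk χ
  have a1 := B.minv_add_defect
  have a2 := Bl.minv_add_height hχ
  have a3 := Bl.height_le_defect hχ
  have p0 : (p : ℂ) ≠ 0 := Nat.cast_ne_zero.2 (Fact.out : p.Prime).ne_zero
  constructor
  · refine isGen_of_inner_int ((isClassFunction_pRegularPart χ.2.isClassFunction).smul _)
      fun ψ hψ => ?_
    obtain ⟨n, hn⟩ := Bl.pow_dvd_mm hχ hψ.isGen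
    refine ⟨n, ?_⟩
    have := Bl.mm_irr hχ ⟨ψ, hψ⟩
    rw [B.mm_symm χ.2.isGen hψ.isGen, hn, show blockDefect p B.1 = blockHeight p B.1 χ.1 +
      ((Nat.card G).factorization p - (charDegree χ.1).factorization p) by omega] at this
    push_cast at this ⊢
    rw [pow_add, mul_assoc, mul_right_inj' (pow_ne_zero _ p0)] at this
    rw [H3.inner_smul_left, this]
  · intro h
    obtain ⟨ψ, hψ, h0⟩ := B.exists_height_zero
    obtain ⟨n, hn⟩ := h.inner_int ψ.2.isGen
    refine (Bl.pow_succ_dvd_mm_iff hψ hχ).1 ⟨n, ?_⟩ h0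
    apply Int.cast_injective (α := ℂ)
    rw [B.mm_symm ψ.2.isGen χ.2.isGen, Bl.mm_irr hχ]
    push_cast
    rw [← hn, H3.inner_smul_left, ← a1, ← a2]
    push_cast
    field_simp
    ring

end Cfsg.Agent.S4425
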