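import Cfsg.Statements.S4426
import Cfsg.Agent.H9.Zsp

set_option autoImplicit false
open Cfsg

namespace Cfsg.Agent.S4426
open H9 H3 MonoidAlgebra
open scoped Pointwise
set_option linter.style.haveILetI false
set_option linter.unusedVariables false


/-- Let χ be an irreducible character in the p-block B of the finite group G (relative to a maximal ideal M of the algebraic integers containing p), let p^a be the p-part of the order of G, and let χ̃ be the class function equal to p^a · χ on p-regular elements and zero elsewhere. For ξ ∈ B the inner product [χ̃, ξ] is an integer. The following are equivalent: (a) χ has height zero in B; (b) for some ξ ∈ B the integer [χ̃, ξ] is nonzero and the exact power of p dividing it equals the exact power of p dividing ξ(1); (c) the same holds for every ξ ∈ B. -/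
theorem result {G : Type*} [Group G] [Fintype G] (p : ℕ) [Fact p.Prime] (M : Ideal Cfsg.AlgInt) (hM : Cfsg.IsPModular p M) (B : Set (Cfsg.IrrCharacter G)) (hB : Cfsg.IsPBlock M B) (χ : Cfsg.IrrCharacter G) (hχ : χ ∈ B) : (Cfsg.blockHeight p B (χ : G → ℂ) = 0 ↔ ∃ ξ ∈ B, ∃ n : ℤ, Cfsg.classInner (fun x : G => if p ∣ orderOf x then (0 : ℂ) else ((p ^ (Nat.card G).factorization p : ℕ) : ℂ) * (χ : G → ℂ) x) (ξ : G → ℂ) = (n : ℂ) ∧ n ≠ 0 ∧ padicValInt p n = (Cfsg.charDegree (ξ : G → ℂ)).factorization p) ∧ (Cfsg.blockHeight p B (χ : G → ℂ) = 0 ↔ ∀ ξ ∈ B, ∃ n : ℤ, Cfsg.classInner (fun x : G => if p ∣ orderOf x then (0 : ℂ) else ((p ^ (Nat.card G).factorization p : ℕ) : ℂ) * (χ : G → ℂ) x) (ξ : G → ℂ) = (n : ℂ) ∧ n ≠ 0 ∧ padicValInt p n = (Cfsg.charDegree (ξ : G → ℂ)).factorization p) := by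
  classical
  haveI : PMod p M := ⟨hM⟩
  lift B to Bl M G using hB
  rw [if_reg_eq]
  have key : ∀ ξ ∈ B.1, blockHeight p B.1 χ.1 = 0 ↔ ∃ n : ℤ, classInner
      (((p ^ (Nat.card G).factorization p : ℕ) : ℂ) • pRegularPart p χ.1) ξ.1 = n ∧ n ≠ 0 ∧
      padicValInt p n = (charDegree ξ.1).factorization p := fun ξ hξ => by
    have e : classInner (((p ^ (Nat.card G).factorization p : ℕ) : ℂ) • pRegularPart p χ.1) ξ.1 =
        ((p ^ B.minv * B.mm χ.1 ξ.1 : ℤ) : ℂ) := by
      rw [H3.inner_smul_left, ← B.minv_add_defect]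
      push_cast
      rw [Bl.mm_irr hχ]; push_cast; ring
    have h1 := Bl.pow_dvd_mm hξ χ.2.isGen
    have h2 := Bl.pow_succ_dvd_mm_iff hχ hξ
    have p0 : (p : ℤ) ^ B.minv ≠ 0 := pow_ne_zero _ (Nat.cast_ne_zero.2 (Fact.out : p.Prime).ne_zero)
    have hv : padicValInt p ((p : ℤ) ^ B.minv) = B.minv := by
      rw [← Nat.cast_pow, padicValInt.of_nat, padicValNat.prime_pow]
    rw [padicValInt_dvd_iff] at h1 h2
    rw [e, ← Bl.minv_add_height hξ]
    constructor
    · intro h0
      have m0 := Bl.mm_ne_zero hχ hξ h0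
      refine ⟨_, rfl, mul_ne_zero p0 m0, ?_⟩
      rw [padicValInt.mul p0 m0, hv]
      simp only [m0, false_or, h0, ne_eq, not_true, iff_false] at h1 h2
      omega
    · rintro ⟨n, a, b, c⟩
      obtain rfl := Int.cast_injective a
      have m0 := right_ne_zero_of_mul b
      rw [padicValInt.mul p0 m0, hv] at c
      by_contra h0
      have := h2.2 h0
      simp only [m0, false_or] at this
      omega
  exact ⟨⟨fun h => ⟨χ, hχ, (key χ hχ).1 h⟩, fun ⟨ξ, hξ, h⟩ => (key ξ hξ).2 h⟩,
    fun h ξ hξ => (key ξ hξ).1 h, fun h => (key χ hχ).2 (h χ hχ)⟩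

end Cfsg.Agent.S4426
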