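import Cfsg.Statements.S4431
import Cfsg.Agent.H9.FR

set_option autoImplicit false
open Cfsg

namespace Cfsg.Agent.S4431
open H9 H3 MonoidAlgebra
open scoped Pointwise
set_option linter.style.haveILetI false
set_option linter.unusedVariables false


/-- Let H be a subgroup of the finite group G and b a block of H whose induced block B₀ in G is defined (relative to a maximal ideal M of the algebraic integers containing p). Let χ be an irreducible character of G, ψ ∈ b, and let η be the class function on H equal to p^a · χ on the p-regular elements of H and zero elsewhere, p^a being the p-part of the order of H. Then (a) if χ ∉ B₀, the number [η, ψ]/ψ(1) lies in the local ideal at M; (b) if χ ∈ B₀ has height zero, it does not. -/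
theorem result {G : Type*} [Group G] [Fintype G] (p : ℕ) [Fact p.Prime] (M : Ideal Cfsg.AlgInt) (hM : Cfsg.IsPModular p M) (H : Subgroup G) [Fintype H] (b : Set (Cfsg.IrrCharacter H)) (B₀ : Set (Cfsg.IrrCharacter G)) (hind : Cfsg.IsInducedBlock M H b B₀) (χ : Cfsg.IrrCharacter G) (ψ : Cfsg.IrrCharacter H) (hψ : ψ ∈ b) : (χ ∉ B₀ → Cfsg.MemLocalIdeal M (Cfsg.classInner (fun h : H => if p ∣ orderOf h then (0 : ℂ) else ((p ^ (Nat.card H).factorization p : ℕ) : ℂ) * (χ : G → ℂ) h) (ψ : H → ℂ) / (ψ : H → ℂ) 1)) ∧ (χ ∈ B₀ → Cfsg.blockHeight p B₀ (χ : G → ℂ) = 0 → ¬ Cfsg.MemLocalIdeal M (Cfsg.classInner (fun h : H => if p ∣ orderOf h then (0 : ℂ) else ((p ^ (Nat.card H).factorization p : ℕ) : ℂ) * (χ : G → ℂ) h) (ψ : H → ℂ) / (ψ : H → ℂ) 1)) := by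
  classical
  haveI : PMod p M := ⟨hM⟩
  lift b to Bl M H using hind.1
  lift B₀ to Bl M G using hind.2.1
  rw [isInducedBlock_iff] at hind
  have e : (fun h : H => if p ∣ orderOf h then (0 : ℂ) else
      ((p ^ (Nat.card H).factorization p : ℕ) : ℂ) * χ.1 h) =
      ((p ^ (Nat.card H).factorization p : ℕ) : ℂ) • pRegularPart p fun h : H => χ.1 h := by
    funext h
    simp only [Pi.smul_apply, pRegularPart_apply, IsPRegular, smul_eq_mul]
    split_ifs <;> simp_all
  have h1 : classInner (((p ^ (Nat.card H).factorization p : ℕ) : ℂ) •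
      pRegularPart p fun h : H => χ.1 h) ψ.1 / ψ.1 1 =
      (((p ^ (Nat.card H).factorization p : ℕ) : ℂ) / Nat.card H) *
        om ψ.1 (zr p fun h : H => χ.1 h) := by
    have := card_ne_zero H
    rw [H3.inner_smul_left, om_apply, chi_zr_comm, chi_zr_eq_inner _ ψ.2.isCharacter]
    field_simp
  have hc := χ.2.isClassFunction.res H
  have h2 : red M (om ψ.1 (zr p fun h : H => χ.1 h)) = B₀.lam (zrF M χ.1) := by
    rw [← b.lam_zrF hψ hc fun g => irr_mem_LR χ _, ← hind _ (zrF_mem_Zc χ.2.isClassFunction),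
      pull_zrF H.subtype_injective]; rfl
  have h3 := om_zr_mem (M := M) hc (fun g => irr_mem_LR χ _) ψ
  have u1 : ((p ^ (Nat.card H).factorization p : ℕ) : ℂ) / Nat.card H ∈ LR M := by
    rw [nat_div_mem_LR_iff (p_pow_ne_zero _) Nat.card_pos.ne', factorization_p_pow]
  have u2 : ((p ^ (Nat.card H).factorization p : ℕ) : ℂ) / Nat.card H ∉ LI M := by
    rw [nat_div_mem_LI_iff (p_pow_ne_zero _) Nat.card_pos.ne', factorization_p_pow]; simp
  rw [e, h1, ← mem_LI, mul_mem_LI_iff u1 h3, ← red_eq_zero_iff h3, h2]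
  refine ⟨fun h => Or.inr ?_, fun h h0 h' => ?_⟩
  · by_contra h0
    exact h (Bl.lam_zrF_ne_zero_iff.1 h0).1
  · exact Bl.lam_zrF_ne_zero_iff.2 ⟨h, h0⟩ (h'.resolve_left u2)

end Cfsg.Agent.S4431
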