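import Cfsg.Statements.S4437
import Cfsg.Agent.H9.Trans

set_option autoImplicit false
open Cfsg

namespace Cfsg.Agent.S4437
open H9 H3 MonoidAlgebra
open scoped Pointwise
set_option linter.style.haveILetI false
set_option linter.unusedVariables false


/-- Let P be a p-subgroup of the finite group G, H = P·C_G(P), and b a block of H (relative to a maximal ideal M of the algebraic integers containing p) having P as a defect group; let B be the block of G induced by b. Let T be the stabilizer of b in N_G(P): the elements g of N_G(P) such that the g-conjugate of every member of b is again a member of b. Then B has defect group P if and only if p does not divide the index of H in T. -/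
theorem result {G : Type*} [Group G] [Fintype G] (p : ℕ) [Fact p.Prime] (M : Ideal Cfsg.AlgInt) (hM : Cfsg.IsPModular p M) (P : Subgroup G) (hP : IsPGroup p P) (H : Subgroup G) [Fintype H] (hH : H = P ⊔ Subgroup.centralizer (P : Set G)) (b : Set (Cfsg.IrrCharacter H)) (hb : Cfsg.IsPBlock M b) (hbP : Cfsg.IsDefectGroup p M b (P.subgroupOf H)) (B : Set (Cfsg.IrrCharacter G)) (hind : Cfsg.IsInducedBlock M H b B) (T : Subgroup G) (hT : ∀ g : G, g ∈ T ↔ (g ∈ Subgroup.normalizer (P : Set G) ∧ ∀ θ ∈ b, ∀ θ' : Cfsg.IrrCharacter H, (∀ h h' : H, (h' : G) = g * h * g⁻¹ → (θ' : H → ℂ) h' = (θ : H → ℂ) h) → θ' ∈ b)) : Cfsg.IsDefectGroup p M B P ↔ ¬ p ∣ H.relIndex T := by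
  haveI : PMod p M := ⟨hM⟩
  subst hH
  lift b to Bl M ↥(P ⊔ cen P) using hb
  lift B to Bl M G using hind.2.1
  have hN : P ⊔ cen P ≤ nrm P := sup_le Subgroup.le_normalizer (cen_le_nrm P)
  have hbp := bp_of_isBlk_sup hP b.isBlk
  have h1 : NSub ⊥ B.e P b.E :=
    nsub_bot_iff.2 ⟨hbp, (isInducedBlock_iff_br hP le_sup_left le_sup_right hN).1 hind⟩
  obtain rfl : T = nrm P ⊓ stab b.E := Subgroup.ext fun g => by
    rw [hT, Subgroup.mem_inf]
    exact and_congr_right fun hg =>
      (Bl.mem_stab_iff_forall (H1.le_normalizer_sup le_rfl (nrm_le_nrm_cen P) hg)).symm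
  rw [isDefectGroup_subgroupOf_iff le_sup_left] at hbP
  refine ⟨fun h => ?_, fun h => ?_⟩
  · have := MaxP.not_dvd ⟨h1, adef_top_iff.2 h⟩
    rwa [sup_comm (cen P) P] at this
  have h2 := hbp.loc_stab.adef_of_cen hbp.loc_stab.le hP hbP.br_ne (hbp.loc_sup.adef_cen hbP)
    (by rwa [sup_comm (cen P) P])
  exact (maxP_of_max h1 fun R c h3 => h2.max R (le_inf h3.norm (le_stab_iff.2 h3.fix))
    h3.right.isPGroup h3.br_ne h3.le).isDef

end Cfsg.Agent.S4437
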