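import Cfsg.Statements.S4442
import Cfsg.Agent.H9.Cyc4

set_option autoImplicit false
open Cfsg

namespace Cfsg.Agent.S4442
open H9 H3 MonoidAlgebra
open scoped Pointwise
set_option linter.style.haveILetI false
set_option linter.unusedVariables false


/-- Blocks of defect one. Let p be an odd prime and G a finite group whose Sylow p-subgroup P has order p; let C = C_G(P) and N = N_G(P), and fix a maximal ideal M of the algebraic integers containing p. Let B be a block of G with defect group P, b a block of C inducing B, and θ the member of b having P in its kernel (there is exactly one). Let T be the stabilizer of θ in N (the elements g ∈ N with θ(g c g⁻¹) = θ(c) for all c ∈ C) and e the index of C in T. Then e divides p − 1 and B contains exactly e + (p − 1)/e irreducible characters. Moreover B is the disjoint union of a set X of e characters and a set Y of (p − 1)/e characters such that, with f the index of C in N: every χ ∈ X has χ(1) ≡ ±(f/e)·θ(1)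 (mod p), there is one sign ε with ψ(1) ≡ ε f θ(1) (mod p) for all ψ ∈ Y, and all members of Y agree on the p-regular elements of G. -/
theorem result {G : Type*} [Group G] [Finite G] (p : ℕ) [Fact p.Prime] (M : Ideal Cfsg.AlgInt) (hM : Cfsg.IsPModular p M) (hodd : p ≠ 2) (P : Sylow p G) (hP : Nat.card P = p) (B : Set (Cfsg.IrrCharacter G)) (hB : Cfsg.IsPBlock M B) (hBP : Cfsg.IsDefectGroup p M B P) (b : Set (Cfsg.IrrCharacter (Subgroup.centralizer ((P : Subgroup G) : Set G)))) (hind : Cfsg.IsInducedBlock M (Subgroup.centralizer ((P : Subgroup G) : Set G)) b B) (θ : Cfsg.IrrCharacter (Subgroup.centralizer ((P : Subgroup G) : Set G))) (hθ : θ ∈ b) (hθP : ∀ x : Subgroup.centralizer ((P : Subgroup G) : Set G), (x : G) ∈ (P : Subgroup G) → (θ : Subgroup.centralizer ((P : Subgroup G) : Set G) → ℂ) x = (θ : Subgroup.centralizer ((P : Subgroup G) : Set G) → ℂ) 1) (T : Subgroup G) (hT : ∀ g : G, g ∈ T ↔ (g ∈ Subgroup.normalizer ((P : Subgroup G) : Set G) ∧ ∀ c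 c' : Subgroup.centralizer ((P : Subgroup G) : Set G), (c' : G) = g * c * g⁻¹ → (θ : Subgroup.centralizer ((P : Subgroup G) : Set G) → ℂ) c' = (θ : Subgroup.centralizer ((P : Subgroup G) : Set G) → ℂ) c)) (e f : ℕ) (he : (Subgroup.centralizer ((P : Subgroup G) : Set G)).relIndex T = e) (hf : (Subgroup.centralizer ((P : Subgroup G) : Set G)).relIndex (Subgroup.normalizer ((P : Subgroup G) : Set G)) = f) : e ∣ p - 1 ∧ Nat.card B = e + (p - 1) / e ∧ ∃ X Y : Set (Cfsg.IrrCharacter G), B = X ∪ Y ∧ Disjoint X Y ∧ Nat.card X = e ∧ Nat.card Y = (p - 1) / e ∧ (∀ χ ∈ X, (Cfsg.charDegree (χ : G → ℂ) : ℤ) ≡ ((f / e * Cfsg.charDegree (θ : Subgroup.centralizer ((P : Subgroup G) : Set G) → ℂ) : ℕ) : ℤ) [ZMOD p] ∨ (Cfsg.charDegree (χ : G → ℂ) : ℤ) ≡ -((f / e * Cfsg.charDegree (θ : Subgroup.centralizer ((P : Subgroup G) : Set G) → ℂ) : ℕ) : ℤ) [ZMOD p]) ∧ (∃ ε : ℤ, (ε = 1 ∨ ε = -1) ∧ ∀ ψ ∈ Y, (Cfsg.charDegree (ψ : G → ℂ) : ℤ) ≡ ε * ((f * Cfsg.charDegree (θ : Subgroup.centralizer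 ((P : Subgroup G) : Set G) → ℂ) : ℕ) : ℤ) [ZMOD p]) ∧ ∀ ψ ∈ Y, ∀ ψ' ∈ Y, ∀ g : G, ¬ p ∣ orderOf g → (ψ : G → ℂ) g = (ψ' : G → ℂ) g := by
  haveI : PMod p M := ⟨hM⟩
  haveI := Fintype.ofFinite G
  lift b to Bl M (cen (P : Subgroup G)) using hind.1
  lift B to Bl M G using hB
  have h : D1 B P b θ := ⟨hP, maxP_of_induced hBP hind, hθ, hθP⟩
  obtain rfl : T = nrm P ⊓ stab b.E := Subgroup.ext fun g => (hT g).trans
    (and_congr_right fun hg => (h.mem_stab_iff hg).symm)
  replace he : ee (P : Subgroup G) b.E = e := he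
  replace hf : (cen (P : Subgroup G)).relIndex (nrm (P : Subgroup G)) = f := hf
  obtain ⟨ζ, ε, a, F⟩ := h.exists_full
  haveI := h.cyclic
  have hY : YY ζ ⊆ B.1 := fun _ ⟨l, hl, e⟩ => e ▸ F.x.mem l hl
  have hX := F.card_X
  have hY' := F.card_Y
  rw [he] at hX
  rw [he, hP] at hY'
  have hd : e ∣ f := he ▸ hf ▸ Dvd.intro _
    (Subgroup.relIndex_mul_relIndex _ _ _ h.max.bp.cen_le inf_le_left)
  refine ⟨he ▸ (h.max.isCyclic_aE h.ne_bot).2, ?_, B.1 \ YY ζ, YY ζ, (Set.sdiff_union_of_subset hY).symm,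
    Set.disjoint_sdiff_left, hX, hY', fun χ hχ => ?_, ?_, fun ψ hψ ψ' hψ' g hg => F.x.reg F.w hψ hψ' hg⟩
  · rw [← hY', ← hX]
    exact (Set.ncard_sdiff_add_ncard_of_subset hY).symm
  · have := h.non_modEq F hχ
    rw [he, hf] at this
    rcases F.sign hχ with s | s <;> rw [s] at this
    · exact Or.inl (by simpa using this)
    · exact Or.inr (by simpa using this)
  · obtain ⟨χ, hχ⟩ := F.exists_non
    refine ⟨ε, F.x.sign, fun ψ hψ => ?_⟩
    have h1 := (F.modEq_exc hψ hχ).mul_left ε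
    have h2 := ((h.non_modEq F hχ).mul_left (a χ)).mul_left (ε * e)
    rw [he, hP] at h1
    rw [he, hf] at h2
    obtain ⟨k, rfl⟩ := hd
    have e0 : 0 < e := he ▸ F.w.card_E ▸ Nat.card_pos
    have s1 : ε * ε = 1 := by rcases F.x.sign with s | s <;> simp [s]
    have s2 : a χ * a χ = 1 := by rcases F.sign hχ with s | s <;> simp [s]
    rw [Nat.mul_div_cancel_left _ e0, ← mul_assoc (a χ), s2] at h2
    rw [← mul_assoc, s1, one_mul, ← mul_assoc] at h1
    refine (h1.trans h2).trans ?_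
    rw [one_mul]; push_cast
    rw [mul_assoc, ← mul_assoc (e : ℤ)]

end Cfsg.Agent.S4442
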