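import Cfsg.Statements.S4443
import Cfsg.Agent.H9.Rob2

set_option autoImplicit false
open Cfsg

namespace Cfsg.Agent.S4443
open H9 H3 MonoidAlgebra
open scoped Pointwise
set_option linter.style.haveILetI false
set_option linter.unusedVariables false


/-- Let D be a normal p-subgroup of the finite group G, of order p^d, let p^a be the p-part of the order of G, and fix a Sylow p-subgroup S and a maximal ideal M of the algebraic integers containing p. Index by a finite type ι (via an injective map K) exactly the conjugacy classes of p-regular elements x of G for which D is a Sylow p-subgroup of C_G(x). For classes K_i, K_j let ω(i, j) be the number of pairs (y, z) ∈ K_i × K_j with z y⁻¹ ∈ S; this number is divisible by p^(a−d). Then the number of p-blocks of G having D as a defect group equals the rank over ℤ/pℤ of the matrix with (i, j) entry ω(i, j)/p^(a−d) reduced modulo p. -/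
theorem result {G : Type*} [Group G] [Finite G] (p : ℕ) [Fact p.Prime] (M : Ideal Cfsg.AlgInt) (hM : Cfsg.IsPModular p M) (D : Subgroup G) [D.Normal] (hD : IsPGroup p D) (S : Sylow p G) {ι : Type*} [Fintype ι] [DecidableEq ι] (K : ι → ConjClasses G) (hKinj : Function.Injective K) (hK : ∀ C : ConjClasses G, (∃ i, K i = C) ↔ ∃ x ∈ C.carrier, ¬ p ∣ orderOf x ∧ ∃ Q : Sylow p (Subgroup.centralizer ({x} : Set G)), (Q : Subgroup (Subgroup.centralizer ({x} : Set G))).map (Subgroup.centralizer ({x} : Set G)).subtype = D) : Nat.card {B : Set (Cfsg.IrrCharacter G) // Cfsg.IsPBlock M B ∧ Cfsg.IsDefectGroup p M B D} = (Matrix.of fun i j : ι => ((Nat.card {yz : G × G // yz.1 ∈ (K i).carrier ∧ yz.2 ∈ (K j).carrier ∧ yz.2 * yz.1⁻¹ ∈ (S : Subgroup G)} / p ^ ((Nat.card G).factorization p - (Nat.card D).factorization p) : ℕ) : ZMod p)).rank := by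
  classical
  haveI := Fintype.ofFinite G
  haveI : PMod p M := ⟨hM⟩
  choose x hx1 hx2 hx3 using fun i => (hK (K i)).1 ⟨i, rfl⟩
  have hx4 : ∀ i, H1.IsSylowIn p D (cen1 (x i)) := fun i => by
    obtain ⟨S, hS⟩ := hx3 i; exact hS ▸ H1.isSylowIn_map_subtype S
  have hx5 : ∀ i, ConjClasses.mk (x i) = K i := fun i => ConjClasses.mem_carrier_iff_mk_eq.1 (hx1 i)
  have hx6 : ∀ i j, IsConj (x i) (x j) → i = j := fun i j h => hKinj (by
    rw [← hx5, ← hx5, ConjClasses.mk_eq_mk_iff_isConj.2 h])
  have hx7 : ∀ i y, y ∈ (K i).carrier ↔ IsConj (x i) y := fun i y => by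
    rw [ConjClasses.mem_carrier_iff_mk_eq, ← hx5, ConjClasses.mk_eq_mk_iff_isConj, isConj_comm]
  have hx8 : ∀ g, IsPRegular p g → H1.IsSylowIn p D (cen1 g) → ∃ i, IsConj (x i) g := fun g a b => by
    obtain ⟨i, hi⟩ := (hK (ConjClasses.mk g)).2 ⟨g, ConjClasses.mem_carrier_mk, a, b.exists_sylow⟩
    exact ⟨i, (hx7 i g).1 (hi ▸ ConjClasses.mem_carrier_mk)⟩
  have hinv : ∀ {a b : G}, IsConj a b → IsConj a⁻¹ b⁻¹ := fun h => by
    obtain ⟨c, rfl⟩ := isConj_iff.1 h; exact isConj_iff.2 ⟨c, by group⟩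
  set d := (Nat.card D).factorization p with hd
  have hc : ∀ i, (Nat.card (cen1 (x i))).factorization p = d := fun i =>
    (factorization_of_isSylowIn (hx4 i)).symm
  have hS := H1.isSylowIn_top S
  have hSa : (Nat.card S).factorization p = (Nat.card G).factorization p := by
    rw [factorization_of_isSylowIn hS, Subgroup.card_top]
  have hi : ((S : Subgroup G).index : RF M) ≠ 0 := natCast_RF_ne_zero S.not_dvd_index
  rw [card_setOf_blocks, Nat.card_congr (Equiv.subtypeEquivRight
    (p := fun B : Bl M G => IsDefectGroup p M B.1 D) fun B : Bl M G =>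
    Bl.isDef_iff_of_normal (B := B) hD), Nat.card_eq_fintype_card,
    ← rank_map_field (ZMod.castHom (dvd_refl p) (RF M))]
  have hcoef : ∀ B : {B : Bl M G // blockDefect p B.1 = d}, ∀ g, B.1.e.coeff g ≠ 0 →
      IsPRegular p g ∧ H1.IsSylowIn p D (cen1 g) := fun B g hg => ⟨B.1.isPRegular_of_coeff_e hg,
    ((Bl.isDef_iff_of_normal hD).2 B.2).isSylowIn_of_coeff hg (B.1.mem_centralizer_of_coeff hD hg)⟩
  refine (rank_eq_card_of_factor _ (fun B j => B.1.lam (classSum (RF M) (x j)))
    (fun B i => B.1.lam (classSum (RF M) (x i)⁻¹)) (fun B j => B.1.e.coeff (x j))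
    (fun B j => B.1.e.coeff (x j)⁻¹) (fun B => ((S : Subgroup G).index : RF M)⁻¹ *
      red M (blockPart B.1.1 (indFun (S : Subgroup G) fun _ => 1) 1 / ((p ^ B.1.minv : ℕ) : ℂ)))
    (fun B => mul_ne_zero (inv_ne_zero hi) (B.1.red_blockPart_ind_ne_zero hS)) (fun i j => ?_)
    (fun B B' => ?_) fun B B' => ?_).symm
  · have := red_rob (M := M) (char_mem_RCh (isIrrCharacter_one.isCharacter.ind (H := (S : Subgroup G))))
      (hc i).le (hc j).le (factorization_card_le p D)
    rw [Finset.sum_subtype (p := fun B : Bl M G => blockDefect p B.1 = d) _ (by simp),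
      rob_ind_one] at this
    simp only [mul_assoc]
    rw [← Finset.mul_sum, ← this]
    obtain ⟨n, hn⟩ := pow_dvd_card_pairs (S : Subgroup G) S.isPGroup' (x i) (x j)
    rw [hSa, hc] at hn
    simp only [Matrix.map_apply, Matrix.of_apply, hx7, map_natCast]
    rw [hn, Nat.mul_div_cancel_left _ (Nat.pos_of_ne_zero (p_pow_ne_zero _)), Nat.cast_mul,
      mul_div_assoc, mul_div_cancel_left₀ _ (Nat.cast_ne_zero.2 (p_pow_ne_zero _)),
      ← Nat.cast_mul, red_natCast, Nat.cast_mul, inv_mul_cancel_left₀ hi]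
  · rw [sum_coeff_lam_family x hx6 fun g hg => hx8 g (hcoef B' g hg).1 (hcoef B' g hg).2]
    exact if_congr Subtype.val_inj rfl rfl
  · rw [sum_coeff_lam_family (fun i => (x i)⁻¹) (fun i j h => hx6 i j (by simpa using hinv h))
      fun g hg => ?_]
    · exact if_congr Subtype.val_inj rfl rfl
    · obtain ⟨i, hi⟩ := hx8 g⁻¹ (isPRegular_inv.2 (hcoef B' g hg).1)
        (by rw [cen1_inv]; exact (hcoef B' g hg).2)
      exact ⟨i, by simpa using hinv hi⟩

end Cfsg.Agent.S4443
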