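import Cfsg.Statements.S4444
import Cfsg.Agent.H3.Glaub2

set_option autoImplicit false
open Cfsg

namespace Cfsg.Agent.S4444
open H3
export H3 (inner_add_left inner_add_right inner_sub_left inner_sub_right inner_neg_left inner_neg_right
  inner_zero_left inner_zero_right inner_smul_left inner_smul_right inner_conj_symm inner_self_eq_zero
  inner_self_im)

/-- The Glauberman correspondence for a p-group of operators. Inside a finite group Γ let S normalise G with the orders of G and S coprime, S a p-group, and let C = G ⊓ C(S) be the fixed points. Call an irreducible character χ of G S-invariant when χ(s g s⁻¹) = χ(g) for s ∈ S, g ∈ G. Then: (i) for every S-invariant χ there is exactly one irreducible character β of C whose multiplicity [χ_C, β] in the restriction of χ is not divisible by p; (ii) that multiplicity is ≡ 1 or ≡ −1 (mod p); (iii) distinct S-invariant χ give distinct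 β; (iv) every irreducible character of C arises in this way. So χ ↦ β is a bijection from the S-invariant irreducible characters of G onto the irreducible characters of C. -/
theorem result {Γ : Type*} [Group Γ] [Fintype Γ] (G S : Subgroup Γ) [Fintype G] (hnorm : ∀ s ∈ S, ∀ g ∈ G, s * g * s⁻¹ ∈ G) (hcop : (Nat.card G).Coprime (Nat.card S)) (p : ℕ) (hp : p.Prime) (hS : IsPGroup p S) (C : Subgroup Γ) [Fintype C] (hC : C = G ⊓ Subgroup.centralizer (S : Set Γ)) (hCG : C ≤ G) : (∀ χ : Cfsg.IrrCharacter G, (∀ s ∈ S, ∀ g g' : G, (g' : Γ) = s * g * s⁻¹ → (χ : G → ℂ) g' = (χ : G → ℂ) g) → ∃! β : Cfsg.IrrCharacter C, ∃ m : ℕ, Cfsg.classInner (fun c : C => (χ : G → ℂ) ⟨c, hCG c.2⟩) (β : C → ℂ) = (m : ℂ) ∧ ¬ p ∣ m) ∧ (∀ χ : Cfsg.IrrCharacter G, (∀ s ∈ S, ∀ g g' : G, (g' : Γ) = s * g * s⁻¹ → (χ : G → ℂ) g' = (χ : G → ℂ) g) → ∀ β : Cfsg.IrrCharacter C, ∀ m : ℕ, Cfsg.classInner (fun c : C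 => (χ : G → ℂ) ⟨c, hCG c.2⟩) (β : C → ℂ) = (m : ℂ) → ¬ p ∣ m → ((m : ℤ) ≡ 1 [ZMOD p] ∨ (m : ℤ) ≡ -1 [ZMOD p])) ∧ (∀ χ χ' : Cfsg.IrrCharacter G, (∀ s ∈ S, ∀ g g' : G, (g' : Γ) = s * g * s⁻¹ → (χ : G → ℂ) g' = (χ : G → ℂ) g) → (∀ s ∈ S, ∀ g g' : G, (g' : Γ) = s * g * s⁻¹ → (χ' : G → ℂ) g' = (χ' : G → ℂ) g) → ∀ β : Cfsg.IrrCharacter C, ∀ m m' : ℕ, Cfsg.classInner (fun c : C => (χ : G → ℂ) ⟨c, hCG c.2⟩) (β : C → ℂ) = (m : ℂ) → ¬ p ∣ m → Cfsg.classInner (fun c : C => (χ' : G → ℂ) ⟨c, hCG c.2⟩) (β : C → ℂ) = (m' : ℂ) → ¬ p ∣ m' → χ = χ') ∧ (∀ β : Cfsg.IrrCharacter C, ∃ χ : Cfsg.IrrCharacter G, (∀ s ∈ S, ∀ g g' : G, (g' : Γ) = s * g * s⁻¹ → (χ : G → ℂ) g' = (χ : G → ℂ) g) ∧ ∃ m : ℕ, Cfsg.classInner (fun c : C => (χ : G → ℂ) ⟨c, hCG c.2⟩) (β : C → ℂ) = (m : ℂ) ∧ ¬ p ∣ m) := by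
  set_option maxSynthPendingDepth 3 in
  cases Subsingleton.elim ‹Fintype C› (subFin C)
  have n := nrm_of_forall hnorm
  have k := hC ▸ glC' hp hcop hS n
  simp only [← le_iA_am n, ← am_le hCG]
  have t : ∀ {α : Γ → ℂ} {β : IrrCharacter C} {m : ℕ}, ⟪α↾C, β.1⟫ = m → ⟪α↾C, (am β.1)↾C⟫ = ((m : ℤ) : ℂ) :=
    fun h => by simpa [am_res] using h
  have ex : ∀ {χ : IrrCharacter G} {β : Γ → ℂ}, Irr C β↾C → Gl p C (am χ.1) β →
      ∃ m : ℕ, ⟪(am χ.1)↾C, β↾C⟫ = m ∧ ¬ p ∣ m := fun {χ β} a b =>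
    ((ch_mono (irr_am χ).isCharacter hCG).inner_nat a.isCharacter).imp fun m e =>
      ⟨e, mt Int.natCast_dvd_natCast.2 (b.not_dvd hp a (by simpa using e))⟩
  have gl : ∀ {χ : IrrCharacter G} {β : IrrCharacter C} {m : ℕ}, S ≤ iA G (am χ.1) → ⟪(am χ.1)↾C, β.1⟫ = m → ¬ p ∣ m →
      Gl p C (am χ.1) (am β.1) := fun {χ β m} a b c =>
    let ⟨γ, d, e⟩ := k.ex _ (irr_am χ) a
    e.congr rfl (e.eq_of_not_dvd d (irr_am β) (t b) (mt Int.natCast_dvd_natCast.1 c))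
  refine ⟨fun χ a => ?_, fun χ a β m b c => ?_, fun χ χ' a a' β m m' b c b' c' => ?_, fun β => ?_⟩
  · obtain ⟨β, b, c⟩ := k.ex _ (irr_am χ) a
    exact ⟨⟨_, b⟩, ex b c, fun γ ⟨m, d, e⟩ => Subtype.ext ((am_res _).symm.trans ((gl a d e).unique hp c (irr_am γ) b))⟩
  · obtain ⟨ε, u, d, e⟩ := (gl a b c).inner (irr_am β).isGen
    rw [t b, (irr_am β).inner_self] at e
    norm_cast at e
    refine d.imp (fun f => ?_) fun f => ?_ <;> simp [e, f]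
  · simpa only [Subtype.ext_iff, am_res] using k.inj _ _ _ (irr_am χ) (irr_am χ') a a' (irr_am β) (gl a b c) (gl a' b' c')
  · obtain ⟨α, a, b, c⟩ := k.surj _ (irr_am β)
    exact ⟨⟨_, a⟩, iA_am.ge.trans' b, by
      simpa only [am_res] using ex (χ := ⟨_, a⟩) (irr_am β) (c.congr (res_eq_mono (am_res _) hCG).symm rfl)⟩

end Cfsg.Agent.S4444
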