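import Cfsg.Statements.S4446
import Cfsg.Agent.H3.Glaub2

set_option autoImplicit false
open Cfsg

namespace Cfsg.Agent.S4446
open H3
export H3 (inner_add_left inner_add_right inner_sub_left inner_sub_right inner_neg_left inner_neg_right
  inner_zero_left inner_zero_right inner_smul_left inner_smul_right inner_conj_symm inner_self_eq_zero
  inner_self_im)

/-- Let the finite group Γ be generated by a normal subgroup G and a cyclic subgroup S of coprime orders, C = G ⊓ C(S), and let χ be an S-invariant irreducible character of G with canonical extension χ̂ to Γ (the extension whose determinantal order is coprime to the order of S). Then there are exactly one irreducible character β of C and one sign ε such that χ̂(c s) = ε β(c) for every c ∈ C and every generator s of S; this β is a constituent of the restriction of χ to C; distinct S-invariant χ give distinct β; and every irreducible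 character of C arises in this way. -/
theorem result {Γ : Type*} [Group Γ] [Fintype Γ] (G S : Subgroup Γ) [Fintype G] (hnorm : ∀ s ∈ S, ∀ g ∈ G, s * g * s⁻¹ ∈ G) (hcop : (Nat.card G).Coprime (Nat.card S)) (htop : G ⊔ S = ⊤) (hcyc : IsCyclic S) (C : Subgroup Γ) [Fintype C] (hC : C = G ⊓ Subgroup.centralizer (S : Set Γ)) (hCG : C ≤ G) : (∀ (χ : Cfsg.IrrCharacter G) (χh : Cfsg.IrrCharacter Γ), (∀ s ∈ S, ∀ g g' : G, (g' : Γ) = s * g * s⁻¹ → (χ : G → ℂ) g' = (χ : G → ℂ) g) → (∀ g : G, (χh : Γ → ℂ) g = (χ : G → ℂ) g) → (Cfsg.detOrder (χh : Γ → ℂ)).Coprime (Nat.card S) → (∃! βε : Cfsg.IrrCharacter C × ℤ, (βε.2 = 1 ∨ βε.2 = -1) ∧ ∀ c : C, ∀ s : Γ, Subgroup.zpowers s = S → (χh : Γ → ℂ) ((c : Γ) * s) = (βε.2 : ℂ) * (βε.1 : C → ℂ) c) ∧ ∀ β : Cfsg.IrrCharacter C, ∀ ε : ℤ, (ε = 1 ∨ ε = -1) → (∀ c : C, ∀ s : Γ, Subgroup.zpowers s = S → (χh : Γ → ℂ) ((c : Γ) * s) = (ε : ℂ) * (β : C → ℂ) c)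 → Cfsg.classInner (fun c : C => (χ : G → ℂ) ⟨c, hCG c.2⟩) (β : C → ℂ) ≠ 0) ∧ (∀ (χ χ' : Cfsg.IrrCharacter G) (χh χh' : Cfsg.IrrCharacter Γ), (∀ s ∈ S, ∀ g g' : G, (g' : Γ) = s * g * s⁻¹ → (χ : G → ℂ) g' = (χ : G → ℂ) g) → (∀ s ∈ S, ∀ g g' : G, (g' : Γ) = s * g * s⁻¹ → (χ' : G → ℂ) g' = (χ' : G → ℂ) g) → (∀ g : G, (χh : Γ → ℂ) g = (χ : G → ℂ) g) → (∀ g : G, (χh' : Γ → ℂ) g = (χ' : G → ℂ) g) → (Cfsg.detOrder (χh : Γ → ℂ)).Coprime (Nat.card S) → (Cfsg.detOrder (χh' : Γ → ℂ)).Coprime (Nat.card S) → ∀ β : Cfsg.IrrCharacter C, ∀ ε ε' : ℤ, (ε = 1 ∨ ε = -1) → (ε' = 1 ∨ ε' = -1) → (∀ c : C, ∀ s : Γ, Subgroup.zpowers s = S → (χh : Γ → ℂ) ((c : Γ) * s) = (ε : ℂ) * (β : C → ℂ) c) → (∀ c : C, ∀ s : Γ, Subgroup.zpowers s = S → (χh' : Γ → ℂ) ((c : Γ) * s) = (ε' : ℂ) * (β : C → ℂ) c) → χ = χ') ∧ (∀ β : Cfsg.IrrCharacter C, ∃ (χ : Cfsg.IrrCharacter G) (χh : Cfsg.IrrCharacter Γ) (ε : ℤ), (∀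 s ∈ S, ∀ g g' : G, (g' : Γ) = s * g * s⁻¹ → (χ : G → ℂ) g' = (χ : G → ℂ) g) ∧ (∀ g : G, (χh : Γ → ℂ) g = (χ : G → ℂ) g) ∧ (Cfsg.detOrder (χh : Γ → ℂ)).Coprime (Nat.card S) ∧ (ε = 1 ∨ ε = -1) ∧ ∀ c : C, ∀ s : Γ, Subgroup.zpowers s = S → (χh : Γ → ℂ) ((c : Γ) * s) = (ε : ℂ) * (β : C → ℂ) c) := by
  set_option maxSynthPendingDepth 3 in
  cases Subsingleton.elim ‹Fintype C› (subFin C)
  have n := nrm_of_forall hnorm
  haveI : G.Normal := H7.normal_iff_top_le_nrm.2 (htop ▸ sup_le (H7.le_nrm_self G) n)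
  obtain ⟨s, rfl⟩ := (Subgroup.isCyclic_iff_exists_zpowers_eq_top S).1 hcyc
  rw [Nat.card_zpowers] at *
  have h : GC G s C := ⟨htop, hcop, by rw [hC, H7.cen_zpowers]⟩
  have i : G.index = orderOf s := by
    rw [← Subgroup.relIndex_top_right, ← htop, Subgroup.relIndex_sup_left, ← Nat.card_zpowers, ← Subgroup.inf_relIndex_right,
      H7.eq_bot_of_coprime (by rwa [Nat.card_zpowers]), Subgroup.relIndex_bot_left]
  have c : ∀ {χ : IrrCharacter G} {ψ : IrrCharacter Γ}, (∀ g : G, ψ.1 g = χ.1 g) → (detOrder ψ.1).Coprime (orderOf s) →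
      CanExt G χ.1 ψ.1 := fun a b => ⟨Subtype.prop _, funext a, by rw [i, ← detOrder_eq]; exact b.symm⟩
  refine ⟨fun χ ψ _ a b => ⟨?_, fun β ε d e => ?_⟩, fun χ χ' ψ ψ' _ _ a a' b b' β ε ε' d d' e e' => Subtype.ext
    (h.inj χ.2 χ'.2 (c a b) (c a' b') d d' β.2 (e · s rfl) (e' · s rfl)), fun β => ?_⟩
  · obtain ⟨ε, β, d, e, f⟩ := h.exists_irr χ.2 (c a b)
    refine ⟨(⟨β, e⟩, ε), ⟨d, fun x t u => (h.gen_eq χ.2 (c a b) x.2 u).trans (f x)⟩, fun ⟨γ, δ⟩ ⟨j, k⟩ => ?_⟩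
    have l : (δ : ℂ) • γ.1 = (ε : ℂ) • β := funext fun x => (k x s rfl).symm.trans (f x)
    have m := congrArg (⟪·, β⟫) l
    simp only [inner_smul_left, e.inner_self] at m
    obtain rfl : γ = ⟨β, e⟩ := Subtype.ext (γ.2.eq_of_inner_ne_zero e fun o => by
      rcases d with rfl | rfl <;> simp [o] at m)
    simpa [e.inner_self] using m
  · simpa [← a] using h.inner_ne ψ.2.isCharacter d β.2 (e · s rfl)
  · obtain ⟨α, χ, ε, a, b, d, e⟩ := h.surj β.2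
    refine ⟨⟨_, a⟩, ⟨_, b.irr⟩, ε, fun t _ g g' f => ?_, congrFun b.res, ?_, d,
      fun x t u => (h.gen_eq a b x.2 u).trans (e x)⟩
    · exact (congrFun b.res g').symm.trans (Eq.trans (by simp only [f, b.irr.isClassFunction _ _]) (congrFun b.res g))
    · rw [detOrder_eq, ← i]; exact b.cop.symm

end Cfsg.Agent.S4446
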