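import Cfsg.Statements.S4447
import Cfsg.Agent.H3.Glaub3

set_option autoImplicit false
open Cfsg

namespace Cfsg.Agent.S4447
open H3
export H3 (inner_add_left inner_add_right inner_sub_left inner_sub_right inner_neg_left inner_neg_right
  inner_zero_left inner_zero_right inner_smul_left inner_smul_right inner_conj_symm inner_self_eq_zero
  inner_self_im)

/-- Inside a finite group Γ let S normalise G and also normalise a normal subgroup N of G, with the order of S coprime to the index of N in G and S or G/N solvable. Then for every S-invariant irreducible character χ of G, the restriction of χ to N has an S-invariant irreducible constituent. -/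
theorem result {Γ : Type*} [Group Γ] [Fintype Γ] (G S N : Subgroup Γ) [Fintype G] [Fintype N] (hnorm : ∀ s ∈ S, ∀ g ∈ G, s * g * s⁻¹ ∈ G) (hNG : N ≤ G) [hNn : (N.subgroupOf G).Normal] (hNS : ∀ s ∈ S, ∀ n ∈ N, s * n * s⁻¹ ∈ N) (hcop : (N.relIndex G).Coprime (Nat.card S)) (hsolv : Group.IsSolvable S ∨ Group.IsSolvable (G ⧸ N.subgroupOf G)) (χ : Cfsg.IrrCharacter G) (hinv : (∀ s ∈ S, ∀ g g' : G, (g' : Γ) = s * g * s⁻¹ → (χ : G → ℂ) g' = (χ : G → ℂ) g)) : ∃ θ : Cfsg.IrrCharacter N, Cfsg.classInner (fun n : N => (χ : G → ℂ) ⟨n, hNG n.2⟩) (θ : N → ℂ) ≠ 0 ∧ (∀ s ∈ S, ∀ g g' : N, (g' : Γ) = s * g * s⁻¹ → (θ : N → ℂ) g' = (θ : N → ℂ) g) := by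
  set_option maxSynthPendingDepth 3 in
  cases Subsingleton.elim ‹Fintype N› (subFin N)
  have b : G ≤ Subgroup.normalizer N := Subgroup.normal_subgroupOf_iff_le_normalizer hNG |>.1 hNn
  have a := nrm_of_forall hNS
  obtain ⟨θ, u, v, w⟩ := exists_under_inv hNG a b (hcop.symm.coprime_dvd_left (H7.relIndex_dvd_card' _ _))
    (hsolv.imp (H7.solv_im _) (solv_im_qm b)) (irr_am χ) ((le_iA_am (nrm_of_forall hnorm)).2 hinv)
  exact ⟨⟨_, u⟩, by rwa [am_le hNG] at w, (le_iA_iff a rfl).1 v⟩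

end Cfsg.Agent.S4447
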