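import Cfsg.Statements.S4449
import Cfsg.Agent.H3.Glaub2

set_option autoImplicit false
open Cfsg

namespace Cfsg.Agent.S4449
open H3
export H3 (inner_add_left inner_add_right inner_sub_left inner_sub_right inner_neg_left inner_neg_right
  inner_zero_left inner_zero_right inner_smul_left inner_smul_right inner_conj_symm inner_self_eq_zero
  inner_self_im)

/-- Inside a finite group Γ let the solvable subgroup S normalise G with the orders of G and S coprime, and let N be a normal subgroup of G normalised by S. Then for every S-invariant irreducible character ϑ of N, the induced character ϑ^G has an S-invariant irreducible constituent. -/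
theorem result {Γ : Type*} [Group Γ] [Fintype Γ] (G S N : Subgroup Γ) [Fintype G] [Fintype N] (hnorm : ∀ s ∈ S, ∀ g ∈ G, s * g * s⁻¹ ∈ G) (hNG : N ≤ G) (hNnormal : ∀ g ∈ G, ∀ n ∈ N, g * n * g⁻¹ ∈ N) (hNS : ∀ s ∈ S, ∀ n ∈ N, s * n * s⁻¹ ∈ N) (hcop : (Nat.card G).Coprime (Nat.card S)) (hsolv : Group.IsSolvable S) (θ : Cfsg.IrrCharacter N) (hinv : (∀ s ∈ S, ∀ g g' : N, (g' : Γ) = s * g * s⁻¹ → (θ : N → ℂ) g' = (θ : N → ℂ) g)) : ∃ χ : Cfsg.IrrCharacter G, Cfsg.classInner (fun n : N => (χ : G → ℂ) ⟨n, hNG n.2⟩) (θ : N → ℂ) ≠ 0 ∧ (∀ s ∈ S, ∀ g g' : G, (g' : Γ) = s * g * s⁻¹ → (χ : G → ℂ) g' = (χ : G → ℂ) g) := by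
  set_option maxSynthPendingDepth 3 in
  cases Subsingleton.elim ‹Fintype N› (subFin N)
  have h : H7.Cop S G := ⟨nrm_of_forall hnorm, hcop.symm, Or.inl hsolv⟩
  obtain ⟨χ, a, b, c⟩ := exists_over_solv h hsolv hNG (nrm_of_forall hNnormal) (irr_am θ)
    ((le_iA_am (nrm_of_forall hNS)).2 hinv)
  exact ⟨⟨_, a⟩, by rwa [am_res] at c, (le_iA_iff h.norm rfl).1 b⟩

end Cfsg.Agent.S4449
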