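import Cfsg.Statements.S4450
import Cfsg.Agent.H3.Glaub3

set_option autoImplicit false
open Cfsg

namespace Cfsg.Agent.S4450
open H3
export H3 (inner_add_left inner_add_right inner_sub_left inner_sub_right inner_neg_left inner_neg_right
  inner_zero_left inner_zero_right inner_smul_left inner_smul_right inner_conj_symm inner_self_eq_zero
  inner_self_im)

/-- Let N ≤ G be normal subgroups of the finite group Γ with the index of G in Γ coprime to the index of N in G, and Γ/G or G/N solvable. Then for every irreducible character ϑ of N invariant under conjugation by Γ, the induced character ϑ^G has an irreducible constituent invariant under conjugation by Γ. -/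
theorem result {Γ : Type*} [Group Γ] [Fintype Γ] (G N : Subgroup Γ) [hG : G.Normal] [hN : N.Normal] [Fintype G] [Fintype N] (hNG : N ≤ G) (hcop : (G.index).Coprime (N.relIndex G)) (hsolv : Group.IsSolvable (Γ ⧸ G) ∨ Group.IsSolvable (G ⧸ N.subgroupOf G)) (θ : Cfsg.IrrCharacter N) (hinv : ∀ (x : Γ) (n : N), (θ : N → ℂ) ⟨x * n * x⁻¹, hN.conj_mem n n.2 x⟩ = (θ : N → ℂ) n) : ∃ χ : Cfsg.IrrCharacter G, Cfsg.classInner (fun n : N => (χ : G → ℂ) ⟨n, hNG n.2⟩) (θ : N → ℂ) ≠ 0 ∧ ∀ (x : Γ) (g : G), (χ : G → ℂ) ⟨x * g * x⁻¹, hG.conj_mem g g.2 x⟩ = (χ : G → ℂ) g := by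
  set_option maxSynthPendingDepth 3 in
  cases Subsingleton.elim ‹Fintype N› (subFin N)
  have i := inertia_eq_top.2 hinv
  rcases hsolv with h | h
  · obtain ⟨χ, a, b, c⟩ := exists_over_inv hNG hcop h θ.2 i
    exact ⟨⟨χ, a⟩, c, inertia_eq_top.1 b⟩
  obtain ⟨S, a, b⟩ := exists_compl_mod hNG hcop
  obtain ⟨χ, u, v, w⟩ := exists_over_solvQ (S := S) (H7.le_nrm_of_normal _ _) hNG (H7.le_nrm_of_normal _ _) (b ▸ hcop)
    (solv_im_qm (H7.le_nrm_of_normal _ _) h) (irr_am θ) (by rw [← inertia_eq_iA, am_res, i]; exact le_top)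
  exact ⟨⟨_, u⟩, by rwa [am_res] at w, fun x g => iA_apply (a.ge.trans (sup_le (self_le_iA u.isClassFunction) v)
    (Subgroup.mem_top x)) g.2⟩

end Cfsg.Agent.S4450
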