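import Cfsg.Statements.S4451
import Cfsg.Agent.H3.Glaub3

set_option autoImplicit false
open Cfsg

namespace Cfsg.Agent.S4451
open H3
export H3 (inner_add_left inner_add_right inner_sub_left inner_sub_right inner_neg_left inner_neg_right
  inner_zero_left inner_zero_right inner_smul_left inner_smul_right inner_conj_symm inner_self_eq_zero
  inner_self_im)

theorem aux {Γ : Type*} [Group Γ] [Finite Γ] {G C : Subgroup Γ} [G.Normal] {θ χ : Γ → ℂ} (hθ : Irr G θ↾G)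
    (k : CanExt G θ↾G χ) {x : Γ} (c : (Nat.card G).Coprime (orderOf x)) (e : C = G ⊓ Subgroup.centralizer {x}) :
    ∃ (ε : ℤ) (β : C → ℂ), (ε = 1 ∨ ε = -1) ∧ Irr C β ∧ ∀ c : C, χ (c * x) = ε * β c := by
  have l : G ≤ G ⊔ Subgroup.zpowers x := le_sup_left
  have m : Subgroup.zpowers x ≤ G ⊔ Subgroup.zpowers x := le_sup_right
  have l' := (e.le.trans inf_le_left).trans l
  generalize f : G ⊔ Subgroup.zpowers x = K at *
  have z : Subgroup.zpowers (⟨x, m (Subgroup.mem_zpowers x)⟩ : K) = (Subgroup.zpowers x).subgroupOf K :=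
    Subgroup.map_injective K.subtype_injective (by simp [m])
  have h : GC (G.subgroupOf K) ⟨x, m (Subgroup.mem_zpowers x)⟩ (C.subgroupOf K) :=
    ⟨by rw [z, ← Subgroup.subgroupOf_sup l m, f, Subgroup.subgroupOf_self], by
      rwa [H7.card_subgroupOf_of_le l, Subgroup.orderOf_mk], e ▸
    Subgroup.ext fun x => and_congr_right' (by simp [H7.mem_cen1, Subtype.ext_iff])⟩
  obtain ⟨ε, β, a, b, d⟩ := h.exists_irr ((irr_sub l).2 hθ) (χ := χ↾K) ⟨irr_of_res (k.irr.isCharacter.res K) l (k.res ▸ hθ),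
    (eq_sub l).2 k.res, by
      rw [show dt χ↾K = (dt χ).comp K.subtype from k.irr.isCharacter.dt_comp K.subtype]
      exact (k.cop.coprime_dvd_left (Subgroup.relIndex_dvd_index_of_normal G K)).coprime_dvd_right (orderOf_comp_dvd _ _)⟩
  obtain ⟨β, rfl⟩ := exists_amb2 β
  exact ⟨ε, _, a, (irr_sub l').1 b, fun c => d ⟨⟨c, l' c.2⟩, c.2⟩⟩

/-- Let the finite group Γ be generated by a normal subgroup G and a cyclic subgroup S of coprime orders such that every non-identity element of S has the same centraliser C = G ⊓ C(S) in G. Let χ be an S-invariant irreducible character of G, χ̂ its canonical extension to Γ (determinantal order coprime to the order of S), and β the irreducible character of C with χ̂(c s) = ε₀ β(c) for c ∈ C and generators s of S (ε₀ = ±1). Then there are a sign ε = ±1, which may differ from ε₀, and a linear character μ of S with μ² = 1, such that: (a) χ̂(c x) = ε β(c) μ(x) for all c ∈ C and all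 x ∈ S other than 1; (b) the restriction of χ to C equals |S|·ϑ + ε β for some character ϑ of C or ϑ = 0; (c) |S| divides χ(1) − ε β(1). -/
theorem result {Γ : Type*} [Group Γ] [Fintype Γ] (G S : Subgroup Γ) [Fintype G] (hnorm : ∀ s ∈ S, ∀ g ∈ G, s * g * s⁻¹ ∈ G) (hcop : (Nat.card G).Coprime (Nat.card S)) (htop : G ⊔ S = ⊤) (hcyc : IsCyclic S) (C : Subgroup Γ) [Fintype C] (hC : C = G ⊓ Subgroup.centralizer (S : Set Γ)) (hCG : C ≤ G) (hfpf : ∀ x ∈ S, x ≠ 1 → G ⊓ Subgroup.centralizer ({x} : Set Γ) = C) (χ : Cfsg.IrrCharacter G) (hinv : (∀ s ∈ S, ∀ g g' : G, (g' : Γ) = s * g * s⁻¹ → (χ : G → ℂ) g' = (χ : G → ℂ) g)) (χh : Cfsg.IrrCharacter Γ) (hext : (∀ g : G, (χh : Γ → ℂ) g = (χ : G → ℂ) g)) (hdet : (Cfsg.detOrder (χh : Γ → ℂ)).Coprime (Nat.card S)) (β : Cfsg.IrrCharacter C) (ε₀ : ℤ) (hε₀ : ε₀ = 1 ∨ ε₀ = -1) (hβ : ∀ c : C, ∀ s : Γ, Subgroup.zpowers s = S → (χh : Γ → ℂ) ((c : Γ) * s) = (ε₀ : ℂ) * (β : C → ℂ) c) : ∃ ε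 : ℤ, (ε = 1 ∨ ε = -1) ∧ (∃ μ : S → ℂ, Cfsg.IsCharacter S μ ∧ μ 1 = 1 ∧ (∀ x : S, μ x * μ x = 1) ∧ ∀ c : C, ∀ x : S, x ≠ 1 → (χh : Γ → ℂ) ((c : Γ) * x) = (ε : ℂ) * (β : C → ℂ) c * μ x) ∧ (∃ ϑ : C → ℂ, Cfsg.IsCharacter C ϑ ∧ (fun c : C => (χ : G → ℂ) ⟨c, hCG c.2⟩) = fun c => (Nat.card S : ℂ) * ϑ c + (ε : ℂ) * (β : C → ℂ) c) ∧ (Nat.card S : ℤ) ∣ (Cfsg.charDegree (χ : G → ℂ) : ℤ) - ε * (Cfsg.charDegree (β : C → ℂ) : ℤ) := by
  set_option maxSynthPendingDepth 3 in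
  classical
  cases Subsingleton.elim ‹Fintype C› (subFin C)
  have n := nrm_of_forall hnorm
  haveI : G.Normal := H7.normal_iff_top_le_nrm.2 (htop ▸ sup_le (H7.le_nrm_self G) n)
  obtain ⟨s, hs⟩ := (Subgroup.isCyclic_iff_exists_zpowers_eq_top S).1 hcyc
  have b0 := (hβ · s hs)
  have r : (fun c : C => χ.1 ⟨c, hCG c.2⟩) = χh.1↾C := funext fun c => (hext _).symm
  have d : (dg χ.1 : ℂ) = χh.1 1 := χ.2.deg.symm.trans (hext 1).symm
  obtain rfl | s1 := eq_or_ne s 1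
  · rw [Subgroup.zpowers_one_eq_bot] at hs
    subst hs
    exact ⟨ε₀, hε₀, ⟨_, isCharacter_one, rfl, by simp, fun c x a => absurd (Subsingleton.elim _ _) a⟩,
      ⟨0, isCharacter_zero, by simpa [r] using funext b0⟩, by simp⟩
  have i : G.index = Nat.card S := by
    rw [← Subgroup.relIndex_top_right, ← htop, Subgroup.relIndex_sup_left, ← Subgroup.inf_relIndex_right,
      H7.eq_bot_of_coprime hcop, Subgroup.relIndex_bot_left]
  have c : CanExt G χ.1 χh.1 := ⟨χh.2, funext hext, by rw [i, ← detOrder_eq]; exact hdet.symm⟩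
  rw [← am_res χ.1] at c
  choose ε γ h1 h2 h3 using fun x : {x : S // x ≠ 1} => aux (irr_am χ) c
    (hcop.coprime_dvd_right (H7.orderOf_dvd_card' x.1.2)) (hfpf _ x.1.2 (fun e => x.2 (Subtype.ext e))).symm
  have cm : ∀ a b : S, a * b = b * a := fun a b => IsCyclic.commGroup.mul_comm a b
  have sl : ∀ {β : C → ℂ}, Ch C β → Ch S fun t => ⟪fun c : C => χh.1 (c * t), β⟫ := fun b =>
    ch_slice C.subtype S.subtype (fun c t => (H7.mem_cen.1 (hC.le c.2).2 t t.2).symm) χh.2.isCharacter b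
  have v : ∀ (x : {x : S // x ≠ 1}) β, ⟪fun c : C => χh.1 (c * x.1), β⟫ = ε x * ⟪γ x, β⟫ := fun x β => by
    rw [← inner_smul_left]; exact congrArg₂ _ (funext (h3 x)) rfl
  let t : S := ⟨s, hs ▸ Subgroup.mem_zpowers s⟩
  have t1 : t ≠ 1 := mt (congrArg Subtype.val) s1
  have e : ∀ x, γ x = β := fun x => by
    have := connected_of_comm cm (fun x => if h : x ≠ 1 then γ ⟨x, h⟩ else 0) (fun p k u y hp a b f => by
      rw [dif_pos b, dif_pos f]
      refine ((h2 _).eq_of_inner_ne_zero (h2 _) fun g => hp.one_lt.ne' ?_).symm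
      have := (sl (h2 ⟨_, f⟩).isCharacter).isGen.dvd_sub hp (cm u y) a (a := ε ⟨_, f⟩) (b := 0)
        (by simpa [(h2 _).inner_self] using v ⟨_, f⟩ (γ ⟨_, f⟩)) (by simpa [g] using v ⟨_, b⟩ (γ ⟨_, f⟩))
      rcases h1 ⟨_, f⟩ with h | h <;> simpa [h, Int.natCast_dvd] using this) (x * t⁻¹) t t1 (by simpa using x.2)
    simp only [inv_mul_cancel_right, dif_pos x.2, dif_pos t1] at this
    refine this.trans ((h2 _).eq_of_inner_ne_zero β.2 fun g => ?_)
    have := v ⟨t, t1⟩ β.1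
    rw [g, show _ = (ε₀ : ℂ) • β.1 from funext b0, inner_smul_left, β.2.inner_self] at this
    rcases hε₀ with rfl | rfl <;> simp at this
  simp only [e] at h3 v
  haveI : Nontrivial S := ⟨t, 1, t1⟩
  obtain ⟨a, δ, μ, u1, u2, u3⟩ := exists_reg_add_lin cm (sl β.2.isCharacter) fun x b => by
    rcases h1 ⟨x, b⟩ with h | h <;> simp [v ⟨x, b⟩, β.2.inner_self, h]
  have w : ∀ x : {x : S // x ≠ 1}, (ε x : ℂ) = δ * μ x := fun x => by simpa [v x, β.2.inner_self] using u3 x x.2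
  have hϑ : Ch C ((Nat.card S : ℂ)⁻¹ • (χh.1↾C - (δ : ℂ) • β.1)) := isCharacter_of_inner_nat
    (((χh.2.isClassFunction.res C).sub (β.2.isClassFunction.smul _)).smul _) fun ζ b => by
    rw [inner_smul_left, inner_sub_left, inner_smul_left]
    by_cases f : β.1 = ζ
    · refine ⟨a, ?_⟩
      rw [← f, β.2.inner_self, inv_mul_eq_iff_eq_mul₀ (card_ne_zero S)]
      simp only [OneMemClass.coe_one, mul_one] at u2
      rw [u2]; ring
    · refine ((sl b.isCharacter).inner_nat isCharacter_one).imp fun m g => ?_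
      rw [inner_one_right, Finset.sum_eq_single 1 (fun x _ h => by simp [v ⟨x, h⟩, β.2.inner_of_ne b f]) (by simp)] at g
      simpa [β.2.inner_of_ne b f] using g
  have z : ∀ c : C, χh.1 c = Nat.card S * ((Nat.card S : ℂ)⁻¹ • (χh.1↾C - (δ : ℂ) • β.1)) c + δ * β.1 c := fun c => by
    simp [card_ne_zero S]
  refine ⟨δ, u1, ⟨_, lf_ch μ, by simp, fun x => ?_, fun c x b => by rw [h3 ⟨x, b⟩, w]; simp; ring⟩,
    ⟨_, hϑ, r.trans (funext z)⟩, ⟨dg ((Nat.card S : ℂ)⁻¹ • (χh.1↾C - (δ : ℂ) • β.1)), ?_⟩⟩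
  · by_cases b : x = 1
    · simp [b]
    have := congrArg (fun z => z * z) (w ⟨x, b⟩)
    rcases h1 ⟨x, b⟩ with h | h <;> rcases u1 with k | k <;> simpa [h, k] using this.symm
  · have := z 1
    rw [hϑ.deg, β.2.deg, OneMemClass.coe_one, ← d] at this
    exact_mod_cast sub_eq_of_eq_add this

end Cfsg.Agent.S4451
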