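import Cfsg.Statements.S4452
import Cfsg.Agent.H3.Glaub3

set_option autoImplicit false
open Cfsg

namespace Cfsg.Agent.S4452
open H3
export H3 (inner_add_left inner_add_right inner_sub_left inner_sub_right inner_neg_left inner_neg_right
  inner_zero_left inner_zero_right inner_smul_left inner_smul_right inner_conj_symm inner_self_eq_zero
  inner_self_im)

/-- Let the finite group G be the product of a normal subgroup K and a solvable subgroup H of coprime orders, and let N = N_G(H). Then the number of irreducible characters of G of degree coprime to the order of H equals the number of irreducible characters of N of degree coprime to the order of H. (The two sets are in fact in a canonical bijection; only the equality of their sizes is stated here.) -/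
theorem result {G : Type*} [Group G] [Finite G] (K H : Subgroup G) [K.Normal] (hKH : K ⊔ H = ⊤) (hcop : (Nat.card K).Coprime (Nat.card H)) (hsolv : Group.IsSolvable H) : Nat.card {χ : Cfsg.IrrCharacter G // (Cfsg.charDegree (χ : G → ℂ)).Coprime (Nat.card H)} = Nat.card {η : Cfsg.IrrCharacter (Subgroup.normalizer (H : Set G)) // (Cfsg.charDegree (η : Subgroup.normalizer (H : Set G) → ℂ)).Coprime (Nat.card H)} := by
  set_option maxSynthPendingDepth 3 in
  have h : H7.Cop H K := ⟨H7.le_nrm_of_normal _ _, hcop.symm, Or.inl hsolv⟩
  have l := H7.le_nrm_self H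
  have l' := (inf_le_right (a := K)).trans (H7.cen_le_nrm H)
  haveI := H7.normal_subgroupOf (H7.nrm_inf (H7.le_nrm_of_normal _ K) (H7.nrm_cen (le_refl (Subgroup.normalizer (H : Set G)))))
  have e := card_coprime_deg (K := (K ⊓ Subgroup.centralizer H).subgroupOf (Subgroup.normalizer H))
    (H := H.subgroupOf (Subgroup.normalizer H)) (by
      rw [← Subgroup.subgroupOf_sup l' l, Subgroup.subgroupOf_eq_top]
      refine (le_inf (le_top.trans (hKH.ge.trans (sup_comm _ _).le)) le_rfl).trans ((H7.modular h.norm l).le.trans ?_)
      exact sup_le le_sup_right (le_sup_left.trans' (le_inf inf_le_left (H7.le_cen_of_inf_eq_bot inf_le_right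
        (H7.nrm_inf h.norm (H7.nrm_nrm l)) (eq_bot_mono (inf_le_inf_right _ inf_le_left) (H7.eq_bot_of_coprime hcop))))))
    ⟨H7.le_nrm_of_normal _ _, by
      rw [H7.card_subgroupOf_of_le l, H7.card_subgroupOf_of_le l']; exact H7.coprime_mono h.cop le_rfl inf_le_left,
      Or.inl (Group.isSolvable_of_surjective (f := (Subgroup.subgroupOfEquivOfLe l).symm.toMonoidHom) (MulEquiv.surjective _))⟩
    (Group.isSolvable_of_surjective (f := (Subgroup.subgroupOfEquivOfLe l).symm.toMonoidHom) (MulEquiv.surjective _))
  rw [H7.card_subgroupOf_of_le l, inf_eq_left.2 fun x a => H7.mem_cen.2 fun y b => Subtype.ext (H7.mem_cen (B := H).1 a.2 _ b),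
    card_irr_congr (Subgroup.subgroupOfEquivOfLe l'),
    Nat.card_congr (Subgroup.subgroupOfEquivOfLe l).monoidHomCongrLeftEquiv] at e
  rw [e, card_coprime_deg hKH h hsolv]

end Cfsg.Agent.S4452
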