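import Cfsg.Statements.S4454
import Cfsg.Agent.H3.Glaub3

set_option autoImplicit false
open Cfsg

namespace Cfsg.Agent.S4454
open H3
export H3 (inner_add_left inner_add_right inner_sub_left inner_sub_right inner_neg_left inner_neg_right
  inner_zero_left inner_zero_right inner_smul_left inner_smul_right inner_conj_symm inner_self_eq_zero
  inner_self_im)

/-- Let N ≤ G be normal subgroups of the finite group Γ with Γ/G cyclic and Γ/N a Frobenius group with kernel G/N: G ≠ Γ, N ≠ G, and no element of Γ outside G fixes a non-identity coset of N in G under conjugation. Let ϑ be an irreducible character of N invariant under conjugation by Γ and suppose ϑ is fully ramified in G: the character of G induced from ϑ equals e·χ for an irreducible character χ of G and a natural number e. Then the index of G in Γ divides e − 1 or e + 1. -/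
theorem result {Γ : Type*} [Group Γ] [Fintype Γ] (G N : Subgroup Γ) [hG : G.Normal] [hN : N.Normal] [Fintype G] [Fintype N] (hNG : N ≤ G) (hGlt : G ≠ ⊤) (hNlt : N ≠ G) (hcyc : IsCyclic (Γ ⧸ G)) (hfrob : ∀ x : Γ, x ∉ G → ∀ g : Γ, g ∈ G → x * g * x⁻¹ * g⁻¹ ∈ N → g ∈ N) (θ : Cfsg.IrrCharacter N) (hinv : ∀ (x : Γ) (n : N), (θ : N → ℂ) ⟨x * n * x⁻¹, hN.conj_mem n n.2 x⟩ = (θ : N → ℂ) n) (χ : Cfsg.IrrCharacter G) (e : ℕ) (hram : Cfsg.indFun (N.subgroupOf G) (fun n : N.subgroupOf G => (θ : N → ℂ) ⟨(n : G), n.2⟩) = fun g => (e : ℂ) * (χ : G → ℂ) g) : (G.index : ℤ) ∣ (e : ℤ) - 1 ∨ (G.index : ℤ) ∣ (e : ℤ) + 1 := by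
  set_option maxSynthPendingDepth 3 in
  cases Subsingleton.elim ‹Fintype N› (subFin N)
  cases Subsingleton.elim ‹Fintype G› (subFin G)
  obtain ⟨θ, hθ⟩ := θ
  obtain ⟨χ, hχ⟩ := χ
  obtain ⟨θ, rfl⟩ := exists_amb θ
  obtain ⟨χ, rfl⟩ := exists_amb χ
  have i : ⊤ ≤ iA N θ := by rw [← inertia_eq_iA, inertia_eq_top.2 hinv]
  have r : (indA N G θ)↾G = (e : ℂ) • χ↾G := indA_res.trans hram
  have k : ∀ ψ : Γ → ℂ, Irr G ψ↾G → ⟪θ↾N, ψ↾N⟫ = e * ⟪χ↾G, ψ↾G⟫ := fun ψ a => by
    rw [← inner_indA hNG a.isClassFunction, r, inner_smul_left]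
  have e0 : (e : ℂ) ≠ 0 := fun f => by
    simpa [indA_one, f, (H7.relIndex_pos N G).ne', show θ 1 ≠ 0 from hθ.deg_ne_zero] using congrFun r 1
  have k1 := k χ hχ
  rw [hχ.inner_self, mul_one] at k1
  obtain ⟨ξ, x1, x2⟩ := ext_of_cyclic hcyc hχ (by
    rw [inertia_eq_iA, eq_top_iff]
    refine fun g _ => ⟨H7.le_nrm_of_normal ⊤ G trivial, (hχ.eq_of_inner_ne_zero (irr_cf hχ (H7.le_nrm_of_normal ⊤ G trivial))
      fun f => e0 ?_).symm⟩
    have := k _ (irr_cf hχ (g := g) (H7.le_nrm_of_normal ⊤ G trivial))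
    rwa [f, mul_zero, inner_cf_of_mem (i trivial), k1] at this)
  obtain ⟨d, -, -, x3⟩ := res_eq_smulA hNG (le_top.trans i) hχ hθ (by rw [Ne, inner_eq_zero_comm, k1]; exact e0)
  obtain rfl : d = e := by simpa [x3, inner_smul_right, hθ.inner_self] using k1
  rw [← res_eq_mono x2 hNG] at x3
  obtain ⟨q, hq⟩ := hcyc.exists_generator
  obtain ⟨s, rfl⟩ := QuotientGroup.mk_surjective q
  have l : N ≤ N ⊔ Subgroup.zpowers s := le_sup_left
  let f := (QuotientGroup.mk' G).comp (N ⊔ Subgroup.zpowers s).subtype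
  have f1 : Function.Surjective f := fun y => let ⟨k, a⟩ := hq y
    ⟨⟨s ^ k, (le_sup_right : _ ≤ N ⊔ _) ⟨k, rfl⟩⟩, a⟩
  have f2 : N.subgroupOf (N ⊔ Subgroup.zpowers s) = f.ker := Subgroup.ext fun x =>
    ⟨fun a => (QuotientGroup.eq_one_iff _).2 (hNG a), fun a => by
      obtain ⟨n, b, _, ⟨k, rfl⟩, c⟩ := Subgroup.mem_sup_of_normal_left.1 x.2
      replace a : (x : Γ) ∈ G := (QuotientGroup.eq_one_iff _).1 a
      rw [Subgroup.mem_subgroupOf, ← c] at *
      refine mul_mem b (hfrob s (fun o => hGlt (eq_top_iff.2 fun y _ => ?_)) _ ((G.mul_mem_cancel_left (hNG b)).1 a)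
        (by convert one_mem N; group))
      obtain ⟨k, d⟩ := hq y
      simpa [(QuotientGroup.eq_one_iff _).2 o, ← QuotientGroup.eq_one_iff] using d.symm⟩
  generalize N ⊔ Subgroup.zpowers s = S at *
  obtain ⟨η, y1, y2⟩ := ext_of_cyclic (isCyclic_of_surjective _ (QuotientGroup.liftEquiv _ f1 f2).symm.surjective)
    ((irr_sub l).2 hθ) (inertia_sub_top l (le_top.trans i))
  obtain ⟨η, rfl⟩ := exists_amb η
  have x4 := (eq_sub (β := (d : ℂ) • θ) l).2 x3
  have y3 := y2 ▸ (irr_sub l).2 hθ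
  obtain ⟨β, z1, z2, z3⟩ := gallagher_ch y1.isCharacter y3 (x1.isCharacter.res S) fun ζ a b =>
    (y3.eq_of_inner_ne_zero a fun c => b (by
      rw [x4]; exact (inner_smul_left _ _ _).trans (by rw [← y2, c, mul_zero]))).symm
  obtain ⟨ρ, w1, w2⟩ := z1.exists_descend f f1 (f2 ▸ z2)
  haveI : Nontrivial (Γ ⧸ G) := QuotientGroup.nontrivial_iff.2 hGlt
  obtain ⟨a, ε, -, u1, u2, -⟩ := exists_reg_add_lin (fun a b => IsCyclic.commGroup.mul_comm a b) w1 fun y a => by
    obtain ⟨x, rfl⟩ := f1 y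
    have b := inner_slice hNG (H7.le_nrm_of_normal ⊤ G (Subgroup.mem_top x.1)) (fun g b c j d m n =>
      hfrob x (mt (QuotientGroup.eq_one_iff _).2 a) g b (by
        have := mul_mem (inv_mem m) (hN.conj_mem c j g)
        rwa [show d = g * (c * x) * g⁻¹ * x.1⁻¹ by simp [n], show (g * (c * x) * g⁻¹ * x.1⁻¹)⁻¹ * (g * c * g⁻¹) =
          x * g * x.1⁻¹ * g⁻¹ by group] at this)) x1.isClassFunction x1.isClassFunction
    have c : ⟪((fun y => η (y * x))↾S)↾(N.subgroupOf S), ((fun y => η (y * x))↾S)↾(N.subgroupOf S)⟫ = 1 :=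
      congrFun (avg_normSq y1.isCharacter y3) x
    rw [avg_normSq x1.isCharacter (x2 ▸ hχ), show (fun c : N => ξ (c * x)) = β x • (fun y => η (y * x))↾N from
      funext fun n => (congrFun z3 (⟨n, l n.2⟩ * x)).symm.trans (by
        simp [z1.mul_of_eq_deg (z2 ⟨n, l n.2⟩ n.2)]), inner_smul_left, inner_smul_right,
      (inner_sub (α := fun y => η (y * x)) (β := fun y => η (y * x)) l).symm.trans c, mul_one,
      Complex.mul_conj, Complex.normSq_eq_norm_sq, w2] at b
    exact (pow_eq_one_iff_of_nonneg (norm_nonneg _) two_ne_zero).1 (Complex.ofReal_injective b)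
  have v : (d : ℤ) = a * G.index + ε := by
    have := congrFun z3 1
    rw [Pi.mul_apply, w2, map_one, u2, OneMemClass.coe_one, show η 1 = θ 1 from congrFun y2 1, show ξ 1 = d * θ 1 from congrFun x3 1,
      mul_left_inj' (show θ 1 ≠ 0 from hθ.deg_ne_zero)] at this
    exact_mod_cast this.symm
  refine u1.imp (fun h => ?_) fun h => ?_ <;> simp [v, h]

end Cfsg.Agent.S4454
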