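import Cfsg.Statements.S4459
import Cfsg.Agent.H2.Cd4

set_option autoImplicit false
open Cfsg

namespace Cfsg.Agent.S4459

open Subgroup hiding upperCentralSeries
open H2 Cfsg.FusionSystem

open H3 H7

/-- Let G be a non-abelian finite group and p a prime. Then the irreducible character degrees of G are exactly 1 and p if and only if either G has an abelian normal subgroup of index p or the centre of G has index p³. -/
theorem result {G : Type*} [Group G] [Finite G] (hG : ∃ a b : G, a * b ≠ b * a) (p : ℕ) (hp : p.Prime) : ((∀ χ : Cfsg.IrrCharacter G, Cfsg.charDegree (χ : G → ℂ) = 1 ∨ Cfsg.charDegree (χ : G → ℂ) = p) ∧ ∃ χ : Cfsg.IrrCharacter G, Cfsg.charDegree (χ : G → ℂ) = p) ↔ ((∃ A : Subgroup G, A.Normal ∧ (∀ a ∈ A, ∀ b ∈ A, a * b = b * a) ∧ A.index = p) ∨ (Subgroup.center G).index = p ^ 3) := by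
  have n : commutator G ≠ ⊥ := fun e => by
    obtain ⟨a, b, c⟩ := hG
    exact c (H2.der_eq_bot_iff.1 e a b)
  refine ⟨fun ⟨h, _⟩ => (em _).imp_right (H2.onep_main hp (fun d ⟨χ, e⟩ => e ▸ h χ) n), fun h => ?_⟩
  have k : ∀ χ : IrrCharacter G, dg χ.1 = 1 ∨ dg χ.1 = p := fun χ => by
    rcases h with ⟨A, _, c, i⟩ | h
    · exact (Nat.dvd_prime hp).1 (i ▸ χ.2.dg_dvd_index A c)
    · obtain ⟨j, -, e⟩ := (Nat.dvd_prime_pow hp).1 (h ▸ χ.2.deg_dvd_index_center χ.2.deg)
      have := χ.2.deg_sq_le_index χ.2.deg χ.2.center_le_charCenter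
      rw [h, e, ← pow_mul, Nat.pow_le_pow_iff_right hp.one_lt] at this
      obtain rfl | rfl : j = 0 ∨ j = 1 := by omega
      · exact Or.inl e
      · exact Or.inr (e.trans (pow_one p))
  obtain ⟨χ, a, d⟩ := H2.exists_nonlin n
  exact ⟨k, ⟨χ, a⟩, (k ⟨χ, a⟩).resolve_left d⟩

end Cfsg.Agent.S4459
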