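import Cfsg.Statements.S4460
import Cfsg.Agent.H2.Cd5

set_option autoImplicit false
open Cfsg

namespace Cfsg.Agent.S4460

open Subgroup hiding upperCentralSeries
open H2 Cfsg.FusionSystem

open H3 H7

/-- A finite group with exactly three distinct irreducible character degrees is solvable of derived length at most 3: its third derived subgroup is trivial. -/
theorem result {G : Type*} [Group G] [Finite G] (hcd : Nat.card {n : ℕ // ∃ χ : Cfsg.IrrCharacter G, Cfsg.charDegree (χ : G → ℂ) = n} = 3) : derivedSeries G 3 = ⊥ := by
  have e : (H2.cds G).ncard = 3 := hcd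
  obtain ⟨x, y, z, -, -, -, e⟩ := Set.ncard_eq_three.1 e
  have h1 := e ▸ H2.one_mem_cds (G := G)
  simp only [Set.mem_insert_iff, Set.mem_singleton_iff] at h1
  have k : ∀ d ∈ H2.cds G, d = x ∨ d = y ∨ d = z := fun d hd => by simpa [e] using hd
  rcases h1 with rfl | rfl | rfl
  · exact H2.three_der _ G rfl y z k
  · exact H2.three_der _ G rfl x z fun d hd => by have := k d hd; omega
  · exact H2.three_der _ G rfl x y fun d hd => by have := k d hd; omega

end Cfsg.Agent.S4460
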