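import Cfsg.Statements.S4488
import Cfsg.Agent.H9.Pr1
import Cfsg.Agent.H9.Klein
import Mathlib.Data.Nat.Choose.Factorization

set_option autoImplicit false
open Cfsg

namespace Cfsg.Agent.S4488
open H9 H3
open scoped ComplexConjugate
set_option linter.style.haveILetI false
set_option linter.unusedVariables false

theorem inv {G : Type*} [Group G] [Finite G] {p r m : ℕ} (hp : p.Prime) {χ : G → ℂ} (hχ : IsCharacter G χ) (r0 : 0 < r)
    (hr : ¬ p ∣ r) {g : G} (hg : orderOf g = p ^ m)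
    (h : χ g ∈ IntermediateField.adjoin ℚ ({Complex.exp (2 * Real.pi * Complex.I / r)} : Set ℂ)) (k : ℕ)
    (hk : k.Coprime (orderOf g)) : χ (g ^ k) = χ g := by
  have co : (orderOf g).Coprime r := hg ▸ (hp.coprime_iff_not_dvd.2 hr).pow_left m
  obtain ⟨j, h1, h2⟩ := Nat.chineseRemainder co k 1
  have c : j.Coprime (orderOf g * r) := Nat.Coprime.mul_right
    (by rw [Nat.Coprime, h1.gcd_eq]; exact hk) (by rw [Nat.Coprime, h2.gcd_eq]; simp)
  obtain ⟨σ, hσ⟩ := exists_ringEquiv_pow (mul_ne_zero (orderOf_pos g).ne' r0.ne') c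
  have hζ := (Complex.isPrimitiveRoot_exp r r0.ne').pow_eq_one
  rw [← pow_eq_pow_iff_modEq.2 h1, ← hχ.gal_eq_pow (σ : ℂ →+* ℂ) fun z hz => hσ z (pow_eq_one_of_dvd hz (dvd_mul_right _ _))]
  generalize χ g = y at h
  induction h using IntermediateField.adjoin_induction with
  | mem x hx =>
    obtain rfl : x = _ := hx
    refine (hσ _ (pow_eq_one_of_dvd hζ (dvd_mul_left _ _))).trans ?_
    exact (pow_eq_pow_of_modEq h2 hζ).trans (pow_one _)
  | algebraMap x => simp
  | add x y _ _ a b => rw [map_add, a, b]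
  | inv x _ a => rw [map_inv₀, a]
  | mul x y _ _ a b => rw [map_mul, a, b]

theorem bound {G : Type*} [Group G] [Finite G] {p n : ℕ} (hp : p.Prime) {χ : G → ℂ} (hχ : IsCharacter G χ) {g : G}
    (h1 : χ 1 = n) {c : ℤ} (h : ∀ k : ℤ, ¬ (p : ℤ) ∣ k → χ (g ^ k) = c) : 0 ≤ n + (p - 1 : ℤ) * c := by
  obtain ⟨d, ε, -, e1, e2⟩ := hχ.exists_roots g
  have s1 : ∑ a ∈ Finset.range p, ∑ b ∈ Finset.range p, χ (g ^ (a - b : ℤ)) = p * (n + (p - 1) * c) := by
    rw [Finset.sum_congr rfl (g := fun _ => (n + (p - 1) * c : ℂ))]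
    · simp [mul_add]
    intro a ha
    rw [← Finset.add_sum_erase _ _ ha, Finset.sum_congr rfl (g := fun _ => (c : ℂ)) fun b hb => h _ fun e => ?_]
    · simp [h1, Finset.card_erase_of_mem ha, Nat.cast_sub hp.one_le]
    have := Finset.mem_range.1 ha
    have := Finset.mem_range.1 (Finset.mem_of_mem_erase hb)
    have := Finset.ne_of_mem_erase hb
    have := Int.eq_zero_of_abs_lt_dvd e (abs_lt.2 ⟨by omega, by omega⟩)
    omega
  have s2 : ∑ a ∈ Finset.range p, ∑ b ∈ Finset.range p, χ (g ^ (a - b : ℤ)) =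
      ((∑ i, Complex.normSq (∑ a ∈ Finset.range p, (ε i : ℂ) ^ a) : ℝ) : ℂ) := by
    simp only [e2, Complex.ofReal_sum, ← Complex.mul_conj, map_sum, Finset.sum_mul_sum]
    refine (Finset.sum_congr rfl fun a _ => Finset.sum_comm).trans (Finset.sum_comm.trans
      (Finset.sum_congr rfl fun i _ => Finset.sum_congr rfl fun a _ => Finset.sum_congr rfl fun b _ => ?_))
    have n1 : ‖(ε i : ℂ)‖ = 1 := Complex.norm_eq_one_of_pow_eq_one
      (by rw [← Units.val_pow_eq_pow_val, e1 i, Units.val_one]) (orderOf_pos g).ne'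
    rw [map_pow, ← Complex.inv_eq_conj n1, zpow_sub]
    simp
  have s3 : (0 : ℝ) ≤ p * (n + (p - 1) * c) := by
    have : (p * (n + (p - 1) * c) : ℝ) = ∑ i, Complex.normSq (∑ a ∈ Finset.range p, (ε i : ℂ) ^ a) := by
      exact_mod_cast s1.symm.trans s2
    exact this ▸ Finset.sum_nonneg fun i _ => Complex.normSq_nonneg _
  have p0 : (0 : ℝ) < p := by exact_mod_cast hp.pos
  exact_mod_cast (mul_nonneg_iff_of_pos_left p0).1 s3


/-- Let the finite group G have a faithful p-rational character χ of degree n (all values of χ lie in the field generated over ℚ by a root of unity of order prime to p), and let p^a be the order of a Sylow p-subgroup of G. Then a ≤ Σ_{i ≥ 0} ⌊n / ((p − 1)·p^i)⌋ (a finite sum; the terms vanish once (p − 1)p^i > n). -/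
theorem result {G : Type*} [Group G] [Finite G] (p : ℕ) (hp : p.Prime) (χ : G → ℂ) (hχ : Cfsg.IsCharacter G χ) (hfaith : ∀ g : G, χ g = χ 1 → g = 1) (hrat : (∃ r : ℕ, 0 < r ∧ ¬ p ∣ r ∧ ∀ g : G, χ g ∈ IntermediateField.adjoin ℚ ({Complex.exp (2 * Real.pi * Complex.I / r)} : Set ℂ))) (n : ℕ) (hn : Cfsg.charDegree χ = n) : (Nat.card G).factorization p ≤ ∑ i ∈ Finset.range (n + 1), n / ((p - 1) * p ^ i) := by
  classical
  haveI : Fact p.Prime := ⟨hp⟩
  obtain ⟨r, r0, hr, hrat⟩ := hrat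
  obtain ⟨P⟩ : Nonempty (Sylow p G) := inferInstance
  have h1 : χ 1 = n := hn ▸ hχ.deg
  set k := n / (p - 1) with hk
  have p1 : 0 < p - 1 := Nat.sub_pos_of_lt hp.one_lt
  have hθ : IsGeneralizedCharacter G (∏ j ∈ Finset.Ico 1 (k + 1), (χ - ((n - p * j : ℤ) : ℂ) • fun _ => 1)) :=
    Finset.prod_induction _ _ (fun _ _ => .mul) isGen_one fun j _ => hχ.isGen.sub (isGen_one.intCast_smul _)
  obtain ⟨z, hz⟩ := exists_int_of_const (P := (P : Subgroup G)) (c := 0) hθ fun g hg g1 => by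
    obtain ⟨m, hm⟩ := IsPGroup.iff_orderOf.1 P.isPGroup' ⟨g, hg⟩
    rw [Subgroup.orderOf_mk] at hm
    have i := inv hp hχ r0 hr hm (hrat g)
    obtain ⟨c, hc⟩ := hχ.isGen.exists_int_of_pow i
    have m0 : p ∣ orderOf g := hm ▸ dvd_pow_self p fun e => g1 (by rwa [e, pow_zero, orderOf_eq_one_iff] at hm)
    have b := bound hp hχ h1 (g := g) (c := c) fun j hj => by
      have o : (orderOf g : ℤ) ≠ 0 := Nat.cast_ne_zero.2 (orderOf_pos g).ne'
      obtain ⟨j', e⟩ := Int.eq_ofNat_of_zero_le (Int.emod_nonneg j o)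
      rw [← zpow_mod_orderOf, e, zpow_natCast, i j', hc]
      rw [hm]
      refine ((hp.coprime_iff_not_dvd.2 fun d => hj ?_).pow_left m).symm
      rw [← Int.emod_add_mul_ediv j (orderOf g), e]
      exact dvd_add (Int.natCast_dvd_natCast.2 d) ((Int.natCast_dvd_natCast.2 m0).mul_right _)
    obtain ⟨y, hy⟩ := dvd_sub_comm.1 (hχ.isGen.dvd_sub_deg hp (k := m) (by rw [← hm, pow_orderOf_eq_one]) hc
      (b := n) (by simpa using h1))
    have l : c ≤ n := by
      have := hχ.norm_le' h1 g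
      rw [hc, Complex.norm_intCast] at this
      exact_mod_cast (le_abs_self _).trans this
    have ne : c ≠ n := fun e => g1 (hfaith g (by rw [hc, h1, e]; simp))
    have p0 : (1 : ℤ) < p := by exact_mod_cast hp.one_lt
    have y0 : 0 < y := by
      by_contra e
      have : (p : ℤ) * y ≤ 0 := mul_nonpos_of_nonneg_of_nonpos (by omega) (by omega)
      omega
    obtain ⟨y, rfl⟩ := Int.eq_ofNat_of_zero_le y0.le
    have y1 : y ≤ k := by
      rw [hk, Nat.le_div_iff_mul_le p1]
      zify [hp.one_le]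
      rw [show c = n - p * y by omega] at b
      have : (y : ℤ) * (p - 1) * p ≤ n * p := by nlinarith
      exact le_of_mul_le_mul_right this (by omega)
    rw [Finset.prod_apply]
    refine Finset.prod_eq_zero (i := y) (Finset.mem_Ico.2 ⟨by omega, by omega⟩) ?_
    rw [← hy]
    simp [hc]
  have e : ((p ^ k * k.factorial : ℕ) : ℤ) = Nat.card P * z := by
    apply Int.cast_injective (α := ℂ)
    have f : ((k.factorial : ℕ) : ℂ) = ∏ x ∈ Finset.Ico 1 (k + 1), (x : ℂ) := by
      rw [← Finset.prod_Ico_id_eq_factorial, Nat.cast_prod]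
    simpa [h1, Finset.prod_mul_distrib, f] using hz
  have d : p ^ (Nat.card G).factorization p ∣ p ^ k * k.factorial := by
    rw [← P.card_eq_multiplicity]
    exact Int.natCast_dvd_natCast.1 ⟨z, e⟩
  rw [hp.pow_dvd_iff_le_factorization (mul_ne_zero (pow_ne_zero _ hp.ne_zero) k.factorial_ne_zero),
    Nat.factorization_mul (pow_ne_zero _ hp.ne_zero) k.factorial_ne_zero,
    Finsupp.add_apply, Nat.factorization_pow_self hp, Nat.factorization_factorial hp (b := n + 1)
      (Nat.lt_succ_of_le ((Nat.log_le_self p k).trans (Nat.div_le_self _ _)))] at d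
  rw [Finset.range_eq_Ico, Finset.sum_eq_sum_Ico_succ_bot (Nat.succ_pos n)]
  simpa [← Nat.div_div_eq_div_mul] using d

end Cfsg.Agent.S4488
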