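import Cfsg.Statements.S4472
import Cfsg.Agent.S4488
import Cfsg.Agent.H1.SZ
import Cfsg.Agent.H3.Kernel
import Cfsg.Agent.H3.Glaub
import Cfsg.Agent.H7.FF2

set_option autoImplicit false
open Cfsg

namespace Cfsg.Agent.S4472
open H9 H3 Subgroup
open scoped Pointwise commutatorElement
set_option linter.style.haveILetI false
set_option linter.unusedVariables false

theorem lift {Γ : Type*} [Group Γ] [Finite Γ] {N : Subgroup Γ} [N.Normal] (c : N.index.Coprime (Nat.card N)) {χ : Γ → ℂ}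
    (h : IsCharacter Γ χ) : ∃ ψ, IsCharacter Γ ψ ∧ (∀ n : N, ψ n = χ n) ∧
      ∀ k x, k ≡ 1 [MOD Nat.card N] → k.Coprime N.index → ψ (x ^ k) = ψ x := by
  classical
  haveI := Fintype.ofFinite Γ
  refine h.induction (P := fun χ : Γ → ℂ => ∃ ψ, IsCharacter Γ ψ ∧ (∀ n : N, ψ n = χ n) ∧
      ∀ k x, k ≡ 1 [MOD Nat.card N] → k.Coprime N.index → ψ (x ^ k) = ψ x)
    ⟨0, isCharacter_zero, fun _ => rfl, fun _ _ _ _ => rfl⟩ ?_
  rintro η ψ₀ hη - ⟨ψ, a1, a2, a3⟩
  obtain ⟨θ, hθ, i⟩ := (hη.isCharacter.res N).isClassFunction.exists_constituent fun e =>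
    hη.deg_ne_zero (congrFun e 1)
  have l := le_inertia hθ.isClassFunction
  have cN : Nat.card (N.subgroupOf (inertia θ)) = Nat.card N := Nat.card_congr (subgroupOfEquivOfLe l).toEquiv
  have dN : (N.subgroupOf (inertia θ)).index ∣ N.index := relIndex_dvd_index_of_le l
  have c' : (N.subgroupOf (inertia θ)).index.Coprime (Nat.card (N.subgroupOf (inertia θ))) :=
    cN ▸ c.coprime_dvd_left dN
  obtain ⟨ξ, hξ, -⟩ := exists_canExt_of_coprime (hθ.toSub l) (by rw [inertia_toSub _ _ l, subgroupOf_self]) c'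
  have r : (fun n : N => ξ ⟨n, l n.2⟩) = θ := funext fun n => congrFun hξ.res ⟨⟨n, l n.2⟩, n.2⟩
  have i1 : classInner (fun n : N => ξ ⟨n, l n.2⟩) θ = 1 := by rw [r]; exact hθ.inner_self
  have ir := isIrr_indFun_inertia hθ hξ.irr (i1 ▸ one_ne_zero)
  have i2 := (inner_res_indFun_inertia hθ hξ.irr (i1 ▸ one_ne_zero)).trans i1
  have k1 := clifford ir hθ (i2 ▸ one_ne_zero)
  have k2 := clifford hη hθ i
  obtain ⟨e, he⟩ := (hη.isCharacter.res N).inner_nat hθ.isCharacter
  rw [i2, one_smul] at k1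
  rw [he, ← k1] at k2
  refine ⟨e • indFun (inertia θ) ξ + ψ, (ir.isCharacter.nsmul e).add a1, fun n => ?_, fun k x h1 h2 => ?_⟩
  · simp [a2, congrFun k2 n]
  obtain ⟨σ, hσ⟩ := exists_ringEquiv_pow (n := Nat.card Γ) (k := k) Nat.card_pos.ne' (by
    rw [← N.card_mul_index]
    exact Nat.Coprime.mul_right (by rw [Nat.Coprime, h1.gcd_eq]; simp) h2)
  have : indFun (inertia θ) ξ (x ^ k) = indFun (inertia θ) ξ x := by
    rw [← ir.isCharacter.gal_eq_pow (σ : ℂ →+* ℂ) fun z hz => hσ z (pow_eq_one_of_dvd hz (orderOf_dvd_natCard _)),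
      ← congrFun (indFun_gal _ ξ (σ : ℂ →+* ℂ)) x]
    congr 1
    funext t
    rw [hξ.irr.isCharacter.gal_eq_pow (σ : ℂ →+* ℂ) fun z hz => hσ z (pow_eq_one_of_dvd hz
      ((_root_.orderOf_dvd_natCard _).trans (card_subgroup_dvd_card _)))]
    exact hξ.pow (hθ.toSub l) c' (cN ▸ h1) (h2.coprime_dvd_right dN) t
  simp [this, a3 k x h1 h2]

theorem schur {P : Type*} [Group P] [Finite P] {p n : ℕ} (hp : p.Prime) {ψ : P → ℂ} (h : IsCharacter P ψ)
    (hn : charDegree ψ = n) (hi : ∀ x, ∃ z : ℤ, ψ x = z) :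
    (charKer ψ).index.factorization p ≤ ∑ i ∈ Finset.range (n + 1), n / ((p - 1) * p ^ i) := by
  haveI := h.isClassFunction.charKer_normal
  obtain ⟨φ, hφ, e⟩ := h.exists_descend (QuotientGroup.mk' (charKer ψ)) (QuotientGroup.mk'_surjective _)
    fun g hg => h.mem_charKer.1 (by simpa using hg)
  refine Cfsg.Agent.S4488.result p hp φ hφ (fun g hg => ?_) ⟨1, one_pos, hp.not_dvd_one, fun g => ?_⟩ n
    (hn ▸ dg_congr ((e 1).trans (by simp)).symm)
  · obtain ⟨g, rfl⟩ := QuotientGroup.mk'_surjective _ g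
    exact (QuotientGroup.eq_one_iff _).2 (h.mem_charKer.2 (by rw [e, e, hg, map_one]))
  · obtain ⟨g, rfl⟩ := QuotientGroup.mk'_surjective _ g
    obtain ⟨z, hz⟩ := hi g
    rw [← e, hz]
    exact intCast_mem _ _


/-- Let the finite p-solvable group G have a faithful character of degree n, and let p^a be the index of O_p(G) in a Sylow p-subgroup of G (the p-part of [G : O_p(G)]). Then a ≤ Σ_{i ≥ 0} ⌊n / ((p − 1) p^i)⌋ (a finite sum; the terms vanish for p^i > n). -/
theorem result {G : Type*} [Group G] [Finite G] (χ : G → ℂ) (hχ : Cfsg.IsCharacter G χ) (hfaith : ∀ g : G, χ g = χ 1 → g = 1) (n : ℕ) (hn : Cfsg.charDegree χ = n) (p : ℕ) (hp : p.Prime) (hsolv : Cfsg.IsPSolvable p G) : ((Cfsg.pCore p G).index).factorization p ≤ ∑ i ∈ Finset.range (n + 1), n / ((p - 1) * p ^ i) := by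
  classical
  haveI : Fact p.Prime := ⟨hp⟩
  set O := pCore p G
  let φ := QuotientGroup.mk' O
  have sφ : Function.Surjective φ := QuotientGroup.mk'_surjective _
  set Q := pPrimeCore p (G ⧸ O)
  have pO : IsPGroup p O := H1.isPGroup_pCore
  obtain ⟨a, ha⟩ := IsPGroup.iff_card.1 pO
  have lO : O ≤ Q.comap φ := QuotientGroup.le_comap_mk' _ _
  have rO : O.relIndex (Q.comap φ) = Nat.card Q := by
    have := relIndex_ker (Q.comap φ) φ
    rwa [map_comap_eq_self_of_surjective sφ, QuotientGroup.ker_mk'] at this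
  have cQ : (Nat.card Q).Coprime p := H1.coprime_pPrimeCore
  obtain ⟨H, h1, h2, h3⟩ := H1.sz_exists_ambient lO (H7.le_nrm_of_normal _ _) (by rw [rO, ha]; exact cQ.symm.pow_left _)
  rw [rO] at h3
  have fr : nrm H ⊔ O = ⊤ := eq_top_iff.2 fun g _ => by
    obtain ⟨m, hm, e⟩ := H1.sz_conj_ambient_card (N := O) (H := H) (K := MulAut.conj g • H) (H7.le_nrm_of_normal _ _)
      (by
        rw [h1]
        rintro _ ⟨y, hy, rfl⟩
        exact (inferInstance : (Q.comap φ).Normal).conj_mem y ((le_sup_left.trans h1.le) hy) g)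
      (Nat.card_congr (H.equivSMul _).symm.toEquiv) (by rw [h3, ha]; exact cQ.pow_right _)
      (Or.inl (haveI := pO.isNilpotent; inferInstance))
    have : m⁻¹ * g ∈ nrm H := by
      refine H7.mem_nrm_of_cj_le (le_of_eq ?_)
      show MulAut.conj (m⁻¹ * g) • H = H
      rw [map_mul, mul_smul, ← e, map_inv, inv_smul_smul]
    simpa using mul_mem (mem_sup_right hm) (mem_sup_left this)
  obtain ⟨P, hP⟩ := H2.exists_isSylowIn p (nrm H)
  obtain ⟨b, hb⟩ := IsPGroup.iff_card.1 hP.isPGroup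
  have nΓ : H ⊔ P ≤ nrm H := sup_le le_normalizer hP.le
  haveI : (H.subgroupOf (H ⊔ P)).Normal := (normal_subgroupOf_iff_le_normalizer le_sup_left).2 nΓ
  have cN : Nat.card (H.subgroupOf (H ⊔ P)) = Nat.card Q := (Nat.card_congr (subgroupOfEquivOfLe le_sup_left).toEquiv).trans h3
  have iN : (H.subgroupOf (H ⊔ P)).index ∣ p ^ b := by
    rw [← hb]
    show H.relIndex (H ⊔ P) ∣ _
    rw [sup_comm, H1.relIndex_sup_of_le_normalizer hP.le]
    exact relIndex_dvd_card _ _
  obtain ⟨ψ, k1, k2, k3⟩ := lift (N := H.subgroupOf (H ⊔ P)) (cN ▸ (cQ.symm.pow_left b).coprime_dvd_left iN) (hχ.res (H ⊔ P))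
  have k4 : ψ 1 = χ 1 := k2 1
  have k5 := k1.comp (inclusion (le_sup_right : P ≤ H ⊔ P))
  refine le_trans ?_ (schur hp k5 (hn ▸ dg_congr (by simpa using k4)) fun x => k5.isGen.exists_int_of_pow fun k hk => ?_)
  · have l : charKer (fun x => ψ (inclusion (le_sup_right : P ≤ H ⊔ P) x)) ≤ O.subgroupOf P := fun g hg => by
      have hg := k1.mem_charKer.2 ((k5.mem_charKer.1 hg).trans (by simp))
      haveI := k1.isClassFunction.charKer_normal
      have c1 : ∀ y ∈ H, y * g.1 = g.1 * y := fun y hy => by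
        rw [← commutatorElement_eq_one_iff_mul_comm]
        have m1 := commutator_le_inf (H.subgroupOf (H ⊔ P)) (charKer ψ)
          (commutator_mem_commutator (g₁ := ⟨y, mem_sup_left hy⟩) hy hg)
        exact hfaith _ ((k2 ⟨_, m1.1⟩).symm.trans ((k1.mem_charKer.1 m1.2).trans k4))
      have c2 : φ g ∈ cen Q := by
        intro q hq
        obtain ⟨u, rfl⟩ := sφ q
        have hu : u ∈ H ⊔ O := h1.ge hq
        obtain ⟨y, hy, o, ho, rfl⟩ := (mul_normal H O).le hu
        have : φ o = 1 := (QuotientGroup.eq_one_iff _).2 ho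
        simp only [map_mul, this, mul_one]
        rw [← map_mul, c1 y hy, map_mul]
      have c3 : φ g ∈ Q := by
        have := H7.ps_chP' (p := p) (H := (⊤ : Subgroup (G ⧸ O))) (H7.ps_top.2 (H7.ps_of_surj hsolv φ sφ))
          (by rw [← H7.pCore_eq]; exact H1.pCore_quotient_pCore)
        rw [← H7.pPrimeCore_eq] at this
        exact this ⟨trivial, c2⟩
      have o1 : orderOf (φ g) ∣ p ^ b :=
        (orderOf_map_dvd φ _).trans (hb ▸ Subgroup.orderOf_dvd_natCard _ g.2)
      exact (QuotientGroup.eq_one_iff g.1).1 (orderOf_eq_one_iff.1 (Nat.eq_one_of_dvd_coprimes (cQ.pow_right b)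
        (Subgroup.orderOf_dvd_natCard _ c3) o1))
    have d1 : O.index ∣ P.relIndex (nrm H) * O.relIndex P := by
      rw [← relIndex_top_right, ← fr, relIndex_sup_right, ← inf_relIndex_right O P, mul_comm,
        relIndex_mul_relIndex _ _ _ inf_le_right hP.le]
      exact relIndex_dvd_of_le_left _ inf_le_left
    have d2 := d1.trans (mul_dvd_mul_left _ (index_dvd_of_le l))
    have n1 : P.relIndex (nrm H) ≠ 0 := (H7.relIndex_pos _ _).ne'
    have := (Nat.factorization_le_iff_dvd FiniteIndex.index_ne_zero (mul_ne_zero n1 FiniteIndex.index_ne_zero)).2 d2 p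
    rwa [Nat.factorization_mul n1 FiniteIndex.index_ne_zero, Finsupp.add_apply,
      Nat.factorization_eq_zero_of_not_dvd hP.not_dvd, zero_add] at this
  · by_cases x1 : x = 1
    · simp [x1]
    have o : orderOf x ∣ p ^ b := hb ▸ orderOf_dvd_natCard x
    have kp : k.Coprime p := by
      obtain ⟨i, -, hi⟩ := (Nat.dvd_prime_pow hp).1 o
      rw [hi] at hk
      exact hk.coprime_dvd_right (dvd_pow_self p fun e => x1 (by rwa [e, pow_zero, orderOf_eq_one_iff] at hi))
    obtain ⟨j, j1, j2⟩ := Nat.chineseRemainder (cQ.pow_right (b + 1)) 1 k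
    have jp : j.Coprime p := by
      rw [Nat.Coprime, (j2.of_dvd (dvd_pow_self p b.succ_ne_zero)).gcd_eq]; exact kp
    have := k3 j (inclusion le_sup_right x) (cN ▸ j1) ((jp.pow_right b).coprime_dvd_right iN)
    rwa [← map_pow, pow_eq_pow_iff_modEq.2 (j2.of_dvd (o.trans (pow_dvd_pow p b.le_succ)))] at this

end Cfsg.Agent.S4472
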