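import Cfsg.Statements.S4468
import Cfsg.Agent.S4472
import Cfsg.Agent.H7.PLen

set_option autoImplicit false
open Cfsg

namespace Cfsg.Agent.S4468
open H9 H3 Subgroup
open scoped Pointwise commutatorElement
set_option linter.style.haveILetI false
set_option linter.unusedVariables false

theorem small {G : Type*} [Group G] [Finite G] {p : ℕ} [hp : Fact p.Prime] {ψ : G → ℂ} (h : IsCharacter G ψ)
    (hs : IsPSolvable p G) (hd : charDegree ψ + 1 < p) (P : Sylow p G) {r : G}
    (hr : r ∈ normalClosure ((P : Subgroup G) : Set G)) : ∃ m, r ^ p ^ m ∈ charKer ψ := by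
  haveI := h.isClassFunction.charKer_normal
  have s := QuotientGroup.mk'_surjective (charKer ψ)
  obtain ⟨φ, hφ, e⟩ := h.exists_descend (QuotientGroup.mk' (charKer ψ)) s fun g hg => h.mem_charKer.1 (by simpa using hg)
  have b := Cfsg.Agent.S4472.result φ hφ (fun g hg => by
    obtain ⟨g, rfl⟩ := s g
    exact (QuotientGroup.eq_one_iff _).2 (h.mem_charKer.2 (by rw [e, e, hg, map_one]))) _
    (dg_congr ((e 1).trans (by simp)).symm) p hp.out (H7.ps_of_surj hs _ s)
  rw [Finset.sum_eq_zero fun i _ => Nat.div_eq_of_lt (lt_of_lt_of_le (by omega)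
    (Nat.le_mul_of_pos_right _ (pow_pos hp.out.pos i))), Nat.le_zero] at b
  have nd : ¬ p ∣ (pCore p (G ⧸ charKer ψ)).index := fun d => by
    have := (hp.out.dvd_iff_one_le_factorization FiniteIndex.index_ne_zero).1 d
    omega
  have l : normalClosure ((P : Subgroup G) : Set G) ≤ (pCore p (G ⧸ charKer ψ)).comap (QuotientGroup.mk' _) :=
    normalClosure_le_normal fun x hx => by
      obtain ⟨k, hk⟩ := P.isPGroup' ⟨x, hx⟩
      have hk : x ^ p ^ k = 1 := congrArg Subtype.val hk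
      refine (QuotientGroup.eq_one_iff (QuotientGroup.mk' (charKer ψ) x)).1 (orderOf_eq_one_iff.1
        (Nat.eq_one_of_dvd_coprimes ((hp.out.coprime_iff_not_dvd.2 nd).pow_left k)
          (orderOf_dvd_of_pow_eq_one ?_) (_root_.orderOf_dvd_natCard _)))
      rw [← QuotientGroup.mk_pow, ← map_pow, hk, map_one, QuotientGroup.mk_one]
  obtain ⟨m, hm⟩ := H1.isPGroup_pCore (p := p) ⟨_, l hr⟩
  exact ⟨m, (QuotientGroup.eq_one_iff _).1 (congrArg Subtype.val hm)⟩

theorem irr {G : Type*} [Group G] [Finite G] {p : ℕ} [hp : Fact p.Prime] {χ : G → ℂ} (h : IsCharacter G χ)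
    (hf : ∀ g : G, χ g = χ 1 → g = 1) (hs : IsPSolvable p G) (hd : charDegree χ + 1 ≤ p) (P : Sylow p G)
    (hP : ¬ (P : Subgroup G).Normal) : charDegree χ + 1 = p ∧ IsIrrCharacter G χ := by
  have k : ¬ ∀ r ∈ normalClosure ((P : Subgroup G) : Set G), ∃ m, r ^ p ^ m ∈ charKer χ := fun H => hP (by
    rw [← P.is_maximal' (Q := normalClosure ((P : Subgroup G) : Set G)) (fun r => (H r.1 r.2).imp fun m hm =>
      Subtype.ext (hf _ (h.mem_charKer.1 hm))) le_normalClosure]
    infer_instance)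
  have e : charDegree χ + 1 = p := by_contra fun e => k fun r hr => small h hs (by omega) P hr
  refine ⟨e, ?_⟩
  have p2 := hp.out.two_le
  rcases h.induction (P := fun χ : G → ℂ => χ = 0 ∨ ∃ η ψ, IsIrrCharacter G η ∧ IsCharacter G ψ ∧ χ = η + ψ)
    (Or.inl rfl) (fun η ψ a b _ => Or.inr ⟨η, ψ, a, b, rfl⟩) with rfl | ⟨η, ψ, a, b, rfl⟩
  · rw [dg_eq (n := 0) (by simp)] at e
    omega
  by_cases z : ψ = 0
  · simpa [z] using a
  have d : charDegree (η + ψ) = charDegree η + charDegree ψ := dg_eq (by rw [Pi.add_apply, a.deg, b.deg]; simp)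
  have d1 := a.dg_pos
  have d2 : charDegree ψ ≠ 0 := fun e => z (b.eq_zero_of_deg (by rw [b.deg, e, Nat.cast_zero]))
  refine (k fun r hr => ?_).elim
  obtain ⟨m, hm⟩ := small a.isCharacter hs (by omega) P hr
  obtain ⟨m', hm'⟩ := small b hs (by omega) P hr
  refine ⟨m + m', h.mem_charKer.2 ?_⟩
  have x1 : r ^ p ^ (m + m') ∈ charKer η := by rw [pow_add, pow_mul]; exact pow_mem hm _
  have x2 : r ^ p ^ (m + m') ∈ charKer ψ := by rw [add_comm, pow_add, pow_mul]; exact pow_mem hm' _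
  rw [Pi.add_apply, Pi.add_apply, a.isCharacter.mem_charKer.1 x1, b.mem_charKer.1 x2]


/-- Let the finite p-solvable group G have a faithful character χ of degree n ≤ p − 1 and suppose that a Sylow p-subgroup of G is not normal. Then n = p − 1, n is a power of 2, and χ is irreducible. -/
theorem result {G : Type*} [Group G] [Finite G] (χ : G → ℂ) (hχ : Cfsg.IsCharacter G χ) (hfaith : ∀ g : G, χ g = χ 1 → g = 1) (n : ℕ) (hn : Cfsg.charDegree χ = n) (p : ℕ) (hp : p.Prime) (hsolv : Cfsg.IsPSolvable p G) (hnp : n + 1 ≤ p) (P : Sylow p G) (hP : ¬ (P : Subgroup G).Normal) : n + 1 = p ∧ (∃ k : ℕ, n = 2 ^ k) ∧ Cfsg.IsIrrCharacter G χ := by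
  haveI : Fact p.Prime := ⟨hp⟩
  subst hn
  obtain ⟨e, i⟩ := irr hχ hfaith hsolv hnp P hP
  refine ⟨e, ?_, i⟩
  obtain ⟨x, hx, hy⟩ : ∃ x ∈ (P : Subgroup G), x ∉ pCore p G := by
    by_contra H
    push Not at H
    exact hP (P.is_maximal' H1.isPGroup_pCore H ▸ inferInstance)
  rw [H7.pCore_eq, ← pow_one x] at hy
  have px : IsPGroup p (zpowers x) := P.isPGroup'.to_le (zpowers_le.2 hx)
  obtain ⟨q, hq, hqp, Q, -, pQ, v, hv, h1, h2⟩ := H7.exists_act (H7.ps_top.2 hsolv) (mem_top x) px hy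
  rw [pow_one] at h2
  haveI : Fact q.Prime := ⟨hq⟩
  have py : IsPGroup p (zpowers (v * x)) := by
    rw [← H7.pCore_eq] at hv
    exact (px.to_sup_of_normal_right H1.isPGroup_pCore).to_le
      (zpowers_le.2 (mul_mem (mem_sup_right hv) (mem_sup_left (mem_zpowers x))))
  have n1 : zpowers (v * x) ≤ nrm Q := zpowers_le.2 h1
  obtain ⟨S, hS⟩ := (py.comap_subtype (K := zpowers (v * x) ⊔ Q)).exists_le_sylow
  obtain ⟨-, j⟩ := irr (hχ.res (zpowers (v * x) ⊔ Q)) (fun g hg => Subtype.ext (hfaith _ hg)) (H7.ps_sub hsolv _)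
    hnp S fun nS => h2 (by
      refine le_trans (commutator_le.2 fun a ha b hb => ?_) bot_le
      haveI : (Q.subgroupOf (zpowers (v * x) ⊔ Q)).Normal :=
        (normal_subgroupOf_iff_le_normalizer le_sup_right).2 (sup_le n1 le_normalizer)
      have m := commutator_le_inf (Q.subgroupOf (zpowers (v * x) ⊔ Q)) S
        (commutator_mem_commutator (g₁ := ⟨a, mem_sup_right ha⟩) (g₂ := ⟨b, mem_sup_left hb⟩) ha (hS hb))
      exact congrArg Subtype.val
        ((IsPGroup.disjoint_of_ne q p hqp _ _ pQ.comap_subtype S.isPGroup').le_bot m))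
  obtain ⟨a, ha⟩ := IsPGroup.iff_card.1 py
  obtain ⟨b, hb⟩ := IsPGroup.iff_card.1 pQ
  have d := j.dg_dvd.trans (H1.card_sup_dvd n1)
  rw [ha, hb] at d
  have c : (charDegree χ).Coprime p := by rw [← e]; simp
  obtain ⟨k, -, hk⟩ := (Nat.dvd_prime_pow hq).1 ((c.pow_right a).dvd_of_dvd_mul_left d)
  by_cases p2 : p = 2
  · exact ⟨0, by omega⟩
  have ev : 2 ∣ q ^ k := by
    rw [← hk, show charDegree χ = p - 1 by omega]; exact (hp.even_sub_one p2).two_dvd
  exact ⟨k, by rw [hk, (Nat.prime_dvd_prime_iff_eq Nat.prime_two hq).1 (Nat.prime_two.dvd_of_dvd_pow ev)]⟩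

end Cfsg.Agent.S4468
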