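import Cfsg.Statements.S4473
import Cfsg.Agent.H4.Dickson
import Cfsg.Agent.H3.Kernel
import Cfsg.Agent.H3.Det

set_option autoImplicit false
open Cfsg

namespace Cfsg.Agent.S4473
open H3 H4 Subgroup Matrix MulAction
open scoped MatrixGroups
set_option linter.style.haveILetI false
set_option linter.unusedVariables false


/-- Let the finite group G have a faithful irreducible character χ of degree 2 that is primitive: χ is not induced from a character of any proper subgroup. Then the centre of G has index 12, 24 or 60. -/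
theorem result {G : Type*} [Group G] [Fintype G] (χ : Cfsg.IrrCharacter G) (hfaith : ∀ g : G, (χ : G → ℂ) g = (χ : G → ℂ) 1 → g = 1) (h2 : Cfsg.charDegree (χ : G → ℂ) = 2) (hprim : ∀ H : Subgroup G, H ≠ ⊤ → ∀ θ : H → ℂ, Cfsg.IsCharacter H θ → (χ : G → ℂ) ≠ Cfsg.indFun H θ) : (Subgroup.center G).index = 12 ∨ (Subgroup.center G).index = 24 ∨ (Subgroup.center G).index = 60 := by
  classical
  have c := χ.2.isCharacter
  have d : χ.1 1 = (2 : ℕ) := h2 ▸ χ.2.deg
  have ab : ∀ A : Subgroup G, (∀ a b : A, a * b = b * a) → ¬ A.index ≤ 2 := fun A hA hi => by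
    obtain ⟨θ, hθ, i⟩ := exists_irr_under A χ.2
    have i' : classInner (indFun A θ) χ.1 ≠ 0 := by
      rw [inner_indFun_left _ _ c.isClassFunction]
      exact fun e => i (inner_eq_zero_comm.1 e)
    have t : indFun A θ 1 = (A.index : ℕ) := by rw [indFun_one, hθ.deg_eq_one_of_comm hA, mul_one]
    have l := hθ.isCharacter.ind.deg_le_of_inner_ne_zero χ.2 i' d t
    have e : A.index = 2 := le_antisymm hi l
    exact hprim A (fun e' => by simp [e'] at e) θ hθ.isCharacter
      (hθ.isCharacter.ind.eq_of_inner_ne_zero χ.2 i' (by rw [t, d, e])).symm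
  obtain ⟨n, ρ, hρ⟩ := id c
  obtain rfl : n = 2 := by
    rw [← hρ, Representation.char_one] at d
    have : (n : ℂ) = (2 : ℕ) := by simpa using d
    exact_mod_cast this
  let r : G →* GL (Fin 2) ℂ := (LinearMap.toMatrixAlgEquiv'.toMulEquiv.toMonoidHom.comp ρ).toHomUnits
  have rv : ∀ g, (r g).val = LinearMap.toMatrix' (ρ g) := fun g => rfl
  have ri : Function.Injective r := (injective_iff_map_eq_one _).2 fun g hg => hfaith g (by
    rw [← hρ, character_eq_trace, character_eq_trace, ← rv, ← rv, hg, map_one])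
  let π : G →* PGL(2, ℂ) := ProjGenLinGroup.mk.comp r
  have k : π.ker = center G := by
    ext g
    rw [MonoidHom.mem_ker, MonoidHom.comp_apply, ProjGenLinGroup.mk_eq_one]
    refine ⟨fun h => mem_center_iff.2 fun a => ri (by rw [map_mul, map_mul, mem_center_iff.1 h]), fun h => ?_⟩
    have := c.mem_charCenter.1 (χ.2.center_le_charCenter h)
    rw [← hρ, Representation.char_one, Complex.norm_natCast] at this
    obtain ⟨ω, -, e⟩ := (norm_character_eq_iff ρ g).1 this
    refine GeneralLinearGroup.mem_center_iff_val_mem_range_scalar.2 ⟨ω, ?_⟩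
    rw [rv, e]
    ext i j
    by_cases h : i = j <;> simp [Matrix.diagonal_apply, h]
  have ci : (center G).index = Nat.card π.range := by rw [← k, index_ker]
  haveI : Finite π.range := Finite.of_surjective _ π.rangeRestrict_surjective
  have hz := zact_pgl π.range
  have hU : ∀ x, hz.U x = ⊥ := fun x => (Subgroup.eq_bot_iff_forall _).2 fun u hu => by
    obtain ⟨m, rfl⟩ := exists_smul_infty x
    obtain ⟨b, hb⟩ := isU_iff_aff.1 (isU_coe.1 hu)
    have h1 : (u : PGL(2, ℂ)) ^ orderOf u = 1 := congrArg Subtype.val (pow_orderOf_eq_one u)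
    rw [hb, conj_pow, aff_one_pow, conj_eq_one_iff, ← aff_one] at h1
    have h3 : b = 0 := by simpa [(orderOf_pos u).ne'] using (aff_inj h1).2
    exact Subtype.ext (by rw [hb, h3, aff_one]; simp)
  have st : ∀ x : OnePoint ℂ, ¬ (stabilizer π.range x).index ≤ 2 := fun x hx => by
    haveI := hz.isCyclic_stab (hU x)
    refine ab ((stabilizer π.range x).comap π.rangeRestrict)
      (commutative_of_cyclic_center_quotient (π.rangeRestrict.subgroupComap _) fun a ha => ?_)
      (by rwa [index_comap_of_surjective _ π.rangeRestrict_surjective])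
    have : a.1 ∈ π.ker := congrArg (fun y : stabilizer π.range x => y.1.1) ha
    exact mem_center_iff.2 fun b => Subtype.ext (mem_center_iff.1 (k ▸ this) b.1)
  rw [ci]
  rcases hz.tame hU with ⟨x, hx⟩ | ⟨x, y, -, h, -⟩ | ⟨⟨h⟩⟩ | ⟨⟨h⟩⟩ | ⟨⟨h⟩⟩
  · exact (st x (by rw [(Subgroup.eq_top_iff' (stabilizer π.range x)).2 hx]; simp)).elim
  · refine (st x ?_).elim
    rw [index_stabilizer]
    exact (Set.ncard_le_ncard (t := {x, y}) (by rintro _ ⟨g, rfl⟩; exact h g)).trans
      ((Set.ncard_insert_le _ _).trans (by simp))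
  · left; rw [Nat.card_congr h.toEquiv, nat_card_alternatingGroup]; simp [Nat.factorial]
  · right; left; rw [Nat.card_congr h.toEquiv, Nat.card_perm]; simp [Nat.factorial]
  · right; right; rw [Nat.card_congr h.toEquiv, nat_card_alternatingGroup]; simp [Nat.factorial]

end Cfsg.Agent.S4473
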