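import Cfsg.Statements.S4476
import Cfsg.Agent.H3.FS

set_option autoImplicit false
open Cfsg

namespace Cfsg.Agent.S4476
open H3
export H3 (inner_add_left inner_add_right inner_sub_left inner_sub_right inner_neg_left inner_neg_right
  inner_zero_left inner_zero_right inner_smul_left inner_smul_right inner_conj_symm inner_self_eq_zero
  inner_self_im)

/-- Let G be a finite group of even order g with exactly t involutions, and put α = (g − 1)/t (a rational number). Then (a) some non-identity element x of G has at most α² conjugates; and (b) some non-principal real-valued irreducible character of G has degree at most α. -/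
theorem result {G : Type*} [Group G] [Fintype G] (heven : Even (Nat.card G)) (t : ℕ) (ht : Nat.card {x : G // orderOf x = 2} = t) : (∃ x : G, x ≠ 1 ∧ ((Subgroup.centralizer ({x} : Set G)).index : ℚ) ≤ (((Nat.card G : ℚ) - 1) / t) ^ 2) ∧ ∃ χ : Cfsg.IrrCharacter G, (χ : G → ℂ) ≠ (fun _ => 1) ∧ (∀ g : G, ((χ : G → ℂ) g).im = 0) ∧ (Cfsg.charDegree (χ : G → ℂ) : ℚ) ≤ ((Nat.card G : ℚ) - 1) / t := by
  set_option maxSynthPendingDepth 3 in
  classical
  let R : Finset (IrrCharacter G) := Finset.univ.filter fun χ => χ.1 ≠ (fun _ => 1) ∧ ∀ g, (χ.1 g).im = 0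
  have t0 : 0 < t := by
    obtain ⟨x, a⟩ := exists_prime_orderOf_dvd_card' 2 heven.two_dvd
    exact ht ▸ Nat.card_pos_iff.2 ⟨⟨⟨x, a⟩⟩, inferInstance⟩
  have a : t ≤ ∑ χ ∈ R, dg χ.1 := by
    have b := congrArg Complex.re (card_sq_eq_sum (1 : G))
    have c : Nat.card {s : G // s * s = 1} = t + 1 := by
      rw [← ht, Nat.card_eq_fintype_card, Nat.card_eq_fintype_card, Fintype.card_subtype, Fintype.card_subtype,
        ← Finset.card_insert_of_notMem (a := 1) (by simp)]
      congr 1
      ext x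
      simp [orderOf_eq_prime_iff, sq, or_and_left, em]
      rintro rfl; simp
    rw [c, ← Finset.add_sum_erase _ _ (Finset.mem_univ ⟨_, isIrrCharacter_one⟩), Complex.add_re, Complex.re_sum] at b
    have d : ∑ χ ∈ Finset.univ.erase (⟨_, isIrrCharacter_one⟩ : IrrCharacter G), (fsInd χ.1 * (starRingEnd ℂ) (χ.1 1)).re ≤
        ∑ χ ∈ R, (dg χ.1 : ℝ) := by
      rw [Finset.sum_filter, ← Finset.add_sum_erase _ _ (Finset.mem_univ ⟨_, isIrrCharacter_one⟩), if_neg (by simp), zero_add]
      refine Finset.sum_le_sum fun χ e => ?_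
      rw [χ.2.deg]
      rcases χ.2.fsInd_spec with f | ⟨f, g⟩
      · rw [f.2]; simp; positivity
      · rw [if_pos ⟨fun u => (Finset.mem_erase.1 e).1 (Subtype.ext u), conj_eq_iff_im.1 f⟩]
        rcases g with g | g <;> simp [g]
    simp [fsInd] at b d
    rw [← Nat.cast_le (α := ℝ)]
    push_cast
    linarith
  have s : R ⊆ Finset.univ.erase ⟨_, isIrrCharacter_one⟩ := fun χ e =>
    Finset.mem_erase.2 ⟨fun u => (Finset.mem_filter.1 e).2.1 (congrArg Subtype.val u), Finset.mem_univ _⟩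
  have b : ∑ χ ∈ R, dg χ.1 ^ 2 + 1 ≤ Nat.card G := by
    rw [← sum_dg_sq, ← Finset.add_sum_erase _ _ (Finset.mem_univ ⟨_, isIrrCharacter_one⟩), dg_eq (n := 1) (by simp), add_comm]
    exact Nat.add_le_add_left (Finset.sum_le_sum_of_subset s) _
  have tq : (0 : ℚ) < t := Nat.cast_pos.2 t0
  have bq : ((∑ χ ∈ R, dg χ.1 ^ 2 : ℕ) : ℚ) ≤ Nat.card G - 1 := le_sub_iff_add_le.2 (by exact_mod_cast b)
  refine ⟨by_contra fun c => ?_, ?_⟩
  · push Not at c
    have d : t ^ 2 ≤ R.card * ∑ χ ∈ R, dg χ.1 ^ 2 := (Nat.pow_le_pow_left a 2).trans sq_sum_le_card_mul_sum_sq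
    have e : R.card + 1 ≤ Nat.card (ConjClasses G) := by
      rw [← card_irr, Nat.card_eq_fintype_card, ← Finset.card_univ,
        ← Finset.card_erase_add_one (Finset.mem_univ ⟨_, isIrrCharacter_one⟩)]
      exact Nat.add_le_add_right (Finset.card_le_card s) _
    have f := sum_eq_sum_conjClasses (G := G) fun _ => 1
    simp only [Finset.sum_const, Finset.card_univ, mul_one, nsmul_eq_mul, ← Nat.card_eq_fintype_card] at f
    replace f : (Nat.card G : ℚ) = ∑ C : ConjClasses G, (Nat.card C.carrier : ℚ) := by exact_mod_cast f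
    obtain ⟨x, x2⟩ := exists_prime_orderOf_dvd_card' 2 heven.two_dvd
    rw [← Finset.add_sum_erase _ _ (Finset.mem_univ (ConjClasses.mk 1)), card_carrier_mk] at f
    have k := Finset.sum_lt_sum_of_nonempty (s := Finset.univ.erase (ConjClasses.mk (1 : G)))
      (f := fun _ => (((Nat.card G : ℚ) - 1) / t) ^ 2) (g := fun C => (Nat.card C.carrier : ℚ))
      ⟨ConjClasses.mk x, Finset.mem_erase.2 ⟨fun u => by
        simp [isConj_one_left.1 (ConjClasses.mk_eq_mk_iff_isConj.1 u)] at x2, Finset.mem_univ _⟩⟩ fun C u => by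
      obtain ⟨y, rfl⟩ := ConjClasses.exists_rep C
      exact card_carrier_mk y ▸ c y fun v => (Finset.mem_erase.1 u).1 (v ▸ rfl)
    rw [Finset.sum_const, Finset.card_erase_of_mem (Finset.mem_univ _), Finset.card_univ, ← Nat.card_eq_fintype_card,
      nsmul_eq_mul, div_pow, ← mul_div_assoc, div_lt_iff₀ (by positivity)] at k
    have e' : (R.card : ℚ) ≤ (Nat.card (ConjClasses G) - 1 : ℕ) := Nat.cast_le.2 (by omega)
    have d' : (t : ℚ) ^ 2 ≤ R.card * (∑ χ ∈ R, dg χ.1 ^ 2 : ℕ) := by exact_mod_cast d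
    have g : (0 : ℚ) ≤ Nat.card G - 1 := le_trans (by positivity) bq
    simp only [Subgroup.centralizer_eq_top_iff_subset.2 (by simp : ({1} : Set G) ⊆ Subgroup.center G),
      Subgroup.index_top, Nat.cast_one] at f
    rw [← sub_eq_iff_eq_add'.2 f] at k
    have := mul_le_mul_of_nonneg_left (d'.trans (mul_le_mul e' bq (by positivity) (by positivity))) g
    linarith
  · obtain ⟨χ, c, d⟩ := R.exists_min_image (fun χ => dg χ.1) (Finset.nonempty_iff_ne_empty.2 fun e => by simp [e] at a; omega)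
    refine ⟨χ, (Finset.mem_filter.1 c).2.1, (Finset.mem_filter.1 c).2.2, (le_div_iff₀ tq).2 (le_trans ?_ bq)⟩
    exact_mod_cast (Nat.mul_le_mul_left _ a).trans ((Finset.mul_sum _ _ _).trans_le
      (Finset.sum_le_sum fun ψ e => (sq (dg ψ.1)).symm ▸ Nat.mul_le_mul_right _ (d ψ e)))

end Cfsg.Agent.S4476
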