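import Cfsg.Statements.S4477
import Cfsg.Agent.H3.Mack

set_option autoImplicit false
open Cfsg

namespace Cfsg.Agent.S4477
open H3
export H3 (inner_add_left inner_add_right inner_sub_left inner_sub_right inner_neg_left inner_neg_right
  inner_zero_left inner_zero_right inner_smul_left inner_smul_right inner_conj_symm inner_self_eq_zero
  inner_self_im)

universe u
theorem aux (n : ℕ) : ∀ (G : Type u) [Group G] [Finite G], Nat.card G = n → IsPGroup 2 G →
    Nat.card {s : G // s * s = 1} % 4 = 2 → IsCyclic G ∨ (commutator G).index = 4 := by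
  classical
  refine Nat.strong_induction_on n fun n ih G _ _ hn hG ht => ?_
  haveI := Fintype.ofFinite G
  have inv : ∀ x : G, x ≠ 1 → ∃ k, x ^ k ≠ 1 ∧ x ^ k * x ^ k = 1 := fun x a => by
    obtain ⟨q, k, b, c⟩ := exists_prime_order_pow a
    obtain ⟨j, d⟩ := hG.exists_orderOf_eq_pow (x ^ k)
    obtain rfl : q = 2 := (Nat.prime_dvd_prime_iff_eq b Nat.prime_two).1 (b.dvd_of_dvd_pow (c.symm.trans d).dvd)
    exact ⟨k, fun e => by simp [e] at c, by rw [← sq, ← c, pow_orderOf_eq_one]⟩
  by_cases c : commutator G = ⊥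
  · letI : CommGroup G := { ‹Group G› with mul_comm := fun a b => commutatorElement_eq_one_iff_mul_comm.1 (
      Subgroup.mem_bot.1 (c.le (Subgroup.commutator_mem_commutator trivial trivial))) }
    obtain ⟨k, e⟩ := (hG.to_subgroup (powMonoidHom 2 : G →* G).ker).exists_card_eq
    have f : Nat.card {s : G // s * s = 1} = 2 ^ k := e ▸ Nat.card_congr (Equiv.subtypeEquivRight fun x => by simp [sq])
    obtain rfl : k = 1 := by
      rw [f] at ht
      rcases k with _ | _ | k <;> omega
    obtain ⟨z, a, b⟩ := (Nat.card_eq_two_iff' ⟨1, by simp⟩).1 f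
    obtain ⟨l, d⟩ := exists_lin_ne_one (g := z.1) (c ▸ fun e => a (Subtype.ext e))
    refine .inl (isCyclic_of_injective_units l ((injective_iff_map_eq_one l).2 fun x e => by_contra fun g => ?_))
    obtain ⟨k, u, v⟩ := inv x g
    exact d (by rw [← b ⟨_, v⟩ fun w => u (congrArg Subtype.val w), map_pow, e, one_pow])
  haveI := hG.isNilpotent
  obtain ⟨z, z1, z2, z3, z4⟩ : ∃ z ∈ commutator G, z ∈ Subgroup.center G ∧ z ≠ 1 ∧ z * z = 1 := by
    obtain ⟨⟨x, a⟩, b⟩ := Subgroup.ne_bot_iff_exists_ne_one.1 (H1.inf_center_ne_bot _ c)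
    obtain ⟨k, d⟩ := inv x fun e => b (Subtype.ext e)
    exact ⟨_, pow_mem a.1 k, pow_mem a.2 k, d⟩
  let Z := Subgroup.zpowers z
  haveI : Z.Normal := normal_of_le_center (by simpa [Z] using z2)
  have l : Z ≤ commutator G := by simpa [Z] using z1
  have o : Nat.card Z = 2 := by rw [Nat.card_zpowers, orderOf_eq_prime (by rwa [sq]) z3]
  have i : (commutator (G ⧸ Z)).index = (commutator G).index := by
    rw [commutator_def, ← Subgroup.map_top_of_surjective _ (QuotientGroup.mk'_surjective Z), ← Subgroup.map_commutator,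
      Subgroup.index_map_eq _ (QuotientGroup.mk'_surjective Z) (by simpa [commutator_def] using l), commutator_def]
  have i4 : 4 ≤ (commutator G).index := by simpa [commutator_def] using sq_le_relIndex_der (p := 2) (hG.to_subgroup ⊤) c
  by_cases q : Nat.card {s : G ⧸ Z // s * s = 1} % 4 = 2
  · refine .inr (i ▸ (ih _ ?_ (G ⧸ Z) rfl (hG.to_quotient Z) q).resolve_left fun e => c ?_)
    · have := Z.index_mul_card
      have := Z.index_ne_zero_of_finite
      rw [← Subgroup.index_eq_card]; rw [o] at *; omega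
    · exact (commutator_eq_bot_iff G).2
        ((QuotientGroup.mk' Z).isMulCommutative_of_isCyclic_of_ker_le_center (by simpa [Z] using z2))
  have ev : 2 ∣ Nat.card {s : G ⧸ Z // s * s = 1} := by
    have a := Equiv.Perm.card_fixedPoints_modEq (f := fun s : G ⧸ Z => s⁻¹) (p := 2) (n := 1) (funext fun s => inv_inv s)
    have b := (hG.to_quotient Z).card_eq_or_dvd.resolve_left fun e => by
      have := Nat.le_of_dvd Nat.card_pos (commutator (G ⧸ Z)).index_dvd_card
      omega
    rw [← Nat.card_eq_fintype_card, ← Nat.card_eq_fintype_card] at a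
    rw [Nat.card_congr (Equiv.subtypeEquivRight fun s => mul_eq_one_iff_inv_eq)]
    exact (a.dvd_iff dvd_rfl).1 b
  choose! ν hν using fun χ (h : Irr G χ) => exists_fs_int h
  have s1 : (Nat.card {s : G // s * s = 1} : ℤ) = ∑ χ : IrrCharacter G, ν χ * dg χ.1 := by
    apply Int.cast_injective (α := ℂ)
    simp only [Int.cast_natCast, card_sq_eq_sum, Int.cast_sum, Int.cast_mul]
    exact Finset.sum_congr rfl fun χ _ => by rw [(hν χ χ.2).1, χ.2.deg, map_natCast]
  have s2 : (Nat.card {s : G ⧸ Z // s * s = 1} : ℤ) =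
      ∑ χ : IrrCharacter G with ∀ x ∈ (QuotientGroup.mk' Z).ker, χ.1 x = χ.1 1, ν χ * dg χ.1 := by
    apply Int.cast_injective (α := ℂ)
    rw [sum_irr_comp _ (QuotientGroup.mk'_surjective Z) fun χ => ν χ * dg χ]
    simp only [Int.cast_natCast, card_sq_eq_sum, Int.cast_sum, Int.cast_mul]
    exact Finset.sum_congr rfl fun χ _ => by
      rw [← (hν _ (χ.2.comp_surjective _ (QuotientGroup.mk'_surjective Z))).1, fsInd_comp _ (QuotientGroup.mk'_surjective Z),
        χ.2.deg, map_natCast]; rfl
  let X : (G → ℂ) → ℕ := fun χ => if dg χ = 2 ∧ ¬ ∀ x ∈ (QuotientGroup.mk' Z).ker, χ x = χ 1 then 1 else 0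
  have xc : ∀ χ, X (fun g => (starRingEnd ℂ) (χ g)) = X χ := fun χ => by
    simp [X, charDegree, (starRingEnd ℂ).injective.eq_iff]
  have od : Odd (∑ χ : IrrCharacter G, X χ) := by
    let R : (G → ℂ) → ℕ := fun χ => if (fun g => (starRingEnd ℂ) (χ g)) = χ then X χ else 0
    let S : (G → ℂ) → ℕ := fun χ => if (fun g => (starRingEnd ℂ) (χ g)) = χ then 0 else X χ
    have a := mt (exists_real_odd S fun χ _ => by simp only [S, xc, Complex.conj_conj, eq_comm]) fun ⟨χ, _, b, c⟩ => by
      simp [S, b] at c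
    have b : ∑ χ : IrrCharacter G, X χ = ∑ χ : IrrCharacter G, R χ + ∑ χ : IrrCharacter G, S χ := by
      rw [← Finset.sum_add_distrib]
      exact Finset.sum_congr rfl fun χ _ => by simp only [R, S]; split_ifs <;> simp
    have d : (4 : ℤ) ∣ ∑ χ : IrrCharacter G, (ν χ * dg χ.1 -
        (if ∀ x ∈ (QuotientGroup.mk' Z).ker, χ.1 x = χ.1 1 then ν χ * dg χ.1 else 0) - 2 * R χ) :=
      Finset.dvd_sum fun χ _ => by
        by_cases e : ∀ x ∈ (QuotientGroup.mk' Z).ker, χ.1 x = χ.1 1
        · simp only [R, X, if_pos e, not_not.2 e]; simp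
        obtain ⟨m, f⟩ := hG.exists_card_eq
        obtain ⟨j, -, g⟩ := (Nat.dvd_prime_pow Nat.prime_two).1 (f ▸ χ.2.dg_dvd)
        simp only [R, X, if_neg e, g]
        rcases j with _ | _ | j
        · exact (e fun x u => χ.2.isCharacter.commutator_of_deg_one (χ.2.isCharacter.dg_eq_one.1 g)
            (l (by simpa using u))).elim
        · rcases (hν χ χ.2).2 with ⟨u, v⟩ | ⟨u, v | v⟩ <;> simp only [u, v, e] <;> simp
        · rw [if_neg (c := _ ∧ _) fun u => by omega]
          simp only [ite_self, pow_succ]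
          exact ⟨ν χ * 2 ^ j, by push_cast; ring⟩
    rw [Finset.sum_sub_distrib, Finset.sum_sub_distrib, ← Finset.sum_filter, ← s1, ← s2, ← Finset.mul_sum,
      ← Nat.cast_sum] at d
    rw [b, Nat.odd_iff] at *
    omega
  letI := linAct G
  have pl : IsPGroup 2 (G →* ℂˣ) := fun ω => by
    obtain ⟨m, f⟩ := hG.exists_card_eq
    exact ⟨m, orderOf_dvd_iff_pow_eq_one.1 (f ▸ orderOf_lin_dvd_card ω)⟩
  have := mt (dvd_sum_of_fixed pl (fun χ : IrrCharacter G => (X χ : ℤ)) fun ω χ => by
    have : ∀ x ∈ (QuotientGroup.mk' Z).ker, (ω • χ).1 x = χ.1 x := fun x u => by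
      change (ω x : ℂ) * _ = _
      rw [lin_commutator ω (l (by simpa using u))]; simp
    simp only [X, dg_congr (this 1 (one_mem _)), this 1 (one_mem _)]
    rw [if_congr (and_congr_right fun _ => not_congr (forall₂_congr fun x u => by rw [this x u])) rfl rfl])
    (by rw [← Nat.cast_sum]; exact_mod_cast od.not_two_dvd_nat)
  push Not at this
  obtain ⟨χ, a, b⟩ := this
  have d : dg χ.1 = 2 := by_contra fun e => b (by simp [X, e])
  have e := inner_res_eq_card le_rfl χ.2
  rw [inf_eq_left.2 fun ω _ => congrArg Subtype.val (a ω), card_triv _ le_rfl] at e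
  refine .inr (le_antisymm ?_ i4)
  have f := congrArg Complex.re e
  rw [inner_self_re, Complex.natCast_re] at f
  rw [← Nat.cast_le (α := ℝ), ← f, inv_mul_le_iff₀ (Nat.cast_pos.2 Nat.card_pos), Nat.card_eq_fintype_card, ← nsmul_eq_mul]
  refine Finset.sum_le_card_nsmul _ _ _ fun x _ => (pow_le_pow_left₀ (norm_nonneg _)
    (χ.2.isCharacter.norm_le' (d ▸ χ.2.deg) _) 2).trans (by norm_num)

/-- Let G be a finite 2-group whose number of involutions is congruent to 1 modulo 4. Then G is cyclic or its commutator subgroup has index 4. -/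
theorem result {G : Type*} [Group G] [Finite G] (hG : IsPGroup 2 G) (ht : Nat.card {x : G // orderOf x = 2} % 4 = 1) : IsCyclic G ∨ (commutator G).index = 4 := by
  set_option maxSynthPendingDepth 3 in
  classical
  haveI := Fintype.ofFinite G
  refine aux _ G rfl hG ?_
  have c : Nat.card {s : G // s * s = 1} = Nat.card {x : G // orderOf x = 2} + 1 := by
    rw [Nat.card_eq_fintype_card, Nat.card_eq_fintype_card, Fintype.card_subtype, Fintype.card_subtype,
      ← Finset.card_insert_of_notMem (a := 1) (by simp)]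
    congr 1
    ext x
    simp [orderOf_eq_prime_iff, sq, or_and_left, em]
    rintro rfl; simp
  omega

end Cfsg.Agent.S4477
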