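import Cfsg.Statements.S4478
import Cfsg.Agent.H3.FS

set_option autoImplicit false
open Cfsg

namespace Cfsg.Agent.S4478
open H3
export H3 (inner_add_left inner_add_right inner_sub_left inner_sub_right inner_neg_left inner_neg_right
  inner_zero_left inner_zero_right inner_smul_left inner_smul_right inner_conj_symm inner_self_eq_zero
  inner_self_im)

/-- Let G be a finite group of even order and χ an irreducible character of G whose degree x is divisible by the full power of 2 dividing the order of G and, for every odd prime p such that G has an element of order 2p, by the full power of p dividing the order of G. Then all involutions of G are conjugate, the centralizer of every involution has order exactly x with x coprime to its index, and the Frobenius–Schur indicator of χ equals 1. -/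
theorem result {G : Type*} [Group G] [Fintype G] (heven : Even (Nat.card G)) (χ : Cfsg.IrrCharacter G) (h2 : 2 ^ (Nat.card G).factorization 2 ∣ Cfsg.charDegree (χ : G → ℂ)) (hp : ∀ p : ℕ, p.Prime → p ≠ 2 → (∃ g : G, orderOf g = 2 * p) → p ^ (Nat.card G).factorization p ∣ Cfsg.charDegree (χ : G → ℂ)) : (∀ s t : G, orderOf s = 2 → orderOf t = 2 → IsConj s t) ∧ (∀ s : G, orderOf s = 2 → Nat.card (Subgroup.centralizer ({s} : Set G)) = Cfsg.charDegree (χ : G → ℂ) ∧ (Nat.card (Subgroup.centralizer ({s} : Set G))).Coprime (Subgroup.centralizer ({s} : Set G)).index) ∧ (Nat.card G : ℂ)⁻¹ * ∑ g : G, (χ : G → ℂ) (g * g) = 1 := by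
  set_option maxSynthPendingDepth 3 in
  classical
  have z : ∀ p : ℕ, p.Prime → p ^ (Nat.card G).factorization p ∣ dg χ.1 → ∀ g, p ∣ orderOf g → χ.1 g = 0 := fun p a b g c => by
    obtain ⟨m, e⟩ := χ.2.dg_dvd
    refine χ.2.eq_zero_of_defect a (mul_comm _ m ▸ e.symm) (fun d => ?_) c
    exact Nat.pow_succ_factorization_not_dvd Nat.card_pos.ne' a (by rw [pow_succ]; nth_rw 2 [e]; exact mul_dvd_mul b d)
  have n : χ.1 ≠ fun _ => 1 := fun e => by
    obtain ⟨x, a⟩ := exists_prime_orderOf_dvd_card' 2 heven.two_dvd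
    simpa [e] using z 2 Nat.prime_two h2 x a.symm.dvd
  have a : ∑ g, χ.1 (g * g) = Nat.card {s : G // orderOf s = 2} * χ.1 1 := by
    rw [← Finset.sum_filter_add_sum_filter_not _ (fun g => 2 ∣ orderOf g), add_comm]
    have b : ∑ g with ¬ 2 ∣ orderOf g, χ.1 (g * g) = ∑ g, χ.1 g := by
      rw [← Finset.sum_filter_add_sum_filter_not Finset.univ (fun g => 2 ∣ orderOf g) χ.1, Finset.sum_eq_zero
        fun g c => z 2 Nat.prime_two h2 g (Finset.mem_filter.1 c).2, zero_add]
      have k : ∀ g : G, ¬ 2 ∣ orderOf g → (g ^ ((orderOf g + 1) / 2)) ^ 2 = g ∧ orderOf (g ^ 2) = orderOf g := fun g c =>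
        ⟨by rw [← pow_mul, Nat.div_mul_cancel (by omega), pow_succ, pow_orderOf_eq_one, one_mul],
          ((Nat.prime_two.coprime_iff_not_dvd.2 c).symm).orderOf_pow⟩
      refine Finset.sum_bij (fun g _ => g ^ 2) (fun g c => by simp at c ⊢; rwa [(k g (by omega)).2]) (fun g c h d e => ?_)
        (fun g c => ⟨_, ?_, (k g (Finset.mem_filter.1 c).2).1⟩) fun g _ => by rw [sq]
      · have u := k g (Finset.mem_filter.1 c).2
        have v := k h (Finset.mem_filter.1 d).2
        rw [← u.1, ← v.1, ← u.2, ← v.2, ← pow_mul, ← pow_mul, mul_comm, pow_mul, mul_comm, pow_mul, e]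
      · exact Finset.mem_filter.2 ⟨Finset.mem_univ _, mt (·.trans (orderOf_pow_dvd _)) (Finset.mem_filter.1 c).2⟩
    have c := card_mul_inner χ.1 fun _ => 1
    rw [χ.2.inner_of_ne isIrrCharacter_one n] at c
    simp only [mul_zero, map_one, mul_one] at c
    rw [b, ← c, zero_add, Nat.card_eq_fintype_card, Fintype.card_subtype, ← nsmul_eq_mul, ← Finset.sum_const]
    refine (Finset.sum_subset (fun g d => by simp at d ⊢; rw [d]) fun g d e => ?_).symm.trans
      (Finset.sum_congr rfl fun g d => by rw [← sq, ← (Finset.mem_filter.1 d).2, pow_orderOf_eq_one])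
    obtain ⟨m, f⟩ := (Finset.mem_filter.1 d).2
    have o : orderOf (g * g) = m := by
      rw [← sq, orderOf_pow' _ two_ne_zero, f, Nat.gcd_mul_right_left, Nat.mul_div_cancel_left _ two_pos]
    have m1 : m ≠ 1 := fun u => e (by simp [f, u])
    have q := Nat.minFac_prime m1
    by_cases u : m.minFac = 2
    · exact z 2 Nat.prime_two h2 _ (o ▸ u ▸ m.minFac_dvd)
    · refine z _ q (hp _ q u ⟨g ^ (orderOf g / (2 * m.minFac)), orderOf_pow_orderOf_div (orderOf_pos g).ne' ?_⟩) _
        (o ▸ m.minFac_dvd)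
      exact f ▸ Nat.mul_dvd_mul_left 2 m.minFac_dvd
  obtain ⟨x, x2⟩ := exists_prime_orderOf_dvd_card' 2 heven.two_dvd
  have t0 : 0 < Nat.card {s : G // orderOf s = 2} := Nat.card_pos_iff.2 ⟨⟨⟨x, x2⟩⟩, inferInstance⟩
  have f : fsInd χ.1 = 1 := by
    have b : (Nat.card G : ℂ) * fsInd χ.1 = (Nat.card {s : G // orderOf s = 2} * dg χ.1 : ℕ) := by
      rw [fsInd, mul_inv_cancel_left₀ (card_ne_zero G), a, χ.2.deg, Nat.cast_mul]
    have c := Nat.mul_pos t0 χ.2.dg_pos
    have d : 0 < Nat.card G := Nat.card_pos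
    rcases χ.2.fsInd_spec with e | ⟨-, e | e⟩
    · rw [e.2, mul_zero] at b; exact absurd (Nat.cast_eq_zero.1 b.symm) c.ne'
    · exact e
    · rw [e] at b
      have : (Nat.card {s : G // orderOf s = 2} * dg χ.1 + Nat.card G : ℕ) = (0 : ℂ) := by rw [Nat.cast_add, ← b]; ring
      have := Nat.cast_eq_zero.1 this
      omega
  have b : Nat.card {s : G // orderOf s = 2} * dg χ.1 = Nat.card G := by
    have := f
    rw [fsInd, inv_mul_eq_one₀ (card_ne_zero G), a, χ.2.deg] at this
    exact_mod_cast this.symm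
  have c : ∀ s : G, orderOf s = 2 → ∀ q : ℕ, q.Prime → q ∣ Nat.card (Subgroup.centralizer {s}) →
      q ^ (Nat.card G).factorization q ∣ dg χ.1 := fun s u q v w => by
    by_cases e : q = 2
    · exact e ▸ h2
    haveI := Fact.mk v
    obtain ⟨y, d⟩ := exists_prime_orderOf_dvd_card' q w
    refine hp q v e ⟨s * y, ?_⟩
    rw [← u, ← d, ← Subgroup.orderOf_coe]
    refine Commute.orderOf_mul_eq_mul_orderOf_of_coprime (Subgroup.mem_centralizer_singleton_iff.1 y.2).symm ?_
    rw [u, Subgroup.orderOf_coe, d]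
    exact (Nat.coprime_primes Nat.prime_two v).2 (Ne.symm e)
  have i : ∀ s : G, orderOf s = 2 → Nat.card (Subgroup.centralizer {s}) = dg χ.1 ∧ ∀ t, orderOf t = 2 → IsConj s t := fun s u => by
    have d : Nat.card (Subgroup.centralizer {s}) ∣ dg χ.1 := (Nat.dvd_iff_prime_pow_dvd_dvd _ _).2 fun q k v w => by
      rcases k with _ | k
      · simp
      exact (pow_dvd_pow q ((v.pow_dvd_iff_le_factorization Nat.card_pos.ne').1
        (w.trans (Subgroup.card_subgroup_dvd_card _)))).trans (c s u q v (dvd_of_mul_left_dvd w))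
    let F : {y // IsConj s y} → {s : G // orderOf s = 2} := fun y =>
      ⟨y.1, by obtain ⟨g, e⟩ := isConj_iff.1 y.2; rw [← e, ← u]; exact (MulAut.conj g).orderOf_eq s⟩
    have j : Function.Injective F := fun _ _ e => Subtype.ext (congrArg Subtype.val e :)
    have k := Nat.card_le_card_of_injective F j
    have l := (Subgroup.centralizer {s}).index_mul_card
    rw [card_isConj_eq_index] at k
    have m := le_antisymm (Nat.le_of_dvd χ.2.dg_pos d) (Nat.le_of_mul_le_mul_left
      ((b.trans l.symm).trans_le (Nat.mul_le_mul_right _ k)) t0)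
    refine ⟨m, fun t v => ?_⟩
    obtain ⟨y, e⟩ := (j.bijective_of_nat_card_le (by
      rw [card_isConj_eq_index]
      exact (Nat.eq_of_mul_eq_mul_right χ.2.dg_pos (b.trans (m ▸ l.symm))).le)).2 ⟨t, v⟩
    exact (show y.1 = t from congrArg Subtype.val e) ▸ y.2
  refine ⟨fun s t u v => (i s u).2 t v, fun s u => ⟨(i s u).1, Nat.coprime_of_dvd fun q v w y => ?_⟩, f⟩
  refine Nat.pow_succ_factorization_not_dvd (Nat.card_pos (α := G)).ne' v ?_
  rw [pow_succ]
  nth_rw 2 [← (Subgroup.centralizer {s}).card_mul_index]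
  exact mul_dvd_mul ((i s u).1 ▸ c s u q v w) y

end Cfsg.Agent.S4478
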