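import Cfsg.Statements.S4479
import Cfsg.Agent.H9.Klein

set_option autoImplicit false
open Cfsg

namespace Cfsg.Agent.S4479
open H9 H3 MonoidAlgebra
open scoped Pointwise
set_option linter.style.haveILetI false
set_option linter.unusedVariables false
open Classical in
theorem aux {G : Type*} [Group G] [Finite G] (M : Ideal AlgInt) {χ₁ χ₂ χ₃ : IrrCharacter G} (hB : principalBlock M G = {χ : IrrCharacter G | (χ : G → ℂ) = (fun _ => 1) ∨ χ = χ₁ ∨ χ = χ₂ ∨ χ = χ₃}) (hdist : (χ₁ : G → ℂ) ≠ (fun _ => 1) ∧ (χ₂ : G → ℂ) ≠ (fun _ => 1) ∧ (χ₃ : G → ℂ) ≠ (fun _ => 1) ∧ χ₁ ≠ χ₂ ∧ χ₁ ≠ χ₃ ∧ χ₂ ≠ χ₃) (f : IrrCharacter G → ℂ) :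
    ∑ χ with χ ∈ principalBlock M G, f χ = f (trivChar G) + f χ₁ + f χ₂ + f χ₃ := by
  obtain ⟨h1, h2, h3, ab, ac, bc⟩ := hdist
  rw [show Finset.univ.filter (· ∈ principalBlock M G) = insert (trivChar G) {χ₁, χ₂, χ₃} by
      rw [hB]; ext; simp [trivChar, Subtype.ext_iff],
    Finset.sum_insert (by simp [trivChar, Subtype.ext_iff, h1.symm, h2.symm, h3.symm]),
    Finset.sum_insert (by simp [ab, ac]), Finset.sum_pair bc, add_assoc, add_assoc]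

theorem k4 {G : Type*} [Group G] [Finite G] {g₀ : ℕ} (hg₀ : Odd g₀) (hG : Nat.card G = 4 * g₀) (hnc : ¬ ∃ N : Subgroup G, N.Normal ∧ Nat.card N = g₀) (P : Sylow 2 G) {J : G} (hJ : J ∈ (P : Subgroup G)) (hJ2 : orderOf J = 2) : K4 (P : Subgroup G) J := by
  have f : (Nat.card G).factorization 2 = 2 := by
    rw [hG, Nat.factorization_mul (by omega) hg₀.pos.ne', Finsupp.add_apply,
      Nat.factorization_eq_zero_of_not_dvd hg₀.not_two_dvd_nat]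
    exact Nat.prime_two.factorization_pow (k := 2) ▸ by simp
  refine k4_of_not_npc (H1.isSylowIn_top P) (by rw [Sylow.card_eq_multiplicity, f]; rfl)
    (fun h => hnc ⟨pResidual 2 G, inferInstance, ?_⟩) hJ hJ2
  have := (pResidual 2 G).card_mul_index
  rw [npc_index h, f, hG] at this
  omega

/-- An order formula from the principal 2-block. Let G be a finite group of order 4·g₀ with g₀ odd having no normal 2-complement (no normal subgroup of order g₀); let P be a Sylow 2-subgroup, J an involution of P, and fix a maximal ideal M of the algebraic integers containing 2. Suppose the principal 2-block consists of the principal character and three further distinct characters χ₁, χ₂, χ₃ of degrees x₁, x₂, x₃, with χ_i(J) = ε_i = ±1. Then, writing c(J) and c(P) for the orders of the centralizers of J and of P, the order of G equals 8·α·c(J)³/c(P)² with α = x₁x₂x₃ / ((x₁ +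 ε₁)(x₂ + ε₂)(x₃ + ε₃)). -/
theorem result {G : Type*} [Group G] [Finite G] (M : Ideal Cfsg.AlgInt) (hM : Cfsg.IsPModular 2 M) (g₀ : ℕ) (hg₀ : Odd g₀) (hG : Nat.card G = 4 * g₀) (hnc : ¬ ∃ N : Subgroup G, N.Normal ∧ Nat.card N = g₀) (P : Sylow 2 G) (J : G) (hJ : J ∈ (P : Subgroup G)) (hJ2 : orderOf J = 2) (χ₁ χ₂ χ₃ : Cfsg.IrrCharacter G) (ε₁ ε₂ ε₃ : ℤ) (hB : Cfsg.principalBlock M G = {χ : Cfsg.IrrCharacter G | (χ : G → ℂ) = (fun _ => 1) ∨ χ = χ₁ ∨ χ = χ₂ ∨ χ = χ₃}) (hdist : (χ₁ : G → ℂ) ≠ (fun _ => 1) ∧ (χ₂ : G → ℂ) ≠ (fun _ => 1) ∧ (χ₃ : G → ℂ) ≠ (fun _ => 1) ∧ χ₁ ≠ χ₂ ∧ χ₁ ≠ χ₃ ∧ χ₂ ≠ χ₃) (hε : (ε₁ = 1 ∨ ε₁ = -1) ∧ (ε₂ = 1 ∨ ε₂ = -1) ∧ (ε₃ = 1 ∨ ε₃ = -1)) (hval : (χ₁ : G → ℂ) J = ε₁ ∧ (χ₂ : G → ℂ) J = ε₂ ∧ (χ₃ : G → ℂ) J = ε₃) : (Nat.card G : ℚ) = 8 * (((Cfsg.charDegree (χ₁ : G → ℂ) : ℚ) * Cfsg.charDegree (χ₂ : G → ℂ) * Cfsg.charDegree (χ₃ : G → ℂ)) / ((Cfsg.charDegree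 (χ₁ : G → ℂ) + ε₁) * (Cfsg.charDegree (χ₂ : G → ℂ) + ε₂) * (Cfsg.charDegree (χ₃ : G → ℂ) + ε₃))) * (Nat.card (Subgroup.centralizer ({J} : Set G)) : ℚ) ^ 3 / (Nat.card (Subgroup.centralizer ((P : Subgroup G) : Set G)) : ℚ) ^ 2 := by
  haveI : PMod 2 M := ⟨hM⟩
  haveI := Fintype.ofFinite G
  have h := k4 hg₀ hG hnc P hJ hJ2
  have e1 := h.formula (M := M)
  have e2 := h.sum_reg (M := M) isPRegular_one
  rw [B0_val, aux M hB hdist] at e1 e2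
  simp only [hval.1, hval.2.1, hval.2.2, irr_deg, charDegree_trivChar] at e1 e2
  simp only [trivChar, Nat.cast_one, div_one, mul_one] at e1 e2
  have e1 : ((cen1 J).index : ℚ) * (1 + ε₁ / charDegree χ₁.1 + ε₂ / charDegree χ₂.1 + ε₃ / charDegree χ₃.1) =
    8 * ((cen (P : Subgroup G)).relIndex (cen1 J) : ℚ) ^ 2 := by exact_mod_cast e1
  have e2 : (1 : ℚ) + ε₁ * charDegree χ₁.1 + ε₂ * charDegree χ₂.1 + ε₃ * charDegree χ₃.1 = 0 := by
    exact_mod_cast e2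
  have a1 : (charDegree χ₁.1 : ℚ) ≠ 0 := Nat.cast_ne_zero.2 (charDegree_ne_zero χ₁.2)
  have a2 : (charDegree χ₂.1 : ℚ) ≠ 0 := Nat.cast_ne_zero.2 (charDegree_ne_zero χ₂.2)
  have a3 : (charDegree χ₃.1 : ℚ) ≠ 0 := Nat.cast_ne_zero.2 (charDegree_ne_zero χ₃.2)
  have a4 : ((cen (P : Subgroup G)).relIndex (cen1 J) : ℚ) ≠ 0 := Nat.cast_ne_zero.2 (relIndex_ne_zero' _ _)
  have a5 : (Nat.card (cen (P : Subgroup G)) : ℚ) ≠ 0 := Nat.cast_ne_zero.2 Nat.card_pos.ne'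
  have e3 : (charDegree χ₁.1 + ε₁ : ℚ) * (charDegree χ₂.1 + ε₂) * (charDegree χ₃.1 + ε₃) =
      charDegree χ₁.1 * charDegree χ₂.1 * charDegree χ₃.1 *
      (1 + ε₁ / charDegree χ₁.1 + ε₂ / charDegree χ₂.1 + ε₃ / charDegree χ₃.1) := by
    field_simp
    rcases hε with ⟨rfl | rfl, rfl | rfl, rfl | rfl⟩ <;> push_cast at e2 ⊢ <;>
      first | linear_combination e2 | linear_combination -e2
  have a6 : (1 + ε₁ / charDegree χ₁.1 + ε₂ / charDegree χ₂.1 + ε₃ / charDegree χ₃.1 : ℚ) ≠ 0 := by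
    intro h; rw [h, mul_zero] at e1; exact a4 (by simpa using e1.symm)
  rw [e3, ← (cen1 J).index_mul_card, card_eq_mul_relIndex h.cen_le]
  generalize (1 + ε₁ / charDegree χ₁.1 + ε₂ / charDegree χ₂.1 + ε₃ / charDegree χ₃.1 : ℚ) = S at *
  push_cast
  field_simp
  linear_combination e1

end Cfsg.Agent.S4479
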