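import Cfsg.Statements.S4480
import Cfsg.Agent.H9.Klein
import Cfsg.Agent.S4479

set_option autoImplicit false
open Cfsg

namespace Cfsg.Agent.S4480
open H9 H3 MonoidAlgebra
open scoped Pointwise
set_option linter.style.haveILetI false
set_option linter.unusedVariables false
open scoped ComplexConjugate
theorem fsInd_one {G : Type*} [Group G] [Fintype G] : fsInd (fun _ : G => 1) = 1 := by simp [fsInd]

/-- Same setting as the Klein-four order formula: G of order 4·g₀ (g₀ odd) with no normal 2-complement, P a Sylow 2-subgroup, J an involution of P, M over 2, principal 2-block {1, χ₁, χ₂, χ₃} with χ_i(J) = ε_i = ±1. Suppose ε₁ε₂ε₃ = −1 and ε₃ = −1, and put q = x₃ = χ₃(1). Then there is a natural number m with 4·c(J) = m·c(P)·(q + 1), and the order of G equals (m³·c(P)/4)·(q³ − q)/2, that is 8·#G = m³·c(P)·(q³ − q). -/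
theorem result {G : Type*} [Group G] [Finite G] (M : Ideal Cfsg.AlgInt) (hM : Cfsg.IsPModular 2 M) (g₀ : ℕ) (hg₀ : Odd g₀) (hG : Nat.card G = 4 * g₀) (hnc : ¬ ∃ N : Subgroup G, N.Normal ∧ Nat.card N = g₀) (P : Sylow 2 G) (J : G) (hJ : J ∈ (P : Subgroup G)) (hJ2 : orderOf J = 2) (χ₁ χ₂ χ₃ : Cfsg.IrrCharacter G) (ε₁ ε₂ ε₃ : ℤ) (hB : Cfsg.principalBlock M G = {χ : Cfsg.IrrCharacter G | (χ : G → ℂ) = (fun _ => 1) ∨ χ = χ₁ ∨ χ = χ₂ ∨ χ = χ₃}) (hdist : (χ₁ : G → ℂ) ≠ (fun _ => 1) ∧ (χ₂ : G → ℂ) ≠ (fun _ => 1) ∧ (χ₃ : G → ℂ) ≠ (fun _ => 1) ∧ χ₁ ≠ χ₂ ∧ χ₁ ≠ χ₃ ∧ χ₂ ≠ χ₃) (hε : (ε₁ = 1 ∨ ε₁ = -1) ∧ (ε₂ = 1 ∨ ε₂ = -1) ∧ (ε₃ = 1 ∨ ε₃ = -1)) (hval : (χ₁ : G → ℂ) J = ε₁ ∧ (χ₂ : G → ℂ) J = ε₂ ∧ (χ₃ : G → ℂ) J = ε₃) (hprod : ε₁ * ε₂ * ε₃ = -1) (hε₃ : ε₃ = -1) : ∃ m : ℕ, 4 * Nat.card (Subgroup.centralizer ({J} : Set G)) = m * Nat.card (Subgroup.centralizer ((P : Subgroup G) : Set G)) *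 (Cfsg.charDegree (χ₃ : G → ℂ) + 1) ∧ 8 * Nat.card G = m ^ 3 * Nat.card (Subgroup.centralizer ((P : Subgroup G) : Set G)) * (Cfsg.charDegree (χ₃ : G → ℂ) ^ 3 - Cfsg.charDegree (χ₃ : G → ℂ)) := by
  classical
  haveI : PMod 2 M := ⟨hM⟩
  haveI := Fintype.ofFinite G
  have h := S4479.k4 hg₀ hG hnc P hJ hJ2
  have e0 := h.formula (M := M)
  have e1 := h.sum_fsInd (M := M)
  have e2 := h.sum_reg (M := M) isPRegular_one
  rw [B0_val, S4479.aux M hB hdist] at e0 e1 e2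
  simp only [hval.1, hval.2.1, hval.2.2, irr_deg, charDegree_trivChar] at e0 e1 e2
  simp only [trivChar, Nat.cast_one, mul_one, fsInd_one] at e0 e1 e2
  have e2 : (1 : ℤ) + ε₁ * charDegree χ₁.1 + ε₂ * charDegree χ₂.1 + ε₃ * charDegree χ₃.1 = 0 := by
    exact_mod_cast e2
  have p1 := charDegree_ne_zero χ₁.2
  have p2 := charDegree_ne_zero χ₂.2
  have p3 := charDegree_ne_zero χ₃.2
  subst hε₃
  obtain ⟨rfl, rfl⟩ : ε₁ = 1 ∧ ε₂ = 1 := by
    rcases hε with ⟨rfl | rfl, rfl | rfl, -⟩ <;> omega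
  have fs : ∀ (χ : IrrCharacter G) (ε : ℤ), χ.1 J = ε → Odd ε → ∃ n : ℤ, fsInd χ.1 = n ∧
      ((fun g => conj (χ.1 g)) ≠ χ.1 ∧ n = 0 ∨ (fun g => conj (χ.1 g)) = χ.1 ∧ n = 1) := by
    intro χ ε he ho
    by_cases hr : (fun g => conj (χ.1 g)) = χ.1
    · refine ⟨1, ?_, Or.inr ⟨hr, rfl⟩⟩
      have hd : Odd (charDegree χ.1) := by
        obtain ⟨k, hk⟩ := h.dvd he
        obtain ⟨l, hl⟩ := ho
        exact (Int.odd_coe_nat _).1 ⟨2 * k + l, by omega⟩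
      rw [fs_eq_of_odd (1 : Unit →* G) χ.2 isIrrCharacter_one hr (by simp) (m := charDegree χ.1)
        (by simp [classInner, irr_deg]) hd, fsInd_one, Int.cast_one]
    · exact ⟨0, by simpa using (χ.2.fsInd_spec.resolve_right fun h => hr h.1).2, Or.inl ⟨hr, rfl⟩⟩
  obtain ⟨n1, a1, b1⟩ := fs χ₁ _ hval.1 odd_one
  obtain ⟨n2, a2, b2⟩ := fs χ₂ _ hval.2.1 odd_one
  obtain ⟨n3, a3, b3⟩ := fs χ₃ _ hval.2.2 odd_neg_one
  rw [a1, a2, a3] at e1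
  have e1 : 1 + n1 + n2 - n3 = 0 := by exact_mod_cast (by simpa [sub_eq_add_neg] using e1 : (1 + n1 + n2 - n3 : ℂ) = 0)
  have c1 := (b1.resolve_right (by omega)).1
  have c3 := (b3.resolve_left (by omega)).1
  have hm : (⟨_, χ₁.2.conj⟩ : IrrCharacter G) ∈ (B0 M G).1 := by
    have : χ₁ ∈ (B0 M G).1 := by rw [B0_val, hB]; simp
    rw [mem_B0_iff (p := 2)] at this ⊢
    rwa [← map_sum, map_ne_zero]
  have e3 : charDegree χ₂.1 = charDegree χ₁.1 := by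
    rw [B0_val, hB] at hm
    rcases hm with e | e | e | e
    · exact absurd (funext fun g => by simpa using congrArg conj (congrFun e g)) hdist.1
    · exact absurd (congrArg Subtype.val e) c1
    · rw [← e]; exact charDegree_eq (by simp [irr_deg])
    · refine absurd (Subtype.ext (funext fun g => ?_)) hdist.2.2.2.2.1
      rw [← congrFun c3 g, ← e]; simp
  obtain ⟨k, hk⟩ := h.dvd hval.1
  obtain ⟨k, hk⟩ : ∃ k : ℕ, charDegree χ₁.1 = 2 * k + 1 := ⟨(2 * k).toNat, by omega⟩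
  have hq : charDegree χ₃.1 = 4 * k + 3 := by omega
  rw [e3, hk, hq] at e0
  rw [hq, ← (cen1 J).index_mul_card, card_eq_mul_relIndex h.cen_le]
  generalize (cen (P : Subgroup G)).relIndex (cen1 J) = r at *
  have e4 : (cen1 J).index * (k + 1) ^ 2 = (2 * k + 1) * (4 * k + 3) * r ^ 2 := by
    have : ((cen1 J).index * (k + 1) ^ 2 : ℂ) = (2 * k + 1) * (4 * k + 3) * r ^ 2 := by
      have a1 : ((2 * k + 1 : ℕ) : ℂ) ≠ 0 := Nat.cast_ne_zero.2 (by omega)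
      have a2 : ((4 * k + 3 : ℕ) : ℂ) ≠ 0 := Nat.cast_ne_zero.2 (by omega)
      field_simp at e0
      push_cast at e0
      linear_combination e0 / 8
    exact_mod_cast this
  have c1 : Nat.Coprime (k + 1) (2 * k + 1) := by
    rw [show 2 * k + 1 = k + (k + 1) by ring, Nat.coprime_add_self_right]; simp
  have c2 : Nat.Coprime (k + 1) (4 * k + 3) := by
    rw [show 4 * k + 3 = k + 3 * (k + 1) by ring, Nat.coprime_add_mul_right_right]; simp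
  obtain ⟨m, rfl⟩ := (Nat.pow_dvd_pow_iff two_ne_zero).1
    (((c1.mul_right c2).pow_left 2).dvd_of_dvd_mul_left (e4 ▸ dvd_mul_left _ _))
  refine ⟨m, by ring, ?_⟩
  have e5 : (cen1 J).index = (2 * k + 1) * (4 * k + 3) * m ^ 2 :=
    Nat.eq_of_mul_eq_mul_right (pow_pos k.succ_pos 2) (e4.trans (by rw [Nat.succ_eq_add_one]; ring))
  rw [e5, show (4 * k + 3) ^ 3 - (4 * k + 3) = (4 * k + 3) * (4 * k + 2) * (4 * k + 4) from
    Nat.sub_eq_of_eq_add (by ring)]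
  ring

end Cfsg.Agent.S4480
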