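import Cfsg.Statements.S4482
import Cfsg.Agent.H9.Dih4

set_option autoImplicit false
open Cfsg

namespace Cfsg.Agent.S4482
open H9 H3 MonoidAlgebra
open scoped Pointwise
set_option linter.style.haveILetI false
set_option linter.unusedVariables false
open H9 H3

/-- An order formula for groups with dihedral Sylow 2-subgroups and one class of involutions. Let G be a finite group whose Sylow 2-subgroup P = ⟨σ, τ⟩ is dihedral of order 2^n ≥ 8 (σ of order 2^(n−1), τ an involution inverting σ), let J be the central involution σ^(2^(n−2)), and suppose J, τ and στ are conjugate in G. Fix M over 2 and let χ₁ be an irreducible character in the principal 2-block taking one constant value δ₁ = ±1 at every non-identity power of σ, with χ₁ ≠ 1. Then, with x₁ = χ₁(1) and c(·) denoting orders of centralizers, x₁ ≠ δ₁ and #G · (x₁ − δ₁)² = 2·x₁(x₁ + δ₁)·c(J)³·(1/c(J, τ) + 1/c(J, στ))², where c(J,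 y) is the order of the joint centralizer of J and y. -/
theorem result {G : Type*} [Group G] [Finite G] (M : Ideal Cfsg.AlgInt) (hM : Cfsg.IsPModular 2 M) (n : ℕ) (hn : 3 ≤ n) (P : Sylow 2 G) (σ τ : G) (hσ : σ ∈ (P : Subgroup G)) (hτ : τ ∈ (P : Subgroup G)) (hσo : orderOf σ = 2 ^ (n - 1)) (hτo : orderOf τ = 2) (hrel : τ * σ * τ⁻¹ = σ⁻¹) (hgen : Subgroup.closure ({σ, τ} : Set G) = (P : Subgroup G)) (hconj : IsConj (σ ^ (2 ^ (n - 2))) τ ∧ IsConj (σ ^ (2 ^ (n - 2))) (σ * τ)) (χ₁ : Cfsg.IrrCharacter G) (hχ₁ : χ₁ ∈ Cfsg.principalBlock M G) (h1 : (χ₁ : G → ℂ) ≠ (fun _ => 1)) (δ₁ : ℤ) (hδ₁ : δ₁ = 1 ∨ δ₁ = -1) (hval : ∀ l : ℕ, 0 < l → l < 2 ^ (n - 1) → (χ₁ : G → ℂ) (σ ^ l) = δ₁) : (Cfsg.charDegree (χ₁ : G → ℂ) : ℤ) ≠ δ₁ ∧ (Nat.card G : ℚ) * ((Cfsg.charDegree (χ₁ : G → ℂ) : ℚ) - δ₁) ^ 2 = 2 * (Cfsg.charDegree (χ₁ : G → ℂ) : ℚ) * ((Cfsg.charDegree (χ₁ : G → ℂ) : ℚ) + δ₁) * (Nat.card (Subgroup.centralizer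 ({σ ^ (2 ^ (n - 2))} : Set G)) : ℚ) ^ 3 * (1 / (Nat.card (Subgroup.centralizer ({σ ^ (2 ^ (n - 2)), τ} : Set G)) : ℚ) + 1 / (Nat.card (Subgroup.centralizer ({σ ^ (2 ^ (n - 2)), σ * τ} : Set G)) : ℚ)) ^ 2 := by
  haveI := Fintype.ofFinite G
  haveI : PMod 2 M := ⟨hM⟩
  obtain ⟨k, rfl⟩ : ∃ k, n = k + 3 := ⟨n - 3, by omega⟩
  obtain ⟨h, hb⟩ := dh_of_gen (k := k) (H1.isSylowIn_top P) hσ hτ hσo hτo hrel hgen
  obtain ⟨h0, e⟩ := h.formula hτ hb hconj hχ₁ h1 hδ₁ hval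
  change _ ∧ _ * _ = _ * (Nat.card (cen1 (σ ^ 2 ^ (k + 1))) : ℚ) ^ 3 *
    (1 / (Nat.card (Subgroup.centralizer {σ ^ 2 ^ (k + 1), τ}) : ℚ) +
      1 / (Nat.card (Subgroup.centralizer {σ ^ 2 ^ (k + 1), σ * τ}) : ℚ)) ^ 2
  generalize σ ^ 2 ^ (k + 1) = z at *
  have c : ∀ t : G, Subgroup.centralizer {z, t} = cen1 t ⊓ cen1 z := fun t => by
    ext x; simp [Subgroup.mem_centralizer_iff, and_comm]
  have r : ∀ t : G, ((cen1 t).relIndex (cen1 z) : ℚ) = Nat.card (cen1 z) / Nat.card (Subgroup.centralizer {z, t}) :=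
    fun t => by
      rw [eq_div_iff (Nat.cast_ne_zero.2 Nat.card_pos.ne'), c]
      exact_mod_cast H7.relIndex_mul_card_inf (cen1 t) (cen1 z)
  have x0 := charDegree_ne_zero χ₁.2
  refine ⟨fun e' => ?_, ?_⟩
  · rw [e', sub_self] at e
    have : (cen1 τ).relIndex (cen1 z) ≠ 0 := Subgroup.FiniteIndex.index_ne_zero
    rw [e'] at h0
    have h2 : δ₁ ≠ 0 := by omega
    have := mul_ne_zero (mul_ne_zero (mul_ne_zero two_ne_zero h2) h0) (pow_ne_zero 2 (Nat.cast_ne_zero.2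
      (show (cen1 τ).relIndex (cen1 z) + (cen1 (σ * τ)).relIndex (cen1 z) ≠ 0 by omega)))
    exact this (by simpa using e.symm)
  · have e : ((cen1 z).index : ℚ) * (charDegree χ₁.1 - δ₁) ^ 2 = 2 * charDegree χ₁.1 * (charDegree χ₁.1 + δ₁) *
        ((cen1 τ).relIndex (cen1 z) + (cen1 (σ * τ)).relIndex (cen1 z)) ^ 2 := by exact_mod_cast e
    rw [r, r] at e
    rw [← (cen1 z).index_mul_card]
    push_cast
    linear_combination (Nat.card (cen1 z) : ℚ) * e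

end Cfsg.Agent.S4482
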