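import Cfsg.Statements.S4483
import Cfsg.Agent.H9.Rob

set_option autoImplicit false
open Cfsg

namespace Cfsg.Agent.S4483
open H9 H3 MonoidAlgebra
open scoped Pointwise
set_option linter.style.haveILetI false
set_option linter.unusedVariables false


/-- Let G be a finite group of order 2^n·g₀ with g₀ odd, and M a maximal ideal of the algebraic integers containing 2. Every real-valued irreducible character of G of odd degree lies in the principal 2-block; consequently G has at most 2^(2n) real-valued irreducible characters of odd degree. -/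
theorem result {G : Type*} [Group G] [Finite G] (M : Ideal Cfsg.AlgInt) (hM : Cfsg.IsPModular 2 M) : (∀ χ : Cfsg.IrrCharacter G, (∀ g : G, ((χ : G → ℂ) g).im = 0) → Odd (Cfsg.charDegree (χ : G → ℂ)) → χ ∈ Cfsg.principalBlock M G) ∧ Nat.card {χ : Cfsg.IrrCharacter G // (∀ g : G, ((χ : G → ℂ) g).im = 0) ∧ Odd (Cfsg.charDegree (χ : G → ℂ))} ≤ 2 ^ (2 * (Nat.card G).factorization 2) := by
  haveI : PMod 2 M := ⟨hM⟩
  have h : ∀ χ : IrrCharacter G, (∀ g : G, ((χ : G → ℂ) g).im = 0) →
      Odd (charDegree (χ : G → ℂ)) → χ ∈ (B0 M G).1 := fun χ h1 h2 =>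
    mem_B0_of_real (fun h => Nat.not_even_iff_odd.2 h2 (even_iff_two_dvd.2 h)) fun y _ => by
      rw [χ.2.isCharacter.map_inv, Complex.conj_eq_iff_im.2 (h1 y)]
  refine ⟨h, ?_⟩
  refine le_trans (b := Nat.card (B0 M G).1) (Nat.card_le_card_of_injective
    (fun χ => ⟨χ.1, h χ.1 χ.2.1 χ.2.2⟩) fun a b e => Subtype.ext (by injection e)) ?_
  have h1 := (B0 M G).card_le_brauer_feit
  rw [B0_defect] at h1
  have h2 := Nat.one_le_two_pow (n := 2 * (Nat.card G).factorization 2)
  omega

end Cfsg.Agent.S4483
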