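import Cfsg.Statements.S4487
import Cfsg.Agent.H9.FR

set_option autoImplicit false
open Cfsg

namespace Cfsg.Agent.S4487
open H9 H3 MonoidAlgebra
open scoped Pointwise
set_option linter.style.haveILetI false
set_option linter.unusedVariables false


/-- Let G be a finite group and p a prime such that G has no non-trivial normal subgroup of order prime to p and C_G(O_p(G)) ≤ O_p(G). Then G has a single p-block: any two irreducible characters lie in the same block relative to every maximal ideal M of the algebraic integers containing p. -/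
theorem result {G : Type*} [Group G] [Finite G] (p : ℕ) [Fact p.Prime] (M : Ideal Cfsg.AlgInt) (hM : Cfsg.IsPModular p M) (hcore : Cfsg.pPrimeCore p G = ⊥) (hconstr : Subgroup.centralizer ((Cfsg.pCore p G) : Set G) ≤ Cfsg.pCore p G) (χ ψ : Cfsg.IrrCharacter G) : Cfsg.SameBlock M (χ : G → ℂ) (ψ : G → ℂ) := by
  haveI : PMod p M := ⟨hM⟩
  have key : ∀ B : Bl M G, B.e ∈ ZS (RF M) (pCore p G) := fun B =>
    (isBlk_top B).mem_ZS_cen H1.isPGroup_pCore le_top (le_nrm_of_normal _ _)
      (inf_le_right.trans hconstr) le_top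
  rw [← blk_eq_iff]
  have h1 : ∀ B : Bl M G, B.e.coeff 1 ≠ 0 ∧ ∀ g, g ≠ 1 → B.e.coeff g = 0 := fun B => by
    have h2 : ∀ g, g ≠ 1 → B.e.coeff g = 0 := fun g hg => by
      by_contra h0
      exact hg (eq_one_of_isPElt_of_isPRegular
        (isPElt_of_mem H1.isPGroup_pCore (mem_of_coeff_ne_zero (key B) h0))
        (B.isPRegular_of_coeff_e h0))
    refine ⟨fun h0 => B.e_ne_zero (ga_ext fun g => ?_), h2⟩
    by_cases hg : g = 1
    · rw [hg, h0]; rfl
    · exact h2 g hg
  by_contra hne
  have h3 := congrArg (fun a => a.coeff 1) (Bl.e_mul_of_ne hne)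
  haveI := Fintype.ofFinite G
  simp only [coeff_mul_left] at h3
  rw [Finset.sum_eq_single 1 (fun g _ hg => by rw [(h1 _).2 g hg, zero_mul]) (by simp)] at h3
  exact mul_ne_zero (h1 _).1 (h1 _).1 (by simpa using h3)

end Cfsg.Agent.S4487
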