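import Cfsg.Statements.S4490
import Cfsg.Agent.H9.Rob

set_option autoImplicit false
open Cfsg

namespace Cfsg.Agent.S4490
open H9 H3 MonoidAlgebra
open scoped Pointwise
set_option linter.style.haveILetI false
set_option linter.unusedVariables false


/-- Let G be a finite group and M a maximal ideal of the algebraic integers containing 2. Every 2-block B of G whose defect groups are the Sylow 2-subgroups of G (a block of full defect) and which is not the principal block is different from its complex-conjugate block, the block formed by the complex conjugates of the members of B. -/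
theorem result {G : Type*} [Group G] [Finite G] (M : Ideal Cfsg.AlgInt) (hM : Cfsg.IsPModular 2 M) (B : Set (Cfsg.IrrCharacter G)) (hB : Cfsg.IsPBlock M B) (P : Sylow 2 G) (hfull : Cfsg.IsDefectGroup 2 M B (P : Subgroup G)) (hnp : B ≠ Cfsg.principalBlock M G) : {ψ : Cfsg.IrrCharacter G | ∃ χ ∈ B, (ψ : G → ℂ) = fun g => (starRingEnd ℂ) ((χ : G → ℂ) g)} ≠ B := by
  haveI : PMod 2 M := ⟨hM⟩
  lift B to Bl M G using hB
  intro h
  refine hnp (congrArg Subtype.val (Bl.eq_B0_of_inv
    ((Bl.IsDef.isSylowIn_top_iff hfull).1 (H1.isSylowIn_top P)) fun y _ => ?_))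
  have h1 : (⟨_, B.rep.2.conj⟩ : IrrCharacter G) ∈ B.1 := h ▸ ⟨B.rep, B.rep_mem, rfl⟩
  rw [Bl.lam_classSum B.rep_mem, Bl.lam_classSum h1, centralChar, centralChar,
    show Subgroup.centralizer ({y⁻¹} : Set G) = Subgroup.centralizer {y} from cen1_inv y,
    B.rep.2.isCharacter.map_inv]
  simp only [conj_deg B.rep.2.isCharacter]

end Cfsg.Agent.S4490
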