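import Cfsg.Statements.S4492
import Cfsg.Agent.H9.FR

set_option autoImplicit false
open Cfsg

namespace Cfsg.Agent.S4492
open H9 H3 MonoidAlgebra
open scoped Pointwise
set_option linter.style.haveILetI false
set_option linter.unusedVariables false


/-- Let G be a finite p-solvable group, N = O_{p'}(G) its largest normal subgroup of order prime to p, and θ an irreducible character of N invariant under conjugation by G; fix a maximal ideal M of the algebraic integers containing p. Then the irreducible characters of G lying over θ (those whose restriction to N contains θ) form a single p-block of G, and the defect groups of that block are exactly the Sylow p-subgroups of G. -/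
theorem result {G : Type*} [Group G] [Fintype G] (p : ℕ) [Fact p.Prime] (M : Ideal Cfsg.AlgInt) (hM : Cfsg.IsPModular p M) (hsolv : Cfsg.IsPSolvable p G) (N : Subgroup G) [hN : N.Normal] [Fintype N] (hNdef : N = Cfsg.pPrimeCore p G) (θ : Cfsg.IrrCharacter N) (hinv : ∀ (g : G) (n : N), (θ : N → ℂ) ⟨g * n * g⁻¹, hN.conj_mem n n.2 g⟩ = (θ : N → ℂ) n) : ∃ B : Set (Cfsg.IrrCharacter G), Cfsg.IsPBlock M B ∧ (∀ χ : Cfsg.IrrCharacter G, χ ∈ B ↔ Cfsg.classInner (fun n : N => (χ : G → ℂ) n) (θ : N → ℂ) ≠ 0) ∧ (∀ P : Sylow p G, Cfsg.IsDefectGroup p M B (P : Subgroup G)) ∧ ∀ D : Subgroup G, Cfsg.IsDefectGroup p M B D → ∃ P : Sylow p G, D = (P : Subgroup G) := by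
  haveI : PMod p M := ⟨hM⟩
  subst hNdef
  have hK : ¬ p ∣ Nat.card (pPrimeCore p G) := not_dvd_pPrimeCore
  have hf : (blk M θ).E ∈ Zc (RF M) G := le_stab_iff.1 fun g _ =>
    inertia_le_stab (mem_blk θ) (mem_inertia'.2 (hinv g))
  set L := (pCore p (G ⧸ pPrimeCore p G)).comap (QuotientGroup.mk' (pPrimeCore p G))
  obtain ⟨Q, hQ⟩ := H1.exists_isSylowIn p L
  obtain ⟨k, hk⟩ := IsPGroup.iff_card.1 (H1.isPGroup_pCore (p := p) (G := G ⧸ pPrimeCore p G))
  have hC : cen Q ≤ L := fun x hx => by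
    have h1 := hQ.map (QuotientGroup.mk' (pPrimeCore p G))
    rw [Subgroup.map_comap_eq_self_of_surjective (QuotientGroup.mk'_surjective _)] at h1
    have h2 := h1.eq_of_le H1.isPGroup_pCore le_rfl h1.le
    refine H1.centralizer_pCore_le_of_isPSolvable ((H1.isPSolvable_iff_piSep Fact.out).2
      (((H1.isPSolvable_iff_piSep Fact.out).1 hsolv).quotient _))
      H1.pPrimeCore_quotient_pPrimeCore ?_
    rw [h2]
    exact map_mem_centralizer_map _ hx
  obtain ⟨B, hB⟩ := isBlk_top_iff.1 ((blk M θ).isBlk.isBlk_top_of_constrained hf hK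
    (QuotientGroup.le_comap_mk' _ _) ((H1.relIndex_comap_mk' _ _).trans hk) hQ hC)
  have hs := fun D => ((blk M θ).isBlk.rb_top hf).adef_iff_sylow (D := D) hK
  simp only [← hB, adef_top_iff] at hs
  refine ⟨B.1, B.2, fun χ => ⟨fun hχ => ?_, fun h => ?_⟩,
    fun P => (hs _).2 (H1.isSylowIn_top P), fun D hD => ?_⟩
  · obtain ⟨η, hη, h⟩ := Bl.exists_under (b := blk M θ)
      (by rw [← hB, B.e_mul_self]; exact B.e_ne_zero) hχ
    rw [blk_eq_singleton_of_not_dvd hK] at hη
    rwa [← Set.mem_singleton_iff.1 hη]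
  · have := cov_blk (mem_blk (M := M) χ) (mem_blk θ) h
    by_contra h0
    rw [← hB, Bl.e_mul_of_ne (mem_iff_blk_eq.not.1 h0)] at this
    exact this rfl
  · obtain ⟨P, hP⟩ := ((hs D).1 hD).exists_sylow_top
    exact ⟨P, hP.symm⟩

end Cfsg.Agent.S4492
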