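import Cfsg.Statements.S4493
import Cfsg.Agent.H3.Deg

set_option autoImplicit false
open Cfsg

namespace Cfsg.Agent.S4493
open H3
export H3 (inner_add_left inner_add_right inner_sub_left inner_sub_right inner_neg_left inner_neg_right
  inner_zero_left inner_zero_right inner_smul_left inner_smul_right inner_conj_symm inner_self_eq_zero
  inner_self_im)

/-- Let G be a finite solvable group and p a prime. Then G has a normal abelian Sylow p-subgroup if and only if no irreducible character degree of G is divisible by p. -/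
theorem result {G : Type*} [Group G] [Finite G] (hsolv : Group.IsSolvable G) (p : ℕ) (hp : p.Prime) : (∃ P : Subgroup G, P.Normal ∧ (∀ x ∈ P, ∀ y ∈ P, x * y = y * x) ∧ IsPGroup p P ∧ ¬ p ∣ P.index) ↔ ∀ χ : Cfsg.IrrCharacter G, ¬ p ∣ Cfsg.charDegree (χ : G → ℂ) := by
  set_option maxSynthPendingDepth 3 in
  haveI := Fact.mk hp
  refine ⟨fun ⟨P, _, a, _, b⟩ χ c => b (c.trans (χ.2.dg_dvd_index P a)), fun h => ?_⟩
  let P : Sylow p G := default
  have := ito_normal (H1.piSep_of_isSolvable _) (fun χ a => h ⟨χ, a⟩) P
  exact ⟨P, this.1, this.2, P.2, P.not_dvd_index⟩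

end Cfsg.Agent.S4493
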