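import Cfsg.Statements.S4497
import Cfsg.Agent.H9.SC

set_option autoImplicit false
open Cfsg

namespace Cfsg.Agent.S4497
open H9 H3 MonoidAlgebra
open scoped Pointwise
set_option linter.style.haveILetI false
set_option linter.unusedVariables false
open H7 Subgroup

/-- Let the finite group G contain an element x of prime order p with C_G(x) = ⟨x⟩, let t be the number of conjugacy classes of elements of order p, and let S* = O_{p′}(G) be the largest normal subgroup of order prime to p. Then S* ≤ G′; if t ≠ p − 1 the quotient G′/S* is simple (in particular non-trivial); if t = p − 1 then G′ = S*. -/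
theorem result {G : Type*} [Group G] [Finite G] (p : ℕ) (hp : p.Prime) (x : G) (hx : orderOf x = p) (hC : Subgroup.centralizer ({x} : Set G) = Subgroup.zpowers x) (t : ℕ) (ht : Nat.card {C : ConjClasses G // ∃ g ∈ C.carrier, orderOf g = p} = t) : Cfsg.pPrimeCore p G ≤ commutator G ∧ (t ≠ p - 1 → ∀ h : ((Cfsg.pPrimeCore p G).subgroupOf (commutator G)).Normal, IsSimpleGroup (↥(commutator G) ⧸ (Cfsg.pPrimeCore p G).subgroupOf (commutator G))) ∧ (t = p - 1 → commutator G = Cfsg.pPrimeCore p G) := by
  haveI := Fact.mk hp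
  have h : SC p x := ⟨hx, hC⟩
  subst ht
  have d : ¬ p ∣ ord (pPrimeCore p G) := by rw [pPrimeCore_eq]; exact not_dvd_Op' p ⊤
  refine ⟨h.le_der d, fun e _ => ?_, fun e => (h.of_eq e).1⟩
  have m := h.mem_der e
  set O := (pPrimeCore p G).subgroupOf (_root_.commutator G) with hO
  haveI : Nontrivial (_root_.commutator G ⧸ O) := ⟨⟨QuotientGroup.mk ⟨x, m⟩, 1, fun a =>
    d (h.dvd_of_mem (S := pPrimeCore p G) ((QuotientGroup.eq_one_iff (N := O) _).1 a))⟩⟩
  refine ⟨fun N hN => ?_⟩
  set M := N.comap (QuotientGroup.mk' O) with hM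
  have hOM : O ≤ M := QuotientGroup.le_comap_mk' O N
  have e1 : N = M.map (QuotientGroup.mk' O) := (map_comap_eq_self_of_surjective (QuotientGroup.mk'_surjective O) N).symm
  by_cases hd : p ∣ ord M
  · right
    suffices M = ⊤ by rw [e1, this, map_top_of_surjective _ (QuotientGroup.mk'_surjective O)]
    have h1 := (h.sub m).der_le hd
    have h2 := (h.sub m).le_of_dvd hd
    have h3 : ⁅_root_.commutator G, _root_.commutator G⁆ ≤ M.map (_root_.commutator G).subtype := by
      rw [← map_subtype_commutator]; exact map_mono h1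
    refine eq_top_iff.2 fun g _ => ?_
    suffices (g : G) ∈ M.map (_root_.commutator G).subtype by
      obtain ⟨y, hy, e⟩ := this
      exact (Subtype.ext e : y = g) ▸ hy
    by_cases h4 : p ∣ ord ⁅_root_.commutator G, _root_.commutator G⁆
    · exact h3 (h.der_le h4 g.2)
    · refine (sup_le ?_ h3 :) (h.mem_sup h4 (commutator_mem_commutator g.2 m))
      exact zpowers_le.2 ⟨_, h2 (mem_zpowers _), rfl⟩
  · left
    rw [e1, Subgroup.map_eq_bot_iff, QuotientGroup.ker_mk']
    intro g hg
    have h1 : g ∈ pPrimeCore p (_root_.commutator G) := H1.le_pPrimeCore (coprime_iff_not_dvd.2 hd) hg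
    rw [pPrimeCore_eq_subgroupOf] at h1
    rw [hO, mem_subgroupOf, pPrimeCore_eq]
    haveI : (Op' p (_root_.commutator G)).Normal := by
      rw [← pPrimeCore_map]; infer_instance
    exact le_Op' le_top (le_nrm_of_normal _ _) (coprime_Op' p _) h1

end Cfsg.Agent.S4497
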