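import Cfsg.Statements.S4731
import Cfsg.Agent.H9.Misc3

set_option autoImplicit false
open Cfsg

namespace Cfsg.Agent.S4731
open H9 H3 MonoidAlgebra
open scoped Pointwise
set_option linter.style.haveILetI false
set_option linter.unusedVariables false


/-- Let p ≠ q be primes, M_p and M_q maximal ideals of the algebraic integers containing p and q respectively, and G a finite group with no element of order pq; let q^b be the q-part of the order of G. For a p-block B_p (relative to M_p), a q-block B_q (relative to M_q) and a p-singular element y, the sum of χ(1)χ(y) over the irreducible characters χ lying in both B_p and B_q is q^b times an algebraic integer. -/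
theorem result {G : Type*} [Group G] [Finite G] (p q : ℕ) [Fact p.Prime] [Fact q.Prime] (hpq : p ≠ q) (Mp Mq : Ideal Cfsg.AlgInt) (hMp : Cfsg.IsPModular p Mp) (hMq : Cfsg.IsPModular q Mq) (hno : ∀ g : G, orderOf g ≠ p * q) (b : ℕ) (hb : (Nat.card G).factorization q = b) (Bp : Set (Cfsg.IrrCharacter G)) (hBp : Cfsg.IsPBlock Mp Bp) (Bq : Set (Cfsg.IrrCharacter G)) (hBq : Cfsg.IsPBlock Mq Bq) (y : G) (hy : p ∣ orderOf y) : ∃ ω : Cfsg.AlgInt, ∑ᶠ χ ∈ Bp ∩ Bq, (Cfsg.charDegree (χ : G → ℂ) : ℂ) * (χ : G → ℂ) y = (q : ℂ) ^ b * (ω : ℂ) := by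
  classical
  haveI : PMod p Mp := ⟨hMp⟩
  haveI : PMod q Mq := ⟨hMq⟩
  haveI := Fintype.ofFinite G
  lift Bp to Bl Mp G using hBp
  lift Bq to Bl Mq G using hBq
  have h0 : ((q ^ b : ℕ) : ℂ) ≠ 0 := Nat.cast_ne_zero.2 (p_pow_ne_zero _)
  have e : ∑ᶠ χ ∈ Bp.1 ∩ Bq.1, (charDegree χ.1 : ℂ) * χ.1 y = regA (Bq.1 ∩ Bp.1) y := by
    rw [finsum_mem_irr, regA_apply, Set.inter_comm]
    exact Finset.sum_congr (by congr) fun χ _ => by rw [irr_deg]
  have hi : IsIntegral ℤ (regA (Bq.1 ∩ Bp.1) y) := by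
    rw [regA_apply]
    exact IsIntegral.sum _ fun χ _ => (χ.2.isCharacter.isIntegral _).mul (χ.2.isCharacter.isIntegral _)
  suffices IsIntegral ℤ (regA (Bq.1 ∩ Bp.1) y / (q ^ b : ℕ)) from
    ⟨⟨_, this⟩, by rw [e, ← Nat.cast_pow, mul_div_cancel₀ _ h0]⟩
  refine isIntegral_of_forall_mem_LR (fun r M' _ => ?_) (hi.isAlgebraic.mul (isAlgebraic_natCast _).inv)
  by_cases hr : r = q
  swap
  · exact mul_mem (mem_LR_of_isIntegral hi) (natCast_inv_mem_LR fun h => hr
      ((Nat.prime_dvd_prime_iff_eq (PMod.prime M') Fact.out).1 ((PMod.prime M').dvd_of_dvd_pow h)))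
  subst hr
  have c : IsClassFunction G (regA Bq.1) := isClassFunction_blockPart _ _
  have h1 := RCh_apply_mem (RCh_blockPart Bp.1 (mem_RCh_of_div (M := M')
    (F := ((r ^ b : ℕ) : ℂ)⁻¹ • (regA Bq.1 - pRegularPart p (regA Bq.1)))
    ((c.sub (isClassFunction_pRegularPart c)).smul _) fun g => ?_)) y
  · rwa [blockPart_smul, blockPart_sub, blockPart_reg, blockPart_regA, Pi.smul_apply, Pi.sub_apply,
      pRegularPart_of_not_reg (not_not.2 hy), sub_zero, smul_eq_mul, ← div_eq_inv_mul] at h1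
  by_cases hg : IsPRegular p g
  · simp [pRegularPart_of_reg hg]
  obtain ⟨m, hm⟩ : r ^ b ∣ Nat.card G := hb ▸ Nat.ordProj_dvd _ _
  rw [Pi.smul_apply, Pi.sub_apply, pRegularPart_of_not_reg hg, sub_zero, regA_eq, hm, Nat.cast_mul,
    smul_eq_mul, mul_assoc, inv_mul_cancel_left₀ h0]
  refine mul_mem (mul_mem (natCast_mem _ _) ((Bq.tr M').blockCoeff_mem _)) (natCast_inv_mem_LR fun h => ?_)
  obtain ⟨x, hx⟩ := exists_prime_orderOf_dvd_card' r h
  have h2 := orderOf_pow_orderOf_div (orderOf_pos g).ne' (not_not.1 hg)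
  refine hno (g ^ (orderOf g / p) * x) ?_
  rw [((commute_cen1 x).pow_left _).orderOf_mul_eq_mul_orderOf_of_coprime (by
    rw [h2, Subgroup.orderOf_coe, hx]; exact (Nat.coprime_primes Fact.out Fact.out).2 hpq), h2,
    Subgroup.orderOf_coe, hx]

end Cfsg.Agent.S4731
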