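import Cfsg.Statements.S4498
import Cfsg.Agent.H9.Misc3
import Cfsg.Agent.S4731

set_option autoImplicit false
open Cfsg

namespace Cfsg.Agent.S4498
open H9 H3 MonoidAlgebra
open scoped Pointwise
set_option linter.style.haveILetI false
set_option linter.unusedVariables false


/-- Let p and q be distinct primes dividing the order of the finite group G, and suppose G has no element of order p·q. Fix maximal ideals M_p over p and M_q over q of the algebraic integers. Then the principal p-block and the principal q-block of G have a non-principal irreducible character in common. -/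
theorem result {G : Type*} [Group G] [Finite G] (p q : ℕ) [Fact p.Prime] [Fact q.Prime] (hpq : p ≠ q) (hp : p ∣ Nat.card G) (hq : q ∣ Nat.card G) (hno : ∀ g : G, orderOf g ≠ p * q) (Mp Mq : Ideal Cfsg.AlgInt) (hMp : Cfsg.IsPModular p Mp) (hMq : Cfsg.IsPModular q Mq) : ∃ χ : Cfsg.IrrCharacter G, (χ : G → ℂ) ≠ (fun _ => 1) ∧ χ ∈ Cfsg.principalBlock Mp G ∧ χ ∈ Cfsg.principalBlock Mq G := by
  haveI : PMod p Mp := ⟨hMp⟩
  haveI : PMod q Mq := ⟨hMq⟩
  by_contra! H
  obtain ⟨y, hy⟩ := exists_prime_orderOf_dvd_card' p hp
  obtain ⟨ω, h⟩ := Cfsg.Agent.S4731.result p q hpq Mp Mq hMp hMq hno _ rfl _ isPBlock_principalBlock _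
    isPBlock_principalBlock y hy.symm.dvd
  rw [show principalBlock Mp G ∩ principalBlock Mq G = {trivChar G} from Set.ext fun χ =>
    ⟨fun h => Subtype.ext (by_contra fun e => H χ e h.1 h.2), by
      rintro rfl; exact ⟨mem_blockOf_self (trivChar G), mem_blockOf_self (trivChar G)⟩⟩,
    finsum_mem_singleton, charDegree_trivChar] at h
  have := int_dvd_of_eq_mul_isIntegral (a := 1) (b := q ^ (Nat.card G).factorization q) ω.2
    (by simpa [trivChar] using h)
  have h1 := (Fact.out : q.Prime).factorization_pos_of_dvd Nat.card_pos.ne' hq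
  exact (Fact.out : q.Prime).not_dvd_one (by exact_mod_cast (dvd_pow_self _ h1.ne').trans this)

end Cfsg.Agent.S4498
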