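import Cfsg.Statements.S4499
import Cfsg.Agent.H9.Contr

set_option autoImplicit false
open Cfsg

namespace Cfsg.Agent.S4499
open H9 H3 MonoidAlgebra
open scoped Pointwise
set_option linter.style.haveILetI false
set_option linter.unusedVariables false


/-- Let G be a finite group whose order has p-part p^a (a ≥ 1), and fix a maximal ideal M of the algebraic integers containing p. If the degree of one irreducible character of a p-block B is divisible by p^(a−1), then the degree of every irreducible character in B is divisible by p^(a−1) (so B has defect at most 1). -/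
theorem result {G : Type*} [Group G] [Finite G] (p : ℕ) [Fact p.Prime] (M : Ideal Cfsg.AlgInt) (hM : Cfsg.IsPModular p M) (hpa : p ∣ Nat.card G) (B : Set (Cfsg.IrrCharacter G)) (hB : Cfsg.IsPBlock M B) (χ : Cfsg.IrrCharacter G) (hχ : χ ∈ B) (hdiv : p ^ ((Nat.card G).factorization p - 1) ∣ Cfsg.charDegree (χ : G → ℂ)) (ψ : Cfsg.IrrCharacter G) (hψ : ψ ∈ B) : p ^ ((Nat.card G).factorization p - 1) ∣ Cfsg.charDegree (ψ : G → ℂ) := by
  haveI : PMod p M := ⟨hM⟩
  lift B to Bl M G using hB
  have hp : p.Prime := Fact.out
  rw [hp.pow_dvd_iff_le_factorization (charDegree_ne_zero χ.2)] at hdiv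
  rw [hp.pow_dvd_iff_le_factorization (charDegree_ne_zero ψ.2)]
  have h1 := Bl.minv_add_height hχ
  have h2 := Bl.minv_add_height hψ
  have h3 := B.minv_add_defect
  by_cases h0 : blockHeight p B.1 χ.1 = 0
  · omega
  · have := Bl.height_add_two_le hχ h0
    omega

end Cfsg.Agent.S4499
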