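import Cfsg.Statements.S4500
import Cfsg.Agent.H9.Misc4

set_option autoImplicit false
open Cfsg

namespace Cfsg.Agent.S4500
open H9 H3 MonoidAlgebra
open scoped Pointwise
set_option linter.style.haveILetI false
set_option linter.unusedVariables false
theorem aux {G : Type*} [Group G] [Finite G] [Nontrivial G] (p q r a b c : ℕ) (hp : p.Prime) (hq : q.Prime) (hr : r.Prime)
    (ha : a ≤ 2) (hpq : p ≠ q) (hpr : p ≠ r) (hG : Nat.card G = p ^ a * q ^ b * r ^ c) :
    ∃ χ : IrrCharacter G, (χ : G → ℂ) ≠ (fun _ => 1) ∧ ∃ k : ℕ, charDegree (χ : G → ℂ) = q ^ k := by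
  haveI : Fact p.Prime := ⟨hp⟩
  by_cases h0 : a = 0
  · haveI := burnside_pq (G := G) hq hr (a := b) (b := c) (by rw [hG, h0]; simp)
    obtain ⟨g, -, hg⟩ := SetLike.exists_of_lt (IsSolvable.commutator_lt_top_of_nontrivial G)
    obtain ⟨l, hl⟩ := exists_lin_ne_one hg
    refine ⟨⟨lf l, lf_irr l⟩, fun h => hl (Units.ext (congrFun h g)), 0, charDegree_eq (by simp [lf])⟩
  obtain ⟨M, hM⟩ := exists_pmod hp
  haveI : PMod p M := ⟨hM⟩
  obtain ⟨χ, h1, h2, h3⟩ := exists_B0_not_dvd M (p := p) (G := G)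
    (by rw [hG, mul_assoc]; exact (dvd_pow_self p h0).mul_right _) hr
  have hd : blockDefect p (B0 M G).1 ≤ 2 := by
    rw [B0_defect, hG, Nat.factorization_mul (by positivity [hp.pos, hq.pos]) (by positivity [hr.pos]),
      Nat.factorization_mul (by positivity [hp.pos]) (by positivity [hq.pos])]
    simp [hp.factorization, hq.factorization, hr.factorization, hpq, hpr, ha]
  have h4 := (Bl.height_eq_zero_iff h1).1 (Bl.height_eq_zero_of_defect_le hd h1)
  rw [B0_minv] at h4
  have h5 : ¬ p ∣ charDegree χ.1 := fun h =>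
    (hp.factorization_pos_of_dvd (charDegree_ne_zero χ.2) h).ne' h4
  refine ⟨χ, fun h => h2 (Subtype.ext h), ?_⟩
  have h6 := charDegree_dvd_card χ.2
  rw [hG, mul_assoc] at h6
  have h7 := (((Nat.Prime.coprime_iff_not_dvd hp).2 h5).symm.pow_right a).dvd_of_dvd_mul_left h6
  have h8 := (((Nat.Prime.coprime_iff_not_dvd hr).2 h3).symm.pow_right c).dvd_of_dvd_mul_right h7
  obtain ⟨k, -, hk⟩ := (Nat.dvd_prime_pow hq).1 h8
  exact ⟨k, hk⟩

/-- Let G be a non-trivial finite group of order p^a · q^b · r^c with p, q, r distinct primes and a ≤ 2. Then G has a non-principal irreducible character whose degree is a power of q, and a non-principal irreducible character whose degree is a power of r; the power may be the zeroth, so a non-principal linear character serves for both. -/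
theorem result {G : Type*} [Group G] [Finite G] [Nontrivial G] (p q r a b c : ℕ) (hp : p.Prime) (hq : q.Prime) (hr : r.Prime) (hpq : p ≠ q) (hpr : p ≠ r) (hqr : q ≠ r) (ha : a ≤ 2) (hG : Nat.card G = p ^ a * q ^ b * r ^ c) : (∃ χ : Cfsg.IrrCharacter G, (χ : G → ℂ) ≠ (fun _ => 1) ∧ ∃ k : ℕ, Cfsg.charDegree (χ : G → ℂ) = q ^ k) ∧ ∃ χ : Cfsg.IrrCharacter G, (χ : G → ℂ) ≠ (fun _ => 1) ∧ ∃ k : ℕ, Cfsg.charDegree (χ : G → ℂ) = r ^ k := by
  exact ⟨aux p q r a b c hp hq hr ha hpq hpr hG, aux p r q a c b hp hr hq ha hpr hpq (by rw [hG]; ring)⟩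

end Cfsg.Agent.S4500
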