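import Cfsg.Statements.S4635
import Cfsg.Agent.H9.Cyc3

set_option autoImplicit false
open Cfsg

namespace Cfsg.Agent.S4635
open H9 H3 MonoidAlgebra
open scoped Pointwise
set_option linter.style.haveILetI false
set_option linter.unusedVariables false


/-- Let B be a block of the finite group G relative to a maximal ideal M of the algebraic integers containing the prime p, with a nontrivial cyclic defect group P; let Z be the subgroup of order p of P and H = N_G(Z), which contains N_G(P). Let c be the block of H with defect group P that induces B. Then B and c contain the same number of irreducible characters, have the same p-regular rank, and there is a perfect isometry from c onto B. -/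
theorem result {G : Type*} [Group G] [Finite G] (p : ℕ) [Fact p.Prime] (M : Ideal Cfsg.AlgInt) (hM : Cfsg.IsPModular p M) (B : Set (Cfsg.IrrCharacter G)) (hB : Cfsg.IsPBlock M B) (P : Subgroup G) (hPD : Cfsg.IsDefectGroup p M B P) (hP1 : P ≠ ⊥) (hcyc : IsCyclic P) (Z : Subgroup G) (hZ : Z ≤ P) (hZcard : Nat.card Z = p) (H : Subgroup G) (hH : H = Subgroup.normalizer (Z : Set G)) (c : Set (Cfsg.IrrCharacter H)) (hcD : Cfsg.IsDefectGroup p M c (P.subgroupOf H)) (hc : Cfsg.IsInducedBlock M H c B) : Nat.card c = Nat.card B ∧ Cfsg.blockRank p c = Cfsg.blockRank p B ∧ ∃ (I : Cfsg.IrrCharacter H → Cfsg.IrrCharacter G) (ε : Cfsg.IrrCharacter H → ℤ), Cfsg.IsPerfectIsometry p M c B I ε := by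
  haveI : PMod p M := ⟨hM⟩
  haveI := Fintype.ofFinite G
  haveI := Fintype.ofFinite H
  lift c to Bl M H using hc.1
  lift B to Bl M G using hB
  have hS : nrm P ≤ H := hH ▸ nrm_le_nrm_of_cyclic hZ
  have hP : P ≤ H := Subgroup.le_normalizer.trans hS
  obtain ⟨b, b', m, m', e⟩ := exists_ex0_of_ind (isInducedBlock_iff.1 hc) hPD hS hcD
  haveI : IsCyclic (P.subgroupOf H) :=
    isCyclic_of_surjective _ (Subgroup.subgroupOfEquivOfLe hP).symm.surjective
  have h1 : P.subgroupOf H ≠ ⊥ :=
    fun e => hP1 (by simpa [disjoint_iff, inf_eq_left.2 hP] using Subgroup.subgroupOf_eq_bot.1 e)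
  obtain ⟨Φ, ζ, ε, a, f⟩ := m.exists_full hP1
  obtain ⟨Φ', ζ', ε', a', f'⟩ := Ex0.exists_full h1 ⟨m'.fr_of_cyclic, Subgroup.inclusion_injective hP,
    Subgroup.inclusion_range hP, e.symm⟩
  obtain ⟨I, s, h, -⟩ := f.perfect f'
  exact ⟨Nat.card_congr h.1.equiv, f'.rank.trans f.rank.symm, I, s, h⟩

end Cfsg.Agent.S4635
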