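import Cfsg.Statements.S4502
import Cfsg.Agent.S0920
import Cfsg.Agent.S4635

set_option autoImplicit false
open Cfsg

namespace Cfsg.Agent.S4502
open scoped Pointwise
set_option linter.style.haveILetI false
set_option linter.unusedVariables false
open H9 H3

/-- Let G be a finite group whose order is divisible by the prime p exactly once, and let P be a Sylow p-subgroup. Then the number of irreducible characters of G of degree not divisible by p equals the number of conjugacy classes of the normalizer of P. -/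
theorem result {G : Type*} [Group G] [Finite G] (p : ℕ) [Fact p.Prime] (hdiv : p ∣ Nat.card G) (hsq : ¬ p ^ 2 ∣ Nat.card G) (P : Sylow p G) : Nat.card {χ : Cfsg.IrrCharacter G // ¬ p ∣ Cfsg.charDegree (χ : G → ℂ)} = Nat.card (ConjClasses (Subgroup.normalizer ((P : Subgroup G) : Set G))) := by
  classical
  have hp : p.Prime := Fact.out
  obtain ⟨M, hM⟩ := exists_pmod hp
  haveI : PMod p M := ⟨hM⟩
  have f1 : (Nat.card G).factorization p = 1 := le_antisymm
    (by by_contra h; exact hsq ((hp.pow_dvd_iff_le_factorization Nat.card_pos.ne').2 (by omega)))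
    ((hp.dvd_iff_one_le_factorization Nat.card_pos.ne').1 hdiv)
  have cP : Nat.card P = p := by rw [P.card_eq_multiplicity, f1, pow_one]
  have s := H1.isSylowIn_top P
  have A : ∀ (B : Bl M G) (χ : IrrCharacter G), χ ∈ B.1 → (¬ p ∣ charDegree χ.1 ↔ B.IsDef P) := fun B χ hχ => by
    have d0 := charDegree_ne_zero χ.2
    rw [hp.dvd_iff_one_le_factorization d0]
    refine ⟨fun h => ?_, fun h e => ?_⟩
    · obtain ⟨D, hD⟩ := B.exists_isDef
      obtain ⟨x, -, hx⟩ := s.exists_conj_le hD.isPGroup le_top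
      have := hD.conj_smul x
      rwa [Subgroup.eq_of_le_of_card_ge hx (by
        rw [cP, this.card_eq]
        exact Nat.le_self_pow (fun e => h (by rw [Bl.factorization_eq_of_defect_zero e hχ, f1])) p)] at this
    · have := h.card_eq
      rw [Bl.defect_eq_zero_of_mem hχ (le_antisymm ((Nat.factorization_le_iff_dvd d0 Nat.card_pos.ne').2
        (χ.2.deg_dvd_card (irr_deg χ)) p) (f1 ▸ e)), cP] at this
      exact hp.one_lt.ne' this
  have C : ∀ c : Bl M (nrm (P : Subgroup G)), c.IsDef ((P : Subgroup G).subgroupOf _) := fun c => by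
    obtain ⟨D, hD⟩ := c.exists_isDef
    have s' := (s.of_le Subgroup.le_normalizer le_top).subgroupOf le_rfl
    rwa [s'.eq_of_le hD.isPGroup (by rw [Subgroup.subgroupOf_self]; exact le_top) (hD.le_of_normal s'.isPGroup)] at hD
  obtain ⟨F1, F2⟩ := S0920.result p M hM (P : Subgroup G) P.isPGroup'
  choose f hf1 hf2 hf3 using fun c : Bl M (nrm (P : Subgroup G)) => F1 c.1 c.2 (C c)
  have hcy := isCyclic_of_prime_card cP
  haveI := Fintype.ofFinite (Bl M (nrm (P : Subgroup G)))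
  have k : ∀ c, Nat.card c.1 = Nat.card (f c) := fun c => (S4635.result p M hM _ (hf1 c) (P : Subgroup G) (hf2 c)
    (by rintro e; rw [e] at cP; simp at cP; exact hp.one_lt.ne cP) hcy (P : Subgroup G) le_rfl cP _ rfl c.1 (C c) (hf3 c)).1
  have e1 : Nat.card (Σ c : Bl M (nrm (P : Subgroup G)), c.1) = Nat.card (IrrCharacter (nrm (P : Subgroup G))) := by
    refine Nat.card_eq_of_bijective (fun x => x.2.1) ⟨?_, fun χ => ⟨⟨_, χ, mem_blk χ⟩, rfl⟩⟩
    rintro ⟨c, χ, h⟩ ⟨c', χ', h'⟩ (rfl : χ = χ')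
    obtain rfl := Bl.eq_of_mem h h'
    rfl
  have e2 : Nat.card (Σ c, f c) = Nat.card {χ : IrrCharacter G // ¬ p ∣ charDegree χ.1} := by
    refine Nat.card_eq_of_bijective (fun x => ⟨x.2.1, (A ⟨_, hf1 _⟩ _ x.2.2).2 (hf2 _)⟩) ⟨?_, fun ⟨χ, h⟩ => ?_⟩
    · rintro ⟨c, χ, h⟩ ⟨c', χ', h'⟩ e
      obtain rfl : χ = χ' := congrArg Subtype.val e
      have e : f c = f c' := congrArg Subtype.val (Bl.eq_of_mem (M := M) (B := ⟨_, hf1 c⟩) (B' := ⟨_, hf1 c'⟩) h h')
      obtain rfl : c = c' := Subtype.ext ((F2 _ (hf1 c) (hf2 c)).unique ⟨c.2, C c, hf3 c⟩ ⟨c'.2, C c', e ▸ hf3 c'⟩)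
      rfl
    · obtain ⟨c, ⟨h1, h2, h3⟩, -⟩ := F2 _ (blk M χ).2 ((A _ χ (mem_blk χ)).1 h)
      have : (⟨_, hf1 ⟨c, h1⟩⟩ : Bl M G) = blk M χ :=
        (isInducedBlock_iff.1 (hf3 ⟨c, h1⟩)).unique (isInducedBlock_iff (b := ⟨c, h1⟩).1 h3)
      exact ⟨⟨⟨c, h1⟩, χ, (congrArg Subtype.val this).ge (mem_blk χ)⟩, rfl⟩
  rw [← e2, ← card_irr, ← e1, Nat.card_sigma, Nat.card_sigma]
  exact Finset.sum_congr rfl fun c _ => (k c).symm

end Cfsg.Agent.S4502
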