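import Cfsg.Statements.S4506
import Cfsg.Agent.H9.Misc4
import Cfsg.Agent.H9.Cyc4

set_option autoImplicit false
open Cfsg

namespace Cfsg.Agent.S4506
open H9 H3 MonoidAlgebra
open scoped Pointwise
set_option linter.style.haveILetI false
set_option linter.unusedVariables false
def Γ (p : ℕ) [Fact p.Prime] (G : Type*) [Group G] [Finite G] : Subgroup (ℂ ≃+* ℂ) where
  carrier := {σ | PFix p G σ}
  one_mem' := rfl
  mul_mem' := fun {a b} ha hb => by
    rw [Set.mem_ofPred_eq, pfix_iff] at *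
    intro z hz
    show a (b z) = z
    rw [hb z hz, ha z hz]
  inv_mem' := fun {a} ha => by
    rw [Set.mem_ofPred_eq, pfix_iff] at *
    intro z hz
    exact a.symm_apply_eq.2 (ha z hz).symm

theorem fixed {G : Type*} [Group G] [Finite G] {p : ℕ} [hp : Fact p.Prime] (χ : IrrCharacter G) {d : ℕ}
    (h : (MulAction.orbit (Γ p G) χ.1).ncard = p ^ d) {g : G} (hg : orderOf (pp p g) = p) (σ : Γ p G) :
    σ.1 (χ.1 g) = χ.1 g := by
  have hζ := Complex.isPrimitiveRoot_exp p hp.out.ne_zero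
  set ζ := Complex.exp (2 * Real.pi * Complex.I / p)
  set m := ordCompl[p] (Nat.card G)
  have hc : p.Coprime m := Nat.coprime_ordCompl hp.out Nat.card_pos.ne'
  have h1 : MulAction.stabilizer (Γ p G) χ.1 ≤ MulAction.stabilizer (Γ p G) (χ.1 g) := fun τ hτ => congrFun hτ g
  have h2 : MulAction.stabilizer (Γ p G) ζ ≤ MulAction.stabilizer (Γ p G) (χ.1 g) := fun τ hτ => by
    have hτ : τ.1 ζ = ζ := hτ
    refine (χ.2.isCharacter.gal_eq_pow τ.1.toRingHom (k := 1) fun z hz => ?_).trans (by rw [pow_one])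
    have hd : orderOf g ∣ p * m := by
      rw [← pp_mul_pq (p := p) g]
      refine (commute_pp_pq g).orderOf_mul_dvd_mul_orderOf.trans (mul_dvd_mul hg.dvd ?_)
      refine (Nat.Coprime.pow_right ((Nat.card G).factorization p)
        (isPRegular_iff_coprime.1 (isPRegular_pq g))).dvd_of_dvd_mul_left ?_
      rw [Nat.ordProj_mul_ordCompl_eq_self]; exact orderOf_dvd_natCard _
    have hz' := pow_eq_one_of_dvd hz hd
    have z0 : z ≠ 0 := by
      rintro rfl
      rw [zero_pow (mul_ne_zero hp.out.ne_zero (Nat.ordCompl_pos p Nat.card_pos.ne').ne')] at hz'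
      exact zero_ne_one hz'
    haveI : NeZero p := ⟨hp.out.ne_zero⟩
    obtain ⟨i, -, hi⟩ := hζ.eq_pow_of_pow_eq_one (ξ := z ^ m) (by rw [← pow_mul, mul_comm, hz'])
    have e1 : τ.1 (z ^ m) = z ^ m := by rw [← hi, map_pow, hτ]
    have e2 : τ.1 (z ^ p) = z ^ p := pfix_iff.1 τ.2 _ (by rw [← pow_mul, hz'])
    have e3 : z = (z ^ p) ^ Nat.gcdA p m * (z ^ m) ^ Nat.gcdB p m := by
      rw [← zpow_natCast, ← zpow_natCast, ← zpow_mul, ← zpow_mul, ← zpow_add₀ z0, ← Nat.gcd_eq_gcd_ab, hc.gcd_eq_one]; simp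
    show τ.1 z = z ^ 1
    rw [pow_one, e3, map_mul, map_zpow₀, map_zpow₀, e1, e2]
  have h3 := Subgroup.index_dvd_of_le h1
  have h4 := Subgroup.index_dvd_of_le h2
  rw [MulAction.index_stabilizer (Γ p G) χ.1, h] at h3
  have h5 : MulAction.orbit (Γ p G) ζ ⊆ primitiveRoots p ℂ := by
    rintro _ ⟨τ, rfl⟩
    exact (mem_primitiveRoots hp.out.pos).2 (hζ.map_of_injective τ.1.injective)
  have h6 := Set.ncard_le_ncard h5
  rw [Set.ncard_coe_finset, hζ.card_primitiveRoots, Nat.totient_prime hp.out, ← MulAction.index_stabilizer] at h6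
  have h7 : (MulAction.stabilizer (Γ p G) ζ).index ≠ 0 := by
    rw [MulAction.index_stabilizer]
    exact ((Set.ncard_pos ((Finset.finite_toSet _).subset h5)).2 (MulAction.nonempty_orbit ζ)).ne'
  have h8 := Nat.le_of_dvd (Nat.pos_of_ne_zero h7) h4
  obtain ⟨j, -, hj⟩ := (Nat.dvd_prime_pow hp.out).1 h3
  have : j = 0 := by
    by_contra h0
    have := Nat.le_of_dvd (pow_pos hp.out.pos j) (dvd_pow_self p h0)
    have := hp.out.pos
    omega
  rw [this, pow_zero, Subgroup.index_eq_one] at hj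
  exact (hj ▸ Subgroup.mem_top σ : σ ∈ MulAction.stabilizer (Γ p G) (χ.1 g))

/-- Let G be a finite group, p a prime, p^a the p-part of the order of G and g′ its p′-part. Call two irreducible characters p-conjugate when one is obtained from the other by applying a field automorphism of ℂ that fixes the g′-th roots of unity, and let r be the number of characters p-conjugate to the irreducible character χ (χ included). Then the exponent of p in r·χ(1) is at most a; and if p^a divides r·χ(1) then p^a already divides χ(1). -/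
theorem result {G : Type*} [Group G] [Finite G] (p : ℕ) (hp : p.Prime) (χ : Cfsg.IrrCharacter G) (r : ℕ) (hr : Nat.card {ψ : Cfsg.IrrCharacter G // ∃ σ : ℂ ≃+* ℂ, σ (Complex.exp (2 * Real.pi * Complex.I / ((Nat.card G / p ^ (Nat.card G).factorization p) : ℕ))) = Complex.exp (2 * Real.pi * Complex.I / ((Nat.card G / p ^ (Nat.card G).factorization p) : ℕ)) ∧ (ψ : G → ℂ) = fun g => σ ((χ : G → ℂ) g)} = r) : (r * Cfsg.charDegree (χ : G → ℂ)).factorization p ≤ (Nat.card G).factorization p ∧ (p ^ (Nat.card G).factorization p ∣ r * Cfsg.charDegree (χ : G → ℂ) → p ^ (Nat.card G).factorization p ∣ Cfsg.charDegree (χ : G → ℂ)) := by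
  classical
  haveI : Fact p.Prime := ⟨hp⟩
  haveI := Fintype.ofFinite G
  obtain ⟨M, hM⟩ := exists_pmod hp
  haveI : PMod p M := ⟨hM⟩
  set B := blk M χ
  have hχ : χ ∈ B.1 := mem_blk χ
  set S : Finset (IrrCharacter G) := Finset.univ.filter fun ψ => ∃ σ, PFix p G σ ∧ ψ.1 = fun g => σ (χ.1 g) with hS
  have hrS : S.card = r := by rw [← hr, hS, Nat.card_eq_fintype_card, Fintype.card_subtype]
  have hχS : χ ∈ S := by simpa [hS] using ⟨RingEquiv.refl ℂ, rfl, rfl⟩
  have hreg : ∀ ψ ∈ S, pRegularPart p ψ.1 = pRegularPart p χ.1 := fun ψ hψ => by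
    obtain ⟨σ, h1, h2⟩ := (Finset.mem_filter.1 hψ).2
    funext g
    by_cases hg : IsPRegular p g
    · simp [pRegularPart, hg, h2, h1.apply χ.2.isGen hg (orderOf_dvd_natCard g)]
    · simp [pRegularPart, hg]
  have m0 := Bl.mm_self_pos hχ
  have hSB : ∀ ψ ∈ S, ψ ∈ B.1 := fun ψ hψ => by
    rw [mem_iff_blk_eq]
    refine blk_eq_of_inner_reg (p := p) fun h => m0.ne' ?_
    apply Int.cast_injective (α := ℂ)
    rw [Bl.mm_irr hχ, ← hreg ψ hψ, h]; simp
  have hmm : ∀ ψ ∈ S, B.mm χ.1 ψ.1 = B.mm χ.1 χ.1 := fun ψ hψ => by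
    apply Int.cast_injective (α := ℂ)
    rw [B.mm_symm χ.2.isGen ψ.2.isGen, Bl.mm_irr hχ, Bl.mm_irr (hSB ψ hψ), hreg ψ hψ]
  have hsub : S ⊆ Finset.univ.filter (· ∈ B.1) := fun ψ hψ => by simpa using hSB ψ hψ
  have key := B.sum_mm_mul χ.2.isGen χ.2.isGen
  rw [← Finset.sum_sdiff hsub, Finset.sum_congr (s₁ := S) rfl fun ψ hψ => by rw [hmm ψ hψ], Finset.sum_const, hrS, nsmul_eq_mul] at key
  have hnn : 0 ≤ ∑ ψ ∈ Finset.univ.filter (· ∈ B.1) \ S, B.mm χ.1 ψ.1 * B.mm χ.1 ψ.1 :=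
    Finset.sum_nonneg fun _ _ => mul_self_nonneg _
  set m := B.mm χ.1 χ.1
  set d := blockDefect p B.1
  set h := blockHeight p B.1 χ.1
  have r0 : r ≠ 0 := hrS ▸ Finset.card_ne_zero.2 ⟨χ, hχS⟩
  have l1 : (r : ℤ) * m ≤ p ^ d := le_of_mul_le_mul_right (by nlinarith) m0
  have l2 : (p : ℤ) ^ h ≤ m := Int.le_of_dvd m0 (Bl.pow_dvd_mm hχ χ.2.isGen)
  have l3 : (p : ℤ) ^ r.factorization p ≤ r := by exact_mod_cast Nat.ordProj_le p r0
  have p1 : (1 : ℤ) < p := by exact_mod_cast hp.one_lt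
  have pp0 : ∀ n : ℕ, (0 : ℤ) < p ^ n := fun n => by positivity
  have l4 : (p : ℤ) ^ (r.factorization p + h) ≤ r * m := by
    rw [pow_add]; exact mul_le_mul l3 l2 (pp0 _).le (by positivity)
  have l5 := (pow_le_pow_iff_right₀ p1).1 (l4.trans l1)
  have e1 := Bl.minv_add_height hχ
  have e2 := B.minv_add_defect
  have c0 := charDegree_ne_zero χ.2
  have f1 : (r * charDegree χ.1).factorization p = r.factorization p + (charDegree χ.1).factorization p := by
    rw [Nat.factorization_mul r0 c0]; rfl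
  refine ⟨by omega, fun hd => ?_⟩
  rw [hp.pow_dvd_iff_le_factorization (mul_ne_zero r0 c0)] at hd
  rw [hp.pow_dvd_iff_le_factorization c0]
  by_cases d0 : d = 0
  · omega
  exfalso
  have e3 : r.factorization p + h = d := by omega
  rw [e3] at l4
  have e4 : (r : ℤ) * m = p ^ d := le_antisymm l1 l4
  have h0 : h = 0 := by
    by_contra h0
    have l6 := Int.le_of_dvd m0 ((Bl.pow_succ_dvd_mm_iff hχ hχ).2 h0)
    have := mul_le_mul l3 l6 (pp0 _).le (by positivity)
    rw [← pow_add, e4] at this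
    have := (pow_le_pow_iff_right₀ p1).1 this
    omega
  have e5 : r = p ^ d := by
    rw [h0, add_zero] at e3
    rw [e3] at l3
    have : (r : ℤ) ≤ p ^ d := by nlinarith
    exact_mod_cast le_antisymm this l3
  have hBS : Finset.univ.filter (· ∈ B.1) = S := by
    refine (Finset.Subset.antisymm hsub fun ψ hψ => ?_).symm
    by_contra hn
    have z : ∑ ψ ∈ Finset.univ.filter (· ∈ B.1) \ S, B.mm χ.1 ψ.1 * B.mm χ.1 ψ.1 = 0 := by
      rw [← e4] at key; linear_combination key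
    have := (Finset.sum_eq_zero_iff_of_nonneg fun _ _ => mul_self_nonneg _).1 z ψ (Finset.mem_sdiff.2 ⟨hψ, hn⟩)
    exact Bl.mm_ne_zero hχ (by simpa using hψ) h0 (mul_self_eq_zero.1 this)
  obtain ⟨P, b, hP⟩ := B.exists_maxP
  obtain ⟨u, hu, hu1, ho⟩ := exists_isPElt_ne_one (G := P) (p := p) (by rw [hP.card_eq]; exact dvd_pow_self p d0)
  have ho : orderOf (u : G) = p := by rw [Subgroup.orderOf_coe, ho]
  refine hP.TS_ne_zero u.2 hχ (Or.inl h0) (TT_of_section_zero ⟨1, by rw [ho, pow_one]⟩ _ fun g hg => ?_)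
  have hg' : orderOf (pp p g) = p := by
    obtain ⟨c, hc⟩ := isConj_iff.1 hg
    rw [← hc, ← ho]; exact orderOf_injective (MulAut.conj c).toMonoidHom (MulAut.conj c).injective _
  have ho' : (MulAction.orbit (Γ p G) χ.1).ncard = p ^ d := by
    rw [← e5, ← hrS, ← Set.ncard_coe_finset, ← Set.ncard_image_of_injective _ Subtype.val_injective]
    congr 1
    ext f
    refine ⟨fun ⟨σ, h⟩ => ⟨galIrr σ.1 χ, by simpa [hS] using ⟨σ.1, σ.2, rfl⟩, h⟩, ?_⟩
    rintro ⟨ψ, hψ, rfl⟩
    obtain ⟨σ, h1, h2⟩ := (Finset.mem_filter.1 hψ).2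
    exact ⟨⟨σ, h1⟩, h2.symm⟩
  have k := block_orth B (g := g) (h := 1) (by
    rw [pp_one, isConj_one_left]
    intro e
    rw [e, orderOf_one] at hg'
    exact hp.ne_one hg'.symm)
  rw [hBS, Finset.sum_congr rfl (g := fun _ => χ.1 g * χ.1 1), Finset.sum_const, hrS, nsmul_eq_mul] at k
  · exact (mul_eq_zero.1 ((mul_eq_zero.1 k).resolve_left (Nat.cast_ne_zero.2 r0))).resolve_right
      (by rw [irr_deg]; exact Nat.cast_ne_zero.2 c0)
  intro ψ hψ
  obtain ⟨σ, h1, h2⟩ := (Finset.mem_filter.1 hψ).2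
  simp only [h2, inv_one]
  rw [fixed χ ho' hg' ⟨σ, h1⟩, irr_deg, map_natCast]

end Cfsg.Agent.S4506
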