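import Cfsg.Statements.S4507
import Cfsg.Agent.H9.Cyc4

set_option autoImplicit false
open Cfsg

namespace Cfsg.Agent.S4507
open H9 H3 MonoidAlgebra
open scoped Pointwise
set_option linter.style.haveILetI false
set_option linter.unusedVariables false


/-- Let G be a finite group whose order g is divisible by the prime p exactly once, g′ = g/p, and fix a maximal ideal M of the algebraic integers containing p. Call two irreducible characters p-conjugate when a field automorphism of ℂ fixing the g′-th roots of unity carries one to the other. Let B be a p-block of positive defect (its defect group is a Sylow p-subgroup). Then B contains a subset Y (the exceptional family) such that: Y is a full p-conjugacy class (its members are pairwise p-conjugate and every p-conjugate of a member of Y lies in Y); every member of B outside Y is p-conjugate only to itself; the size t of Y divides p − 1 and B has exactly t + (p − 1)/t members; and there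 are signs δ_χ = ±1 (χ ∈ B) such that for every p-regular element x and every θ ∈ Y, Σ_{χ ∈ B ∖ Y} δ_χ χ(x) + δ_θ θ(x) = 0. -/
theorem result {G : Type*} [Group G] [Finite G] (p : ℕ) [Fact p.Prime] (M : Ideal Cfsg.AlgInt) (hM : Cfsg.IsPModular p M) (hdiv : p ∣ Nat.card G) (hsq : ¬ p ^ 2 ∣ Nat.card G) (B : Set (Cfsg.IrrCharacter G)) (hB : Cfsg.IsPBlock M B) (hd : 0 < Cfsg.blockDefect p B) : ∃ Y : Set (Cfsg.IrrCharacter G), Y ⊆ B ∧ Y.Nonempty ∧ (∀ θ ∈ Y, ∀ ψ : Cfsg.IrrCharacter G, (∃ σ : ℂ ≃+* ℂ, σ (Complex.exp (2 * Real.pi * Complex.I / ((Nat.card G / p ^ (Nat.card G).factorization p) : ℕ))) = Complex.exp (2 * Real.pi * Complex.I / ((Nat.card G / p ^ (Nat.card G).factorization p) : ℕ)) ∧ (ψ : G → ℂ) = fun g => σ ((θ : G → ℂ) g)) ↔ ψ ∈ Y) ∧ (∀ χ ∈ B, χ ∉ Y → ∀ ψ : Cfsg.IrrCharacter G, (∃ σ : ℂ ≃+* ℂ, σ (Complex.exp (2 * Real.pi * Complex.I / ((Nat.card G / p ^ (Nat.card G).factorization p) : ℕ))) = Complex.exp (2 * Real.pi * Complex.I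 / ((Nat.card G / p ^ (Nat.card G).factorization p) : ℕ)) ∧ (ψ : G → ℂ) = fun g => σ ((χ : G → ℂ) g)) → ψ = χ) ∧ Nat.card Y ∣ p - 1 ∧ Nat.card B = Nat.card Y + (p - 1) / Nat.card Y ∧ ∃ δ : Cfsg.IrrCharacter G → ℤ, (∀ χ ∈ B, δ χ = 1 ∨ δ χ = -1) ∧ ∀ x : G, ¬ p ∣ orderOf x → ∀ θ ∈ Y, (∑ᶠ χ ∈ B \ Y, (δ χ : ℂ) * (χ : G → ℂ) x) + (δ θ : ℂ) * (θ : G → ℂ) x = 0 := by
  classical
  haveI : PMod p M := ⟨hM⟩
  haveI := Fintype.ofFinite G
  lift B to Bl M G using hB
  obtain ⟨P, hP⟩ := B.exists_isDef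
  have hp : p.Prime := Fact.out
  have hc : Nat.card P = p := by
    have h1 := hP.card_eq
    have h2 := Subgroup.card_subgroup_dvd_card P
    rw [h1] at h2 ⊢
    have : blockDefect p B.1 < 2 := by
      by_contra h3
      exact hsq ((pow_dvd_pow p (not_lt.1 h3)).trans h2)
    rw [show blockDefect p B.1 = 1 by omega, pow_one]
  obtain ⟨c, θ, h⟩ := hP.exists_d1 hc
  obtain ⟨ζ, ε, a, F⟩ := h.exists_full
  haveI := h.cyclic
  have hY : YY ζ ⊆ B.1 := fun _ ⟨l, hl, e⟩ => e ▸ F.x.mem l hl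
  have hX := F.card_X
  have hY' := F.card_Y
  obtain ⟨k, hk⟩ := (h.max.isCyclic_aE h.ne_bot).2
  have e0 : 0 < ee P c.E := F.w.card_E ▸ Nat.card_pos
  have k0 : 0 < k := Nat.pos_of_ne_zero fun e => by
    have := hp.one_lt; rw [e] at hk; omega
  rw [hc, hk, Nat.mul_div_cancel_left _ e0] at hY'
  haveI := F.nt
  obtain ⟨l, hl⟩ := F.w.fa.exists_lin
  refine ⟨YY ζ, hY, ⟨_, l, hl, rfl⟩, fun _ => h.gal_iff F, fun χ hχ hχ' ψ ⟨σ, hσ, e⟩ =>
    Subtype.ext (e.trans (funext fun g => (h.gal_non F hσ ⟨hχ, hχ'⟩ g).symm)),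
    ⟨ee P c.E, by rw [hY', hk, mul_comm]⟩, ?_, fun χ => if χ ∈ YY ζ then -ε else a χ,
    fun χ hχ => ?_, fun x hx χ hχ => ?_⟩
  · rw [hY', hk, Nat.mul_div_cancel _ k0, ← hX, ← hY', add_comm]
    exact (Set.ncard_sdiff_add_ncard_of_subset hY).symm
  · dsimp only
    split_ifs with h'
    · rcases F.x.sign with s | s <;> simp [s]
    · exact F.sign ⟨hχ, h'⟩
  · rw [finsum_mem_congr rfl (g := fun χ => (a χ : ℂ) * χ.1 x) fun ψ hψ => by
      simp only [if_neg hψ.2], finsum_mem_irr]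
    simp only [if_pos hχ]
    rw [Int.cast_neg, neg_mul, F.rel hχ hx]
    refine add_neg_eq_zero.2 ?_
    congr

end Cfsg.Agent.S4507
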