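import Cfsg.Statements.S4508
import Cfsg.Agent.H9.Pr1
import Cfsg.Agent.H3.Det
import Cfsg.Agent.H3.Perm
import Mathlib.RingTheory.ZMod.UnitsCyclic

set_option autoImplicit false
open Cfsg

namespace Cfsg.Agent.S4508
open H9 H3 Subgroup
set_option linter.style.haveILetI false
set_option linter.unusedVariables false

theorem dt_cyc {C : Type*} [Group C] [Finite C] {g : C} (hg : ∀ x, x ∈ zpowers g) {k m : ℕ} (o : orderOf g = 2 * k)
    (hm : Odd m) {ψ : C → ℂ} (h1 : ψ 1 = m * (2 * k : ℕ)) (h0 : ∀ u, u ≠ 1 → ψ u = 0) : dt ψ g = -1 := by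
  have k0 : 2 * k ≠ 0 := o ▸ (orderOf_pos g).ne'
  have hζ := Complex.isPrimitiveRoot_exp _ k0
  obtain ⟨z, hz⟩ := hζ.isUnit k0
  rw [← hz, IsPrimitiveRoot.coe_units_iff] at hζ
  have oz : orderOf z = orderOf g := hζ.eq_orderOf.symm.trans o.symm
  set l := monoidHomOfForallMemZpowers hg oz.dvd
  have lg : l g = z := monoidHomOfForallMemZpowers_apply_gen hg oz.dvd
  have e : ψ = (m : ℂ) • ∑ j ∈ Finset.range (2 * k), lf (l ^ j) := by
    funext u
    by_cases hu : u = 1
    · simp [hu, h1]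
    obtain ⟨i, rfl⟩ := hg u
    have n1 : ((l (g ^ i) : ℂˣ) : ℂ) ≠ 1 := fun e => hu (by
      rw [Units.val_eq_one, map_zpow, lg, ← orderOf_dvd_iff_zpow_eq_one, oz] at e
      exact orderOf_dvd_iff_zpow_eq_one.1 e)
    have n2 : ((l (g ^ i) : ℂˣ) : ℂ) ^ (2 * k) = 1 := by
      rw [← Units.val_pow_eq_pow_val, ← map_pow, ← o, ← zpow_natCast, ← zpow_mul, mul_comm, zpow_mul]; simp
    have := mul_geom_sum ((l (g ^ i) : ℂˣ) : ℂ) (2 * k)
    rw [n2, sub_self, mul_eq_zero, sub_eq_zero] at this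
    rw [h0 _ hu]
    simp only [Pi.smul_apply, Finset.sum_apply, lf_apply, MonoidHom.pow_apply, Units.val_pow_eq_pow_val]
    rw [this.resolve_left n1, smul_zero]
  have z1 : z ^ k = -1 := by
    apply Units.ext
    exact ((IsPrimitiveRoot.coe_units_iff.2 hζ).pow k0.pos (mul_comm _ _)).eq_neg_one_of_two_right
  rw [e, (isCharacter_sum _ _ fun j _ => lf_ch _).dt_nsmul, dt_sum _ _ fun j _ => lf_ch _]
  simp only [dt_lf]
  rw [Finset.prod_pow_eq_pow_sum, MonoidHom.pow_apply, MonoidHom.pow_apply, lg]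
  have s : ∑ j ∈ Finset.range (2 * k), j = k * (2 * k - 1) := by
    have := Finset.sum_range_id_mul_two (2 * k)
    rw [mul_assoc] at this
    omega
  rw [s, pow_mul, z1, Odd.neg_one_pow ⟨k - 1, by omega⟩, hm.neg_one_pow]

theorem van {K : Type*} [Group K] [Finite K] {p : ℕ} [Fact p.Prime] {y : K} (h : SC p y) [n : (zpowers y).Normal]
    [Fintype (zpowers y)] {ψ : K → ℂ} (hψ : IsCharacter K ψ) (h0 : ∑ u : zpowers y, ψ u = 0) {g : K}
    (hg : g ∉ zpowers y) : ψ g = 0 := by
  have a := (hψ.avg (N := zpowers y)).eq_zero_of_deg (by simp [avg, h0])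
  have b := congrFun a g
  rw [avg, Finset.sum_congr rfl (g := fun _ => ψ g)] at b
  · simpa using b
  intro u _
  obtain ⟨m, -, e⟩ := exists_conj_of_fpf (zpowers y) (g := g) (fun n hn e => by_contra fun h1 =>
    hg (h.cen1_eq hn h1 ▸ H7.mem_cen1.2 e.symm)) u.2
  rw [← e]
  exact hψ.isClassFunction _ _

theorem sum0 {G : Type*} [Group G] [Finite G] {p : ℕ} [hp : Fact p.Prime] {x : G} (h : SC p x) (h2 : p ≠ 2)
    (ht : ¬ Even (tcl p G)) [Fintype (zpowers x)] {χ : IrrCharacter G} (hχ : charDegree χ.1 + 1 = p) :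
    ∑ u : zpowers x, χ.1 u = 0 := by
  classical
  haveI := Fintype.ofFinite G
  obtain ⟨M, hM⟩ := exists_pmod hp.out
  haveI : PMod p M := ⟨hM⟩
  obtain ⟨ζ, ε, a, f⟩ := h.exists_full (M := M)
  obtain ⟨w, hw⟩ := h.ex0.exc_B0 (M := M)
  have p2 := hp.out.two_le
  have hB : χ ∈ (B0 M G).1 := h.mem_B0 fun d => by
    have := Nat.le_of_dvd (charDegree_ne_zero χ.2).pos d
    omega
  have cP : Fintype.card (zpowers x) = p := by rw [← Nat.card_eq_fintype_card]; exact h.card
  have d1 : χ.1 1 = p - 1 := by rw [irr_deg, ← hχ]; simp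
  rw [← Finset.add_sum_erase _ _ (Finset.mem_univ 1)]
  by_cases e : χ ∈ YY ζ
  · obtain ⟨l, hl, rfl⟩ := e
    set E := aE (zpowers x).subtype (nrm (zpowers x))
    have s : ∑ u : zpowers x, os E l u = 0 := by
      haveI := Fintype.ofFinite E
      simp only [os_apply]
      rw [Finset.sum_comm]
      refine Finset.sum_eq_zero fun σ _ => ?_
      exact (Equiv.sum_comp σ.1.toEquiv fun u => (l u : ℂ)).trans (sum_hom_units_eq_zero ((Units.coeHom ℂ).comp l)
        fun e => hl (MonoidHom.ext fun u => Units.ext (DFunLike.congr_fun e u)))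
    rw [← Finset.add_sum_erase _ _ (Finset.mem_univ 1), os_one] at s
    have s' : ∑ u : zpowers x, (ζ l).1 u = p - 1 - ε * Nat.card E := by
      rw [← Finset.add_sum_erase _ _ (Finset.mem_univ 1), Finset.sum_congr rfl (g := fun u => ε * os E l u) fun u hu => by
        rw [← f.exc hl (Finset.ne_of_mem_erase hu), hw _ hB u (Finset.ne_of_mem_erase hu)]; rfl, ← Finset.mul_sum]
      simp only [OneMemClass.coe_one, d1]
      linear_combination ε * s
    rw [Finset.add_sum_erase _ (fun u : zpowers x => (ζ l).1 u) (Finset.mem_univ 1), s']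
    obtain ⟨n, hn⟩ : ∃ n : ℕ, ∑ u : zpowers x, (ζ l).1 u = p * n := by
      obtain ⟨n, hn⟩ := ((ζ l).2.isCharacter.res (zpowers x)).inner_nat (lf_ch 1)
      rw [lf_one, inner_one_right, h.card, inv_mul_eq_iff_eq_mul₀ (Nat.cast_ne_zero.2 hp.out.ne_zero)] at hn
      exact ⟨n, hn⟩
    have t := h.t_mul
    rw [← h.card_E] at t
    have e1 : (p : ℤ) - 1 - ε * Nat.card E = p * n := by exact_mod_cast s'.symm.trans hn
    have e2 : Nat.card E ≤ p - 1 := t ▸ Nat.le_mul_of_pos_left _ h.t_pos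
    have e3 : Nat.card E ≠ 1 := fun e => ht (by
      rw [e, mul_one] at t
      rw [t]; exact hp.out.even_sub_one h2)
    have e4 : 0 < Nat.card E := Nat.card_pos
    have : (p : ℤ) - 1 - ε * Nat.card E = 0 := by
      have : (0 : ℤ) ≤ p * ((n - 2 : ℕ) : ℤ) := by positivity
      rcases n with _ | _ | n <;> rcases f.x.sign with e | e <;> rw [e] at e1 ⊢ <;> push_cast at e1 this <;>
        first | omega | (rw [mul_add, mul_add] at e1; omega)
    exact_mod_cast this
  · have sg : ∀ u : zpowers x, u ≠ 1 → χ.1 u = a χ := fun u hu => by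
      rw [← f.x.non χ ⟨hB, e⟩ u hu, hw χ hB u hu]; rfl
    have d := h.modEq χ.2.isCharacter (c := a χ) fun g hg => by
      obtain ⟨u, hu, e⟩ := h.sing_conj hg
      rw [χ.2.isClassFunction.of_isConj e, sg u hu]
    have a1 : a χ = -1 := (f.sign ⟨hB, e⟩).resolve_left fun e => by
      rw [e] at d
      have := Int.le_of_dvd (by omega) d
      omega
    rw [Finset.sum_congr rfl (g := fun _ => -1) fun u hu => by rw [sg u (Finset.ne_of_mem_erase hu), a1]; simp]
    simp [d1, cP, Finset.card_erase_of_mem, Nat.cast_sub hp.out.one_le]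


/-- Let the finite group G contain an element x of prime order p with C_G(x) = ⟨x⟩, and let t be the number of conjugacy classes of elements of order p. If G has an irreducible character of degree p − 1, then t is even or the commutator subgroup has even index. -/
theorem result {G : Type*} [Group G] [Finite G] (p : ℕ) (hp : p.Prime) (x : G) (hx : orderOf x = p) (hC : Subgroup.centralizer ({x} : Set G) = Subgroup.zpowers x) (t : ℕ) (ht : Nat.card {C : ConjClasses G // ∃ g ∈ C.carrier, orderOf g = p} = t) (χ : Cfsg.IrrCharacter G) (hχ : Cfsg.charDegree (χ : G → ℂ) + 1 = p) : Even t ∨ Even (commutator G).index := by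
  classical
  haveI : Fact p.Prime := ⟨hp⟩
  have h : SC p x := ⟨hx, hC⟩
  subst ht
  refine or_iff_not_imp_left.2 fun ht => ?_
  by_cases h2 : p = 2
  · have := h.t_le
    have := h.t_pos
    rw [(h.of_eq (by omega)).2.1, h2]
    exact even_two
  set N := nrm (zpowers x)
  have hy : x ∈ N := le_normalizer (mem_zpowers x)
  have s := h.sub hy
  have eP : zpowers (⟨x, hy⟩ : N) = (zpowers x).subgroupOf N := by
    ext u; simp [mem_subgroupOf, mem_zpowers_iff, Subtype.ext_iff]
  haveI : (zpowers (⟨x, hy⟩ : N)).Normal := eP ▸ normal_in_normalizer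
  haveI := Fintype.ofFinite (zpowers x)
  haveI := Fintype.ofFinite (zpowers (⟨x, hy⟩ : N))
  have v : ∀ g : N, g ∉ zpowers (⟨x, hy⟩ : N) → χ.1 g = 0 := fun g hg =>
    van s (χ.2.isCharacter.res N) (by
      rw [← sum0 h h2 ht hχ]
      exact Fintype.sum_equiv ((MulEquiv.subgroupCongr eP).trans (subgroupOfEquivOfLe le_normalizer)).toEquiv _ _ fun _ => rfl) hg
  haveI : Fact (Nat.Prime 2) := ⟨Nat.prime_two⟩
  obtain ⟨S⟩ : Nonempty (Sylow 2 N) := inferInstance
  obtain ⟨j, hj⟩ := IsPGroup.iff_card.1 S.isPGroup'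
  have cp : (2 ^ j).Coprime p := ((Nat.coprime_primes Nat.prime_two hp).2 (Ne.symm h2)).pow_left _
  have b : ∀ u : S, u ≠ 1 → u.1 ∉ zpowers (⟨x, hy⟩ : N) := fun u hu e => hu (Subtype.ext
    ((disjoint_of_coprime_natCard (H := S) (K := zpowers (⟨x, hy⟩ : N)) (by rw [hj, s.card]; exact cp)).le_bot ⟨u.2, e⟩))
  haveI : IsCyclic S := by
    haveI := ZMod.isCyclic_units_prime (p := Nat.card (zpowers x)) (h.card.symm ▸ hp)
    refine isCyclic_of_injective ((IsCyclic.mulAutMulEquiv (zpowers x)).toMonoidHom.comp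
      ((zpowers x).normalizerMonoidHom.comp (S : Subgroup N).subtype)) ((injective_iff_map_eq_one _).2 fun u hu => ?_)
    by_contra h1
    have : u.1 ∈ (zpowers x).normalizerMonoidHom.ker := by simpa using hu
    rw [normalizerMonoidHom_ker] at this
    exact b u h1 (eP.ge (h.cenP.le this))
  obtain ⟨g, hg⟩ := IsCyclic.exists_generator (α := S)
  have o : orderOf g = 2 ^ j := (orderOf_eq_card_of_forall_mem_zpowers hg).trans hj
  have t := h.t_mul
  have c1 := H7.relIndex_mul_card_inf (zpowers x) N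
  rw [inf_eq_left.2 le_normalizer, h.card, ← (S : Subgroup N).card_mul_index, hj] at c1
  obtain ⟨e, he⟩ := cp.dvd_of_dvd_mul_right (Dvd.intro _ c1.symm)
  have i : ¬ 2 ∣ (S : Subgroup N).index := S.not_dvd_index
  rw [he, mul_assoc] at c1
  rw [← Nat.eq_of_mul_eq_mul_left (by positivity) c1] at i
  have oe : Odd e := Nat.not_even_iff_odd.1 fun e' => i (e'.two_dvd.mul_right _)
  have ot := (Nat.not_even_iff_odd.1 ht).mul oe
  rw [he] at t
  obtain _ | j := j
  · rw [pow_zero, one_mul] at t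
    exact absurd (hp.even_sub_one h2) (Nat.not_even_iff_odd.2 (t ▸ ot))
  have k := dt_cyc hg (k := 2 ^ j) (ψ := fun u => χ.1 u.1.1) (o.trans (pow_succ' _ _)) ot (by
    show χ.1 1 = _
    rw [irr_deg, show charDegree χ.1 = p - 1 by omega, ← t, pow_succ']; push_cast; ring) fun u hu => v _ (b u hu)
  have k' := (χ.2.isCharacter.dt_comp (N.subtype.comp (S : Subgroup N).subtype))
  have k2 : dt χ.1 g.1.1 = -1 := by rw [← k]; exact (DFunLike.congr_fun k' g).symm
  have k3 : dt χ.1 (g.1.1 ^ (commutator G).index) = 1 :=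
    Abelianization.commutator_subset_ker (dt χ.1) (pow_index_mem _ _)
  rw [map_pow, k2] at k3
  exact (neg_one_pow_eq_one_iff_even (by intro e; have := congrArg Units.val e; norm_num at this)).1 k3

end Cfsg.Agent.S4508
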