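import Cfsg.Statements.S4509
import Cfsg.Agent.H9.SC

set_option autoImplicit false
open Cfsg

namespace Cfsg.Agent.S4509
open H9 H3 MonoidAlgebra
open scoped Pointwise
set_option linter.style.haveILetI false
set_option linter.unusedVariables false
open H7 Subgroup

/-- Let the finite group G contain an element x of prime order p with C_G(x) = ⟨x⟩; let t be the number of conjugacy classes of elements of order p and 1 + n·p the number of subgroups of order p. Then G has a normal subgroup of order 1 + n·p if and only if either t = p − 1, or t < p − 1 and G″ ≠ G′. Moreover, if t = p − 1 then G′ has order 1 + n·p and G/G′ is cyclic of order p; and if t < p − 1 and G″ ≠ G′ then G″ has order 1 + n·p and G′ has order p·(1 + n·p). -/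
theorem result {G : Type*} [Group G] [Finite G] (p : ℕ) (hp : p.Prime) (x : G) (hx : orderOf x = p) (hC : Subgroup.centralizer ({x} : Set G) = Subgroup.zpowers x) (t : ℕ) (ht : Nat.card {C : ConjClasses G // ∃ g ∈ C.carrier, orderOf g = p} = t) (n : ℕ) (hn : Nat.card {H : Subgroup G // Nat.card H = p} = 1 + n * p) : ((∃ S : Subgroup G, S.Normal ∧ Nat.card S = 1 + n * p) ↔ (t = p - 1 ∨ (t < p - 1 ∧ derivedSeries G 2 ≠ derivedSeries G 1))) ∧ (t = p - 1 → Nat.card (commutator G) = 1 + n * p ∧ IsCyclic (G ⧸ commutator G) ∧ (commutator G).index = p) ∧ (t < p - 1 → derivedSeries G 2 ≠ derivedSeries G 1 → Nat.card (derivedSeries G 2) = 1 + n * p ∧ Nat.card (commutator G) = p * (1 + n * p)) := by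
  haveI := Fact.mk hp
  have h : SC p x := ⟨hx, hC⟩
  subst ht
  rw [h.card_sub] at hn
  have e2 : derivedSeries G 2 = ⁅_root_.commutator G, _root_.commutator G⁆ := by
    rw [derivedSeries_succ, derivedSeries_one]
  rw [e2, derivedSeries_one, ← hn]
  have k : tcl p G < p - 1 → ⁅_root_.commutator G, _root_.commutator G⁆ ≠ _root_.commutator G →
      ord ⁅_root_.commutator G, _root_.commutator G⁆ = (nrm (zpowers x)).index ∧
      ord (_root_.commutator G) = p * (nrm (zpowers x)).index := fun a b => by
    have m := h.mem_der a.ne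
    have l : ⁅_root_.commutator G, _root_.commutator G⁆ ≤ _root_.commutator G := commutator_le_left _ _
    have d : ¬ p ∣ ord ⁅_root_.commutator G, _root_.commutator G⁆ := fun d => b (le_antisymm l (h.der_le d))
    have e : _root_.commutator G = zpowers x ⊔ ⁅_root_.commutator G, _root_.commutator G⁆ :=
      le_antisymm (fun g hg => h.mem_sup d (commutator_mem_commutator hg m)) (sup_le (zpowers_le.2 m) l)
    have c := h.card_of_sup d (eq_top_iff.2 ((h.sup_eq m).ge.trans
      (sup_le le_sup_left (e.le.trans (sup_le_sup_right (le_nrm_self _) _)))))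
    refine ⟨c, ?_⟩
    have := relIndex_mul_card_inf ⁅_root_.commutator G, _root_.commutator G⁆ (zpowers x)
    rw [inf_comm, h.inf_eq d, card_bot, mul_one, ← relIndex_sup_right, ← e, h.card] at this
    rw [← c, ← this, relIndex_mul_card' l]
  refine ⟨⟨fun ⟨S, _, hS⟩ => ?_, ?_⟩, fun e => ⟨(h.of_eq e).2.2, ?_, (h.of_eq e).2.1⟩, k⟩
  · refine h.t_le.eq_or_lt.imp_right fun a => ⟨a, fun b => ?_⟩
    have d : ¬ p ∣ ord S := by
      rw [hS, hn, add_comm, Nat.dvd_add_right (dvd_mul_left _ _)]; exact hp.not_dvd_one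
    have l1 : _root_.commutator G ≤ zpowers x ⊔ S := (der_sup_le (le_nrm_of_normal _ _) (h.sup_of_card d hS).ge).trans
      (sup_le_sup_right ((der_le_cen_of_cyc (cyc_zpowers x) le_rfl le_rfl).trans h.cenP.le) _)
    have l2 := (der_sup_le (le_nrm_of_normal _ _) l1).trans
      (sup_le ((commutator_eq_bot_iff_le_centralizer.2 h.cenP.ge).le.trans bot_le) le_rfl)
    exact d (h.dvd_of_mem (l2 (b.ge (h.mem_der a.ne))))
  · rintro (e | ⟨a, b⟩)
    · exact ⟨_, inferInstance, (h.of_eq e).2.2⟩
    · exact ⟨_, inferInstance, (k a b).1⟩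
  · exact isCyclic_of_prime_card (p := p) (h.of_eq e).2.1

end Cfsg.Agent.S4509
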