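import Cfsg.Statements.S4513
import Cfsg.Agent.H9.Klein

set_option autoImplicit false
open Cfsg

namespace Cfsg.Agent.S4513
open H9 H3 MonoidAlgebra
open scoped Pointwise
set_option linter.style.haveILetI false
set_option linter.unusedVariables false


/-- Blocks of defect one for p = 2. Let M be a maximal ideal of the algebraic integers containing 2, B a 2-block of the finite group G whose defect group is the subgroup generated by an involution x, C = C_G(x), b a block of C inducing B and θ a member of b taking the same value at x as at 1 (there is exactly one). Then B consists of exactly two irreducible characters, which agree on every element of odd order, and they can be labelled χ₁, χ₂ with signs ε₁, ε₂ = ±1, ε₁ε₂ = −1, such that χᵢ(x y) = εᵢ θ(y) for every element y of C of odd order. -/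
theorem result {G : Type*} [Group G] [Finite G] (M : Ideal Cfsg.AlgInt) (hM : Cfsg.IsPModular 2 M) (x : G) (hx : orderOf x = 2)
    (B : Set (Cfsg.IrrCharacter G)) (hB : Cfsg.IsPBlock M B) (hBD : Cfsg.IsDefectGroup 2 M B (Subgroup.zpowers x))
    (b : Set (Cfsg.IrrCharacter ↥(Subgroup.centralizer ({x} : Set G)))) (hb : Cfsg.IsInducedBlock M (Subgroup.centralizer ({x} : Set G)) b B)
    (θ : Cfsg.IrrCharacter ↥(Subgroup.centralizer ({x} : Set G))) (hθ : θ ∈ b)
    (hθx : ∀ z : ↥(Subgroup.centralizer ({x} : Set G)), (z : G) = x → (θ : ↥(Subgroup.centralizer ({x} : Set G)) → ℂ) z = (θ : ↥(Subgroup.centralizer ({x} : Set G)) → ℂ) 1) :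
    Nat.card B = 2 ∧ (∀ χ ∈ B, ∀ ψ ∈ B, ∀ g : G, ¬ 2 ∣ orderOf g → (χ : G → ℂ) g = (ψ : G → ℂ) g) ∧
      ∃ χ₁ ∈ B, ∃ χ₂ ∈ B, χ₁ ≠ χ₂ ∧ ∃ ε₁ ε₂ : ℤ, (ε₁ = 1 ∨ ε₁ = -1) ∧ (ε₂ = 1 ∨ ε₂ = -1) ∧ ε₁ * ε₂ = -1 ∧
        ∀ y : ↥(Subgroup.centralizer ({x} : Set G)), ¬ 2 ∣ orderOf y →
          (χ₁ : G → ℂ) (x * y) = (ε₁ : ℂ) * (θ : ↥(Subgroup.centralizer ({x} : Set G)) → ℂ) y ∧ (χ₂ : G → ℂ) (x * y) = (ε₂ : ℂ) * (θ : ↥(Subgroup.centralizer ({x} : Set G)) → ℂ) y := by
  classical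
  haveI : PMod 2 M := ⟨hM⟩
  haveI := Fintype.ofFinite G
  lift b to Bl M (cen1 x) using hb.1
  lift B to Bl M G using hB
  have hp : IsPElt 2 x := ⟨1, hx⟩
  have hi := isInducedBlock_iff.1 hb
  have h : MaxP B (Subgroup.zpowers x) b.E := ⟨(ind_cen1_iff hp).1 hi, adef_top_iff.2 hBD⟩
  have hf := h.fr_of_cyclic
  have hc : Nat.card (Subgroup.zpowers x) = 2 := by rw [Nat.card_zpowers, hx]
  have hm := Subgroup.mem_zpowers x
  have h1 : x ≠ 1 := by rintro rfl; simp at hx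
  have hs : sbl _ b.E x = b := h.bp.sbl_eq (Sub.refl _ _)
  have hθ' : θ ∈ (sbl _ b.E x).1 := hs.symm ▸ hθ
  obtain ⟨hk, ε, hε⟩ := hf.sign (by omega) hm hx hθ'
  have hΦ := (hf.flat hm h1).ph hp hθ'
  rw [hc] at hk
  obtain ⟨χ₁, χ₂, hne, hB⟩ := Set.ncard_eq_two.1 hk
  have m1 : χ₁ ∈ B.1 := hB ▸ Set.mem_insert _ _
  have m2 : χ₂ ∈ B.1 := hB ▸ Set.mem_insert_of_mem _ rfl
  have hr : ∀ g, IsPRegular 2 g → (ε χ₁ : ℂ) * χ₁.1 g + ε χ₂ * χ₂.1 g = 0 := fun g hg => by
    have := hΦ.sum_conj (h.ind_sbl hm) (fun χ => ε χ) (fun χ hχ => (hε χ hχ).2) g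
    rw [hΦ.eq_zero_reg h1 hg, mul_zero, show Finset.univ.filter (· ∈ B.1) = {χ₁, χ₂} by
      ext; simp [hB], Finset.sum_pair hne] at this
    simpa using this
  have he : ε χ₁ * ε χ₂ = -1 := by
    have := hr 1 isPRegular_one
    rw [irr_deg, irr_deg] at this
    have this : ε χ₁ * charDegree χ₁.1 + ε χ₂ * charDegree χ₂.1 = 0 := by exact_mod_cast this
    have p1 := charDegree_ne_zero χ₁.2
    rcases (hε _ m1).1 with e | e <;> rcases (hε _ m2).1 with e' | e' <;> rw [e, e'] at this ⊢ <;> omega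
  have hr' : ∀ g, IsPRegular 2 g → χ₁.1 g = χ₂.1 g := fun g hg => by
    have := hr g hg
    rcases (hε _ m1).1 with e | e <;> rcases (hε _ m2).1 with e' | e' <;> rw [e, e'] at he this
    · omega
    · push_cast at this; linear_combination this
    · push_cast at this; linear_combination -this
    · omega
  have hv : ∀ χ ∈ B.1, ∀ y : cen1 x, IsPRegular 2 y → χ.1 (x * y) = ε χ * θ.1 y := fun χ hχ y hy => by
    rw [h.eq_TS hm (fun v hv e => ?_) (blockPart_irr_of_mem hχ) (by rw [pp_selfC_mul hp hy]),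
      (hε χ hχ).2, Pi.smul_apply, lft_apply hp θ.2.isClassFunction hy, smul_eq_mul]
    obtain ⟨k, rfl⟩ := (mem_powers_iff_mem_zpowers.2 hv)
    rcases Nat.even_or_odd' k with ⟨k, rfl | rfl⟩
    · simp only [pow_mul, ← hx, pow_orderOf_eq_one, one_pow] at e
      exact absurd (isConj_one_left.1 e) h1
    · simp only [pow_succ, pow_mul, ← hx, pow_orderOf_eq_one, one_pow, one_mul]
      exact FC.refl h.bp hm
  refine ⟨hk, fun χ hχ ψ hψ g hg => ?_, χ₁, m1, χ₂, m2, hne, _, _, (hε _ m1).1, (hε _ m2).1, he,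
    fun y hy => ⟨hv _ m1 y hy, hv _ m2 y hy⟩⟩
  rw [hB] at hχ hψ
  rcases hχ with rfl | rfl <;> rcases hψ with rfl | rfl
  exacts [rfl, hr' g hg, (hr' g hg).symm, rfl]

end Cfsg.Agent.S4513
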