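import Cfsg.Statements.S4634
import Cfsg.Agent.H9.Cyc3

set_option autoImplicit false
open Cfsg

namespace Cfsg.Agent.S4634
open H9 H3 MonoidAlgebra
open scoped Pointwise
set_option linter.style.haveILetI false
set_option linter.unusedVariables false


/-- Let B be a block of the finite group G relative to a maximal ideal M of the algebraic integers containing the prime p, with a nontrivial cyclic defect group P, let c be a block of C_G(P) inducing B, T the stabilizer of c in N_G(P) and e the index of C_G(P) in T. Let F be any finite group of order #P · e having a cyclic subgroup Q of order #P that is its own centralizer (F is then the semidirect product of Q by a cyclic group of order e acting faithfully). Then there is a perfect isometry from the set of all irreducible characters of F onto B whose signs agree on all the characters of F that do not contain Q in their kernel. -/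
theorem result {G : Type*} [Group G] [Finite G] (p : ℕ) [Fact p.Prime] (M : Ideal Cfsg.AlgInt) (hM : Cfsg.IsPModular p M) (B : Set (Cfsg.IrrCharacter G)) (hB : Cfsg.IsPBlock M B) (P : Subgroup G) (hPD : Cfsg.IsDefectGroup p M B P) (hP1 : P ≠ ⊥) (hcyc : IsCyclic P) (c : Set (Cfsg.IrrCharacter (Subgroup.centralizer (P : Set G)))) (hc : Cfsg.IsInducedBlock M (Subgroup.centralizer (P : Set G)) c B) (T : Subgroup G) (hT : ∀ g : G, g ∈ T ↔ (g ∈ Subgroup.normalizer (P : Set G) ∧ Cfsg.StabilizesBlock (Subgroup.centralizer (P : Set G)) c g)) (e : ℕ) (he : (Subgroup.centralizer (P : Set G)).relIndex T = e) (F : Type*) [Group F] [Finite F] (hF : Nat.card F = Nat.card P * e) (Q : Subgroup F) (hQ : IsCyclic Q) (hQcard : Nat.card Q = Nat.card P) (hQC : Subgroup.centralizer (Q : Set F) = Q) : ∃ (I : Cfsg.IrrCharacter F → Cfsg.IrrCharacter G) (ε : Cfsg.IrrCharacter F → ℤ), Cfsg.IsPerfectIsometry p M (Set.univ : Set (Cfsg.IrrCharacter F)) B I ε ∧ ∀ η η' : Cfsg.IrrCharacter F, (∃ x ∈ Q, (η : F → ℂ) x ≠ (η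 : F → ℂ) 1) → (∃ x ∈ Q, (η' : F → ℂ) x ≠ (η' : F → ℂ) 1) → ε η = ε η' := by
  classical
  haveI : PMod p M := ⟨hM⟩
  haveI := Fintype.ofFinite G
  haveI := Fintype.ofFinite F
  lift c to Bl M (cen P) using hc.1
  lift B to Bl M G using hB
  have m := maxP_of_induced hPD hc
  obtain rfl := eq_stab_of_forall hT
  have hp := (Fact.out : p.Prime).one_lt
  have he' := (m.isCyclic_aE hP1).2
  replace he : ee P c.E = e := he
  rw [he] at he'
  have hlt : e < p := (Nat.le_of_dvd (by omega) he').trans_lt (by omega)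
  have hi : Q.index = e := Nat.eq_of_mul_eq_mul_left (Nat.card_pos (α := Q))
    (by rw [Q.card_mul_index, hF, hQcard])
  have hQp : IsPGroup p Q := IsPGroup.of_card (hQcard.trans m.card_eq)
  have hnd : ¬ p ∣ Q.index := Nat.not_dvd_of_pos_of_lt (Nat.pos_of_ne_zero Q.index_ne_zero_of_finite)
    (hi ▸ hlt)
  haveI : Q.Normal := normal_of_index_lt hQp (hi ▸ hlt)
  have m' := maxP_B0 (M := M) (H1.isSylowIn_top (hQp.toSylow hnd))
  rw [IsPGroup.toSylow_coe] at m'
  have hQ1 : Q ≠ ⊥ := fun h => hP1 (Subgroup.card_eq_one.1 (by rw [← hQcard, h, Subgroup.card_bot]))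
  let ι := Q.subtype.comp (mulEquivOfCyclicCardEq hQcard.symm).toMonoidHom
  have hι : Function.Injective ι := Subtype.val_injective.comp (MulEquiv.injective _)
  have hr : ι.range = Q := by
    rw [MonoidHom.range_comp, MonoidHom.range_eq_top.2 (MulEquiv.surjective _),
      ← MonoidHom.range_eq_map, Subgroup.range_subtype]
  have hE : ee Q (B0 M (cen Q)).E = e := by
    rw [ee, m'.inf_B0, show nrm Q = ⊤ from Subgroup.normalizer_eq_top Q, Subgroup.relIndex_top_right,
      show cen Q = Q from hQC, hi]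
  obtain ⟨Φ, ζ, ε, a, f⟩ := m.exists_full hP1
  obtain ⟨w, hw⟩ := Ex0.exc_B0 ⟨m'.fr_of_cyclic, hι, hr,
    eq_of_card_mulAut m.isPGroup (by rw [f.w.card_E, he]; exact he')
      (by rw [f.w.card_E, he, card_aE hι hr inf_le_left]; exact hE.symm)⟩
  obtain ⟨ζ', ε', a', f'⟩ := MaxP.full_of_exc hQ1 w
  obtain ⟨I, s, h, h'⟩ := f.perfect f'
  have hu : (B0 M F).1 = Set.univ := Set.eq_univ_of_forall fun χ =>
    mem_iff_blk_eq.2 (Bl.eq_of_cen_le hQp hQC.le _ _)
  refine ⟨I, s, hu ▸ h, fun η η' h1 h2 => ?_⟩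
  let N : Set (IrrCharacter F) := {η | ∃ x ∈ Q, η.1 x ≠ η.1 1}
  have hN : N.ncard ≤ (YY ζ').ncard := by
    have k1 := f'.x.card_B
    rw [f'.card_X, hE, hu, Nat.card_coe_set_eq, Nat.card_coe_set_eq, ← Set.union_compl_self N,
      Set.ncard_union_eq disjoint_compl_right] at k1
    have k2 : Nat.card (triv Q) ≤ Nat.card (Nᶜ : Set _) := Nat.card_le_card_of_injective
      (fun ω => ⟨⟨_, lf_irr ω.1⟩, fun ⟨x, hx, e⟩ => e (by simp [mem_triv.1 ω.2 x hx])⟩)
      fun ω ω' e => Subtype.ext (lf_injective (congrArg (·.1.1) e))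
    rw [card_triv _ (hQC ▸ commutator_le_cen_of_cyclic Q), hi, Nat.card_coe_set_eq] at k2
    omega
  by_cases k : Nat.card (aE P.subtype (nrm P ⊓ stab c.E)) + 1 = Nat.card P
  · have := f'.x.card_YY f'.w.fa
    rw [← k, add_left_inj, Nat.mul_eq_right Nat.card_pos.ne', Nat.card_coe_set_eq] at this
    rw [(Set.ncard_le_one (Set.toFinite _)).1 (hN.trans this.le) η h1 η' h2]
  · have : YY ζ' = N := Set.eq_of_subset_of_ncard_le (fun χ hχ => by
      by_contra h0
      simp only [N, Set.mem_setOf_eq, not_exists, not_and, not_not] at h0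
      exact k (f'.x.card_of_const w hχ fun u hu =>
        (hw χ (f'.x.YY_sub hχ) u hu).trans (h0 _ (w.mem u)))) hN
    rw [h' η (this ▸ h1), h' η' (this ▸ h2)]

end Cfsg.Agent.S4634
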