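import Cfsg.Statements.S4638
import Cfsg.Agent.H9.Cyc3

set_option autoImplicit false
open Cfsg

namespace Cfsg.Agent.S4638
open H9 H3 MonoidAlgebra
open scoped Pointwise
set_option linter.style.haveILetI false
set_option linter.unusedVariables false


/-- Let B be a block of the finite group G relative to a maximal ideal M of the algebraic integers containing 2, with a Klein four defect group P, and let c be its Brauer correspondent: the block of N_G(P) with defect group P that induces B. Then there is a perfect isometry from c onto B. -/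
theorem result {G : Type*} [Group G] [Finite G] (M : Ideal Cfsg.AlgInt) (hM : Cfsg.IsPModular 2 M) (B : Set (Cfsg.IrrCharacter G)) (hB : Cfsg.IsPBlock M B) (P : Subgroup G) (hPD : Cfsg.IsDefectGroup 2 M B P) (hV : IsKleinFour P) (c : Set (Cfsg.IrrCharacter (Subgroup.normalizer (P : Set G)))) (hcD : Cfsg.IsDefectGroup 2 M c (P.subgroupOf (Subgroup.normalizer (P : Set G)))) (hc : Cfsg.IsInducedBlock M (Subgroup.normalizer (P : Set G)) c B) : ∃ (I : Cfsg.IrrCharacter (Subgroup.normalizer (P : Set G)) → Cfsg.IrrCharacter G) (ε : Cfsg.IrrCharacter (Subgroup.normalizer (P : Set G)) → ℤ), Cfsg.IsPerfectIsometry 2 M c B I ε := by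
  haveI : PMod 2 M := ⟨hM⟩
  haveI := Fintype.ofFinite G
  haveI := Fintype.ofFinite (nrm P)
  lift c to Bl M (nrm P) using hc.1
  lift B to Bl M G using hB
  have hP : P ≤ nrm P := Subgroup.le_normalizer
  obtain ⟨b, b', m, m', e⟩ := exists_ex0_of_ind (isInducedBlock_iff.1 hc) hPD le_rfl hcD
  have h4 : Nat.card P = 4 := hV.card_four
  have h4' : Nat.card (P.subgroupOf (nrm P)) = 4 :=
    (Nat.card_congr (Subgroup.subgroupOfEquivOfLe hP).toEquiv).trans h4
  have h2 : ∀ x ∈ P, x ^ 2 = 1 := fun x hx => congrArg Subtype.val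
    (hV.exponent_two ▸ Monoid.pow_exponent_eq_one (⟨x, hx⟩ : P))
  haveI : Nontrivial P := Finite.one_lt_card_iff_nontrivial.1 (by omega)
  obtain ⟨k1, -, -, k2⟩ := m.klein h4
  obtain ⟨k1', -, -, k2'⟩ := m'.klein h4'
  have x : Ex0 c _ b' _ _ := ⟨k1', Subgroup.inclusion_injective hP, Subgroup.inclusion_range hP, e.symm⟩
  obtain ⟨ζ, ε, a, f⟩ := (k1.ex0.exc_of_klein h4.le h2 B.rep_mem).full (k1.ex0.card_E.trans k2.symm).le
  obtain ⟨ζ', ε', a', f'⟩ := (x.exc_of_klein h4'.le (fun x hx => Subtype.ext (h2 x hx))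
    c.rep_mem).full (x.card_E.trans k2'.symm).le
  obtain ⟨I, s, h, -⟩ := f.perfect f'
  exact ⟨I, s, h⟩

end Cfsg.Agent.S4638
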