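import Cfsg.Statements.S4640
import Cfsg.Agent.H9.Misc3
import Cfsg.Agent.H3.Det

set_option autoImplicit false
open Cfsg

namespace Cfsg.Agent.S4640
open H9 H3 MonoidAlgebra
open scoped Pointwise
set_option linter.style.haveILetI false
set_option linter.unusedVariables false


/-- Let N be a normal subgroup of the finite group G of index a power of the prime p, M a maximal ideal of the algebraic integers containing p, b a block of N stabilized by every element of G, and B a block of G covering b (some member of B has a member of b as a constituent of its restriction to N). Suppose that B has a commutative defect group P. Then G = NP and P ∩ N is a defect group of b; every member of B restricts to a member of b; every member of b is the restriction of exactly [G : N] members of B; B contains exactly [G : N] times as many irreducible characters as b; and B and b have the same p-regular rank. -/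
theorem result {G : Type*} [Group G] [Fintype G] (p : ℕ) [Fact p.Prime] (M : Ideal Cfsg.AlgInt) (hM : Cfsg.IsPModular p M) (N : Subgroup G) [N.Normal] [Fintype N] (hNi : ∃ k : ℕ, N.index = p ^ k) (b : Set (Cfsg.IrrCharacter N)) (hb : Cfsg.IsPBlock M b) (hstab : ∀ g : G, Cfsg.StabilizesBlock N b g) (B : Set (Cfsg.IrrCharacter G)) (hB : Cfsg.IsPBlock M B) (hcov : ∃ χ ∈ B, ∃ θ ∈ b, Cfsg.classInner (fun n : N => (χ : G → ℂ) n) (θ : N → ℂ) ≠ 0) (P : Subgroup G) (hPD : Cfsg.IsDefectGroup p M B P) (hPab : ∀ x ∈ P, ∀ y ∈ P, x * y = y * x) : N ⊔ P = ⊤ ∧ Cfsg.IsDefectGroup p M b ((P ⊓ N).subgroupOf N) ∧ (∀ χ ∈ B, ∃ θ ∈ b, ∀ n : N, (χ : G → ℂ) n = (θ : N → ℂ) n) ∧ (∀ θ ∈ b, Nat.card {χ : Cfsg.IrrCharacter G // χ ∈ B ∧ ∀ n : N, (χ : G → ℂ) n = (θ : N → ℂ) n} = N.index) ∧ Nat.card B = N.index * Nat.card b ∧ Cfsg.blockRank p B = Cfsg.blockRank p b := by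
  classical
  haveI : PMod p M := ⟨hM⟩
  lift b to Bl M N using hb
  lift B to Bl M G using hB
  obtain ⟨k, hk⟩ := hNi
  have hc := cov_subtype_iff.1 hcov
  have hf : b.E ∈ Fix (RF M) ⊤ := le_stab_iff.1 fun g _ =>
    ((stabilizesBlock_iff).1 (hstab g)).2
  have hreg : ∀ g, IsPRegular p g → g ∈ N := fun g => mem_of_reg_of_index hk
  have e : B.e = b.E := (isBlk_top B).eq_of_mul_ne_zero
    (b.isBlk.isBlk_of_reg le_top (le_nrm_of_normal _ _) hf fun g _ => hreg g) hc
  have hD : ADef ⊤ b.E P := e ▸ adef_top_iff.2 hPD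
  have rb := b.isBlk.rb_top hf
  have h1 : N ⊔ P = ⊤ := rb.sup_eq hD (k := k) (by rwa [Subgroup.relIndex_top_right])
  have dec : ∀ g : G, ∃ n ∈ N, ∃ u ∈ P, n * u = g := fun g =>
    (Subgroup.mem_sup_of_normal_left ..).1 (h1.ge (Subgroup.mem_top g))
  have hcm : commutator G ≤ N := by
    rw [← Subgroup.Normal.quotient_commutative_iff_commutator_le]
    refine ⟨⟨fun x y => ?_⟩⟩
    obtain ⟨x, rfl⟩ := QuotientGroup.mk_surjective x
    obtain ⟨y, rfl⟩ := QuotientGroup.mk_surjective y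
    obtain ⟨n, hn, u, hu, rfl⟩ := dec x
    obtain ⟨m, hm, v, hv, rfl⟩ := dec y
    simp only [QuotientGroup.mk_mul, (QuotientGroup.eq_one_iff _).2 hn, (QuotientGroup.eq_one_iff _).2 hm,
      one_mul]
    rw [← QuotientGroup.mk_mul, hPab u hu v hv, QuotientGroup.mk_mul]
  obtain ⟨a, ha⟩ := exists_maxP_of_isDef hPD
  have h2 : ∀ χ ∈ B.1, ∀ l ∈ triv N, lf l * χ.1 = χ.1 → l = 1 := fun χ hχ l hl h => by
    ext g
    obtain ⟨n, hn, u, hu, rfl⟩ := dec g
    rw [map_mul, mem_triv.1 hl n hn, one_mul]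
    by_contra h0
    refine ha.TS_ne_zero hu hχ (.inr (Subgroup.mem_centralizer_iff.2 fun v hv => hPab v hv u hu))
      (TT_of_section_zero (isPElt_of_mem ha.isPGroup hu) _ fun g hg => eq_zero_of_lstab (mem_lstab.2 h) fun h3 => h0 ?_)
    rw [← pp_mul_pq (p := p) g, map_mul, mem_triv.1 hl _ (hreg _ (isPRegular_pq g)), mul_one,
      ← isConj_iff_eq.1 (l.map_isConj hg)] at h3
    rw [h3]; rfl
  have h3 : ∀ χ ∈ B.1, IsIrrCharacter N fun n : N => χ.1 n := fun χ hχ =>
    (χ.2.isCharacter.res N).isIrr_of_inner_self (by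
      rw [inner_res_eq_card hcm χ.2, show triv N ⊓ lstab χ.1 = ⊥ from eq_bot_iff.2 fun l hl => h2 χ hχ l hl.1 hl.2,
        Subgroup.card_bot, Nat.cast_one])
  have h4 : ∀ χ (h : χ ∈ B.1), (⟨_, h3 χ h⟩ : IrrCharacter N) ∈ b.1 := fun χ h =>
    Bl.mem_of_under hc hf h ((h3 χ h).inner_self.trans_ne one_ne_zero)
  have h5 : ∀ θ ∈ b.1, ∃ χ ∈ B.1, (fun n : N => χ.1 n) = θ.1 := fun θ hθ => by
    obtain ⟨χ, hχ, h⟩ := Bl.exists_over hc hθ
    exact ⟨χ, hχ, (h3 χ hχ).eq_of_inner_ne_zero θ.2 h⟩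
  have h6 : ∀ θ ∈ b.1, Nat.card {χ : IrrCharacter G // χ ∈ B.1 ∧ ∀ n : N, χ.1 n = θ.1 n} = N.index := by
    intro θ hθ
    obtain ⟨χ, hχ, h⟩ := h5 θ hθ
    have h7 : ∀ (l : triv N) (n : N), (lf l.1 * χ.1) n = θ.1 n := fun l n => by
      simp [mem_triv.1 l.2 n n.2, ← h]
    have h8 : ∀ l : triv N, (⟨_, χ.2.lf_mul l.1⟩ : IrrCharacter G) ∈ B.1 := fun l =>
      mem_iff_blk_eq.2 (Bl.eq_of_cov_of_reg hreg (cov_blk (mem_blk _) hθ (by
        rw [show (fun n : N => (lf l.1 * χ.1) n) = θ.1 from funext (h7 l), θ.2.inner_self]; exact one_ne_zero)) hc)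
    rw [← card_triv N hcm]
    refine (Nat.card_eq_of_bijective (fun l => ⟨_, h8 l, h7 l⟩) ⟨fun l l' e => ?_, fun ψ => ?_⟩).symm
    · have e' : lf l.1 * χ.1 = lf l'.1 * χ.1 := congrArg (·.1.1) e
      refine Subtype.ext (inv_mul_eq_one.1 (h2 χ hχ _ (mul_mem (inv_mem l.2) l'.2) ?_))
      rw [lf_mul, mul_assoc, ← e', ← mul_assoc, ← lf_mul, inv_mul_cancel, lf_one]; exact one_mul _
    · obtain ⟨l, hl, e⟩ := exists_lf_of_ext χ.2.isCharacter (h3 χ hχ) ψ.1.2.isCharacter
        ((funext ψ.2.2).trans h.symm)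
      exact ⟨⟨l, hl⟩, Subtype.ext (Subtype.ext e)⟩
  refine ⟨h1, (isDef_subgroupOf_iff inf_le_right).2 (rb.adef_inf hD), fun χ h => ⟨_, h4 χ h, fun _ => rfl⟩,
    h6, ?_, ?_⟩
  · let r : B.1 → b.1 := fun χ => ⟨_, h4 χ.1 χ.2⟩
    rw [Nat.card_congr (Equiv.sigmaFiberEquiv r).symm, Nat.card_sigma, Finset.sum_congr rfl (g := fun _ => N.index)
      fun θ _ => ?_]
    · simp [mul_comm]
    rw [← h6 θ.1 θ.2]
    exact Nat.card_congr ⟨fun χ => ⟨χ.1.1, χ.1.2, fun n => congrFun (congrArg (·.1.1) χ.2) n⟩,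
      fun χ => ⟨⟨χ.1, χ.2.1⟩, Subtype.ext (Subtype.ext (funext χ.2.2))⟩, fun _ => rfl, fun _ => rfl⟩
  · let r : (G → ℂ) →ₗ[ℂ] (N → ℂ) := LinearMap.funLeft ℂ ℂ Subtype.val
    have h7 : ∀ θ : G → ℂ, r (pRegularPart p θ) = pRegularPart p fun n : N => θ n := fun θ => funext fun n => by
      by_cases h : IsPRegular p n
      · rw [pRegularPart_of_reg h]; exact pRegularPart_of_reg (by simpa [IsPRegular] using h)
      · rw [pRegularPart_of_not_reg h]; exact pRegularPart_of_not_reg (by simpa [IsPRegular] using h)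
    have h8 : (Submodule.span ℂ ((fun χ : IrrCharacter G => pRegularPart p χ.1) '' B.1)).map r =
        Submodule.span ℂ ((fun χ : IrrCharacter N => pRegularPart p χ.1) '' b.1) := by
      rw [Submodule.map_span, Set.image_image]
      congr 1
      ext f
      refine ⟨?_, ?_⟩
      · rintro ⟨χ, h, rfl⟩; exact ⟨_, h4 χ h, (h7 _).symm⟩
      · rintro ⟨θ, h, rfl⟩
        obtain ⟨χ, hχ, e⟩ := h5 θ h
        exact ⟨χ, hχ, by simp only [h7, e]⟩
    rw [blockRank, blockRank, ← h8]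
    rw [← LinearMap.range_domRestrict, LinearMap.finrank_range_of_inj]
    refine (injective_iff_map_eq_zero _).2 fun f hf => Subtype.ext (funext fun g => ?_)
    by_cases hg : g ∈ N
    · exact congrFun hf ⟨g, hg⟩
    · refine Submodule.span_induction (p := fun f _ => f g = 0) ?_ rfl (fun _ _ _ _ a b => by simp [a, b])
        (fun _ _ _ a => by simp [a]) f.2
      rintro _ ⟨χ, -, rfl⟩
      exact pRegularPart_of_not_reg fun h => hg (hreg g h)

end Cfsg.Agent.S4640
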