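import Cfsg.Statements.S4641
import Cfsg.Agent.H9.Misc3

set_option autoImplicit false
open Cfsg

namespace Cfsg.Agent.S4641
open H9 H3 MonoidAlgebra
open scoped Pointwise
set_option linter.style.haveILetI false
set_option linter.unusedVariables false


/-- Let B be a block of the finite group G relative to a maximal ideal M of the algebraic integers containing the prime p, let p^a be the p-part of the order of G and p^d the order of a defect group D of B, and let g be the greatest common divisor of the degrees of the members of B. Then the p-part of g is exactly p^(a−d), and writing g = p^(a−d)·u there is a positive integer v, prime to p and at least the p-regular rank of B (its number of irreducible Brauer characters), with Σ_{χ ∈ B} χ(1)² = p^(2a−d)·u²·v. -/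
theorem result {G : Type*} [Group G] [Finite G] (p : ℕ) [Fact p.Prime] (M : Ideal Cfsg.AlgInt) (hM : Cfsg.IsPModular p M) (B : Set (Cfsg.IrrCharacter G)) (hB : Cfsg.IsPBlock M B) (D : Subgroup G) (hD : Cfsg.IsDefectGroup p M B D) (a d : ℕ) (ha : (Nat.card G).factorization p = a) (hd : Nat.card D = p ^ d) (g : ℕ) (hg1 : ∀ χ ∈ B, g ∣ Cfsg.charDegree (χ : G → ℂ)) (hg2 : ∀ g' : ℕ, (∀ χ ∈ B, g' ∣ Cfsg.charDegree (χ : G → ℂ)) → g' ∣ g) : g.factorization p = a - d ∧ ∃ v : ℕ, 0 < v ∧ ¬ p ∣ v ∧ Cfsg.blockRank p B ≤ v ∧ ∑ᶠ χ ∈ B, Cfsg.charDegree (χ : G → ℂ) ^ 2 = p ^ (2 * a - d) * (g / p ^ (a - d)) ^ 2 * v := by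
  classical
  haveI : PMod p M := ⟨hM⟩
  haveI := Fintype.ofFinite G
  lift B to Bl M G using hB
  obtain rfl : blockDefect p B.1 = d := Nat.pow_right_injective (Fact.out : p.Prime).two_le
    ((Bl.IsDef.card_eq hD).symm.trans hd)
  have hm := B.minv_add_defect
  rw [ha] at hm
  obtain ⟨ψ, hψ, e⟩ := B.exists_eq_minv
  have g0 : g ≠ 0 := fun h => charDegree_ne_zero ψ.2 (Nat.eq_zero_of_zero_dvd (h ▸ hg1 ψ hψ))
  have h1 : p ^ B.minv ∣ g := hg2 _ fun χ h =>
    ((Fact.out : p.Prime).pow_dvd_iff_le_factorization (charDegree_ne_zero χ.2)).2 (Bl.minv_le h)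
  have h2 : g.factorization p = B.minv := le_antisymm (e ▸ (Nat.factorization_le_iff_dvd g0
    (charDegree_ne_zero ψ.2)).2 (hg1 ψ hψ) p) (((Fact.out : p.Prime).pow_dvd_iff_le_factorization g0).1 h1)
  rw [show a - blockDefect p B.1 = B.minv by omega, show 2 * a - blockDefect p B.1 = B.minv + a by omega]
  obtain ⟨u, rfl⟩ := h1
  have hu : ¬ p ∣ u := fun h => by
    rw [Nat.factorization_mul (p_pow_ne_zero _) (right_ne_zero_of_mul g0), Finsupp.add_apply,
      factorization_p_pow] at h2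
    exact ((Fact.out : p.Prime).factorization_pos_of_dvd (right_ne_zero_of_mul g0) h).ne' (by omega)
  rw [Nat.mul_div_cancel_left _ (pow_pos (Fact.out : p.Prime).pos _), ← dimA_eq_finsum]
  obtain ⟨w⟩ := Wd.nonempty (RF M) (MonoidAlgebra (RF M) G)
  have h3 : dimA B.1 = ∑ i ∈ w.I B, w.d i * ∑ χ with χ ∈ B.1, w.dec χ i * charDegree χ.1 := by
    simp only [dimA, Finset.mul_sum]
    rw [Finset.sum_comm]
    refine Finset.sum_congr rfl fun χ hχ => ?_
    rw [pow_two]
    nth_rw 1 [w.deg_eq_sum_dec (Finset.mem_filter.1 hχ).2]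
    rw [Finset.sum_mul]
    exact Finset.sum_congr rfl fun _ _ => by ring
  have h4 : ∀ i ∈ w.I B, ∃ v, 0 < v ∧ w.d i * ∑ χ with χ ∈ B.1, w.dec χ i * charDegree χ.1 =
      p ^ (B.minv + a) * u ^ 2 * v := fun i hi => by
    have e1 : w.Φ i 1 = (∑ χ with χ ∈ B.1, w.dec χ i * charDegree χ.1 : ℕ) := by
      simp [w.Φ_eq hi, irr_deg]
    obtain ⟨v, hv⟩ : p ^ (B.minv + a) * u ^ 2 ∣ w.d i * ∑ χ with χ ∈ B.1, w.dec χ i * charDegree χ.1 := by
      rw [show p ^ (B.minv + a) * u ^ 2 = p ^ B.minv * u * (p ^ a * u) by ring]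
      refine mul_dvd_mul ?_ (Nat.Coprime.mul_dvd_of_dvd_of_dvd
        (Nat.Coprime.pow_left _ ((Nat.Prime.coprime_iff_not_dvd Fact.out).2 hu)) ?_
        (Finset.dvd_sum fun χ h => ((dvd_mul_left _ _).trans (hg1 χ (Finset.mem_filter.1 h).2)).mul_left _))
      · obtain ⟨n, hn, -⟩ := (w.isGen_bc i).exists_coeff
        have := congrFun (w.bp_bc hi) 1
        simp only [w.bc_one, blockPart_apply, hn, irr_deg] at this
        rw [← Int.natCast_dvd_natCast, show (w.d i : ℤ) = ∑ χ with χ ∈ B.1, n χ * charDegree χ.1 by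
          exact_mod_cast this.symm]
        exact Finset.dvd_sum fun χ h => (Int.natCast_dvd_natCast.2 (hg1 χ (Finset.mem_filter.1 h).2)).mul_left _
      · obtain ⟨P⟩ : Nonempty (Sylow p G) := inferInstance
        have := RCh_one_div_card_mem (M := M) (char_mem_RCh (w.isCharacter_Φ i)) P fun x hx h1 =>
          w.Φ_eq_zero i fun h => h1 (eq_one_of_isPElt_of_isPRegular (isPElt_of_mem P.2 hx) h)
        rw [e1, P.card_eq_multiplicity, ha, ← Int.cast_natCast, int_div_pow_mem_LR_iff] at this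
        exact_mod_cast this
    refine ⟨v, Nat.pos_of_ne_zero ?_, hv⟩
    rintro rfl
    have := (w.isCharacter_Φ i).eq_zero_of_deg (by
      rw [e1, (mul_eq_zero.1 hv).resolve_left (w.d_pos i).ne', Nat.cast_zero])
    have h5 := w.inner_Φ (w.cf_bc i) i
    simp [this, w.tl_bc, classInner] at h5
  choose! v hv using h4
  have h5 : dimA B.1 = p ^ (B.minv + a) * u ^ 2 * ∑ i ∈ w.I B, v i := by
    rw [h3, Finset.mul_sum]; exact Finset.sum_congr rfl fun i hi => (hv i hi).2
  have h6 : blockRank p B.1 ≤ ∑ i ∈ w.I B, v i := by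
    rw [← w.card_I, Finset.card_eq_sum_ones]; exact Finset.sum_le_sum fun i hi => (hv i hi).1
  refine ⟨h2, _, B.rank_pos.trans_le h6, fun h => ?_, h6, h5⟩
  have h7 := B.factorization_dim
  have : p ^ (B.minv + a + 1) ∣ dimA B.1 := by
    rw [h5, pow_succ]; exact mul_dvd_mul (dvd_mul_right _ _) h
  rw [(Fact.out : p.Prime).pow_dvd_iff_le_factorization (dimA_ne_zero B.nonempty)] at this
  omega

end Cfsg.Agent.S4641
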