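import Cfsg.Statements.S4642
import Cfsg.Agent.H9.Misc2
import Cfsg.Agent.H1.LS2

set_option autoImplicit false
open Cfsg

namespace Cfsg.Agent.S4642
open H9 H3 MonoidAlgebra
open scoped Pointwise
set_option linter.style.haveILetI false
set_option linter.unusedVariables false


/-- Let G be a finite group, p a prime, M a maximal ideal of the algebraic integers containing p, K the largest normal subgroup of G of order prime to p, and L the preimage in G of the largest normal p-subgroup of G/K. Let Q be a Sylow p-subgroup of L and suppose C_G(Q) ≤ L. Let θ be an irreducible character of K invariant under conjugation by every element of G, and let B be the set of irreducible characters of G whose restriction to K contains θ. Then B is a block of G, every Sylow p-subgroup of G is a defect group of B, and B is of principal type: for every p-subgroup R of G exactly one block of C_G(R) induces B. -/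
theorem result {G : Type*} [Group G] [Fintype G] (p : ℕ) [Fact p.Prime] (M : Ideal Cfsg.AlgInt) (hM : Cfsg.IsPModular p M) (K : Subgroup G) (hK : K = Cfsg.pPrimeCore p G) [Fintype K] (L : Subgroup G) (hL : L = Cfsg.pPrimePCore p G) (Q : Subgroup G) (hQL : Q ≤ L) (hQp : IsPGroup p Q) (hQS : ¬ p ∣ Q.relIndex L) (hCQ : Subgroup.centralizer (Q : Set G) ≤ L) (θ : Cfsg.IrrCharacter K) (hθ : ∀ g : G, Cfsg.IsConjCharOf K g (θ : K → ℂ) (θ : K → ℂ)) (B : Set (Cfsg.IrrCharacter G)) (hBdef : ∀ χ : Cfsg.IrrCharacter G, χ ∈ B ↔ Cfsg.classInner (fun k : K => (χ : G → ℂ) k) (θ : K → ℂ) ≠ 0) : Cfsg.IsPBlock M B ∧ (∀ S : Sylow p G, Cfsg.IsDefectGroup p M B S) ∧ ∀ R : Subgroup G, IsPGroup p R → ∃! f : Set (Cfsg.IrrCharacter (Subgroup.centralizer (R : Set G))), Cfsg.IsInducedBlock M (Subgroup.centralizer (R : Set G)) f B := by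
  haveI : PMod p M := ⟨hM⟩
  subst hK hL
  have hK : ¬ p ∣ Nat.card (pPrimeCore p G) := not_dvd_pPrimeCore
  have hf : (blk M θ).E ∈ Zc (RF M) G := le_stab_iff.1 fun g _ =>
    inertia_le_stab (mem_blk θ) (mem_inertia'.2 fun n => hθ g n _ rfl)
  let π := QuotientGroup.mk' (pPrimeCore p G)
  have hπ : Function.Surjective π := QuotientGroup.mk'_surjective _
  have hk : π.ker = pPrimeCore p G := QuotientGroup.ker_mk' _
  have hc : ∀ R : Subgroup G, IsPGroup p R → cen (R.map π) = (cen R).map π := fun R hR =>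
    H1.coprime_centralizer_map' hπ (by
      obtain ⟨n, hn⟩ := IsPGroup.iff_card.1 hR
      rw [hn, hk]; exact (not_dvd_iff_coprime.1 hK).symm.pow_left n)
      (Or.inl (haveI := hR.isNilpotent; inferInstance))
  have h1 : cen (pCore p (G ⧸ pPrimeCore p G)) ≤ pCore p _ := by
    have h1 := (⟨hQL, hQp, hQS⟩ : H1.IsSylowIn p Q _).map π
    rw [show (pPrimePCore p G).map π = _ from Subgroup.map_comap_eq_self_of_surjective hπ _] at h1
    conv_lhs => rw [h1.eq_of_le H1.isPGroup_pCore le_rfl h1.le, hc Q hQp]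
    exact Subgroup.map_le_iff_le_comap.2 hCQ
  obtain ⟨B', hB⟩ := isBlk_top_iff.1 (IsBlk.isBlk_top_of_hom hπ (by rw [hk]; exact (blk M θ).isBlk) hf (by rw [hk]; exact hK) h1)
  have hs := fun D => ((blk M θ).isBlk.rb_top hf).adef_iff_sylow (D := D) hK
  simp only [← hB, adef_top_iff] at hs
  obtain rfl : B = B'.1 := Set.ext fun χ => (hBdef χ).trans ⟨fun h => by
    have := cov_blk (mem_blk (M := M) χ) (mem_blk θ) h
    by_contra h0
    rw [← hB, Bl.e_mul_of_ne (mem_iff_blk_eq.not.1 h0)] at this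
    exact this rfl, fun hχ => by
    obtain ⟨η, hη, h⟩ := Bl.exists_under (b := blk M θ)
      (by rw [← hB, B'.e_mul_self]; exact B'.e_ne_zero) hχ
    rw [blk_eq_singleton_of_not_dvd hK] at hη
    rwa [← Set.mem_singleton_iff.1 hη]⟩
  refine ⟨B'.2, fun P => (hs _).2 (H1.isSylowIn_top P), fun R hR => ?_⟩
  have h2 := (blk M θ).isBlk.isBlk_br_of_not_dvd hK hR (mem_Fix_of_mem_Zc hf R)
  rw [← hB] at h2
  obtain ⟨a, ha⟩ := h2.exists_eq_push (cen R).subtype_injective (by simp)
  let φ : cen R →* ↥(⊤ ⊓ cen (R.map π)) := (π.comp (cen R).subtype).codRestrict _ fun x =>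
    Subgroup.mem_inf.2 ⟨Subgroup.mem_top _, map_mem_centralizer_map _ x.2⟩
  have hφ : Function.Surjective φ := fun ⟨y, hy⟩ => by
    obtain ⟨x, hx, rfl⟩ := (hc R hR).le hy.2
    exact ⟨⟨x, hx⟩, rfl⟩
  have hφk : φ.ker.map (cen R).subtype = pPrimeCore p G ⊓ cen R := by
    simp only [φ]
    rw [MonoidHom.ker_codRestrict, ← MonoidHom.comap_ker, hk, Subgroup.map_comap_eq,
      Subgroup.range_subtype, inf_comm]
  have h3 : IsBlk ⊤ a := IsBlk.isBlk_top_of_hom hφ
    ((isBlk_push_iff (cen R).subtype_injective).1 (by rwa [hφk, ha])) (by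
      obtain ⟨w, hw, e⟩ := mem_ZS_iff_exists.1 (br_mem_ZS_cen (mem_Fix_of_mem_Zc B'.e_mem (cen R)))
      rwa [← push_injective (cen R).subtype_injective (e.trans ha.symm)])
    (fun h => hK (h.trans (by
      rw [← Subgroup.card_map_of_injective (cen R).subtype_injective, hφk]
      exact Subgroup.card_dvd_of_le inf_le_left)))
    (H1B.chp_iff.2 ((H1B.chp_top.1 h1).cen_pg (hR.map π) (le_nrm_top _)))
  obtain ⟨f, rfl⟩ := isBlk_top_iff.1 h3
  refine ⟨f.1, (isInducedBlock_cen_iff hR).2 (nsub_bot_iff.2 ⟨f.bp hR, ha ▸ f.isBlk.idem⟩), fun f' h => ?_⟩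
  lift f' to Bl M (cen R) using h.1
  have := (nsub_bot_iff.1 ((isInducedBlock_cen_iff hR).1 h)).2
  exact congrArg Subtype.val (Bl.E_inj (f.isBlk.eq_of_mul_ne_zero f'.isBlk
    (by rw [show f.E = _ from ha, this]; exact f'.isBlk.ne_zero))).symm

end Cfsg.Agent.S4642
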