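import Cfsg.Statements.S4644
import Cfsg.Agent.H9.Wat

set_option autoImplicit false
open Cfsg

namespace Cfsg.Agent.S4644
open H9 H3 MonoidAlgebra
open scoped Pointwise
set_option linter.style.haveILetI false
set_option linter.unusedVariables false


/-- Let B be a block of the finite group G relative to a maximal ideal M of the algebraic integers containing the prime p, with a commutative defect group P; let c be a block of C_G(P) inducing B and T the stabilizer of c in N_G(P). Let u be an element of P fixed under conjugation by every element of T, H = C_G(u) (so C_G(P) ≤ H), and f the block of H induced by c inside H. Then B and f have the same p-regular rank and the same number of irreducible characters. -/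
theorem result {G : Type*} [Group G] [Finite G] (p : ℕ) [Fact p.Prime] (M : Ideal Cfsg.AlgInt) (hM : Cfsg.IsPModular p M) (B : Set (Cfsg.IrrCharacter G)) (hB : Cfsg.IsPBlock M B) (P : Subgroup G) (hPD : Cfsg.IsDefectGroup p M B P) (hPab : ∀ x ∈ P, ∀ y ∈ P, x * y = y * x) (c : Set (Cfsg.IrrCharacter (Subgroup.centralizer (P : Set G)))) (hc : Cfsg.IsInducedBlock M (Subgroup.centralizer (P : Set G)) c B) (T : Subgroup G) (hT : ∀ g : G, g ∈ T ↔ (g ∈ Subgroup.normalizer (P : Set G) ∧ Cfsg.StabilizesBlock (Subgroup.centralizer (P : Set G)) c g)) (u : G) (hu : u ∈ P) (huT : ∀ g ∈ T, g * u * g⁻¹ = u) (H : Subgroup G) (hH : H = Subgroup.centralizer ({u} : Set G)) (f : Set (Cfsg.IrrCharacter H)) (hf : Cfsg.IsInducedBlockIn M H (Subgroup.centralizer (P : Set G)) c f) : Cfsg.blockRank p B = Cfsg.blockRank p f ∧ Nat.card B = Nat.card f := by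
  haveI : PMod p M := ⟨hM⟩
  subst hH
  lift c to Bl M (cen P) using hc.1
  lift B to Bl M G using hB
  lift f to Bl M (cen1 u) using hf.2.1
  have h := maxP_of_induced hPD hc
  obtain rfl := eq_stab_of_forall hT
  have hab : P ≤ cen P := fun x hx y hy => hPab y hy x hx
  have hQ := Subgroup.zpowers_le.2 hu
  have hl : cen P ≤ cen1 u := cen_zpowers u ▸ cen_anti hQ
  have hb := (isInducedBlockIn_iff_br hl h.isPGroup hab inf_le_right (cen_le_nrm P)).1 hf
  have hz := le_cen_of_comm hab hQ
  refine h.watanabe hab hu (fun g hg => mem_cen1.2 (huT g hg)) (NSub.sub ⟨⟨h.isPGroup.to_le hQ, ?_⟩, h.bp, hQ,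
    hz.trans (cen_le_nrm _), ?_, hb⟩)
  · rw [cen_zpowers]; exact isBlk_subtype f
  · exact le_stab_iff.1 ((cen_zpowers u ▸ hz).trans (isBlk_subtype f).le_stab)

end Cfsg.Agent.S4644
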