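import Cfsg.Statements.S4645
import Cfsg.Agent.H9.Klein

set_option autoImplicit false
open Cfsg

namespace Cfsg.Agent.S4645
open H9 H3 MonoidAlgebra
open scoped Pointwise
set_option linter.style.haveILetI false
set_option linter.unusedVariables false


/-- Let B be a block of the finite group G relative to a maximal ideal M of the algebraic integers containing the prime p, with a nontrivial cyclic defect group P; let c be a block of C_G(P) inducing B and T the stabilizer of c in N_G(P). Let Q be a nontrivial subgroup of P (so C_G(P) ≤ C_G(Q)), f the block of C_G(Q) induced by c inside C_G(Q), and T' the stabilizer of f in N_G(Q). Then T' = T·C_G(Q), the index of C_G(Q) in T' equals the index of C_G(P) in T, f has p-regular rank 1, and f is a nilpotent block of C_G(Q). -/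
theorem result {G : Type*} [Group G] [Finite G] (p : ℕ) [Fact p.Prime] (M : Ideal Cfsg.AlgInt) (hM : Cfsg.IsPModular p M) (B : Set (Cfsg.IrrCharacter G)) (hB : Cfsg.IsPBlock M B) (P : Subgroup G) (hPD : Cfsg.IsDefectGroup p M B P) (hP1 : P ≠ ⊥) (hcyc : IsCyclic P) (c : Set (Cfsg.IrrCharacter (Subgroup.centralizer (P : Set G)))) (hc : Cfsg.IsInducedBlock M (Subgroup.centralizer (P : Set G)) c B) (T : Subgroup G) (hT : ∀ g : G, g ∈ T ↔ (g ∈ Subgroup.normalizer (P : Set G) ∧ Cfsg.StabilizesBlock (Subgroup.centralizer (P : Set G)) c g)) (Q : Subgroup G) (hQP : Q ≤ P) (hQ1 : Q ≠ ⊥) (f : Set (Cfsg.IrrCharacter (Subgroup.centralizer (Q : Set G)))) (hf : Cfsg.IsInducedBlockIn M (Subgroup.centralizer (Q : Set G)) (Subgroup.centralizer (P : Set G)) c f) (T' : Subgroup G) (hT' : ∀ g : G, g ∈ T' ↔ (g ∈ Subgroup.normalizer (Q : Set G) ∧ Cfsg.StabilizesBlock (Subgroup.centralizer (Q : Set G)) f g)) : T' = T ⊔ Subgroup.centralizer (Q : Set G) ∧ (Subgroup.centralizer (Q : Set G)).relIndex T' = (Subgroup.centralizer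 (P : Set G)).relIndex T ∧ Cfsg.blockRank p f = 1 ∧ Cfsg.IsNilpotentBlock p M f := by
  haveI : PMod p M := ⟨hM⟩
  lift c to Bl M (cen P) using hc.1
  lift B to Bl M G using hB
  lift f to Bl M (cen Q) using hf.2.1
  have h := (maxP_of_induced hPD hc).fr_of_cyclic
  obtain rfl := eq_stab_of_forall hT
  obtain rfl := eq_stab_of_forall hT'
  have hs := ((isInducedBlockIn_cen_iff h.max.isPGroup h.ab hQP).1 hf).sub
  have hn := (h.max.nilp_iff_cen h.ab rfl hs).2 (h.inf_le hQP hQ1)
  have hN : nrm P ⊓ stab c.E ≤ nrm Q := inf_le_left.trans (nrm_le_nrm_of_cyclic hQP)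
  have e := h.max.stab_eq_sup (le_cen_of_comm h.ab hQP) hs hN
  refine ⟨e, ?_, hn.rank, Bl.nilp_iff.2 hn⟩
  rw [e, H1.relIndex_sup_of_le_normalizer (hN.trans (nrm_le_nrm_cen Q)), ← Subgroup.inf_relIndex_right]
  congr 1
  exact le_antisymm (h.inf_le hQP hQ1) (le_inf (cen_anti hQP) h.max.bp.cen_le)

end Cfsg.Agent.S4645
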