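import Cfsg.Statements.S4646
import Cfsg.Agent.H9.Rob

set_option autoImplicit false
open Cfsg

namespace Cfsg.Agent.S4646
open H9 H3 MonoidAlgebra
open scoped Pointwise
set_option linter.style.haveILetI false
set_option linter.unusedVariables false


/-- For a finite group G, a prime p and a maximal ideal M of the algebraic integers containing p: the principal block of G is nilpotent if and only if its p-regular rank is 1 (the trivial Brauer character is its only irreducible Brauer character). -/
theorem result {G : Type*} [Group G] [Finite G] (p : ℕ) [Fact p.Prime] (M : Ideal Cfsg.AlgInt) (hM : Cfsg.IsPModular p M) : Cfsg.IsNilpotentBlock p M (Cfsg.principalBlock M G) ↔ Cfsg.blockRank p (Cfsg.principalBlock M G) = 1 := by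
  classical
  haveI := Fintype.ofFinite G
  haveI : PMod p M := ⟨hM⟩
  rw [← B0_val, Bl.nilp_iff, B0_nilp_iff]
  have h1 : pRegularPart p (fun _ : G => (1 : ℂ)) ≠ 0 := fun h => by
    simpa [pRegularPart_of_reg isPRegular_one] using congrFun h 1
  constructor
  · intro h
    rw [blockRank, ← finrank_span_singleton (K := ℂ) h1]
    refine congrArg (fun S : Submodule ℂ (G → ℂ) => Module.finrank ℂ S) ?_
    refine le_antisymm (Submodule.span_le.2 ?_)
      (Submodule.span_mono (Set.singleton_subset_iff.2 ⟨trivChar G, trivChar_mem_B0, rfl⟩))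
    rintro _ ⟨χ, hχ, rfl⟩
    refine Submodule.mem_span_singleton.2 ⟨χ.1 1, ?_⟩
    rw [← pRegularPart_smul]
    exact reg_congr fun y hy => by simp [B0_reg_of_npc h hχ hy]
  · intro h
    have h2 : ∀ g : G, IsPRegular p g → g ∈ pPrimeCore p G := fun g hg =>
      mem_pPrimeCore_of_B0 (M := M) fun χ hχ => by
        obtain ⟨c, hc⟩ := (finrank_eq_one_iff_of_nonzero'
          (⟨_, Submodule.subset_span ⟨trivChar G, trivChar_mem_B0, rfl⟩⟩ : Submodule.span ℂ
            ((fun χ : IrrCharacter G => pRegularPart p (χ : G → ℂ)) '' (B0 M G).1))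
          (fun e => h1 (congrArg Subtype.val e))).1 h ⟨_, Submodule.subset_span ⟨χ, hχ, rfl⟩⟩
        have e := congrArg Subtype.val hc
        have e1 := congrFun e g
        have e2 := congrFun e 1
        simp only [Submodule.coe_smul, Pi.smul_apply, pRegularPart_of_reg hg,
          pRegularPart_of_reg isPRegular_one, trivChar] at e1 e2
        rw [← e1, ← e2]
    exact npc_of_forall_mul fun x y hx hy =>
      isPRegular_of_mem not_dvd_pPrimeCore (mul_mem (h2 x hx) (h2 y hy))

end Cfsg.Agent.S4646
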