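import Cfsg.Statements.S4648
import Cfsg.Agent.H9.Sym

set_option autoImplicit false
open Cfsg

namespace Cfsg.Agent.S4648
open H9 H3 MonoidAlgebra
open scoped Pointwise
set_option linter.style.haveILetI false
set_option linter.unusedVariables false


/-- Let B be a block of the finite group G relative to a maximal ideal M of the algebraic integers containing the prime p, with a nontrivial defect group D. If B has p-regular rank 1 and at most four irreducible characters, then B is nilpotent, D has exactly as many elements as B has irreducible characters, and p is 2 or 3. -/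
theorem result {G : Type*} [Group G] [Finite G] (p : ℕ) [Fact p.Prime] (M : Ideal Cfsg.AlgInt) (hM : Cfsg.IsPModular p M) (B : Set (Cfsg.IrrCharacter G)) (hB : Cfsg.IsPBlock M B) (D : Subgroup G) (hD : Cfsg.IsDefectGroup p M B D) (hD1 : D ≠ ⊥) (hl : Cfsg.blockRank p B = 1) (hk : Nat.card B ≤ 4) : Cfsg.IsNilpotentBlock p M B ∧ Nat.card D = Nat.card B ∧ (p = 2 ∨ p = 3) := by
  haveI : PMod p M := ⟨hM⟩; lift B to Bl M G using hB
  have hp : p.Prime := Fact.out
  have e := (Bl.IsDef.card_eq hD).trans (Bl.flat_of_card_le hl hk).card.symm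
  obtain ⟨b, h⟩ := exists_maxP_of_isDef hD
  have d1 : p ∣ Nat.card D := by
    rw [Bl.IsDef.card_eq hD]
    exact dvd_pow_self p fun h0 => hD1 (Subgroup.card_eq_one.1 (by rw [Bl.IsDef.card_eq hD, h0, pow_zero]))
  have l := (Nat.le_of_dvd Nat.card_pos d1).trans (e ▸ hk)
  have p2 := hp.two_le
  have c : p = 2 ∨ p = 3 := by
    interval_cases p
    · simp
    · simp
    · exact absurd hp (by decide)
  refine ⟨Bl.nilp_iff.2 ?_, e, c⟩
  by_cases h4 : Nat.card D = 4
  · obtain rfl : p = 2 := c.resolve_right (by rintro rfl; rw [h4] at d1; exact absurd d1 (by decide))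
    obtain ⟨f, -, -, r⟩ := h.klein h4
    exact (h.nilp_iff_ee f.ab).2 (r ▸ hl)
  · haveI : IsCyclic D := by
      refine isCyclic_of_prime_card (p := p) ?_
      obtain ⟨m, hm⟩ := d1
      have := Nat.card_pos (α := D)
      have : m = 1 := by
        rw [← e, hm] at hk
        rw [hm] at h4 this
        rcases m with _ | _ | m
        · simp at this
        · rfl
        · nlinarith [Nat.lt_of_le_of_ne hk h4]
      rw [hm, this, mul_one]
    exact (h.nilp_iff_ee h.fr_of_cyclic.ab).2 (h.rank_of_cyclic ▸ hl)

end Cfsg.Agent.S4648
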