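import Cfsg.Statements.S4649
import Cfsg.Agent.H9.Cyc2

set_option autoImplicit false
open Cfsg

namespace Cfsg.Agent.S4649
open H9 H3 MonoidAlgebra
open scoped Pointwise
set_option linter.style.haveILetI false
set_option linter.unusedVariables false


/-- A block with cyclic defect group, of a finite group relative to a maximal ideal M of the algebraic integers containing the prime p, is nilpotent if and only if its p-regular rank is 1 (it has a unique irreducible Brauer character). -/
theorem result {G : Type*} [Group G] [Finite G] (p : ℕ) [Fact p.Prime] (M : Ideal Cfsg.AlgInt) (hM : Cfsg.IsPModular p M) (B : Set (Cfsg.IrrCharacter G)) (hB : Cfsg.IsPBlock M B) (P : Subgroup G) (hPD : Cfsg.IsDefectGroup p M B P) (hcyc : IsCyclic P) : Cfsg.IsNilpotentBlock p M B ↔ Cfsg.blockRank p B = 1 := by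
  haveI : PMod p M := ⟨hM⟩
  lift B to Bl M G using hB
  obtain ⟨b, h⟩ := exists_maxP_of_isDef (B := B) hPD
  rw [Bl.nilp_iff, h.nilp_iff_ee le_cen_of_cyclic, h.rank_of_cyclic]

end Cfsg.Agent.S4649
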