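import Cfsg.Statements.S4651
import Cfsg.Agent.H9.Chain

set_option autoImplicit false
open Cfsg

namespace Cfsg.Agent.S4651
open H9 H3 MonoidAlgebra
open scoped Pointwise
set_option linter.style.haveILetI false
set_option linter.unusedVariables false


/-- An alternating-sum identity over chains of p-subgroups (the character-count form behind the chain reformulation of Alperin's weight conjecture, which holds unconditionally for the difference k − l). Let b be a block of the finite group G relative to a maximal ideal M of the algebraic integers containing the prime p. Consider the nonempty chains s = {Q_0 < Q_1 < ⋯ < Q_m} of nontrivial p-subgroups of G in which every member is normal in the largest member; let N_G(s) be the intersection of the normalizers of the members (the stabilizer of the chain), and let b_s be the set of irreducible characters of N_G(s) lying in blocks of N_G(s) that induce b. Then #G · (k(b) − l(b)) equals the sum over all such chains s of (−1)^m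 · #N_G(s) · (k(b_s) − l(b_s)), where k counts irreducible characters and l is the p-regular rank; equivalently, k(b) − l(b) is the alternating sum of k(b_s) − l(b_s) over representatives of the conjugacy classes of such chains. -/
theorem result {G : Type*} [Group G] [Finite G] (p : ℕ) [Fact p.Prime] (M : Ideal Cfsg.AlgInt) (hM : Cfsg.IsPModular p M) (b : Set (Cfsg.IrrCharacter G)) (hb : Cfsg.IsPBlock M b) : (Nat.card G : ℤ) * ((Nat.card b : ℤ) - (Cfsg.blockRank p b : ℤ)) = ∑ᶠ s ∈ {s : Finset (Subgroup G) | s.Nonempty ∧ (∀ Q ∈ s, ∀ R ∈ s, Q ≤ R ∨ R ≤ Q) ∧ (∀ Q ∈ s, Q ≠ ⊥ ∧ IsPGroup p Q) ∧ ∃ T ∈ s, ∀ Q ∈ s, Q ≤ T ∧ T ≤ Subgroup.normalizer ((Q : Subgroup G) : Set G)}, (-1 : ℤ) ^ (s.card - 1) * (Nat.card (((⨅ Q ∈ s, Subgroup.normalizer ((Q : Subgroup G) : Set G) : Subgroup G))) : ℤ) * ((Nat.card {ψ : Cfsg.IrrCharacter (((⨅ Q ∈ s, Subgroup.normalizer ((Q : Subgroup G) : Set G) : Subgroup G))) | ∃ β : Set (Cfsg.IrrCharacter (((⨅ Q ∈ s, Subgroup.normalizer ((Q : Subgroup G) :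 Set G) : Subgroup G)))), ψ ∈ β ∧ Cfsg.IsInducedBlock M (((⨅ Q ∈ s, Subgroup.normalizer ((Q : Subgroup G) : Set G) : Subgroup G))) β b} : ℤ) - (Cfsg.blockRank p {ψ : Cfsg.IrrCharacter (((⨅ Q ∈ s, Subgroup.normalizer ((Q : Subgroup G) : Set G) : Subgroup G))) | ∃ β : Set (Cfsg.IrrCharacter (((⨅ Q ∈ s, Subgroup.normalizer ((Q : Subgroup G) : Set G) : Subgroup G)))), ψ ∈ β ∧ Cfsg.IsInducedBlock M (((⨅ Q ∈ s, Subgroup.normalizer ((Q : Subgroup G) : Set G) : Subgroup G))) β b} : ℤ)) := by
  classical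
  haveI : PMod p M := ⟨hM⟩; lift b to Bl M G using hb
  haveI := Fintype.ofFinite (Subgroup G)
  have key := sum_chain (p := p) b.e_mem
  have c0 : PCh p (∅ : Finset (Subgroup G)) := ⟨by simp, by simp, by simp⟩
  rw [← Finset.add_sum_erase _ _ (a := ∅) (by simpa using c0)] at key
  have e0 : (Nat.card G : ℂ) * ((Nat.card b.1 : ℂ) - blockRank p b.1) = (Nat.card (chN (∅ : Finset (Subgroup G))) : ℂ) *
      ((Nat.card {χ | (blk M χ).lam (pull (RF M) (chN ∅).subtype b.e) ≠ 0} : ℂ) -
        blockRank p {χ | (blk M χ).lam (pull (RF M) (chN ∅).subtype b.e) ≠ 0}) := by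
    haveI := Fintype.ofFinite G
    haveI := Fintype.ofFinite (chN (∅ : Finset (Subgroup G)))
    have : b.1 = {χ | (blk M χ).lam b.e ≠ 0} := by
      ext χ; rw [mem_iff_blk_eq, Set.mem_ofPred_eq, Bl.lam_e]; simp
    rw [this, ← sum_F0, ← sum_F0]
    symm
    refine Finset.sum_bij (fun x _ => (x : G)) (fun x hx => by simpa [isPRegular_coe] using hx)
      (fun _ _ _ _ h => Subtype.ext h) (fun x hx => ⟨⟨x, by simp⟩, by simpa [← isPRegular_coe] using hx, rfl⟩) fun x _ => ?_
    have := F0_congr (ψ := (chN ∅).subtype) (ψ' := MonoidHom.id G) (Subgroup.subtype_injective _) (fun _ _ h => h)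
      (by ext; simp) b.e_mem (y := x) (y' := x) rfl
    rw [this]
    congr 1
    ext; simp
  apply Int.cast_injective (α := ℂ)
  rw [finsum_mem_eq_finite_toFinset_sum _ (Set.toFinite _)]
  push_cast
  rw [e0, Finset.card_empty, pow_zero, one_mul, add_eq_zero_iff_eq_neg] at *
  rw [key, ← Finset.sum_neg_distrib]
  symm
  refine Finset.sum_congr ?_ fun s hs => ?_
  · ext s
    simp only [Set.Finite.mem_toFinset, Set.mem_ofPred_eq, Finset.mem_erase, Finset.mem_filter, Finset.mem_univ, true_and,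
      ← Finset.nonempty_iff_ne_empty]
    refine and_congr_right fun hn => ⟨fun ⟨h1, h2, T, hT, h3⟩ => ⟨h1, h2, fun Q hQ R hR => (h3 R hR).1.trans (h3 Q hQ).2⟩,
      fun h => ⟨h.tot, h.pg, ?_⟩⟩
    obtain ⟨Q, hQ⟩ := hn
    have := h.sup_mem.resolve_right fun e => (h.pg Q hQ).1 (eq_bot_iff.2 (e ▸ Finset.le_sup (f := id) hQ))
    exact ⟨_, this, fun R hR => ⟨Finset.le_sup (f := id) hR, h.nr R hR _ this⟩⟩
  · obtain ⟨hn, h⟩ := Finset.mem_erase.1 hs
    have h := (Finset.mem_filter.1 h).2
    obtain ⟨Q, hQ⟩ := Finset.nonempty_iff_ne_empty.2 hn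
    have hd : ∀ c : Bl M (chN s), ∃ B, Ind (chN s).subtype c B := by
      have hT := h.sup_mem.resolve_right fun e => (h.pg Q hQ).1 (eq_bot_iff.2 (e ▸ Finset.le_sup (f := id) hQ))
      exact exists_ind_subgroup (h.pg _ hT).2 (fun g hg => mem_chN.2 fun R hR => h.nr R hR _ hT hg)
        (fun g hg => mem_chN.2 fun R hR => cen_le_nrm R (cen_anti (Finset.le_sup (f := id) hR) hg))
        fun g hg => mem_chN.1 hg _ hT
    have : {ψ : IrrCharacter (chN s) | ∃ β : Set (IrrCharacter (chN s)), ψ ∈ β ∧ IsInducedBlock M (chN s) β b.1} =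
        {χ | (blk M χ).lam (pull (RF M) (chN s).subtype b.e) ≠ 0} := by
      ext ψ
      simp only [Set.mem_ofPred_eq, ← ind_iff_of_exists (hd _), ← isInducedBlock_iff]
      refine ⟨fun ⟨β, h1, h2⟩ => ?_, fun h => ⟨_, mem_blk ψ, h⟩⟩
      lift β to Bl M (chN s) using h2.1
      rwa [blk_eq_of_mem h1]
    obtain ⟨k, hk⟩ := Nat.exists_eq_succ_of_ne_zero (Finset.card_ne_zero.2 ⟨Q, hQ⟩)
    rw [this, hk, Nat.succ_sub_one, pow_succ]; ring

end Cfsg.Agent.S4651
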