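import Cfsg.Statements.S4653
import Cfsg.Agent.H9.Trans

set_option autoImplicit false
open Cfsg

namespace Cfsg.Agent.S4653
open H9 H3 MonoidAlgebra
open scoped Pointwise
set_option linter.style.haveILetI false
set_option linter.unusedVariables false


/-- Fix a prime p and a maximal ideal M of the algebraic integers containing p. Let P be a normal p-subgroup of the finite group G and B a p-block of G. Then the idempotent of B is supported on C_G(P): its coefficient at every element of G outside C_G(P) is zero. -/
theorem result {G : Type*} [Group G] [Fintype G] (p : ℕ) [Fact p.Prime] (M : Ideal Cfsg.AlgInt) (hM : Cfsg.IsPModular p M) (P : Subgroup G) [P.Normal] (hP : IsPGroup p P) (B : Set (Cfsg.IrrCharacter G)) (hB : Cfsg.IsPBlock M B) (g : G) (hg : g ∉ Subgroup.centralizer (P : Set G)) : Cfsg.blockCoeff B g = 0 := by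
  haveI : PMod p M := ⟨hM⟩
  lift B to Bl M G using hB
  have := mem_ZS_of_toF (S := cen P) (T := ⊤) le_top
    (H1.le_normalizer_centralizer (le_nrm_of_normal ⊤ P)) B.fR_mul_self (mem_ZS_top.2 B.fR_mem)
    (br_eq_self_iff.1 (B.br_e_of_normal hP))
  rw [← B.coeff_fR, ZS_supp this g hg]; rfl

end Cfsg.Agent.S4653
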