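import Cfsg.Statements.S4654
import Cfsg.Agent.H9.Misc3

set_option autoImplicit false
open Cfsg

namespace Cfsg.Agent.S4654
open H9 H3 MonoidAlgebra
open scoped Pointwise
set_option linter.style.haveILetI false
set_option linter.unusedVariables false


/-- Fix a prime p and a maximal ideal M of the algebraic integers containing p. Let P be a normal p-subgroup of the finite group G, B a p-block of G and e a p-block of C_G(P) such that (P, e) is a Brauer pair of B (as P is normal, this says that e occurs in the idempotent of B, which is supported on C_G(P)). Let T be the stabilizer of e in G under conjugation. Then the idempotent of e is a block idempotent of T: some block E of T has, at every element of T, the same idempotent coefficient as e (zero off C_G(P)); and the idempotent of B is the sum of the distinct G-conjugates of the idempotent of e: its coefficient at g is the sum over all x in G of the coefficient of e at x⁻¹ g x, divided by the order of T. -/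
theorem result {G : Type*} [Group G] [Fintype G] (p : ℕ) [Fact p.Prime] (M : Ideal Cfsg.AlgInt) (hM : Cfsg.IsPModular p M) (P : Subgroup G) [P.Normal] (hP : IsPGroup p P) (B : Set (Cfsg.IrrCharacter G)) (e : Set (Cfsg.IrrCharacter (Subgroup.centralizer (P : Set G)))) (hBe : Cfsg.IsBrauerPairOf p M B P e) (T : Subgroup G) (hT : ∀ x : G, x ∈ T ↔ Cfsg.StabilizesBlock (Subgroup.centralizer (P : Set G)) e x) : (∃ E : Set (Cfsg.IrrCharacter T), Cfsg.IsPBlock M E ∧ ∀ t : T, Cfsg.blockCoeff E t = Cfsg.subgroupBlockCoeff (Subgroup.centralizer (P : Set G)) e (t : G)) ∧ ∀ g : G, Cfsg.blockCoeff B g = (Nat.card T : ℂ)⁻¹ * ∑ x : G, Cfsg.subgroupBlockCoeff (Subgroup.centralizer (P : Set G)) e (x⁻¹ * g * x) := by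
  haveI : PMod p M := ⟨hM⟩
  lift e to Bl M (cen P) using hBe.1.2
  lift B to Bl M G using hBe.2.1
  have h := nsub_bot_iff.1 (isBrauerPairOf_iff.1 hBe)
  haveI : (cen P).Normal := Subgroup.normal_centralizer
  obtain rfl : T = stab e.E := Subgroup.ext fun x => by
    rw [hT, stabilizesBlock_iff, and_iff_right (le_nrm_of_normal ⊤ _ (Subgroup.mem_top x))]
  have hl : Loc P e.E (stab e.E) := ⟨h.1, le_sup_left.trans h.1.sup_le_stab, le_sup_right.trans h.1.sup_le_stab,
    le_nrm_of_normal _ _, mem_Fix_stab _⟩
  obtain ⟨E, hE⟩ := hl.blk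
  refine ⟨⟨E.1, E.2, (Bl.coeff_eq_iff_E_eq hl.cen_le (le_nrm_of_normal _ _)).2 hE⟩, fun g => ?_⟩
  have h1 : B.e * e.E = e.E := by
    rw [← h.2, ← mul_assoc, (br_eq_self_iff.2 (ZS_supp ((isBlk_top B).mem_ZS_cen hP le_top (le_nrm_of_normal _ _)
      inf_le_right le_top))), B.e_mul_self]
  have h2 : idem B.1 = (Nat.card (stab e.E) : ℂ)⁻¹ • ∑ x, cj ℂ x e.FC := by
    refine (eq_idem_of_om (Subalgebra.smul_mem _ (mem_Fix_iff_cj.2 fun u _ => ?_) _) (fun χ hχ => ?_)
      fun χ hχ => ?_).symm
    · rw [map_sum]
      exact Fintype.sum_equiv (Equiv.mulLeft u) _ _ fun x => (cj_mul _ _ _).symm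
    · obtain ⟨ψ, hψ, e1⟩ := exists_over_of_chi rfl (Bl.chi_FR_ne_zero (h1.symm ▸ e.isBlk.ne_zero) hχ)
      have := chi_indFun_FC rfl hψ 1
      rw [← e1, mul_one, pull_one (stab e.E).subtype_injective, chi_one] at this
      simp only [om_apply, map_smul, map_sum, chi_cj χ.2.isClassFunction, this, smul_eq_mul]
      rw [e1, indFun_one, Finset.sum_const, Finset.card_univ, ← Nat.card_eq_fintype_card,
        ← (stab e.E).card_mul_index, nsmul_eq_mul]
      have := ψ.2.deg_ne_zero
      have := card_ne_zero (stab e.E)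
      have : ((stab e.E).index : ℂ) ≠ 0 := Nat.cast_ne_zero.2 Subgroup.index_ne_zero_of_finite
      push_cast; field_simp
    · have : chi χ.1 e.FC = 0 := by
        by_contra h0
        haveI := Fintype.ofFinite (cen P)
        obtain ⟨θ, hθ, h3⟩ := not_forall₂.1 (mt (chi_push_idem_eq_zero_iff _ _ χ.2.isCharacter).2 h0)
        refine cov_blk (mem_blk χ) hθ h3 ?_
        rw [← h1, ← mul_assoc, Bl.e_mul_of_ne fun e => hχ (mem_iff_blk_eq.2 e), zero_mul]
      simp only [om_apply, map_smul, map_sum, chi_cj χ.2.isClassFunction, this]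
      simp
  rw [← coeff_idem, h2, coeff_smul, Finsupp.smul_apply, coeff_sum_apply, smul_eq_mul]
  simp only [coeff_cj, coeff_push_idem]

end Cfsg.Agent.S4654
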