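import Cfsg.Statements.S4655
import Cfsg.Agent.H9.Trans

set_option autoImplicit false
open Cfsg

namespace Cfsg.Agent.S4655
open H9 H3 MonoidAlgebra
open scoped Pointwise
set_option linter.style.haveILetI false
set_option linter.unusedVariables false


/-- Fix a prime p and a maximal ideal M of the algebraic integers containing p. Let (P, e) be a Brauer pair of the finite group G (P a p-subgroup, e a p-block of C_G(P)) and Q a subgroup of P. Then there is exactly one p-block f of C_G(Q) such that the Brauer pair (Q, f) lies below (P, e). -/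
theorem result {G : Type*} [Group G] [Fintype G] (p : ℕ) [Fact p.Prime] (M : Ideal Cfsg.AlgInt) (hM : Cfsg.IsPModular p M) (P Q : Subgroup G) (e : Set (Cfsg.IrrCharacter (Subgroup.centralizer (P : Set G)))) (hPe : Cfsg.IsBrauerPair p M P e) (hQP : Q ≤ P) : ∃! f : Set (Cfsg.IrrCharacter (Subgroup.centralizer (Q : Set G))), Cfsg.IsPBlock M f ∧ Cfsg.SubpairLE p M Q f P e := by
  haveI : PMod p M := ⟨hM⟩
  lift e to Bl M (cen P) using hPe.2
  have hb := e.bp hPe.1
  obtain ⟨a, ha⟩ := exists_sub hb hQP
  obtain ⟨f, rfl⟩ := (ha.bp_left hb).exists_bl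
  refine ⟨f.1, ⟨f.2, subpairLE_iff.2 ha⟩, fun g ⟨hg, h⟩ => ?_⟩
  lift g to Bl M (cen Q) using hg
  rw [Bl.E_inj (Sub.unique hb (subpairLE_iff.1 h) ha)]

end Cfsg.Agent.S4655
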