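import Cfsg.Statements.S4656
import Cfsg.Agent.H9.Trans

set_option autoImplicit false
open Cfsg

namespace Cfsg.Agent.S4656
open H9 H3 MonoidAlgebra
open scoped Pointwise
set_option linter.style.haveILetI false
set_option linter.unusedVariables false


/-- Fix a prime p and a maximal ideal M of the algebraic integers containing p. Let (P, e) be a Brauer pair of the finite group G and Q a normal subgroup of P. Then there is exactly one p-block f of C_G(Q) that is stable under conjugation by P and such that e occurs in the Brauer-map image at P of the idempotent of f; that is, exactly one f with (Q, f) normally below (P, e). -/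
theorem result {G : Type*} [Group G] [Fintype G] (p : ℕ) [Fact p.Prime] (M : Ideal Cfsg.AlgInt) (hM : Cfsg.IsPModular p M) (P Q : Subgroup G) (e : Set (Cfsg.IrrCharacter (Subgroup.centralizer (P : Set G)))) (hPe : Cfsg.IsBrauerPair p M P e) (hQP : Q ≤ P) (hPN : P ≤ Subgroup.normalizer (Q : Set G)) : ∃! f : Set (Cfsg.IrrCharacter (Subgroup.centralizer (Q : Set G))), Cfsg.IsNormalSubpair p M Q f P e := by
  haveI : PMod p M := ⟨hM⟩
  lift e to Bl M (cen P) using hPe.2
  obtain ⟨a, ha⟩ := exists_nsub_below (e.bp hPe.1) hQP hPN
  obtain ⟨f, rfl⟩ := ha.left.exists_bl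
  refine ⟨f.1, isNormalSubpair_iff.2 ha, fun g h => ?_⟩
  lift g to Bl M (cen Q) using h.1.2
  rw [Bl.E_inj ((isNormalSubpair_iff.1 h).unique ha)]

end Cfsg.Agent.S4656
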