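import Cfsg.Statements.S4661
import Cfsg.Agent.H9.Trans

set_option autoImplicit false
open Cfsg

namespace Cfsg.Agent.S4661
open H9 H3 MonoidAlgebra
open scoped Pointwise
set_option linter.style.haveILetI false
set_option linter.unusedVariables false


/-- Fix a prime p and a maximal ideal M of the algebraic integers containing p. Let (P, e) be a maximal Brauer pair of the p-block B of the finite group G, Q ≤ P, and f the p-block of C_G(Q) with (Q, f) ≤ (P, e). Then C_P(Q) is contained in a defect group of f (as a block of the group C_G(Q)); and for some x in G the conjugate pair (x Q x⁻¹, conjugate of f) again lies below (P, e) and C_P(x Q x⁻¹) is a defect group of the conjugate of f in C_G(x Q x⁻¹). -/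
theorem result {G : Type*} [Group G] [Fintype G] (p : ℕ) [Fact p.Prime] (M : Ideal Cfsg.AlgInt) (hM : Cfsg.IsPModular p M) (B : Set (Cfsg.IrrCharacter G)) (P Q : Subgroup G) (e : Set (Cfsg.IrrCharacter (Subgroup.centralizer (P : Set G)))) (f : Set (Cfsg.IrrCharacter (Subgroup.centralizer (Q : Set G)))) (hmax : Cfsg.IsMaximalBrauerPair p M B P e) (hQP : Q ≤ P) (hf : Cfsg.IsPBlock M f) (hle : Cfsg.SubpairLE p M Q f P e) : (∃ D : Subgroup (Subgroup.centralizer (Q : Set G)), Cfsg.IsDefectGroup p M f D ∧ (P ⊓ Subgroup.centralizer (Q : Set G)).subgroupOf (Subgroup.centralizer (Q : Set G)) ≤ D) ∧ ∃ x : G, Cfsg.SubpairLE p M (Q.map (MulAut.conj x).toMonoidHom) (Cfsg.conjBlock Q x f) P e ∧ Cfsg.IsDefectGroup p M (Cfsg.conjBlock Q x f) ((P ⊓ Subgroup.centralizer ((Q.map (MulAut.conj x).toMonoidHom) : Set G)).subgroupOf (Subgroup.centralizer ((Q.map (MulAut.conj x).toMonoidHom) : Set G))) := by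
  haveI : PMod p M := ⟨hM⟩
  lift e to Bl M (cen P) using hmax.1.1.2
  lift B to Bl M G using hmax.1.2.1
  lift f to Bl M (cen Q) using hf
  rw [isMaximalBrauerPair_iff] at hmax
  rw [subpairLE_iff] at hle
  constructor
  · obtain ⟨D, hD, h1⟩ := exists_adef_ge (T := cen Q) inf_le_right
      (hmax.isPGroup.to_le inf_le_left) (hle.br_ne_cen hmax.bp)
    exact ⟨D.subgroupOf _, (isDefectGroup_subgroupOf_iff hD.le).2 hD, Subgroup.subgroupOf_mono _ h1⟩
  · obtain ⟨x, h1, h2⟩ := hmax.exists_conj_adef_cen hle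
    refine ⟨x, subpairLE_conj_iff.2 h1, ?_⟩
    rw [Bl.cjB_val, isDefectGroup_subgroupOf_iff inf_le_right, Bl.cjB_E]
    exact h2

end Cfsg.Agent.S4661
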