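import Cfsg.Statements.S4662
import Cfsg.Agent.H9.Trans

set_option autoImplicit false
open Cfsg

namespace Cfsg.Agent.S4662
open H9 H3 MonoidAlgebra
open scoped Pointwise
set_option linter.style.haveILetI false
set_option linter.unusedVariables false


/-- Fix a prime p and a maximal ideal M of the algebraic integers containing p. Let (P, e) be a maximal Brauer pair of the p-block B of the finite group G, Q ≤ P, and f the p-block of C_G(Q) with (Q, f) ≤ (P, e). Let T be the stabilizer of f in N_G(Q). Then the idempotent of f is a block idempotent of T, and N_P(Q) is contained in a defect group of that block of T; moreover for some x in G the conjugate pair (x Q x⁻¹, conjugate of f) again lies below (P, e) and, with T' the stabilizer of the conjugate of f in N_G(x Q x⁻¹), N_P(x Q x⁻¹) is a defect group of the block of T' whose idempotent is that of the conjugate of f. -/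
theorem result {G : Type*} [Group G] [Fintype G] (p : ℕ) [Fact p.Prime] (M : Ideal Cfsg.AlgInt) (hM : Cfsg.IsPModular p M) (B : Set (Cfsg.IrrCharacter G)) (P Q : Subgroup G) (e : Set (Cfsg.IrrCharacter (Subgroup.centralizer (P : Set G)))) (f : Set (Cfsg.IrrCharacter (Subgroup.centralizer (Q : Set G)))) (hmax : Cfsg.IsMaximalBrauerPair p M B P e) (hQP : Q ≤ P) (hf : Cfsg.IsPBlock M f) (hle : Cfsg.SubpairLE p M Q f P e) (T : Subgroup G) (hT : ∀ y : G, y ∈ T ↔ y ∈ Subgroup.normalizer (Q : Set G) ∧ Cfsg.StabilizesBlock (Subgroup.centralizer (Q : Set G)) f y) : (∃ F : Set (Cfsg.IrrCharacter T), Cfsg.IsPBlock M F ∧ (∀ t : T, Cfsg.blockCoeff F t = Cfsg.subgroupBlockCoeff (Subgroup.centralizer (Q : Set G)) f (t : G)) ∧ ∃ D : Subgroup T, Cfsg.IsDefectGroup p M F D ∧ (P ⊓ Subgroup.normalizer (Q : Set G)).subgroupOf T ≤ D) ∧ ∃ x : G, Cfsg.SubpairLE p M (Q.map (MulAut.conj x).toMonoidHom) (Cfsg.conjBlock Q x f) P e ∧ ∀ (T' : Subgroup G), (∀ y : G, y ∈ T' ↔ y ∈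 Subgroup.normalizer ((Q.map (MulAut.conj x).toMonoidHom) : Set G) ∧ Cfsg.StabilizesBlock (Subgroup.centralizer ((Q.map (MulAut.conj x).toMonoidHom) : Set G)) (Cfsg.conjBlock Q x f) y) → ∃ F' : Set (Cfsg.IrrCharacter T'), Cfsg.IsPBlock M F' ∧ (∀ t : T', Cfsg.blockCoeff F' t = Cfsg.subgroupBlockCoeff (Subgroup.centralizer ((Q.map (MulAut.conj x).toMonoidHom) : Set G)) (Cfsg.conjBlock Q x f) (t : G)) ∧ Cfsg.IsDefectGroup p M F' ((P ⊓ Subgroup.normalizer ((Q.map (MulAut.conj x).toMonoidHom) : Set G)).subgroupOf T') := by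
  haveI : PMod p M := ⟨hM⟩
  lift e to Bl M (cen P) using hmax.1.1.2
  lift B to Bl M G using hmax.1.2.1
  lift f to Bl M (cen Q) using hf
  rw [isMaximalBrauerPair_iff] at hmax
  rw [subpairLE_iff] at hle
  obtain rfl := eq_stab_of_forall hT
  constructor
  · have hl := (hle.bp_left hmax.bp).loc_stab
    obtain ⟨F, hF⟩ := hl.blk
    obtain ⟨D, hD, h1⟩ := exists_adef_ge (hle.inf_nrm_le_stab hmax.bp)
      (hmax.isPGroup.to_le inf_le_left) (hle.br_ne hmax.bp)
    exact ⟨F.1, F.2, (Bl.coeff_eq_iff_E_eq hl.cen_le hl.rb.norm).2 hF, D.subgroupOf _,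
      (isDefectGroup_subgroupOf_iff hD.le).2 ((congrArg (ADef _ · D) hF).mpr hD), Subgroup.subgroupOf_mono _ h1⟩
  · obtain ⟨x, h1, h2⟩ := hmax.exists_conj_adef_nrm hle
    refine ⟨x, subpairLE_conj_iff.2 h1, fun T' hT' => ?_⟩
    rw [Bl.cjB_val] at hT' ⊢
    obtain rfl := eq_stab_of_forall hT'
    rw [← f.cjB_E] at h1 h2
    have hl := (h1.bp_left hmax.bp).loc_stab
    obtain ⟨F, hF⟩ := hl.blk
    exact ⟨F.1, F.2, (Bl.coeff_eq_iff_E_eq hl.cen_le hl.rb.norm).2 hF,
      (isDefectGroup_subgroupOf_iff h2.le).2 ((congrArg (ADef _ · _) hF).mpr h2)⟩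

end Cfsg.Agent.S4662
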