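import Cfsg.Statements.S4664
import Cfsg.Agent.H9.Zsp

set_option autoImplicit false
open Cfsg

namespace Cfsg.Agent.S4664
open H9 H3 MonoidAlgebra
open scoped Pointwise
set_option linter.style.haveILetI false
set_option linter.unusedVariables false


/-- Fix a prime p and a maximal ideal M of the algebraic integers containing p, and let B be a p-block of the finite group G. Let m be the p'-part of the order of G and η = exp(2πi/m). Then every coefficient of the idempotent of B lies in the cyclotomic field ℚ(η). -/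
theorem result {G : Type*} [Group G] [Fintype G] (p : ℕ) [Fact p.Prime] (M : Ideal Cfsg.AlgInt) (hM : Cfsg.IsPModular p M) (B : Set (Cfsg.IrrCharacter G)) (hB : Cfsg.IsPBlock M B) (g : G) : Cfsg.blockCoeff B g ∈ IntermediateField.adjoin ℚ ({Complex.exp (2 * Real.pi * Complex.I / ((Nat.card G / p ^ (Nat.card G).factorization p : ℕ) : ℂ))} : Set ℂ) := by
  classical
  haveI : PMod p M := ⟨hM⟩
  lift B to Bl M G using hB
  by_cases hg : IsPRegular p g
  swap
  · rw [B.blockCoeff_eq_zero hg]; exact zero_mem _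
  set m := Nat.card G / p ^ (Nat.card G).factorization p with hm
  have m0 : m ≠ 0 := (Nat.ordCompl_pos p Nat.card_pos.ne').ne'
  have h1 : orderOf g ∣ m := by
    refine (Nat.Coprime.pow_right ((Nat.card G).factorization p)
      (isPRegular_iff_coprime.1 hg)).dvd_of_dvd_mul_left ?_
    rw [hm, Nat.ordProj_mul_ordCompl_eq_self]; exact orderOf_dvd_natCard g
  have h2 := Complex.isPrimitiveRoot_exp m m0
  rw [blockCoeff_eq]
  refine mul_mem (inv_mem (natCast_mem _ _)) (sum_mem fun χ _ => mul_mem ?_ ?_)
  · rw [irr_deg]; exact natCast_mem _ _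
  · obtain ⟨n, ε, -, e1, e2⟩ := χ.2.isCharacter.exists_roots g⁻¹
    rw [← χ.2.isCharacter.map_inv, ← zpow_one g⁻¹, e2]
    refine sum_mem fun i _ => ?_
    haveI : NeZero m := ⟨m0⟩
    obtain ⟨k, -, hk⟩ := h2.eq_pow_of_pow_eq_one (ξ := (ε i : ℂ)) (by
      obtain ⟨c, hc⟩ := h1
      rw [hc, ← orderOf_inv, pow_mul, ← Units.val_pow_eq_pow_val, e1]; simp)
    rw [zpow_one, ← hk]
    exact pow_mem (IntermediateField.mem_adjoin_simple_self _ _) _

end Cfsg.Agent.S4664
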