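import Cfsg.Statements.S4665
import Cfsg.Agent.H9.Zsp

set_option autoImplicit false
open Cfsg

namespace Cfsg.Agent.S4665
open H9 H3 MonoidAlgebra
open scoped Pointwise
set_option linter.style.haveILetI false
set_option linter.unusedVariables false


/-- Fix a prime p, a maximal ideal M of the algebraic integers containing p, and a p-block B of the finite group G, and let p^a be the p-part of the order of G. Let χ be an integer combination of the irreducible characters in B. If the function that agrees with χ on p-regular elements and vanishes on p-singular elements is again an integer combination of the irreducible characters in B, then p^a divides χ(1). -/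
theorem result {G : Type*} [Group G] [Fintype G] (p : ℕ) [Fact p.Prime] (M : Ideal Cfsg.AlgInt) (hM : Cfsg.IsPModular p M) (B : Set (Cfsg.IrrCharacter G)) (hB : Cfsg.IsPBlock M B) (χ : G → ℂ) (hχ : (∃ n : Cfsg.IrrCharacter G → ℤ, ∀ g : G, χ g = ∑ᶠ ψ ∈ B, (n ψ : ℂ) * (ψ : G → ℂ) g)) (h0 : (∃ n : Cfsg.IrrCharacter G → ℤ, ∀ g : G, Cfsg.pRegularPart p χ g = ∑ᶠ ψ ∈ B, (n ψ : ℂ) * (ψ : G → ℂ) g)) : ∃ k : ℤ, χ 1 = (p ^ (Nat.card G).factorization p : ℂ) * k := by
  classical
  obtain ⟨P⟩ : Nonempty (Sylow p G) := inferInstance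
  obtain ⟨k, hk⟩ := ((zspan_iff.1 h0).1.res (P : Subgroup G)).inner_int isIrrCharacter_one.isGen
  refine ⟨k, ?_⟩
  rw [H3.inner_one_right, Finset.sum_eq_single 1 (fun x _ hx => pRegularPart_of_not_reg fun h =>
    hx (Subtype.ext (eq_one_of_isPElt_of_isPRegular (isPElt_of_mem P.isPGroup' x.2) h))) (by simp),
    OneMemClass.coe_one, pRegularPart_of_reg isPRegular_one, P.card_eq_multiplicity] at hk
  rw [← hk]
  have p0 : (p : ℂ) ≠ 0 := Nat.cast_ne_zero.2 (Fact.out : p.Prime).ne_zero
  push_cast; field_simp

end Cfsg.Agent.S4665
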