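import Cfsg.Statements.S4668
import Cfsg.Agent.H9.Trans
import Cfsg.Agent.H1.Coprime

set_option autoImplicit false
open Cfsg

namespace Cfsg.Agent.S4668
open H9 H3 MonoidAlgebra
open scoped Pointwise
set_option linter.style.haveILetI false
set_option linter.unusedVariables false


/-- Fix a prime p and a maximal ideal M of the algebraic integers containing p. Let Q₀ < Q₁ < ⋯ < Q_m be a strictly increasing chain of p-subgroups of the finite group G and N the intersection of their normalizers. Then every block idempotent of N is supported on C_G(Q_m): for every p-block E of N, the idempotent coefficient of E vanishes at every element of N outside C_G(Q_m). -/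
theorem result {G : Type*} [Group G] [Fintype G] (p : ℕ) [Fact p.Prime] (M : Ideal Cfsg.AlgInt) (hM : Cfsg.IsPModular p M) (m : ℕ) (Q : Fin (m + 1) → Subgroup G) (hQ : StrictMono Q) (hQp : ∀ i, IsPGroup p (Q i)) (N : Subgroup G) (hN : ∀ g : G, g ∈ N ↔ ∀ i, g ∈ Subgroup.normalizer (Q i : Set G)) (E : Set (Cfsg.IrrCharacter N)) (hE : Cfsg.IsPBlock M E) (n : N) (hn : (n : G) ∉ Subgroup.centralizer (Q (Fin.last m) : Set G)) : Cfsg.blockCoeff E n = 0 := by
  haveI : PMod p M := ⟨hM⟩
  lift E to Bl M N using hE
  have hNQ : ∀ i, N ≤ nrm (Q i) := fun i g hg => (hN g).1 hg i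
  have h0 := E.isBlk.br_of_normal ((hQp (Fin.last m)).to_le (inf_le_right (a := N))) inf_le_left
    (H1.le_normalizer_inf Subgroup.le_normalizer (hNQ _))
  have key : ∀ i, br (RF M) (Q i) E.E = E.E := by
    refine fun i => br_eq_self_iff.2 fun x hx => by_contra fun hc => hx ?_
    have hxN := mem_of_coeff_ne_zero E.isBlk.mem_ZS hc
    have hxC : N ⊓ Q (Fin.last m) ≤ cen1 x := mem_centralizer_iff_le.1 (by
      by_contra h'; exact hc (br_eq_self_iff.1 h0 x h'))
    have hr : IsPRegular p x := isPRegular_coe.2 (E.isPRegular_of_coeff_e (g := ⟨x, hxN⟩)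
      (by rwa [coeff_push_subtype_of_mem _ hxN] at hc))
    clear hx
    induction i using Fin.induction with
    | zero =>
      exact mem_centralizer_iff_le.2 (le_trans (le_inf (fun g hg => (hN g).2 fun i =>
        Subgroup.le_normalizer (hQ.monotone (Fin.zero_le i) hg)) (hQ.monotone (Fin.zero_le _))) hxC)
    | succ i ih =>
      refine H1.thompson_PxQ (Q := Subgroup.zpowers x) (hQp i.castSucc)
        (by rw [Nat.card_zpowers]; exact ((Fact.out : p.Prime).coprime_iff_not_dvd.2 hr).symm)
        (by rw [centralizer_zpowers']; exact mem_centralizer_iff_le.1 ih) (hQp i.succ)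
        ((hQ.monotone i.castSucc_lt_succ.le).trans Subgroup.le_normalizer)
        ((Subgroup.zpowers_le_of_mem hxN).trans (hNQ _)) ?_ (Subgroup.mem_zpowers x)
      rw [centralizer_zpowers']
      refine le_trans (le_inf (fun g hg => (hN g).2 fun j => ?_)
        (inf_le_left.trans (hQ.monotone (Fin.le_last _)))) hxC
      rcases le_or_gt j i.castSucc with h | h
      · exact cen_le_nrm _ (cen_anti (hQ.monotone h) hg.2)
      · exact Subgroup.le_normalizer (hQ.monotone (Fin.castSucc_lt_iff_succ_le.1 h) hg.1)
  have := mem_ZS_of_toF (S := N ⊓ cen (Q (Fin.last m))) (T := N) inf_le_left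
    (H1.le_normalizer_inf Subgroup.le_normalizer (H1.le_normalizer_centralizer (hNQ _)))
    E.FR_idem E.FR_mem fun g hg => by
      rw [E.toF_FR]
      by_cases h : g ∈ N
      · exact br_eq_self_iff.1 (key _) g fun h' => hg ⟨h, h'⟩
      · exact E.isBlk.supp g h
  rw [← subgroupBlockCoeff_coe, ← E.coeff_FR, ZS_supp this n fun h => hn h.2]; rfl

end Cfsg.Agent.S4668
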