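import Cfsg.Statements.S4670
import Cfsg.Agent.H9.Trans

set_option autoImplicit false
open Cfsg

namespace Cfsg.Agent.S4670
open H9 H3 MonoidAlgebra
open scoped Pointwise
set_option linter.style.haveILetI false
set_option linter.unusedVariables false


/-- Fix a prime p and a maximal ideal M of the algebraic integers containing p. Let P be a p-subgroup of the finite group G and H a subgroup containing N_G(P). For every p-block B of G with defect group P there is exactly one p-block c of H with defect group P whose idempotent agrees with that of B, modulo the local ideal at M, at every element of C_G(P) (their Brauer-map images at P coincide); and every p-block c of H with defect group P arises in this way from exactly one such B. This is the Brauer correspondence over H. -/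
theorem result {G : Type*} [Group G] [Fintype G] (p : ℕ) [Fact p.Prime] (M : Ideal Cfsg.AlgInt) (hM : Cfsg.IsPModular p M) (P H : Subgroup G) (hP : IsPGroup p P) (hH : Subgroup.normalizer (P : Set G) ≤ H) : (∀ B : Set (Cfsg.IrrCharacter G), Cfsg.IsPBlock M B → Cfsg.IsDefectGroup p M B P → ∃! c : Set (Cfsg.IrrCharacter H), Cfsg.IsPBlock M c ∧ Cfsg.IsDefectGroup p M c (P.subgroupOf H) ∧ ∀ x : G, x ∈ Subgroup.centralizer (P : Set G) → Cfsg.MemLocalIdeal M (Cfsg.blockCoeff B x - Cfsg.subgroupBlockCoeff H c x)) ∧ (∀ c : Set (Cfsg.IrrCharacter H), Cfsg.IsPBlock M c → Cfsg.IsDefectGroup p M c (P.subgroupOf H) → ∃! B : Set (Cfsg.IrrCharacter G), Cfsg.IsPBlock M B ∧ Cfsg.IsDefectGroup p M B P ∧ ∀ x : G, x ∈ Subgroup.centralizer (P : Set G) → Cfsg.MemLocalIdeal M (Cfsg.blockCoeff B x - Cfsg.subgroupBlockCoeff H c x)) := by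
  haveI : PMod p M := ⟨hM⟩
  have e : ⊤ ⊓ nrm P = H ⊓ nrm P := by rw [top_inf_eq, inf_eq_right.2 hH]
  have hPH : P ≤ H := Subgroup.le_normalizer.trans hH
  have hi : ∀ (B : Bl M G) (c : Bl M H), (∀ x : G, x ∈ Subgroup.centralizer (P : Set G) →
      MemLocalIdeal M (blockCoeff B.1 x - subgroupBlockCoeff H c.1 x)) ↔
      br (RF M) P B.e = br (RF M) P c.E := fun B c => by
    simp only [br_eq_br_iff, Bl.coeff_sub_mem_iff]
  have hu : ∀ {T : Subgroup G} {a b : (RF M)[G]}, P ≤ T → IsBlk T a → IsBlk T b →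
      br (RF M) P a ≠ 0 → br (RF M) P a = br (RF M) P b → a = b := fun hT ha hb h0 h1 =>
    isBlk_eq_of_br_mul hP hT ha hb h0 (br_idem hP (Fix_mono hT ha.mem_Fix) ha.idem)
      (by rw [h1]; exact br_idem hP (Fix_mono hT hb.mem_Fix) hb.idem)
  refine ⟨fun B hB h => ?_, fun c hc h => ?_⟩
  · lift B to Bl M G using hB
    rw [isDefectGroup_iff_adef_top] at h
    obtain ⟨h1, h2⟩ := fmt_br (isBlk_top B) h
    rw [e] at h1 h2
    obtain ⟨_, ⟨c, rfl⟩, h3, h4⟩ := fmt_exists h1 h2
    refine ⟨c.1, ⟨c.2, (isDefectGroup_subgroupOf_iff hPH).2 h3, (hi B c).2 h4.symm⟩,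
      fun d ⟨hd, _, h5⟩ => ?_⟩
    lift d to Bl M H using hd
    rw [Bl.E_inj (hu hPH c.isBlk d.isBlk h3.br_ne (h4.trans ((hi B d).1 h5)))]
  · lift c to Bl M H using hc
    rw [isDefectGroup_subgroupOf_iff hPH] at h
    obtain ⟨h1, h2⟩ := fmt_br c.isBlk h
    rw [← e] at h1 h2
    obtain ⟨b, hb, h3, h4⟩ := fmt_exists h1 h2
    obtain ⟨B, rfl⟩ := isBlk_top_iff.1 hb
    refine ⟨B.1, ⟨B.2, adef_top_iff.1 h3, (hi B c).2 h4⟩, fun C ⟨hC, _, h5⟩ => ?_⟩
    lift C to Bl M G using hC
    rw [Bl.e_injective (hu le_top hb (isBlk_top C) h3.br_ne (h4.trans ((hi C c).1 h5).symm))]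

end Cfsg.Agent.S4670
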