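import Cfsg.Statements.S4672
import Cfsg.Agent.H9.FR

set_option autoImplicit false
open Cfsg

namespace Cfsg.Agent.S4672
open H9 H3 MonoidAlgebra
open scoped Pointwise
set_option linter.style.haveILetI false
set_option linter.unusedVariables false


/-- Fix a prime p and a maximal ideal M of the algebraic integers containing p. Let N be a normal subgroup of the finite group G of p-power index and c a p-block of N stable under conjugation by G. Then the idempotent of c is a block idempotent of G: there is a p-block B of G whose idempotent coefficients agree with those of c on N and vanish off N; and for every defect group P of such a block B, G = NP and P ∩ N is a defect group of c. -/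
theorem result {G : Type*} [Group G] [Fintype G] (p : ℕ) [Fact p.Prime] (M : Ideal Cfsg.AlgInt) (hM : Cfsg.IsPModular p M) (N : Subgroup G) [N.Normal] (hN : ∃ k : ℕ, N.index = p ^ k) (c : Set (Cfsg.IrrCharacter N)) (hc : Cfsg.IsPBlock M c) (hst : ∀ x : G, Cfsg.StabilizesBlock N c x) : (∃ B : Set (Cfsg.IrrCharacter G), Cfsg.IsPBlock M B ∧ ∀ g : G, Cfsg.blockCoeff B g = Cfsg.subgroupBlockCoeff N c g) ∧ ∀ B : Set (Cfsg.IrrCharacter G), Cfsg.IsPBlock M B → (∀ g : G, Cfsg.blockCoeff B g = Cfsg.subgroupBlockCoeff N c g) → ∀ P : Subgroup G, Cfsg.IsDefectGroup p M B P → N ⊔ P = ⊤ ∧ Cfsg.IsDefectGroup p M c ((P ⊓ N).subgroupOf N) := by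
  haveI : PMod p M := ⟨hM⟩
  lift c to Bl M N using hc
  obtain ⟨k, hk⟩ := hN
  have hf : c.E ∈ Zc (RF M) G :=
    (forall_stabilizes_iff (le_nrm_of_normal ⊤ N)).1 fun x _ => hst x
  obtain ⟨B, hB⟩ := isBlk_top_iff.1 (c.isBlk.isBlk_of_reg le_top (le_nrm_of_normal _ _) hf
    fun g _ => mem_of_reg_of_index hk)
  refine ⟨⟨B.1, B.2, Bl.coeff_eq_iff_e_eq.2 hB⟩, fun B hB h P hP => ?_⟩
  lift B to Bl M G using hB
  rw [isDefectGroup_iff_adef_top, Bl.coeff_eq_iff_e_eq.1 h] at hP
  exact ⟨(c.isBlk.rb_top hf).sup_eq hP ((Subgroup.relIndex_top_right _).trans hk),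
    (isDefectGroup_subgroupOf_iff inf_le_right).2 ((c.isBlk.rb_top hf).adef_inf hP)⟩

end Cfsg.Agent.S4672
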