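import Cfsg.Statements.S4674
import Cfsg.Agent.H9.FR

set_option autoImplicit false
open Cfsg

namespace Cfsg.Agent.S4674
open H9 H3 MonoidAlgebra
open scoped Pointwise
set_option linter.style.haveILetI false
set_option linter.unusedVariables false


/-- Fix a prime p and a maximal ideal M of the algebraic integers containing p. Let N be a normal subgroup of the finite group G, Q a p-subgroup of N, H = N_G(Q) and L = H ∩ N = N_N(Q). Let d be a p-block of N with defect group Q and e the p-block of L with defect group Q that induces d inside N (its Brauer correspondent). Then block induction from H to G is a bijection from the p-blocks of H covering e onto the p-blocks of G covering d: every block of H covering e induces exactly one block of G, and that block covers d; and every block of G covering d is induced by exactly one block of H covering e. -/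
theorem result {G : Type*} [Group G] [Fintype G] (p : ℕ) [Fact p.Prime] (M : Ideal Cfsg.AlgInt) (hM : Cfsg.IsPModular p M) (N : Subgroup G) [N.Normal] [Fintype N] (Q : Subgroup G) (hQ : IsPGroup p Q) (hQN : Q ≤ N) [Fintype ↥(Subgroup.normalizer (Q : Set G) ⊓ N)] (d : Set (Cfsg.IrrCharacter N)) (hd : Cfsg.IsPBlock M d) (hdQ : Cfsg.IsDefectGroup p M d (Q.subgroupOf N)) (e : Set (Cfsg.IrrCharacter ↥(Subgroup.normalizer (Q : Set G) ⊓ N))) (he : Cfsg.IsPBlock M e) (heQ : Cfsg.IsDefectGroup p M e (Q.subgroupOf (Subgroup.normalizer (Q : Set G) ⊓ N))) (hed : Cfsg.IsInducedBlockIn M N (Subgroup.normalizer (Q : Set G) ⊓ N) e d) : (∀ c : Set (Cfsg.IrrCharacter ↥(Subgroup.normalizer (Q : Set G))), Cfsg.IsPBlock M c → (∃ ψ ∈ c, ∃ ξ ∈ e, Cfsg.classInner (fun l : ↥(Subgroup.normalizer (Q : Set G) ⊓ N) => (ψ : ↥(Subgroup.normalizer (Q : Set G)) → ℂ) (Subgroup.inclusion inf_le_left l)) (ξ : ↥(Subgroup.normalizer (Q : Set G) ⊓ N) → ℂ) ≠ 0)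 → ∃! B : Set (Cfsg.IrrCharacter G), Cfsg.IsInducedBlock M (Subgroup.normalizer (Q : Set G)) c B ∧ (∃ χ ∈ B, ∃ θ ∈ d, Cfsg.classInner (fun n : N => (χ : G → ℂ) n) (θ : N → ℂ) ≠ 0)) ∧ (∀ B : Set (Cfsg.IrrCharacter G), Cfsg.IsPBlock M B → (∃ χ ∈ B, ∃ θ ∈ d, Cfsg.classInner (fun n : N => (χ : G → ℂ) n) (θ : N → ℂ) ≠ 0) → ∃! c : Set (Cfsg.IrrCharacter ↥(Subgroup.normalizer (Q : Set G))), (Cfsg.IsPBlock M c ∧ ∃ ψ ∈ c, ∃ ξ ∈ e, Cfsg.classInner (fun l : ↥(Subgroup.normalizer (Q : Set G) ⊓ N) => (ψ : ↥(Subgroup.normalizer (Q : Set G)) → ℂ) (Subgroup.inclusion inf_le_left l)) (ξ : ↥(Subgroup.normalizer (Q : Set G) ⊓ N) → ℂ) ≠ 0) ∧ Cfsg.IsInducedBlock M (Subgroup.normalizer (Q : Set G)) c B) := by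
  haveI : PMod p M := ⟨hM⟩
  lift d to Bl M N using hd
  lift e to Bl M (nrm Q ⊓ N : Subgroup G) using he
  rw [isDefectGroup_subgroupOf_iff hQN] at hdQ
  have hle : Q ≤ nrm Q ⊓ N := le_inf Subgroup.le_normalizer hQN
  rw [isInducedBlockIn_iff_br inf_le_right hQ hle
    (le_inf (inf_le_right.trans (cen_le_nrm Q)) inf_le_left) inf_le_left] at hed
  have he : br (RF M) Q d.E = e.E := by
    have h1 := (fmt_br d.isBlk hdQ).1
    rw [inf_comm] at h1
    exact h1.eq_of_mul_ne_zero e.isBlk (by rw [hed]; exact e.isBlk.ne_zero)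
  have hi : ∀ (c : Bl M (nrm Q)) (B : Bl M G), IsInducedBlock M (nrm Q) c.1 B.1 ↔
      br (RF M) Q B.e * c.E = c.E := fun c B =>
    isInducedBlock_iff_br hQ Subgroup.le_normalizer (cen_le_nrm Q) le_rfl
  have hc : ∀ c : Bl M (nrm Q), _ ↔ c.E * e.E ≠ 0 := fun c =>
    cov_incl_iff (inf_le_left : nrm Q ⊓ N ≤ nrm Q)
  constructor
  · intro c hc' h
    lift c to Bl M (nrm Q) using hc'
    obtain ⟨B, hB⟩ := exists_ind_subgroup hQ Subgroup.le_normalizer (cen_le_nrm Q) le_rfl c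
    refine ⟨B.1, ⟨isInducedBlock_iff.2 hB, cov_subtype_iff.2 (d.isBlk.hk_cov hdQ c.isBlk
      (he ▸ (hc c).1 h) ((hi c B).1 (isInducedBlock_iff.2 hB)))⟩, fun B' hB' => ?_⟩
    lift B' to Bl M G using hB'.1.2.1
    rw [(isInducedBlock_iff.1 hB'.1).unique hB]
  · intro B hB h
    lift B to Bl M G using hB
    obtain ⟨_, ⟨c, rfl⟩, h1, h2⟩ := d.isBlk.hk_exists hdQ (cov_subtype_iff.1 h)
    refine ⟨c.1, ⟨⟨c.2, (hc c).2 (he ▸ h1)⟩, (hi c B).2 h2⟩, fun c' hc' => ?_⟩
    lift c' to Bl M (nrm Q) using hc'.1.1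
    rw [Bl.E_inj (d.isBlk.hk_unique hdQ c.isBlk c'.isBlk h1 h2 ((hi c' B).1 hc'.2))]

end Cfsg.Agent.S4674
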