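import Cfsg.Statements.S4679
import Cfsg.Agent.H9.BFus

set_option autoImplicit false
open Cfsg

namespace Cfsg.Agent.S4679
open H9 H3 MonoidAlgebra
open scoped Pointwise
set_option linter.style.haveILetI false
set_option linter.unusedVariables false


/-- Fix a prime p and a maximal ideal M of the algebraic integers containing p, a p-block B of the finite group G with maximal Brauer pair (P, e), its fusion system F on P, a Brauer pair (Q, f) ≤ (P, e), and let T be the stabilizer of f in N_G(Q). Then Q is fully normalized in F if and only if N_P(Q) is a defect group of the block of T whose idempotent is that of f. -/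
theorem result {G : Type*} [Group G] [Fintype G] (p : ℕ) [Fact p.Prime] (M : Ideal Cfsg.AlgInt) (hM : Cfsg.IsPModular p M) (B : Set (Cfsg.IrrCharacter G)) (P : Subgroup G) (e : Set (Cfsg.IrrCharacter (Subgroup.centralizer (P : Set G)))) (hmax : Cfsg.IsMaximalBrauerPair p M B P e) (F : Cfsg.FusionSystem P) (hF : Cfsg.IsBlockFusionSystemOn p M B P e F) (Q : Subgroup G) (f : Set (Cfsg.IrrCharacter (Subgroup.centralizer (Q : Set G)))) (hQP : Q ≤ P) (hf : Cfsg.IsPBlock M f) (hle : Cfsg.SubpairLE p M Q f P e) (T : Subgroup G) (hT : ∀ y : G, y ∈ T ↔ y ∈ Subgroup.normalizer (Q : Set G) ∧ Cfsg.StabilizesBlock (Subgroup.centralizer (Q : Set G)) f y) : F.IsFullyNormalized Q ↔ ∃ F' : Set (Cfsg.IrrCharacter T), Cfsg.IsPBlock M F' ∧ (∀ t : T, Cfsg.blockCoeff F' t = Cfsg.subgroupBlockCoeff (Subgroup.centralizer (Q : Set G)) f (t : G)) ∧ Cfsg.IsDefectGroup p M F' ((P ⊓ Subgroup.normalizer (Q : Set G)).subgroupOf T) := by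
  haveI : PMod p M := ⟨hM⟩
  lift e to Bl M (cen P) using hmax.1.1.2
  lift B to Bl M G using hmax.1.2.1
  lift f to Bl M (cen Q) using hf
  obtain ⟨h1, h2⟩ := isBlockFusionSystemOn_iff.1 hF
  rw [subpairLE_iff] at hle
  obtain rfl := eq_stab_of_forall hT
  have hl := (hle.bp_left h1.bp).loc_stab
  rw [h1.fullyNormalized_iff h2 hle]
  constructor
  · intro h3
    obtain ⟨F', hF'⟩ := hl.blk
    exact ⟨F'.1, F'.2, (Bl.coeff_eq_iff_E_eq hl.cen_le hl.rb.norm).2 hF',
      (isDefectGroup_subgroupOf_iff h3.le).2 ((congrArg (ADef _ · _) hF').mpr h3)⟩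
  · rintro ⟨F', h3, h4, h5⟩
    lift F' to Bl M ↥(nrm Q ⊓ stab f.E) using h3
    rw [Bl.coeff_eq_iff_E_eq hl.cen_le hl.rb.norm] at h4
    rwa [isDefectGroup_subgroupOf_iff (hle.inf_nrm_le_stab h1.bp), h4] at h5

end Cfsg.Agent.S4679
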