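import Cfsg.Statements.S4681
import Cfsg.Agent.H9.BFus

set_option autoImplicit false
open Cfsg

namespace Cfsg.Agent.S4681
open H9 H3 MonoidAlgebra
open scoped Pointwise
set_option linter.style.haveILetI false
set_option linter.unusedVariables false


/-- Fix a prime p and a maximal ideal M of the algebraic integers containing p. Let B₀ be the principal p-block of the finite group G, P a Sylow p-subgroup and e₀ the principal p-block of C_G(P). Then (P, e₀) is a maximal Brauer pair of B₀, and the fusion system of B₀ on (P, e₀) is the fusion system of G on P: its maps from each subgroup of P are exactly the conjugation maps into P by elements of G. -/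
theorem result {G : Type*} [Group G] [Fintype G] (p : ℕ) [Fact p.Prime] (M : Ideal Cfsg.AlgInt) (hM : Cfsg.IsPModular p M) (S : Sylow p G) : Cfsg.IsMaximalBrauerPair p M (Cfsg.principalBlock M G) (S : Subgroup G) (Cfsg.principalBlock M (Subgroup.centralizer ((S : Subgroup G) : Set G))) ∧ ∀ F : Cfsg.FusionSystem (S : Subgroup G), Cfsg.IsBlockFusionSystemOn p M (Cfsg.principalBlock M G) (S : Subgroup G) (Cfsg.principalBlock M (Subgroup.centralizer ((S : Subgroup G) : Set G))) F → ∀ Q : Subgroup G, F.Hom Q = (Cfsg.groupFusionSystem (S : Subgroup G)).Hom Q := by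
  haveI : PMod p M := ⟨hM⟩
  have hm := maxP_B0 (M := M) (H1.isSylowIn_top S)
  refine ⟨(isMaximalBrauerPair_iff (B := B0 M G) (e := B0 M _)).2 hm, fun F hF Q => ?_⟩
  have h2 := ((isBlockFusionSystemOn_iff (B := B0 M G) (e := B0 M _)).1 hF).2
  refine H2.hom_eq_iff_mor.2 fun f => ?_
  rw [h2, H2.mor_group]
  constructor
  · rintro ⟨g, e, hg⟩
    exact ⟨hg.le, fun x hx => e x hx ▸ hg.mem hx, g, e⟩
  · rintro ⟨h3, h4, g, e⟩
    exact ⟨g, e, (fus_B0_iff S.2).2 ⟨h3, H1.conj_smul_le_iff.2 fun x hx => e x hx ▸ h4 x hx⟩⟩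

end Cfsg.Agent.S4681
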