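import Cfsg.Statements.S4682
import Cfsg.Agent.H9.Trans

set_option autoImplicit false
open Cfsg

namespace Cfsg.Agent.S4682
open H9 H3 MonoidAlgebra
open scoped Pointwise
set_option linter.style.haveILetI false
set_option linter.unusedVariables false


/-- Fix a prime p and a maximal ideal M of the algebraic integers containing p, a p-block B of the finite group G with maximal Brauer pair (P, e), P abelian, and a Brauer pair (Q, f) ≤ (P, e). Let T_Q be the stabilizer of f in N_G(Q) and T_P the stabilizer of e in N_G(P). Then every element of T_Q is a product of an element of T_P and an element of C_G(Q); and the index of C_G(Q) in T_Q equals the index of T_P ∩ C_G(Q) in T_P ∩ N_G(Q). -/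
theorem result {G : Type*} [Group G] [Fintype G] (p : ℕ) [Fact p.Prime] (M : Ideal Cfsg.AlgInt) (hM : Cfsg.IsPModular p M) (B : Set (Cfsg.IrrCharacter G)) (P : Subgroup G) (e : Set (Cfsg.IrrCharacter (Subgroup.centralizer (P : Set G)))) (hmax : Cfsg.IsMaximalBrauerPair p M B P e) (hab : ∀ x ∈ P, ∀ y ∈ P, x * y = y * x) (Q : Subgroup G) (f : Set (Cfsg.IrrCharacter (Subgroup.centralizer (Q : Set G)))) (hQP : Q ≤ P) (hf : Cfsg.IsPBlock M f) (hle : Cfsg.SubpairLE p M Q f P e) (TQ : Subgroup G) (hTQ : ∀ y : G, y ∈ TQ ↔ y ∈ Subgroup.normalizer (Q : Set G) ∧ Cfsg.StabilizesBlock (Subgroup.centralizer (Q : Set G)) f y) (TP : Subgroup G) (hTP : ∀ y : G, y ∈ TP ↔ y ∈ Subgroup.normalizer (P : Set G) ∧ Cfsg.StabilizesBlock (Subgroup.centralizer (P : Set G)) e y) : (∀ x ∈ TQ, ∃ y ∈ TP, ∃ c ∈ Subgroup.centralizer (Q : Set G), x = y * c) ∧ ((Subgroup.centralizer (Q : Set G)).subgroupOf TQ).index = ((TP ⊓ Subgroup.centralizer (Q : Set G)).subgroupOf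 (TP ⊓ Subgroup.normalizer (Q : Set G))).index := by
  haveI : PMod p M := ⟨hM⟩
  lift e to Bl M (cen P) using hmax.1.1.2
  lift B to Bl M G using hmax.1.2.1
  lift f to Bl M (cen Q) using hf
  rw [isMaximalBrauerPair_iff] at hmax
  rw [subpairLE_iff] at hle
  obtain rfl := eq_stab_of_forall hTQ
  obtain rfl := eq_stab_of_forall hTP
  have hPQ : P ≤ cen Q := fun x hx y hy => hab y (hQP hy) x hx
  have hQ : Q ≤ cen Q := hQP.trans hPQ
  have hbp := hle.bp_left hmax.bp
  have hl : Loc Q f.E (cen Q) := ⟨hbp, hQ, le_rfl, cen_le_nrm Q, hbp.blk.mem_Fix⟩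
  have h1 : ∀ x ∈ nrm Q ⊓ stab f.E, ∃ y ∈ nrm P ⊓ stab e.E, ∃ c ∈ cen Q, x = y * c := by
    intro x hx
    obtain ⟨t, ht, h⟩ := hmax.exists_mem_stab hle hl hPQ (inv_mem hx)
      (nrm_le_nrm_cen Q (inv_mem hx).1)
    exact ⟨_, inv_mem h, t, ht, by group⟩
  refine ⟨h1, ?_⟩
  have h2 : nrm Q ⊓ stab f.E = (nrm P ⊓ stab e.E ⊓ nrm Q) ⊔ cen Q := by
    refine le_antisymm (fun x hx => ?_) (sup_le (fun x hx => ⟨hx.2, hle.mem_stab hmax.bp hx.1 hx.2⟩)
      hbp.loc_stab.cen_le)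
    obtain ⟨y, hy, c, hc, rfl⟩ := h1 x hx
    exact Subgroup.mul_mem_sup ⟨hy, (mul_mem_cancel_right (cen_le_nrm Q hc)).1 hx.1⟩ hc
  change (cen Q).relIndex _ = Subgroup.relIndex _ _
  rw [h2, H1.relIndex_sup_of_le_normalizer (inf_le_right.trans (nrm_le_nrm_cen Q)),
    ← Subgroup.inf_relIndex_right (cen Q), ← Subgroup.inf_relIndex_right (_ ⊓ _ ⊓ _)]
  congr 1
  ext x
  simp only [Subgroup.mem_inf]
  tauto

end Cfsg.Agent.S4682
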