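import Cfsg.Statements.S4683
import Cfsg.Agent.H9.Zsp

set_option autoImplicit false
open Cfsg

namespace Cfsg.Agent.S4683
open H9 H3 MonoidAlgebra
open scoped Pointwise
set_option linter.style.haveILetI false
set_option linter.unusedVariables false


/-- Fix a prime p and a maximal ideal M of the algebraic integers containing p, a p-block B of the finite group G, a p-element u and a p-block e of C = C_G(u) such that (⟨u⟩, e) is a Brauer pair of B (a Brauer element of B). For χ ∈ B let χ_u be the e-part of the class function c ↦ χ(u c) on C and χ_u' the e-part of c ↦ χ(u⁻¹ c). Then the sum over χ ∈ B and over the p-regular elements s of C of χ_u(s)·χ_u'(s⁻¹) equals the order of C times the p-regular rank of e (the number of irreducible Brauer characters of e). -/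
theorem result {G : Type*} [Group G] [Fintype G] (p : ℕ) [Fact p.Prime] (M : Ideal Cfsg.AlgInt) (hM : Cfsg.IsPModular p M) (B : Set (Cfsg.IrrCharacter G)) (u : G) (hu : ∃ k : ℕ, orderOf u = p ^ k) (e : Set (Cfsg.IrrCharacter (Subgroup.centralizer (Subgroup.zpowers u : Set G)))) (hBe : Cfsg.IsBrauerPairOf p M B (Subgroup.zpowers u) e) : ∑ᶠ χ ∈ B, ∑ᶠ s : Subgroup.centralizer (Subgroup.zpowers u : Set G), Cfsg.pRegularPart p (Cfsg.blockPart e (fun c : Subgroup.centralizer (Subgroup.zpowers u : Set G) => (χ : G → ℂ) (u * c))) s * Cfsg.blockPart e (fun c : Subgroup.centralizer (Subgroup.zpowers u : Set G) => (χ : G → ℂ) (u⁻¹ * c)) s⁻¹ = (Nat.card (Subgroup.centralizer (Subgroup.zpowers u : Set G)) : ℂ) * (Cfsg.blockRank p e : ℂ) := by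
  classical
  haveI : PMod p M := ⟨hM⟩
  lift e to Bl M (cen (Subgroup.zpowers u)) using hBe.1.2
  lift B to Bl M G using hBe.2.1
  rw [isBrauerPairOf_iff, ← ind_cen_iff (IsPElt.isPGroup_zpowers hu)] at hBe
  have key : ∀ (C : Subgroup G) (hC : C = cen1 u) (e : Bl M C) (h : Ind C.subtype e B),
      ∑ᶠ χ ∈ B.1, ∑ᶠ s : C, pRegularPart p (blockPart e.1 (fun c : C => (χ : G → ℂ) (u * c))) s *
        blockPart e.1 (fun c : C => (χ : G → ℂ) (u⁻¹ * c)) s⁻¹ =
      (Nat.card C : ℂ) * (blockRank p e.1 : ℂ) := by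
    rintro C rfl e h
    haveI := Fintype.ofFinite (cen1 u)
    rw [finsum_mem_irr, ← e.sum_reg_sum]
    simp only [finsum_eq_sum_of_fintype]
    rw [Finset.sum_comm, Finset.sum_filter (IsPRegular p)]
    refine Finset.sum_congr rfl fun s _ => ?_
    split_ifs with hs
    · refine Eq.trans (Finset.sum_congr rfl fun χ _ => ?_) (h.sum_sb_mul hu hs hs)
      rw [pRegularPart_of_reg hs, ← blockPart_conj_inv]
      congr 2
      ext c
      rw [sh_apply, ← χ.2.isCharacter.map_inv, χ.2.isClassFunction.mul_comm]; simp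
    · simp [pRegularPart_of_not_reg hs]
  exact key _ (centralizer_zpowers' u) e hBe

end Cfsg.Agent.S4683
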