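import Cfsg.Statements.S4685
import Cfsg.Agent.H9.Nilp

set_option autoImplicit false
open Cfsg

namespace Cfsg.Agent.S4685
open H9 H3 MonoidAlgebra
open scoped Pointwise
set_option linter.style.haveILetI false
set_option linter.unusedVariables false


/-- Fix a prime p and a maximal ideal M of the algebraic integers containing p, a p-block B of the finite group G with maximal Brauer pair (P, e) and fusion system F on P. Then for every h the number of irreducible characters of height h in B is divisible by the index of Z(P) ∩ foc(F) in Z(P), where foc(F) is the focal subgroup of F. -/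
theorem result {G : Type*} [Group G] [Fintype G] (p : ℕ) [Fact p.Prime] (M : Ideal Cfsg.AlgInt) (hM : Cfsg.IsPModular p M) (B : Set (Cfsg.IrrCharacter G)) (P : Subgroup G) (e : Set (Cfsg.IrrCharacter (Subgroup.centralizer (P : Set G)))) (hmax : Cfsg.IsMaximalBrauerPair p M B P e) (F : Cfsg.FusionSystem P) (hF : Cfsg.IsBlockFusionSystemOn p M B P e F) (h : ℕ) : ((P ⊓ Subgroup.centralizer (P : Set G) ⊓ F.focalSubgroup).subgroupOf (P ⊓ Subgroup.centralizer (P : Set G))).index ∣ Nat.card {χ : Cfsg.IrrCharacter G // χ ∈ B ∧ Cfsg.blockHeight p B (χ : G → ℂ) = h} := by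
  haveI : PMod p M := ⟨hM⟩
  lift e to Bl M (cen P) using hmax.1.1.2
  lift B to Bl M G using hmax.1.2.1
  obtain ⟨h1, h2⟩ := isBlockFusionSystemOn_iff.1 hF
  have := h1.focal_dvd h2 ((P ⊓ cen P).subgroupOf P) (fun χ => blockHeight p B.1 χ.1 = h)
    (fun χ _ ψ _ e h => (height_congr (e 1 isPRegular_one) _).trans h)
    fun χ hχ _ u hu => h1.TS_ne_zero u.2 hχ (Or.inr hu.2)
  rwa [Subgroup.relIndex_subgroupOf inf_le_left, ← Subgroup.inf_relIndex_left] at this

end Cfsg.Agent.S4685
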