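import Cfsg.Statements.S4693
import Cfsg.Agent.H9.BFus

set_option autoImplicit false
open Cfsg

namespace Cfsg.Agent.S4693
open H9 H3 MonoidAlgebra
open scoped Pointwise
set_option linter.style.haveILetI false
set_option linter.unusedVariables false


/-- Fix a prime p and a maximal ideal M of the algebraic integers containing p, a p-block B of the finite group G with maximal Brauer pair (P, e) and fusion system F on P, and a Brauer pair (Q, f) ≤ (P, e) with Q centric in F. Suppose every element of G normalizes Q and stabilizes f. Then the idempotent of B agrees with that of f modulo M at every element of G, and f is the idempotent of a nilpotent block of Q·C_G(Q): some p-block of Q·C_G(Q) has the idempotent coefficients of f and is nilpotent. -/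
theorem result {G : Type*} [Group G] [Fintype G] (p : ℕ) [Fact p.Prime] (M : Ideal Cfsg.AlgInt) (hM : Cfsg.IsPModular p M) (B : Set (Cfsg.IrrCharacter G)) (P : Subgroup G) (e : Set (Cfsg.IrrCharacter (Subgroup.centralizer (P : Set G)))) (hmax : Cfsg.IsMaximalBrauerPair p M B P e) (F : Cfsg.FusionSystem P) (hF : Cfsg.IsBlockFusionSystemOn p M B P e F) (Q : Subgroup G) (f : Set (Cfsg.IrrCharacter (Subgroup.centralizer (Q : Set G)))) (hQP : Q ≤ P) (hf : Cfsg.IsPBlock M f) (hle : Cfsg.SubpairLE p M Q f P e) (hcen : F.IsCentric Q) (hG : ∀ x : G, x ∈ Subgroup.normalizer (Q : Set G) ∧ Cfsg.StabilizesBlock (Subgroup.centralizer (Q : Set G)) f x) : (∀ g : G, Cfsg.MemLocalIdeal M (Cfsg.blockCoeff B g - Cfsg.subgroupBlockCoeff (Subgroup.centralizer (Q : Set G)) f g)) ∧ ∃ F' : Set (Cfsg.IrrCharacter ↥(Q ⊔ Subgroup.centralizer (Q : Set G))), Cfsg.IsPBlock M F' ∧ (∀ t : ↥(Q ⊔ Subgroup.centralizer (Q : Set G)), Cfsg.blockCoeff F' t = Cfsg.subgroupBlockCoeff (Subgroup.centralizer (Q :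 Set G)) f (t : G)) ∧ Cfsg.IsNilpotentBlock p M F' := by
  haveI : PMod p M := ⟨hM⟩
  lift e to Bl M (cen P) using hmax.1.1.2
  lift B to Bl M G using hmax.1.2.1
  lift f to Bl M (cen Q) using hf
  obtain ⟨h1, h2⟩ := isBlockFusionSystemOn_iff.1 hF
  rw [subpairLE_iff] at hle
  have hQ := hle.bp_left h1.bp
  have h3 : B.e = f.E := e_eq_of_loc_top (h1.nsub_bot hle)
    (hQ.loc le_top fun x _ => mem_nrm_stabilizes_iff.1 (hG x))
  refine ⟨fun g => Bl.coeff_sub_mem_iff.2 (by rw [h3]), ?_⟩
  have hl := hQ.loc_sup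
  obtain ⟨F', hF'⟩ := hl.blk
  refine ⟨F'.1, F'.2, (Bl.coeff_eq_iff_E_eq hl.cen_le hl.rb.norm).2 hF', ?_⟩
  rw [Bl.nilp_iff, nilp_iff_anilp]
  exact (congrArg (ANilp _) hF').mpr
    (anilp_of_le_sup hl.blk (hQ.adef_sup ((h1.centric_iff h2 hle).1 hcen)) le_rfl)

end Cfsg.Agent.S4693
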