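import Cfsg.Statements.S4697
import Cfsg.Agent.H9.Avg3

set_option autoImplicit false
open Cfsg

namespace Cfsg.Agent.S4697
open H9 H3 MonoidAlgebra
open scoped Pointwise
set_option linter.style.haveILetI false
set_option linter.unusedVariables false


/-- Let p be a prime, M a maximal ideal of the algebraic integers containing p, and B a p-block of the finite group G with an abelian defect group D of order p^d. If D has rank 2 (its least number of generators is 2) then B contains at most p^d irreducible characters; if D has rank 3 then the number k of irreducible characters in B satisfies k^3 ≤ p^(5d). -/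
theorem result {G : Type*} [Group G] [Finite G] (p : ℕ) [Fact p.Prime] (M : Ideal Cfsg.AlgInt) (hM : Cfsg.IsPModular p M) (B : Set (Cfsg.IrrCharacter G)) (hB : Cfsg.IsPBlock M B) (D : Subgroup G) (hBD : Cfsg.IsDefectGroup p M B D) (hab : IsMulCommutative D) (d : ℕ) (hDd : Nat.card D = p ^ d) : (Group.rank D = 2 → Nat.card B ≤ p ^ d) ∧ (Group.rank D = 3 → Nat.card B ^ 3 ≤ p ^ (5 * d)) := by
  classical
  haveI : PMod p M := ⟨hM⟩
  lift B to Bl M G using hB
  have hc : ∀ u ∈ D, u ∈ cen D := fun u hu => Subgroup.mem_centralizer_iff.2 fun g hg =>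
    congrArg Subtype.val (hab.is_comm.comm ⟨g, hg⟩ ⟨u, hu⟩)
  obtain ⟨S, h1, h2⟩ := Group.rank_spec D
  letI : CommGroup D := { (inferInstance : Group D) with mul_comm := hab.is_comm.comm }
  refine ⟨fun h => ?_, fun h => ?_⟩
  · obtain ⟨x, y, -, rfl⟩ := Finset.card_eq_two.1 (h1.trans h)
    refine hDd ▸ Bl.IsDef.card_le_of_two hBD x.2 (hc _ x.2) y.2 fun g hg => ?_
    obtain ⟨i, j, e⟩ := Subgroup.mem_closure_pair.1 (show (⟨g, hg⟩ : D) ∈ Subgroup.closure {x, y} by
      simpa using h2.ge (Subgroup.mem_top _))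
    exact ⟨i, j, congrArg Subtype.val e⟩
  obtain ⟨x, y, z, hy, hz, h3⟩ : ∃ x y z : D, orderOf y ≤ orderOf x ∧ orderOf z ≤ orderOf x ∧
      ∀ g : D, ∃ i j k : ℤ, x ^ i * (y ^ j * z ^ k) = g := by
    obtain ⟨x, hx, hm⟩ := S.exists_max_image orderOf (Finset.card_pos.1 (by omega))
    obtain ⟨y, z, -, e⟩ := Finset.card_eq_two.1 ((Finset.card_erase_of_mem hx).trans (by omega : _ = 2))
    refine ⟨x, y, z, hm _ (Finset.mem_of_mem_erase (e.ge (by simp))),
      hm _ (Finset.mem_of_mem_erase (e.ge (by simp))), fun g => ?_⟩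
    rw [← Finset.insert_erase hx, e, Finset.coe_insert, Set.insert_eq, Subgroup.closure_union] at h2
    obtain ⟨a, ha, b, hb, e⟩ := Subgroup.mem_sup.1 (h2.ge (Subgroup.mem_top g))
    obtain ⟨i, rfl⟩ := Subgroup.mem_closure_singleton.1 ha
    obtain ⟨j, k, rfl⟩ := Subgroup.mem_closure_pair.1 (by simpa using hb)
    exact ⟨i, j, k, e⟩
  have h4 : p ^ d ≤ orderOf (x : G) ^ 3 := by
    rw [← hDd, Subgroup.orderOf_coe]
    refine (Nat.card_le_card_of_surjective (fun t : Subgroup.zpowers x × Subgroup.zpowers y ×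
      Subgroup.zpowers z => (t.1 * (t.2.1 * t.2.2) : D)) fun g => ?_).trans ?_
    · obtain ⟨i, j, k, e⟩ := h3 g
      exact ⟨⟨⟨_, i, rfl⟩, ⟨_, j, rfl⟩, ⟨_, k, rfl⟩⟩, e⟩
    · simp only [Nat.card_prod, Nat.card_zpowers, pow_succ, pow_zero, one_mul, mul_assoc]
      exact Nat.mul_le_mul_left _ (Nat.mul_le_mul hy hz)
  obtain ⟨b, hb⟩ := exists_maxP_of_isDef hBD
  have hp := isPElt_of_mem hb.isPGroup x.2
  have hd := hb.defect_sbl_of_cen x.2 (hc _ x.2)
  haveI := Fintype.ofFinite G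
  have h5 := (hb.ind_sbl x.2).card_le_of_minF hp (m := 1) (Bl.minF_one _) (S := B.1)
    fun _ hχ => ⟨hχ, (hb.ind_sbl x.2).TT_ne_zero hp hχ (.inr hd)⟩
  haveI := normal_zpowers_of_center (selfC_mem_center (x : G))
  obtain ⟨c, c1, c2, c3, -⟩ := (hb.isDef_sbl x.2 (hc _ x.2)).exists_quot (selfC_mem_center _) hp.selfC
  have m : ∀ w : D, (w : G) ∈ cen1 (x : G) := fun w => Subgroup.mem_centralizer_singleton_iff.2 (hc _ x.2 _ w.2)
  have h6 := c1.card_le_of_two (u := QuotientGroup.mk (⟨y, m y⟩ : cen1 (x : G)))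
    (x := QuotientGroup.mk (⟨z, m z⟩ : cen1 (x : G)))
    ⟨_, y.2, rfl⟩ (Subgroup.mem_centralizer_iff.2 (by
      rintro _ ⟨g, hg, rfl⟩
      exact congrArg (QuotientGroup.mk' _) (Subtype.ext (hc _ y.2 _ hg)))) ⟨_, z.2, rfl⟩ (by
      rintro _ ⟨g, hg, rfl⟩
      obtain ⟨i, j, k, e⟩ := h3 ⟨g, hg⟩
      refine ⟨j, k, ?_⟩
      rw [show g = selfC (x : G) ^ i * ((⟨y, m y⟩ : cen1 (x : G)) ^ j * (⟨z, m z⟩ : cen1 (x : G)) ^ k) from
        Subtype.ext (congrArg Subtype.val e).symm]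
      simp [(QuotientGroup.eq_one_iff _).2 (Subgroup.mem_zpowers (selfC (x : G)))])
  rw [hd, ← hb.isDef.card_eq, hDd] at h5 c3
  rw [c1.card_eq] at h6
  rw [← Subgroup.orderOf_coe, coe_selfC] at c3
  have h7 : Nat.card B.1 * orderOf (x : G) ≤ p ^ d * p ^ d := by
    rw [one_mul, c2] at h5
    refine (Nat.mul_le_mul_right _ (h5.trans (Nat.mul_le_mul_left _ (c.rank_le_card.trans h6)))).trans_eq ?_
    rw [mul_assoc, mul_comm _ (orderOf _), ← c3]
  refine Nat.le_of_mul_le_mul_right ((Nat.mul_le_mul_left _ h4).trans ?_) (pow_pos (Fact.out : p.Prime).pos d)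
  rw [← mul_pow]
  exact (Nat.pow_le_pow_left h7 3).trans_eq (by ring)

end Cfsg.Agent.S4697
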