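import Cfsg.Statements.S4698
import Cfsg.Agent.H9.Avg3

set_option autoImplicit false
open Cfsg

namespace Cfsg.Agent.S4698
open H9 H3 MonoidAlgebra
open scoped Pointwise
set_option linter.style.haveILetI false
set_option linter.unusedVariables false


/-- Let p be a prime, M a maximal ideal of the algebraic integers containing p, and B a p-block of defect d of the finite group G, containing k irreducible characters. Then k ≤ p^d when d ≤ 2, and k ≤ p^(2d − 2) when d ≥ 3. -/
theorem result {G : Type*} [Group G] [Finite G] (p : ℕ) [Fact p.Prime] (M : Ideal Cfsg.AlgInt) (hM : Cfsg.IsPModular p M) (B : Set (Cfsg.IrrCharacter G)) (hB : Cfsg.IsPBlock M B) (d : ℕ) (hd : Cfsg.blockDefect p B = d) : (d ≤ 2 → Nat.card B ≤ p ^ d) ∧ (3 ≤ d → Nat.card B ≤ p ^ (2 * d - 2)) := by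
  haveI : PMod p M := ⟨hM⟩
  lift B to Bl M G using hB
  subst hd
  exact ⟨Bl.card_le_of_defect, fun h => (Bl.card_le_pow_of_defect (blockDefect p B.1 - 2) B (by omega)).trans_eq
    (by congr 1; omega)⟩

end Cfsg.Agent.S4698
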