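import Cfsg.Statements.S4700
import Mathlib
import Cfsg.Agent.H8.BRf
import Cfsg.Agent.H8.AbC2
import Cfsg.Agent.H1.Fitting

set_option autoImplicit false
open Cfsg

namespace Cfsg.Agent.S4700

/-- Let G be a finite perfect group and p a prime such that a Sylow p-subgroup of G has order p, and write the number of Sylow p-subgroups as 1 + np. Let H = O_p'(G). Then either p > 3 and G/H is isomorphic to PSL(2, p); or p = 2^m + 1 > 3 and G/H is isomorphic to SL(2, 2^m); or n = (hup + u^2 + u + h)/(u + 1) for some positive integers h and u. -/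
theorem result {G : Type*} [Group G] [Finite G] (hperf : commutator G = ⊤) (p : ℕ) [Fact p.Prime] (P : Sylow p G) (hP : Nat.card P = p) (n : ℕ) (hn : Nat.card (Sylow p G) = 1 + n * p) : (∃ (F : Type) (_ : Field F) (_ : Fintype F), Fintype.card F = p ∧ 3 < p ∧ Nonempty (G ⧸ Cfsg.pPrimeCore p G ≃* Matrix.ProjectiveSpecialLinearGroup (Fin 2) F)) ∨ (∃ (m : ℕ) (F : Type) (_ : Field F) (_ : Fintype F), Fintype.card F = 2 ^ m ∧ p = 2 ^ m + 1 ∧ 3 < p ∧ Nonempty (G ⧸ Cfsg.pPrimeCore p G ≃* Matrix.SpecialLinearGroup (Fin 2) F)) ∨ (∃ h u : ℕ, 0 < h ∧ 0 < u ∧ n * (u + 1) = h * u * p + u ^ 2 + u + h) := by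
  have hp : p.Prime := Fact.out
  rw [← or_assoc, or_iff_not_imp_right]
  intro c
  have nr := H8.nr_of (n := n) hp.two_le fun h u a b e => c ⟨h, u, a, b, e⟩
  have hs := QuotientGroup.mk'_surjective (pPrimeCore p G)
  have hO := H1.pPrimeCore_quotient_pPrimeCore (p := p) (G := G)
  have hd : p ∣ Nat.card (G ⧸ pPrimeCore p G) :=
    (H1.coprime_pPrimeCore (p := p) (G := G)).symm.dvd_of_dvd_mul_right (by
      rw [← Subgroup.card_eq_card_quotient_mul_card_subgroup, ← hP]
      exact Subgroup.card_subgroup_dvd_card _)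
  have h2 : ¬ p ^ 2 ∣ Nat.card (G ⧸ pPrimeCore p G) := fun h => by
    have := P.pow_dvd_card_of_pow_dvd_card (h.trans (Subgroup.card_quotient_dvd_card _))
    rw [hP] at this
    have := Nat.le_of_dvd hp.pos this
    nlinarith [hp.two_le]
  have hc : commutator (G ⧸ pPrimeCore p G) = ⊤ := by
    have := congrArg (Subgroup.map (QuotientGroup.mk' (pPrimeCore p G))) hperf
    rwa [commutator_def, Subgroup.map_commutator, Subgroup.map_top_of_surjective _ hs] at this
  haveI := Fintype.ofFinite (G ⧸ pPrimeCore p G)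
  refine (H8.br_perfect hc hO hd h2 nr (hn ▸ H8.syl_map_dvd (p := p) hs)).imp_right
    fun ⟨m, F, i, j, a, b, d, ⟨e⟩⟩ => ⟨m, F, i, j, a, b, d, ?_⟩
  obtain ⟨r, hr⟩ := CharP.exists F
  obtain ⟨k, hk, e2⟩ := FiniteField.card F r
  obtain rfl : r = 2 := (Nat.prime_dvd_prime_iff_eq hk Nat.prime_two).1
    (hk.dvd_of_dvd_pow (a ▸ e2 ▸ dvd_pow_self r k.ne_zero))
  exact ⟨e.trans (H8.psl_equiv_sl F).some⟩

end Cfsg.Agent.S4700
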