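import Cfsg.Statements.S4701
import Mathlib
import Cfsg.Agent.S4700
import Cfsg.Agent.H4.Dickson

set_option autoImplicit false
open Cfsg

namespace Cfsg.Agent.S4701

/-- Let G be a finite perfect group and p a prime dividing the order of G with p^3 larger than the order of G. Suppose a Sylow p-subgroup of G is not normal and G has no normal subgroup of order 2. Then p > 3 and G is isomorphic to PSL(2, p), or to SL(2, 2^m) with p = 2^m + 1. -/
theorem result {G : Type*} [Group G] [Finite G] (hperf : commutator G = ⊤) (p : ℕ) [Fact p.Prime] (hdvd : p ∣ Nat.card G) (hbig : Nat.card G < p ^ 3) (P : Sylow p G) (hP : ¬ (P : Subgroup G).Normal) (h2 : ∀ N : Subgroup G, N.Normal → Nat.card N ≠ 2) : (∃ (F : Type) (_ : Field F) (_ : Fintype F), Fintype.card F = p ∧ 3 < p ∧ Nonempty (G ≃* Matrix.ProjectiveSpecialLinearGroup (Fin 2) F)) ∨ (∃ (m : ℕ) (F : Type) (_ : Field F) (_ : Fintype F), Fintype.card F = 2 ^ m ∧ p = 2 ^ m + 1 ∧ 3 < p ∧ Nonempty (G ≃* Matrix.SpecialLinearGroup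 (Fin 2) F)) := by
  classical
  haveI := Fintype.ofFinite G
  have hp : p.Prime := Fact.out
  obtain ⟨n, hS⟩ := H8.exists_syl_eq (G := G) (p := p)
  have p2 := hp.two_le
  have n0 : n ≠ 0 := fun e => hP (Subgroup.normalizer_eq_top_iff.1 (Subgroup.index_eq_one.1
    (P.card_eq_index_normalizer.symm.trans (by rw [hS, e, zero_mul, add_zero]))))
  have n1 := Nat.mul_le_mul_right p (Nat.pos_of_ne_zero n0)
  have hc := H8.card_sylow_of_not_sq hdvd (fun h => by
    have a := Nat.le_of_dvd Nat.card_pos (P.pow_dvd_card_of_pow_dvd_card h)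
    have b := Nat.le_of_dvd (Nat.pos_of_ne_zero Subgroup.index_ne_zero_of_finite) P.card_dvd_index
    have c := (P : Subgroup G).card_mul_index
    nlinarith [Nat.mul_le_mul a b]) P
  have e1 : (H9.cen (P : Subgroup G)).relIndex (H9.nrm (P : Subgroup G)) ≠ 1 := fun e => by
    obtain ⟨X, Y, a, ε, h, tr⟩ := H8.exists_DE P hc
    obtain ⟨ζ, hζ⟩ := h.Y_ne
    have := h.deg_eq hζ
    have f := H8.one_lt_deg' (H8.lin_of_perfect hperf) (χ := ζ)
      fun e => Finset.disjoint_left.1 h.disj tr (e ▸ hζ)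
    rw [Finset.eq_singleton_iff_unique_mem.2 ⟨tr, fun x hx =>
      Finset.card_le_one.1 (h.cX.trans e).le _ hx _ tr⟩,
      Finset.sum_singleton, h.a_triv tr, H9.charDegree_trivChar] at this
    rcases h.se with e | e <;> rw [e] at this <;> omega
  have a := H8.card_eq_syl (P := P) rfl
  have b := (H9.cen (P : Subgroup G)).card_mul_index
  have c : p ≤ Nat.card (H9.cen (P : Subgroup G)) := by
    haveI : IsCyclic P := isCyclic_of_prime_card hc
    exact hc.ge.trans (Subgroup.card_le_of_le fun x hx => Subgroup.mem_centralizer_iff.2 fun y hy =>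
      congrArg Subtype.val (IsCyclic.commGroup.mul_comm (⟨y, hy⟩ : P) ⟨x, hx⟩))
  have e0 : (H9.cen (P : Subgroup G)).relIndex (H9.nrm (P : Subgroup G)) ≠ 0 :=
    Subgroup.index_ne_zero_of_finite
  rw [a, hS] at b
  generalize (H9.cen (P : Subgroup G)).relIndex (H9.nrm (P : Subgroup G)) = e at *
  have d := Nat.mul_le_mul c (Nat.mul_le_mul_right (1 + n * p) (show 2 ≤ e by omega))
  have hn : 2 * n < p := by
    by_contra h
    nlinarith [Nat.mul_le_mul_right (p * p) (not_lt.1 h)]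
  have q := Subgroup.card_eq_card_quotient_mul_card_subgroup (pPrimeCore p G)
  have k : 3 * Nat.card (G ⧸ pPrimeCore p G) ≥ p ^ 3 →
      Nonempty (G ≃* G ⧸ pPrimeCore p G) := fun h => by
    have h1 : Nat.card (pPrimeCore p G) < 3 := by
      by_contra! c
      nlinarith [Nat.mul_le_mul_left (Nat.card (G ⧸ pPrimeCore p G)) c]
    have h3 := h2 _ (inferInstance : (pPrimeCore p G).Normal)
    have h4 : 0 < Nat.card (pPrimeCore p G) := Nat.card_pos
    exact ⟨(QuotientGroup.quotientBot.symm).trans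
      (QuotientGroup.quotientMulEquivOfEq (Subgroup.card_eq_one.1 (by omega)).symm)⟩
  rcases Cfsg.Agent.S4700.result hperf p P hc n hS with ⟨F, i, j, a1, a2, ⟨f⟩⟩ |
    ⟨m, F, i, j, a1, a2, a3, ⟨f⟩⟩ | ⟨h, u, a1, a2, a3⟩
  · refine Or.inl ⟨F, i, j, a1, a2, (k ?_).map (·.trans f)⟩
    have := H4.card_psl2_mul (K := F)
    rw [← Nat.card_congr f.toEquiv, Nat.card_eq_fintype_card (α := F), a1] at this
    have g := Nat.mul_le_mul_right (Nat.card (G ⧸ pPrimeCore p G))
      (Nat.gcd_le_left (p - 1) two_pos)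
    obtain ⟨r, rfl⟩ : ∃ r, p = r + 1 := ⟨p - 1, by omega⟩
    rw [this, Nat.add_sub_cancel] at g
    nlinarith [Nat.mul_le_mul_left (r * r) (show 3 ≤ r by omega), Nat.mul_le_mul_left r (show 3 ≤ r by omega)]
  · refine Or.inr ⟨m, F, i, j, a1, a2, a3, (k ?_).map (·.trans f)⟩
    obtain ⟨r, hr⟩ := CharP.exists F
    obtain ⟨l, hl, e2⟩ := FiniteField.card F r
    obtain rfl : r = 2 := (Nat.prime_dvd_prime_iff_eq hl Nat.prime_two).1
      (hl.dvd_of_dvd_pow (a1 ▸ e2 ▸ dvd_pow_self r l.ne_zero))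
    have := H4.card_psl2_mul (K := F)
    rw [Nat.card_congr (H8.psl_equiv_sl F).some.toEquiv, ← Nat.card_congr f.toEquiv,
      Nat.card_eq_fintype_card (α := F), a1, show 2 ^ m = p - 1 by omega,
      Nat.Coprime.gcd_eq_one (Nat.coprime_two_left.2 (by
        have := hp.eq_two_or_odd
        rw [Nat.odd_iff]; omega)), one_mul] at this
    obtain ⟨r, rfl⟩ : ∃ r, p = r + 2 := ⟨p - 2, by omega⟩
    have r3 : 3 ≤ r := by
      have := hp.eq_two_or_odd
      omega
    rw [this, show r + 2 - 1 = r + 1 from rfl, Nat.add_sub_cancel]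
    nlinarith [Nat.mul_le_mul_left (r * r) r3, Nat.mul_le_mul_left r r3]
  · exfalso
    obtain ⟨h, rfl⟩ := Nat.exists_eq_add_of_lt a1
    obtain ⟨u, rfl⟩ := Nat.exists_eq_add_of_lt a2
    nlinarith [Nat.mul_le_mul_right (u + 2) hn, Nat.zero_le (h * u * p), Nat.zero_le (h * p),
      Nat.zero_le (u * p), Nat.zero_le (u * u)]

end Cfsg.Agent.S4701
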