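import Cfsg.Statements.S4702
import Cfsg.Agent.S0727
import Cfsg.Agent.H4.SL2

set_option autoImplicit false
open Cfsg

namespace Cfsg.Agent.S4702
open scoped Pointwise
set_option linter.style.haveILetI false
set_option linter.unusedVariables false
open H8 Subgroup

/-- Let G be a triply transitive permutation group on a finite set of odd size m ≥ 3 in which only the identity fixes three or more points. Then m = 2^a + 1 for some a ≥ 1 and G is isomorphic to SL(2, 2^a). -/
theorem result {α : Type*} [Fintype α] [DecidableEq α] (hm : 3 ≤ Fintype.card α) (hodd : Odd (Fintype.card α)) (G : Subgroup (Equiv.Perm α)) (h3 : MulAction.IsMultiplyPretransitive G α 3) (hfix : ∀ g : G, 3 ≤ Nat.card (MulAction.fixedBy α g) → g = 1) : ∃ a : ℕ, 1 ≤ a ∧ Fintype.card α = 2 ^ a + 1 ∧ ∃ (F : Type) (_ : Field F) (_ : Fintype F), Fintype.card F = 2 ^ a ∧ Nonempty (G ≃* Matrix.SpecialLinearGroup (Fin 2) F) := by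
  have hs : ∀ x : Fin 3 ↪ α, MulAction.stabilizer G x = ⊥ := fun x => (eq_bot_iff_forall _).2 fun g hg => hfix g (by
    have := Nat.card_le_card_of_injective (fun i => (⟨x i, congrFun (congrArg DFunLike.coe hg) i⟩ : MulAction.fixedBy α g))
      fun i j e => x.injective (congrArg Subtype.val e)
    rwa [Nat.card_fin] at this)
  rw [← Nat.card_eq_fintype_card] at hm hodd
  have h := Zs.of_sharp h3 hs hm
  obtain ⟨a, b, -, hab, -⟩ := h.exists_triple
  have hd := h.card_S2_of_three hab h3
  obtain ⟨j, hj, j2, j1⟩ := exists_invol_of_even (K := h.ker a) (by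
    have := h.card_ker' a
    rw [Nat.odd_iff] at hodd; rw [Nat.even_iff]; omega)
  obtain ⟨f, hf, e⟩ := h.card_of_elem (a := a) Nat.prime_two fun u hu => by
    by_cases h1 : u = 1
    · simp [h1]
    obtain ⟨k, -, rfl⟩ := h.exists_conj_ker hab hd hj j1 hu h1
    rw [conj_pow, sq, j2]; simp
  have e' : Fintype.card α = 2 ^ f + 1 := by rw [← e, h.card_ker', ← Nat.card_eq_fintype_card]; omega
  obtain ⟨F, _, _, hF, ⟨φ⟩⟩ := S0727.result (by omega) e' G h3 hs
  have ev : Even (Nat.card F) := by rw [Nat.card_eq_fintype_card, hF]; exact Nat.even_pow.2 ⟨even_two, hf⟩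
  have c2 : (2 : F) = 0 := by
    have := FiniteField.cast_card_eq_zero F
    rw [hF] at this
    exact pow_eq_zero_iff hf |>.1 (by simpa using this)
  refine ⟨f, by omega, e', F, _, _, hF, ⟨φ.trans (MulEquiv.ofBijective Matrix.SpecialLinearGroup.toPGL
    ⟨fun g k e => ?_, ?_⟩).symm⟩⟩
  · rcases H4.toPGL_eq_iff.1 e with e | e
    · exact e
    · rw [e]; ext i j
      simp only [Matrix.SpecialLinearGroup.coe_neg, Matrix.neg_apply]
      linear_combination (-k.1 i j) * c2
  · rw [← MonoidHom.range_eq_top, ← H4.Lsub_eq, H4.Lsub_eq_top ev]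

end Cfsg.Agent.S4702
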