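import Cfsg.Statements.S4706
import Cfsg.Agent.H9.Pr3

set_option autoImplicit false
open Cfsg

namespace Cfsg.Agent.S4706
open H9 H3 MonoidAlgebra
open scoped Pointwise
set_option linter.style.haveILetI false
set_option linter.unusedVariables false
open Subgroup

/-- Let p > 2 be a prime and G a permutation group on p letters whose Sylow p-subgroup P has normalizer of order 2p. Then either P is normal in G, or p − 1 = 2^a for some a and G is isomorphic to SL(2, 2^a). -/
theorem result {α : Type*} [Fintype α] [DecidableEq α] {p : ℕ} [Fact p.Prime] (hp : 2 < p) (hα : Fintype.card α = p) (G : Subgroup (Equiv.Perm α)) (P : Sylow p G) (hN : Nat.card (Subgroup.normalizer ((P : Subgroup G) : Set G)) = 2 * p) : (P : Subgroup G).Normal ∨ ∃ (a : ℕ) (F : Type) (_ : Field F) (_ : Fintype F), p = 2 ^ a + 1 ∧ Fintype.card F = 2 ^ a ∧ Nonempty (G ≃* Matrix.SpecialLinearGroup (Fin 2) F) := by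
  by_cases hd : p ∣ Nat.card G
  swap
  · obtain ⟨j, hj⟩ := P.isPGroup'.exists_card_eq
    obtain rfl : j = 0 := by_contra fun e => hd ((dvd_pow_self p e).trans (hj ▸ card_subgroup_dvd_card _))
    exact Or.inl (card_eq_one.1 hj ▸ inferInstance)
  obtain h3 | rfl : 3 < p ∨ p = 3 := by omega
  swap
  · refine Or.inl (normalizer_eq_top_iff.1 (eq_top_of_le_card _ ?_))
    refine hN ▸ (card_le_card_group G).trans ?_
    rw [Nat.card_perm, Nat.card_eq_fintype_card, hα]; rfl
  obtain ⟨x, hx⟩ := exists_prime_orderOf_dvd_card' p hd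
  have c := Equiv.Perm.isCycle_of_prime_order'' (hα ▸ Fact.out) ((orderOf_coe x).trans (hx.trans hα.symm))
  have s : (x : Equiv.Perm α).support = Finset.univ := Finset.eq_univ_of_card _ (c.orderOf.symm.trans ((orderOf_coe x).trans (hx.trans hα.symm)))
  haveI : MulAction.IsPretransitive G α := ⟨fun a b =>
    let ⟨i, hi⟩ := c.exists_zpow_eq (Equiv.Perm.mem_support.1 (s.ge (Finset.mem_univ a))) (Equiv.Perm.mem_support.1 (s.ge (Finset.mem_univ b)))
    ⟨x ^ i, hi⟩⟩
  refine (prime_deg h3 (Nat.card_eq_fintype_card.trans hα) P hN hd).imp_right fun ⟨k, hk, e⟩ => ?_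
  haveI := Fintype.ofFinite (GaloisField 2 k)
  exact ⟨k, GaloisField 2 k, inferInstance, this, hk, by
    rw [← Nat.card_eq_fintype_card, GaloisField.card _ _ (by rintro rfl; omega)], e⟩

end Cfsg.Agent.S4706
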