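import Cfsg.Statements.S4708
import Cfsg.Agent.H9.Misc3

set_option autoImplicit false
open Cfsg

namespace Cfsg.Agent.S4708
open H9 H3 MonoidAlgebra
open scoped Pointwise
set_option linter.style.haveILetI false
set_option linter.unusedVariables false


/-- Let p be a prime, M a maximal ideal of the algebraic integers containing p, G a finite group and H a normal subgroup. Write λ(X) for the sum of the squares of the degrees of the irreducible characters in the principal p-block of a group X. Then λ(H) ≤ λ(G) ≤ [G : H]·λ(H). -/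
theorem result {G : Type*} [Group G] [Finite G] (p : ℕ) [Fact p.Prime] (M : Ideal Cfsg.AlgInt) (hM : Cfsg.IsPModular p M) (H : Subgroup G) [H.Normal] : (∑ᶠ θ ∈ Cfsg.principalBlock M H, Cfsg.charDegree (θ : H → ℂ) ^ 2) ≤ (∑ᶠ χ ∈ Cfsg.principalBlock M G, Cfsg.charDegree (χ : G → ℂ) ^ 2) ∧ (∑ᶠ χ ∈ Cfsg.principalBlock M G, Cfsg.charDegree (χ : G → ℂ) ^ 2) ≤ H.index * ∑ᶠ θ ∈ Cfsg.principalBlock M H, Cfsg.charDegree (θ : H → ℂ) ^ 2 := by
  classical
  haveI : PMod p M := ⟨hM⟩
  haveI := Fintype.ofFinite G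
  haveI := Fintype.ofFinite H
  choose m hm using fun (χ : IrrCharacter G) (θ : IrrCharacter H) =>
    (χ.2.isCharacter.res H).inner_nat θ.2.isCharacter
  have h1 : ∀ χ, charDegree χ.1 = ∑ θ, m χ θ * charDegree θ.1 := fun χ => by
    have := (χ.2.isCharacter.res H).isClassFunction.apply_eq_sum 1
    simp only [hm, OneMemClass.coe_one, irr_deg] at this
    exact_mod_cast this
  have h2 : ∀ θ, ∑ χ, charDegree χ.1 * m χ θ = H.index * charDegree θ.1 := fun θ => by
    have := (isClassFunction_indFun _ θ.1).apply_eq_sum 1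
    rw [indFun_one, Finset.sum_congr rfl fun χ _ => by
      rw [inner_indFun_left _ _ χ.2.isClassFunction, ← H3.inner_conj_symm, hm, map_natCast, mul_comm]] at this
    simp only [irr_deg] at this
    exact_mod_cast this.symm
  have h3 : ∑ χ with χ ∈ (B0 M G).1, charDegree χ.1 ^ 2 =
      ∑ θ with θ ∈ (B0 M H).1, (∑ χ with χ ∈ (B0 M G).1, charDegree χ.1 * m χ θ) * charDegree θ.1 := by
    simp only [Finset.sum_mul]
    rw [Finset.sum_comm]
    refine Finset.sum_congr rfl fun χ hχ => ?_
    rw [pow_two]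
    nth_rw 2 [h1]
    rw [Finset.mul_sum, Finset.sum_filter]
    refine Finset.sum_congr rfl fun θ _ => ?_
    split_ifs with h
    · ring
    · have : (m χ θ : ℂ) = 0 := hm χ θ ▸ not_not.1 fun e => h (mem_B0_of_under (Finset.mem_filter.1 hχ).2 e)
      simp [Nat.cast_eq_zero.1 this]
  rw [← B0_val, ← B0_val, finsum_mem_irr, finsum_mem_irr, h3, Finset.mul_sum]
  refine ⟨Finset.sum_le_sum fun θ hθ => ?_, Finset.sum_le_sum fun θ hθ => ?_⟩ <;> rw [pow_two]
  · obtain ⟨χ, hχ, h⟩ := Bl.exists_over (B0_cov H) (Finset.mem_filter.1 hθ).2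
    rw [hm, Nat.cast_ne_zero] at h
    refine Nat.mul_le_mul_right _ (le_trans ?_ (Finset.single_le_sum (f := fun χ => charDegree χ.1 * m χ θ)
      (fun _ _ => Nat.zero_le _) (by simpa using hχ)))
    refine le_trans ?_ (Nat.le_mul_of_pos_right _ (Nat.pos_of_ne_zero h))
    rw [h1 χ]
    exact (Nat.le_mul_of_pos_left _ (Nat.pos_of_ne_zero h)).trans (Finset.single_le_sum
      (f := fun θ => m χ θ * charDegree θ.1) (fun _ _ => Nat.zero_le _) (Finset.mem_univ _))
  · rw [← mul_assoc, ← h2]
    exact Nat.mul_le_mul_right _ (Finset.sum_le_sum_of_subset (Finset.filter_subset _ _))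

end Cfsg.Agent.S4708
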