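import Cfsg.Statements.S4713
import Cfsg.Agent.H3.Deg

set_option autoImplicit false
open Cfsg

namespace Cfsg.Agent.S4713
open H3
export H3 (inner_add_left inner_add_right inner_sub_left inner_sub_right inner_neg_left inner_neg_right
  inner_zero_left inner_zero_right inner_smul_left inner_smul_right inner_conj_symm inner_self_eq_zero
  inner_self_im)

/-- Let p be a prime and G a finite p-solvable group. Then G has a normal abelian Sylow p-subgroup if and only if the degree of every irreducible character of G is prime to p. -/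
theorem result {G : Type*} [Group G] [Finite G] (p : ℕ) [Fact p.Prime] (hsolv : Cfsg.IsPSolvable p G) (P : Sylow p G) : ((P : Subgroup G).Normal ∧ IsMulCommutative P) ↔ ∀ χ : Cfsg.IrrCharacter G, ¬ p ∣ Cfsg.charDegree (χ : G → ℂ) := by
  set_option maxSynthPendingDepth 3 in
  refine ⟨fun ⟨_, a⟩ χ c => P.not_dvd_index (c.trans (χ.2.dg_dvd_index P (H7.isComm_iff'.1 a))), fun h => ?_⟩
  exact (ito_normal ((H1.isPSolvable_iff_piSep Fact.out).1 hsolv) (fun χ a => h ⟨χ, a⟩) P).imp_right H7.isComm_iff'.2

end Cfsg.Agent.S4713
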