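import Cfsg.Statements.S4714
import Cfsg.Agent.H9.Cent

set_option autoImplicit false
open Cfsg

namespace Cfsg.Agent.S4714
open H9 H3 MonoidAlgebra
open scoped Pointwise
set_option linter.style.haveILetI false
set_option linter.unusedVariables false


/-- Let p be a prime, M a maximal ideal of the algebraic integers containing p, D a p-subgroup of the finite group G with G = D·C_G(D), and B a p-block with defect group D. Let χ be a member of B having D in its kernel (there is exactly one, the canonical character of B). Then the irreducible characters in B are exactly the functions θ on G for which there is an irreducible character ζ of D such that θ(yx) = ζ(y)χ(x) whenever y ∈ D, x has order prime to p and x commutes with y, and θ(z) = 0 whenever the p-part of z does not lie in D. -/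
theorem result {G : Type*} [Group G] [Finite G] (p : ℕ) [Fact p.Prime] (M : Ideal Cfsg.AlgInt) (hM : Cfsg.IsPModular p M) (D : Subgroup G) (hD : IsPGroup p D) (hG : D ⊔ Subgroup.centralizer (D : Set G) = ⊤) (B : Set (Cfsg.IrrCharacter G)) (hB : Cfsg.IsPBlock M B) (hBD : Cfsg.IsDefectGroup p M B D) (χ : Cfsg.IrrCharacter G) (hχ : χ ∈ B) (hχD : ∀ y ∈ D, (χ : G → ℂ) y = (χ : G → ℂ) 1) : (∀ θ : Cfsg.IrrCharacter G, θ ∈ B ↔ ∃ ζ : Cfsg.IrrCharacter D, (∀ (y : D) (x : G), ¬ p ∣ orderOf x → Commute (y : G) x → (θ : G → ℂ) ((y : G) * x) = (ζ : D → ℂ) y * (χ : G → ℂ) x) ∧ (∀ z : G, (∀ y : G, Cfsg.IsPPart p z y → y ∉ D) → (θ : G → ℂ) z = 0)) ∧ ∀ ζ : Cfsg.IrrCharacter D, ∃ θ ∈ B, (∀ (y : D) (x : G), ¬ p ∣ orderOf x → Commute (y : G) x → (θ : G → ℂ) ((y : G) * x) = (ζ : D → ℂ) y * (χ : G → ℂ) x) ∧ (∀ z : G, (∀ y : G, Cfsg.IsPPart p z y → y ∉ D) → (θ : G → ℂ) z = 0) := by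
  haveI : PMod p M := ⟨hM⟩
  lift B to Bl M G using hB
  have h : Can B D χ := ⟨hG, hBD, hχ, hχD⟩
  have h2 : ∀ ζ : IrrCharacter D, ∃ θ ∈ B.1, (∀ (y : D) (x : G), ¬ p ∣ orderOf x →
      Commute (y : G) x → (θ : G → ℂ) ((y : G) * x) = (ζ : D → ℂ) y * (χ : G → ℂ) x) ∧
      (∀ z : G, (∀ y : G, Cfsg.IsPPart p z y → y ∉ D) → (θ : G → ℂ) z = 0) := fun ζ => by
    obtain ⟨θ, a, b⟩ := h.exists_mem ζ
    exact ⟨θ, a, fun y x hx _ => h.apply_mul_of_res a b y hx,
      fun z hz => h.eq_zero a (hz _ (isPPart_pp z))⟩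
  refine ⟨fun θ => ⟨fun a => ?_, fun ⟨ζ, a, b⟩ => ?_⟩, h2⟩
  · obtain ⟨ζ, b⟩ := h.exists_res a
    exact ⟨ζ, fun y x hx _ => h.apply_mul_of_res a b y hx,
      fun z hz => h.eq_zero a (hz _ (isPPart_pp z))⟩
  · obtain ⟨θ', c, d, e⟩ := h2 ζ
    rw [show θ = θ' from Subtype.ext (funext fun z => ?_)]
    · exact c
    by_cases hz : pp p z ∈ D
    · rw [← pp_mul_pq (p := p) z]
      exact (a ⟨_, hz⟩ _ (isPRegular_pq z) (commute_pp_pq z)).trans
        (d ⟨_, hz⟩ _ (isPRegular_pq z) (commute_pp_pq z)).symm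
    · have : ∀ y, Cfsg.IsPPart p z y → y ∉ D := fun y hy => pp_eq_of_isPPart hy ▸ hz
      rw [b z this, e z this]

end Cfsg.Agent.S4714
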