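import Cfsg.Statements.S4715
import Cfsg.Agent.H9.Avg3

set_option autoImplicit false
open Cfsg

namespace Cfsg.Agent.S4715
open H9 H3 MonoidAlgebra
open scoped Pointwise
set_option linter.style.haveILetI false
set_option linter.unusedVariables false


/-- Let p be a prime, M a maximal ideal of the algebraic integers containing p, B a p-block of the finite group G with defect group D of order p^d, H = D·C_G(D), b a block of H inducing B, T the stabilizer of b in N_G(D) and e = [T : H] the inertial index of B; let n be the integer with p^n ≤ e < p^(n+1) and p^c the order of the centre of D. Then every irreducible character in B has height h with h + c ≤ n + d. -/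
theorem result {G : Type*} [Group G] [Finite G] (p : ℕ) [Fact p.Prime] (M : Ideal Cfsg.AlgInt) (hM : Cfsg.IsPModular p M) (B : Set (Cfsg.IrrCharacter G)) (hB : Cfsg.IsPBlock M B) (D : Subgroup G) (hBD : Cfsg.IsDefectGroup p M B D) (d : ℕ) (hDd : Nat.card D = p ^ d) (H : Subgroup G) (hH : H = D ⊔ Subgroup.centralizer (D : Set G)) (b : Set (Cfsg.IrrCharacter H)) (hind : Cfsg.IsInducedBlock M H b B) (T : Subgroup G) (hT : ∀ g : G, g ∈ T ↔ (g ∈ Subgroup.normalizer (D : Set G) ∧ ∀ θ ∈ b, ∀ θ' : Cfsg.IrrCharacter H, (∀ h h' : H, (h' : G) = g * h * g⁻¹ → (θ' : H → ℂ) h' = (θ : H → ℂ) h) → θ' ∈ b)) (e : ℕ) (he : H.relIndex T = e) (n : ℕ) (hn : p ^ n ≤ e ∧ e < p ^ (n + 1)) (c : ℕ) (hc : Nat.card (Subgroup.center D) = p ^ c) : ∀ χ ∈ B, Cfsg.blockHeight p B (χ : G → ℂ) + c ≤ n + d := by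
  haveI : PMod p M := ⟨hM⟩
  subst hH
  lift B to Bl M G using hB
  lift b to Bl M (D ⊔ cen D :) using hind.1
  have hD := Bl.IsDef.isPGroup hBD
  have h : MaxP B D b.E := ⟨nsub_bot_iff.2 ⟨bp_of_isBlk_sup hD b.isBlk, (isInducedBlock_iff_br hD
    le_sup_left le_sup_right (sup_le Subgroup.le_normalizer (cen_le_nrm D))).1 hind⟩, adef_top_iff.2 hBD⟩
  obtain rfl : T = nrm D ⊓ stab b.E := Subgroup.ext fun g => (hT g).trans
    (and_congr_right fun hg => (Bl.mem_stab_iff_forall (H1.le_normalizer_sup le_rfl (nrm_le_nrm_cen D) hg)).symm)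
  intro χ hχ
  have := (h.card_center_mul_le hχ).trans_lt (Nat.mul_lt_mul_of_pos_right (he ▸ hn.2)
    (pow_pos (Fact.out : p.Prime).pos _))
  rw [hc, ← h.isDef.card_eq, hDd, ← pow_add, ← pow_add, Nat.pow_lt_pow_iff_right (Fact.out : p.Prime).one_lt] at this
  omega

end Cfsg.Agent.S4715
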