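import Cfsg.Statements.S4717
import Cfsg.Agent.H9.Misc2

set_option autoImplicit false
open Cfsg

namespace Cfsg.Agent.S4717
open H9 H3 MonoidAlgebra
open scoped Pointwise
set_option linter.style.haveILetI false
set_option linter.unusedVariables false


/-- Let p be a prime, M a maximal ideal of the algebraic integers containing p, and r a natural number; say that a finite group X has deficiency class r when X has no non-principal p-block of defect ≥ r. If G has deficiency class r then so does the centralizer of every p-element of G; conversely, if r > 0 and the centralizer of every element of order p has deficiency class r, then G has deficiency class r. -/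
theorem result {G : Type*} [Group G] [Finite G] (p : ℕ) [Fact p.Prime] (M : Ideal Cfsg.AlgInt) (hM : Cfsg.IsPModular p M) (r : ℕ) : ((∀ B' : Set (Cfsg.IrrCharacter G), Cfsg.IsPBlock M B' → B' ≠ Cfsg.principalBlock M G → Cfsg.blockDefect p B' < r) → ∀ y : G, (∃ k : ℕ, orderOf y = p ^ k) → (∀ B' : Set (Cfsg.IrrCharacter ↥(Subgroup.centralizer ({y} : Set G))), Cfsg.IsPBlock M B' → B' ≠ Cfsg.principalBlock M ↥(Subgroup.centralizer ({y} : Set G)) → Cfsg.blockDefect p B' < r)) ∧ (0 < r → (∀ y : G, orderOf y = p → (∀ B' : Set (Cfsg.IrrCharacter ↥(Subgroup.centralizer ({y} : Set G))), Cfsg.IsPBlock M B' → B' ≠ Cfsg.principalBlock M ↥(Subgroup.centralizer ({y} : Set G)) → Cfsg.blockDefect p B' < r)) → (∀ B' : Set (Cfsg.IrrCharacter G), Cfsg.IsPBlock M B' → B' ≠ Cfsg.principalBlock M G → Cfsg.blockDefect p B' < r)) := by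
  haveI : PMod p M := ⟨hM⟩
  refine ⟨fun h y hy c hc hne => ?_, fun hr h B hB hne => ?_⟩
  · lift c to Bl M (cen1 y) using hc
    obtain ⟨B, hB⟩ := exists_ind_centralizer_elt hy c
    exact (hB.defect_le Subtype.val_injective).trans_lt (h B.1 B.2 fun e => hne
      (congrArg Subtype.val ((hB.eq_B0_iff Subtype.val_injective).1 (Subtype.ext e))))
  · lift B to Bl M G using hB
    obtain ⟨P, b, m⟩ := B.exists_maxP
    by_cases h1 : P = ⊥
    · rwa [Bl.isDef_bot_iff.1 (h1 ▸ m.isDef)]
    obtain ⟨z, hz, hc, ho⟩ := exists_mem_center_of_ne_bot m.isPGroup h1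
    rw [← m.defect_sbl_of_cen hz hc]
    exact h z ho _ (sbl P b z).2 fun e => hne
      (congrArg Subtype.val (((m.ind_sbl hz).eq_B0_iff Subtype.val_injective).2 (Subtype.ext e)))

end Cfsg.Agent.S4717
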