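import Cfsg.Statements.S4720
import Cfsg.Agent.H9.Misc2

set_option autoImplicit false
open Cfsg

namespace Cfsg.Agent.S4720
open H9 H3 MonoidAlgebra
open scoped Pointwise
set_option linter.style.haveILetI false
set_option linter.unusedVariables false


/-- Let p be a prime, M a maximal ideal of the algebraic integers containing p, P a p-subgroup of the finite group G, N a subgroup with P ≤ N ≤ N_G(P), and U a nonempty subset of P normalized by N such that an element of U and an element of P that are conjugate in G are already conjugate in N, and such that λ(C_G(y)) = w·#C_N(y) for every y ∈ U with one rational number w, where λ(X) denotes the sum of the squares of the degrees of the irreducible characters in the principal p-block of X. For a complex function θ on P and χ in the principal block of G put a_χ(θ) = #P⁻¹ Σ_{y ∈ P} χ(y) θ(y⁻¹). Then for generalized characters θ, η of P with θ vanishing outside U, Σ_χ a_χ(θ)·conj(a_χ(η)) = (w/#P²)·Σ_{y ∈ P} θ(y)·conj(Σ_{x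 ∈ N} η(x y x⁻¹)) (η extended by zero off P; the conjugates lie in P), the first sum over the principal p-block of G. -/
theorem result {G : Type*} [Group G] [Finite G] (p : ℕ) [Fact p.Prime] (M : Ideal Cfsg.AlgInt) (hM : Cfsg.IsPModular p M) (P : Subgroup G) (hP : IsPGroup p P) (N : Subgroup G) (hPN : P ≤ N) (hNN : N ≤ Subgroup.normalizer (P : Set G)) (U : Set G) (hUne : U.Nonempty) (hUP : U ⊆ (P : Set G)) (hUN : ∀ n ∈ N, ∀ u ∈ U, n * u * n⁻¹ ∈ U) (hfus : ∀ u ∈ U, ∀ g : G, g * u * g⁻¹ ∈ (P : Set G) → ∃ n ∈ N, n * u * n⁻¹ = g * u * g⁻¹) (w : ℚ) (hw : ∀ y ∈ U, ((∑ᶠ ψ ∈ Cfsg.principalBlock M ↥(Subgroup.centralizer ({y} : Set G)), Cfsg.charDegree (ψ : ↥(Subgroup.centralizer ({y} : Set G)) → ℂ) ^ 2) : ℚ) = w * Nat.card ↥(N ⊓ Subgroup.centralizer ({y} : Set G))) (θ η : ↥P → ℂ) (hθ : Cfsg.IsGeneralizedCharacter ↥P θ) (hη : Cfsg.IsGeneralizedCharacter ↥P η) (hθU : ∀ y : ↥P, (y : G) ∉ U → θ y = 0) : ∑ᶠ χ ∈ Cfsg.principalBlock M G, ((Nat.card ↥P : ℂ)⁻¹ * ∑ᶠ y : ↥P,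 (χ : G → ℂ) (y : G) * θ y⁻¹) * (starRingEnd ℂ) ((Nat.card ↥P : ℂ)⁻¹ * ∑ᶠ y : ↥P, (χ : G → ℂ) (y : G) * η y⁻¹) = ((w : ℂ) / ((Nat.card ↥P : ℂ) ^ 2)) * ∑ᶠ y : ↥P, θ y * (starRingEnd ℂ) (∑ᶠ x : ↥N, Cfsg.extendByZero P η ((x : G) * (y : G) * (x : G)⁻¹)) := by
  classical
  haveI : PMod p M := ⟨hM⟩
  haveI := Fintype.ofFinite G
  have key : ∀ u : P, (u : G) ∈ U → ∑ v : P, (starRingEnd ℂ) (η v) *
      ∑ χ with χ ∈ (B0 M G).1, χ.1 v * (starRingEnd ℂ) (χ.1 u) =
      w * (starRingEnd ℂ) (∑ x : N, extendByZero P η (x * u * (x : G)⁻¹)) := fun u hu => by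
    have hp : ∀ v : P, IsPElt p (v : G) := fun v => isPElt_of_mem hP v.2
    let f : N → P := fun x => ⟨x * u * (x : G)⁻¹, conj_mem_of_nrm (hNN x.2) u.2⟩
    rw [← Finset.sum_fiberwise Finset.univ f, map_sum, Finset.mul_sum]
    refine Finset.sum_congr rfl fun v _ => ?_
    rw [show ∑ x with f x = v, extendByZero P η (x * u * (x : G)⁻¹) = ∑ x with f x = v, η v from
      Finset.sum_congr rfl fun x hx => by
      rw [← (Finset.mem_filter.1 hx).2]; exact ext0_coe η (f x), Finset.sum_const, nsmul_eq_mul,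
      map_mul, map_natCast, ← mul_assoc, mul_comm]
    congr 1
    by_cases h : IsConj (u : G) v
    · obtain ⟨g, hg⟩ := isConj_iff.1 h
      obtain ⟨n, hn, e⟩ := hfus u hu g (hg ▸ v.2)
      rw [Finset.sum_congr rfl fun χ _ => by rw [← hg, χ.2.isClassFunction u g], sum_B0_normSq (hp u)]
      have h1 := congrArg (fun x : ℚ => (x : ℂ)) (hw u hu)
      simp only [← B0_val, finsum_mem_irr] at h1
      push_cast at h1
      rw [Finset.sum_congr rfl fun ξ _ => by rw [conj_deg ξ.2.isCharacter, irr_deg, ← sq]]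
      refine Eq.trans (by congr) (h1.trans ?_)
      congr 2
      rw [← Fintype.card_subtype, ← Nat.card_eq_fintype_card]
      refine Nat.card_congr ⟨fun c => ⟨⟨n * c, N.mul_mem hn c.2.1⟩, Subtype.ext ?_⟩,
        fun x => ⟨n⁻¹ * x.1, N.mul_mem (N.inv_mem hn) x.1.2, mem_cen1.2 ?_⟩, fun c => by simp, fun x => by simp⟩
      · have := mem_cen1.1 c.2.2
        simp only [f]
        rw [← hg, ← e]
        conv_rhs => rw [← this]
        group
      · have := congrArg Subtype.val x.2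
        simp only [f] at this
        rw [← hg, ← e] at this
        calc _ = n⁻¹ * (x.1 * u * (x.1 : G)⁻¹) * n := by group
          _ = _ := by rw [this]; group
    · rw [block_orth' _ (by rw [pp_of_isPElt (hp u), pp_of_isPElt (hp v)]; exact fun h' => h h'.symm),
        (Finset.filter_eq_empty_iff (p := fun x => f x = v)).2 fun x _ e =>
          h (isConj_iff.2 ⟨x, congrArg Subtype.val e⟩)]
      simp
  rw [← B0_val, finsum_mem_irr]
  simp only [finsum_eq_sum_of_fintype]
  have h2 : ∀ (χ : IrrCharacter G) (θ : P → ℂ), ∑ y : P, χ.1 y * θ y⁻¹ =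
      ∑ y : P, (starRingEnd ℂ) (χ.1 y) * θ y := fun χ θ =>
    (Equiv.sum_comp (Equiv.inv P) _).symm.trans (Finset.sum_congr rfl fun y _ => by
      simp [χ.2.isCharacter.map_inv])
  simp only [h2, map_mul, map_sum, map_inv₀, map_natCast, Complex.conj_conj]
  rw [Finset.mul_sum]
  trans ∑ u : P, ((Nat.card P : ℂ) ^ 2)⁻¹ * θ u * ∑ v : P, (starRingEnd ℂ) (η v) *
      ∑ χ with χ ∈ (B0 M G).1, χ.1 v * (starRingEnd ℂ) (χ.1 u)
  · simp only [Finset.mul_sum, Finset.sum_mul]
    rw [Finset.sum_comm]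
    conv_rhs => rw [Finset.sum_comm]
    refine Finset.sum_congr rfl fun u _ => ?_
    rw [Finset.sum_comm]
    refine Finset.sum_congr rfl fun v _ => Finset.sum_congr (by congr) fun χ _ => by ring
  · refine Finset.sum_congr rfl fun u _ => ?_
    by_cases hu : (u : G) ∈ U
    · rw [key u hu, map_sum]; ring
    · simp [hθU u hu]

end Cfsg.Agent.S4720
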