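import Cfsg.Statements.S4721
import Cfsg.Agent.H9.Exc2

set_option autoImplicit false
open Cfsg

namespace Cfsg.Agent.S4721
open H9 H3 MonoidAlgebra
open scoped Pointwise
set_option linter.style.haveILetI false
set_option linter.unusedVariables false


/-- Let p be a prime, M a maximal ideal of the algebraic integers containing p, and G a finite group with a nontrivial abelian Sylow p-subgroup P, N = N_G(P), C = C_G(P), such that N/C is cyclic of order 3, #P > 4, and C_G(y) ∩ N = C for every non-identity y ∈ P. Then the principal p-block is the disjoint union of a set X of exactly 3 characters containing the principal character and a set Y of (#P − 1)/3 characters, with signs a_χ = ±1 (χ ∈ X, a = 1 at the principal character) and δ = ±1 such that every χ ∈ X takes the value a_χ at every element whose p-part is a non-identity element of P, and there is a map ζ from the non-principal linear characters of P onto Y, constant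 on N-conjugacy classes, with ζ_ψ(z) = δ·Σ ψ'(y) over the N-orbit of ψ, for z with p-part y ≠ 1 in P. If moreover G has an involution lying in no proper normal subgroup of G, then exactly two of the three numbers −δ and a_χ (χ ∈ X non-principal) equal −1, and the product of the degrees of the two non-principal members of X and of any member of Y is a perfect square. -/
theorem result {G : Type*} [Group G] [Finite G] (p : ℕ) [Fact p.Prime] (M : Ideal Cfsg.AlgInt) (hM : Cfsg.IsPModular p M) (P : Sylow p G) (hab : IsMulCommutative P) (hP1 : Nat.card P ≠ 1) (hCN : (Subgroup.centralizer ((P : Subgroup G) : Set G)).relIndex (Subgroup.normalizer ((P : Subgroup G) : Set G)) = 3) (hcyc : ∃ g : G, g ∈ Subgroup.normalizer ((P : Subgroup G) : Set G) ∧ Subgroup.centralizer ((P : Subgroup G) : Set G) ⊔ Subgroup.zpowers g = Subgroup.normalizer ((P : Subgroup G) : Set G)) (hm2 : 3 + 1 < Nat.card P) (hfrob : ∀ y : G, y ∈ (P : Subgroup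 G) → y ≠ 1 → Subgroup.centralizer ({y} : Set G) ⊓ Subgroup.normalizer ((P : Subgroup G) : Set G) = Subgroup.centralizer ((P : Subgroup G) : Set G)) : ∃ (X Y : Set (Cfsg.IrrCharacter G)), Cfsg.principalBlock M G = X ∪ Y ∧ Disjoint X Y ∧ Nat.card X = 3 ∧ Nat.card Y = (Nat.card P - 1) / 3 ∧ (∃ χ₁ ∈ X, (χ₁ : G → ℂ) = fun _ => 1) ∧ ∃ (a : Cfsg.IrrCharacter G → ℤ) (δ : ℤ) (ζ : (↥(P : Subgroup G) →* ℂˣ) → Cfsg.IrrCharacter G), (δ = 1 ∨ δ = -1) ∧ (∀ χ ∈ X, (a χ = 1 ∨ a χ = -1) ∧ ∀ z y : G, Cfsg.IsPPart p z y → y ∈ (P : Subgroup G) → y ≠ 1 → (χ : G → ℂ) z = (a χ : ℂ)) ∧ (∀ ψ : ↥(P : Subgroup G) →* ℂˣ, ψ ≠ 1 → ζ ψ ∈ Y) ∧ (∀ η ∈ Y, ∃ ψ : ↥(P : Subgroup G) →* ℂˣ, ψ ≠ 1 ∧ ζ ψ = η) ∧ (∀ ψ ψ' : ↥(P : Subgroup G) →* ℂˣ, ψ ≠ 1 → (∃ n : G, n ∈ Subgroup.normalizer ((P : Subgroup G) : Set G) ∧ ∀ w w' : ↥(P : Subgroup G), (w' : G) = n * w * n⁻¹ → ψ' w' = ψ w) → ζ ψ' = ζ ψ) ∧ (∀ ψ : ↥(P : Subgroup G) →* ℂˣ, ψ ≠ 1 → ∀ (z : G) (y : ↥(P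 : Subgroup G)), Cfsg.IsPPart p z (y : G) → (y : G) ≠ 1 → (ζ ψ : G → ℂ) z = (δ : ℂ) * ∑ᶠ ψ' ∈ {ψ' : ↥(P : Subgroup G) →* ℂˣ | ∃ n : G, n ∈ Subgroup.normalizer ((P : Subgroup G) : Set G) ∧ ∀ w w' : ↥(P : Subgroup G), (w' : G) = n * w * n⁻¹ → ψ' w' = ψ w}, ((ψ' y : ℂˣ) : ℂ)) ∧ ((∃ t : G, orderOf t = 2 ∧ ∀ K : Subgroup G, K.Normal → t ∈ K → K = ⊤) → Nat.card {χ : Cfsg.IrrCharacter G // χ ∈ X ∧ (χ : G → ℂ) ≠ (fun _ => 1) ∧ a χ = -1} + (if δ = 1 then 1 else 0) = 2 ∧ ∀ η ∈ Y, IsSquare (Cfsg.charDegree (η : G → ℂ) * ∏ᶠ χ ∈ {χ : Cfsg.IrrCharacter G | χ ∈ X ∧ (χ : G → ℂ) ≠ fun _ => 1}, Cfsg.charDegree (χ : G → ℂ))) := by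
  classical
  haveI : PMod p M := ⟨hM⟩
  haveI := Fintype.ofFinite G
  have h : Ex0 (B0 M G) P _ _ _ :=
    ex0_B0 (H1.isSylowIn_top P) (le_cen_of_isMulCommutative hab) hfrob
  have hE : Nat.card (aE (P : Subgroup G).subtype (nrm P)) = 3 :=
    (card_aE (Subgroup.subtype_injective _) (Subgroup.range_subtype _) le_rfl).trans hCN
  haveI : Nontrivial (P : Subgroup G) := Finite.one_lt_card_iff_nontrivial.1 (lt_of_le_of_lt (by omega) hm2)
  obtain ⟨w, hw⟩ := h.exc_B0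
  obtain ⟨ζ, ε, a, χ₂, χ₃, x, hX, n2, n3, n23, a1, a2, a3⟩ := h.B0_three hE hm2
  obtain ⟨v1, v2, v3⟩ := x.B0_vals h
  have hY : Nat.card (YY ζ) = (Nat.card P - 1) / 3 := by rw [x.card_YY' h.fa, hE]
  have m2 : χ₂ ∈ (B0 M G).1 \ YY ζ := by rw [hX]; simp
  refine ⟨(B0 M G).1 \ YY ζ, YY ζ, (Set.sdiff_union_of_subset x.YY_sub).symm,
    Set.disjoint_sdiff_left, ?_, hY, ⟨trivChar G, by rw [hX]; simp, rfl⟩, a, ε, ζ,
    x.sign, fun χ hχ => ⟨?_, v1 χ hχ⟩, fun ψ h => ⟨ψ, h, rfl⟩, fun η h => h, v2,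
    fun ψ h z y e h' => by rw [v3 ψ h z y e h', Int.cast_zero, zero_add], fun ⟨t, ht, hK⟩ => ?_⟩
  · rw [hX, Nat.card_coe_set_eq, Set.ncard_eq_three]; exact ⟨_, _, _, n2, n3, n23, rfl⟩
  · rw [hX] at hχ
    rcases hχ with rfl | rfl | rfl
    exacts [Or.inl a1, a2, a3]
  have t2 : t ^ 2 = 1 := by rw [← ht, pow_orderOf_eq_one]
  have nk : ∀ χ : IrrCharacter G, χ ≠ trivChar G → χ.1 t ≠ χ.1 1 := fun χ hχ e =>
    hχ (Subtype.ext (χ.2.eq_one_of_const fun g => χ.2.isCharacter.mem_charKer.1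
      (hK _ χ.2.isClassFunction.charKer_normal (χ.2.isCharacter.mem_charKer.2 e) ▸ Subgroup.mem_top g)))
  have hp : p ≠ 2 := by
    rintro rfl
    obtain ⟨χ, hχ, h1, h2, h3⟩ := h.two_three hE hm2
    obtain ⟨k, -, hk⟩ := exists_conj_mem_sylow (H1.isSylowIn_top P) (x := t) ⟨1, by simpa using ht⟩
      (Subgroup.mem_top _)
    exact nk χ h1 (by rw [h2, ← h3 _ hk, χ.2.isClassFunction])
  have tr : IsPRegular p t := by
    rw [IsPRegular, ht, Nat.prime_dvd_prime_iff_eq Fact.out Nat.prime_two]; exact hp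
  have key : ∀ l, l ≠ 1 → 1 + -ε * charDegree (ζ l).1 + a χ₂ * charDegree χ₂.1 +
      a χ₃ * charDegree χ₃.1 = 0 ∧ IsSquare (-ε * charDegree (ζ l).1 * (a χ₂ * charDegree χ₂.1) *
        (a χ₃ * charDegree χ₃.1)) := fun l hl => by
    have hpsi := w.psi_Dl (η := lf 1 - lf l) (by simp) (s := t) (t := t) fun x y u hu e => by
      have o2 : ∀ x : G, (x * t * x⁻¹) ^ 2 = 1 := fun x => by rw [conj_pow, t2]; simp
      have hu2 := h.sq_eq_one (by rw [hE]; decide) (o2 x) (o2 y) e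
      obtain ⟨k, hk⟩ := h.elt u
      have := orderOf_eq_prime (p := 2) (x := (u : G)) (by exact_mod_cast congrArg Subtype.val hu2)
        (h.ne_one hu)
      exact absurd ((Nat.prime_dvd_prime_iff_eq Nat.prime_two Fact.out).1
        (Nat.prime_two.dvd_of_dvd_pow (n := k) (by rw [← hk]; exact this.symm.dvd))).symm hp
    have r1 := x.rel w ⟨l, hl, rfl⟩ isPRegular_one
    have r2 := x.rel w ⟨l, hl, rfl⟩ tr
    rw [x.psi_one_sub w hl rfl, sum_three hX n2 n3 n23, a1] at hpsi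
    rw [sum_three hX n2 n3 n23, a1] at r1 r2
    obtain ⟨w1, e1⟩ := exists_int_of_sq_eq_one (ζ l).2.isGen t2
    obtain ⟨w2, e2⟩ := exists_int_of_sq_eq_one χ₂.2.isGen t2
    obtain ⟨w3, e3⟩ := exists_int_of_sq_eq_one χ₃.2.isGen t2
    have k := nk χ₂ n2.symm
    have d1 := (ζ l).2.deg_ne_zero
    have d2 := χ₂.2.deg_ne_zero
    have d3 := χ₃.2.deg_ne_zero
    simp only [trivChar] at hpsi r1 r2
    simp only [e1, e2, e3, irr_deg] at hpsi r1 r2 k d1 d2 d3
    have r1' : 1 + -ε * charDegree (ζ l).1 + a χ₂ * charDegree χ₂.1 + a χ₃ * charDegree χ₃.1 = 0 :=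
      Int.cast_injective (α := ℂ) (by push_cast at r1 ⊢; linear_combination r1)
    refine ⟨r1', three_sq (w₁ := -ε * w1) (w₂ := a χ₂ * w2) (w₃ := a χ₃ * w3) ?_ ?_ ?_ r1'
      (Int.cast_injective (α := ℂ) (by push_cast at r2 ⊢; linear_combination r2)) ?_ ?_⟩
    · rcases x.sign with e | e <;> simpa [e] using d1
    · rcases a2 with e | e <;> simpa [e] using d2
    · rcases a3 with e | e <;> simpa [e] using d3
    · intro e'
      refine k ?_
      rcases a2 with e | e <;> rw [e] at e' <;> exact_mod_cast (by omega : w2 = charDegree χ₂.1)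
    · rw [← hpsi]
      rcases x.sign with e | e <;> rcases a2 with e' | e' <;> rcases a3 with e'' | e'' <;>
        rw [e, e', e''] <;> push_cast <;> field_simp <;> ring
  have pos : ∀ χ : IrrCharacter G, (0 : ℤ) < charDegree χ.1 := fun χ => by
    have := χ.2.deg_ne_zero
    rw [irr_deg] at this
    have : charDegree χ.1 ≠ 0 := by exact_mod_cast this
    omega
  have hS : {χ : IrrCharacter G | χ ∈ (B0 M G).1 \ YY ζ ∧ (χ : G → ℂ) ≠ fun _ => 1} = {χ₂, χ₃} := by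
    ext χ
    rw [Set.mem_ofPred_eq, hX]
    refine ⟨fun ⟨h1, h2⟩ => h1.resolve_left fun e => h2 (e ▸ rfl), fun h1 => ⟨Or.inr h1, fun e => ?_⟩⟩
    rcases h1 with rfl | rfl
    exacts [n2 (Subtype.ext e.symm), n3 (Subtype.ext e.symm)]
  refine ⟨?_, ?_⟩
  · obtain ⟨l, hl⟩ := h.fa.exists_lin
    obtain ⟨k1, k2⟩ := key l hl
    have k3 := k2.nonneg
    have p1 := pos (ζ l)
    have p2 := pos χ₂
    have p3 := pos χ₃
    have p4 := mul_pos (mul_pos p1 p2) p3
    have : Nat.card {χ : IrrCharacter G // χ ∈ (B0 M G).1 \ YY ζ ∧ (χ : G → ℂ) ≠ (fun _ => 1) ∧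
        a χ = -1} = (({χ₂, χ₃} : Finset _).filter fun χ => a χ = -1).card := by
      rw [← Fintype.card_coe, ← Nat.card_eq_fintype_card]
      refine Nat.card_congr (Equiv.subtypeEquivRight fun χ => ?_)
      rw [← and_assoc, Finset.mem_filter]
      exact and_congr_left' ((Set.ext_iff.1 hS χ).trans (by simp))
    rw [this, Finset.filter_insert, Finset.filter_singleton]
    rcases x.sign with e | e <;> rcases a2 with e' | e' <;> rcases a3 with e'' | e'' <;>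
      rw [e, e', e''] at k1 k3 <;> simp [e, e', e'', n23] <;> nlinarith
  · rintro _ ⟨l, hl, rfl⟩
    obtain ⟨k1, k2⟩ := key l hl
    rw [hS, finprod_mem_pair n23, ← Int.isSquare_natCast_iff]
    have k3 := k2.nonneg
    have p4 := mul_pos (mul_pos (pos (ζ l)) (pos χ₂)) (pos χ₃)
    convert k2 using 1
    push_cast
    rcases x.sign with e | e <;> rcases a2 with e' | e' <;> rcases a3 with e'' | e'' <;>
      rw [e, e', e''] at k3 ⊢ <;> nlinarith

end Cfsg.Agent.S4721
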