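import Cfsg.Statements.S4722
import Cfsg.Agent.H9.Misc2

set_option autoImplicit false
open Cfsg

namespace Cfsg.Agent.S4722
open H9 H3 MonoidAlgebra
open scoped Pointwise
set_option linter.style.haveILetI false
set_option linter.unusedVariables false
theorem aux {ι : Type*} (s : Finset ι) (a d x : ι → ℝ) (hd : ∀ i, 0 < d i) (h1 : ∑ i ∈ s, a i * d i = 0)
    (h2 : ∑ i ∈ s, a i * x i = 0) (h3 : ∑ i ∈ s, a i * x i ^ 2 / d i = 0)
    (h : ∀ i ∈ s, ∀ j ∈ s, 0 < a i → 0 < a j → i = j) : ∃ r, ∀ i ∈ s, a i ≠ 0 → x i = r * d i := by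
  obtain ⟨r, hr⟩ : ∃ r, ∀ i ∈ s, 0 < a i → x i = r * d i := by
    by_cases h0 : ∃ j ∈ s, 0 < a j
    · obtain ⟨j, hj, h0⟩ := h0
      exact ⟨x j / d j, fun i hi ha => by rw [h i hi j hj ha h0, div_mul_cancel₀ _ (hd j).ne']⟩
    · exact ⟨0, fun i hi ha => (h0 ⟨i, hi, ha⟩).elim⟩
  have h4 : ∑ i ∈ s, -a i * (x i - r * d i) ^ 2 / d i = 0 := by
    rw [Finset.sum_congr rfl (g := fun i => -(a i * x i ^ 2 / d i) + 2 * r * (a i * x i) - r ^ 2 * (a i * d i))
      fun i _ => by have := (hd i).ne'; field_simp; ring]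
    simp only [Finset.sum_sub_distrib, Finset.sum_add_distrib, Finset.sum_neg_distrib, ← Finset.mul_sum,
      h1, h2, h3]
    simp
  rw [Finset.sum_eq_zero_iff_of_nonneg fun i hi => by
    by_cases ha : 0 < a i
    · simp [hr i hi ha]
    · exact div_nonneg (mul_nonneg (by linarith) (sq_nonneg _)) (hd i).le] at h4
  refine ⟨r, fun i hi ha => ?_⟩
  simpa [ha, (hd i).ne', sub_eq_zero] using h4 i hi

/-- Let M be a maximal ideal of the algebraic integers containing 2, P a 2-subgroup of the finite group G, U a subset of P, and t an involution of G such that no element of U is inverted by any conjugate of t. Let θ be a generalized character of P vanishing outside U, and for χ in the principal 2-block B₀ put a_χ = #P⁻¹ Σ_{y ∈ P} χ(y) θ(y⁻¹). Then Σ_{χ ∈ B₀} a_χ χ(t)^2/χ(1) = 0, Σ_{χ ∈ B₀} a_χ χ(1) = 0 and Σ_{χ ∈ B₀} a_χ χ(t) = 0. If moreover #P⁻¹ Σ_{y ∈ P} θ(y) ≠ 0, then either at least two of the a_χ have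 positive real part and at least two have negative real part, or G has a proper normal subgroup containing O_2'(G) and t. -/
theorem result {G : Type*} [Group G] [Finite G] (M : Ideal Cfsg.AlgInt) (hM : Cfsg.IsPModular 2 M) (P : Subgroup G) (hP : IsPGroup 2 P) (U : Set G) (hUP : U ⊆ (P : Set G)) (t : G) (ht : orderOf t = 2) (hinv : ∀ u ∈ U, ∀ g : G, (g * t * g⁻¹) * u * (g * t * g⁻¹)⁻¹ ≠ u⁻¹) (θ : ↥P → ℂ) (hθ : Cfsg.IsGeneralizedCharacter ↥P θ) (hθU : ∀ y : ↥P, (y : G) ∉ U → θ y = 0) : (∑ᶠ χ ∈ Cfsg.principalBlock M G, ((Nat.card ↥P : ℂ)⁻¹ * ∑ᶠ y : ↥P, (χ : G → ℂ) (y : G) * θ y⁻¹) * (χ : G → ℂ) t ^ 2 / (χ : G → ℂ) 1 = 0) ∧ (∑ᶠ χ ∈ Cfsg.principalBlock M G, ((Nat.card ↥P : ℂ)⁻¹ * ∑ᶠ y : ↥P, (χ : G → ℂ) (y : G) * θ y⁻¹) * (χ : G → ℂ) 1 = 0) ∧ (∑ᶠ χ ∈ Cfsg.principalBlock M G, ((Nat.card ↥P : ℂ)⁻¹ * ∑ᶠ y : ↥P, (χ : G → ℂ) (y : G) * θ y⁻¹) * (χ : G → ℂ) t = 0) ∧ ((Nat.card ↥P : ℂ)⁻¹ * ∑ᶠ y : ↥P, θ y ≠ 0 → (2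 ≤ Nat.card {χ : Cfsg.IrrCharacter G // χ ∈ Cfsg.principalBlock M G ∧ 0 < (((Nat.card ↥P : ℂ)⁻¹ * ∑ᶠ y : ↥P, (χ : G → ℂ) (y : G) * θ y⁻¹)).re} ∧ 2 ≤ Nat.card {χ : Cfsg.IrrCharacter G // χ ∈ Cfsg.principalBlock M G ∧ (((Nat.card ↥P : ℂ)⁻¹ * ∑ᶠ y : ↥P, (χ : G → ℂ) (y : G) * θ y⁻¹)).re < 0}) ∨ ∃ K : Subgroup G, K.Normal ∧ K ≠ ⊤ ∧ Cfsg.pPrimeCore 2 G ≤ K ∧ t ∈ K) := by
  classical
  haveI : PMod 2 M := ⟨hM⟩
  haveI := Fintype.ofFinite G
  have ht2 : t ^ 2 = 1 := ht ▸ pow_orderOf_eq_one t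
  have hΘ := hθ.ind
  obtain ⟨a, ha, -⟩ := hΘ.exists_coeff
  have h1 : ∀ χ : IrrCharacter G, (Nat.card P : ℂ)⁻¹ * ∑ᶠ y : P, χ.1 y * θ y⁻¹ = a χ := fun χ => by
    rw [← ha, hΘ.inner_comm χ.2.isGen, inner_indFun_right _ _ χ.2.isClassFunction, classInner,
      finsum_eq_sum_of_fintype]
    simp only [hθ.map_inv]
  have h2 : ∀ v, (∃ g, (g * t * g⁻¹) * pp 2 v * (g * t * g⁻¹)⁻¹ = (pp 2 v)⁻¹) →
      ∑ χ with χ ∈ (B0 M G).1, (a χ : ℂ) * χ.1 v = 0 := fun v ⟨g, hg⟩ => by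
    have := blockPart_eq_zero_of_section (B0 M G) (θ := indFun P θ) (u := v) fun y hy =>
      indFun_eq_zero_of_support _ _ fun x hx => hθU _ fun hu => by
        obtain ⟨c, hc⟩ := isConj_iff.1 hy
        have h3 := pp_of_isPElt (isPElt_of_mem hP hx)
        rw [pp_conj, ← hc] at h3
        refine hinv _ hu (x * c * g) ?_
        simp only [← h3]
        calc _ = x * c * ((g * t * g⁻¹) * pp 2 v * (g * t * g⁻¹)⁻¹) * (x * c)⁻¹ := by group
          _ = _ := by rw [hg]; group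
    simpa only [blockPart_apply, ha] using this
  have hA := h2 1 ⟨1, by simp [pp_one]⟩
  have hB := h2 t ⟨1, by rw [pp_of_isPElt (show IsPElt 2 t from ⟨1, by simpa using ht⟩)]; simp [eq_inv_iff_mul_eq_one, ← sq, ht2]⟩
  have hC : ∑ χ with χ ∈ (B0 M G).1, (a χ : ℂ) * χ.1 t ^ 2 / χ.1 1 = 0 := by
    have := sum_inner_mul_div_eq_zero (isClassFunction_blockPart (B0 M G).1 (indFun P θ)) (s := t) (t := t)
      fun x y => by
        simp only [blockPart_apply, ha]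
        refine h2 _ ⟨x, ?_⟩
        rw [← pp_conj, dih_inv (by rw [conj_pow, ht2]; simp) (by rw [conj_pow, ht2]; simp), pp_inv]
    rw [Finset.sum_filter]
    refine (Finset.sum_congr rfl fun χ _ => ?_).trans this
    rw [inner_blockPart, ha]
    split_ifs <;> ring
  simp only [h1, ← B0_val, finsum_mem_irr]
  refine ⟨by convert hC, by convert hA, by convert hB, fun h0 => ?_⟩
  have h4 : a (trivChar G) ≠ 0 := fun h => h0 (by
    have := h1 (trivChar G)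
    simp only [h, Int.cast_zero] at this
    simp only [trivChar, one_mul] at this
    rw [← this, finsum_eq_sum_of_fintype, finsum_eq_sum_of_fintype]
    exact congrArg _ (Equiv.sum_comp (Equiv.inv P) _).symm)
  choose x hx using fun χ : IrrCharacter G => exists_int_of_sq_eq_one χ.2.isGen ht2
  simp only [hx, irr_deg] at hA hB hC
  have hd : ∀ χ : IrrCharacter G, (0 : ℝ) < charDegree χ.1 := fun χ =>
    Nat.cast_pos.2 (Nat.pos_of_ne_zero (charDegree_ne_zero χ.2))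
  have h5 : ∀ ε : ℝ, ε ≠ 0 → (¬ 2 ≤ Nat.card {χ : IrrCharacter G // χ ∈ (B0 M G).1 ∧ 0 < ε * a χ}) →
      ∃ K : Subgroup G, K.Normal ∧ K ≠ ⊤ ∧ pPrimeCore 2 G ≤ K ∧ t ∈ K := fun ε hε h => by
    obtain ⟨r, hr⟩ := aux (Finset.univ.filter (· ∈ (B0 M G).1)) (fun χ => ε * a χ) _ (fun χ => x χ) hd
      (by simp only [mul_assoc, ← Finset.mul_sum]; exact mul_eq_zero_of_right _ (by exact_mod_cast hA))
      (by simp only [mul_assoc, ← Finset.mul_sum]; exact mul_eq_zero_of_right _ (by exact_mod_cast hB))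
      (by simp only [mul_assoc, mul_div_assoc, ← Finset.mul_sum]
          exact mul_eq_zero_of_right _ (by simp only [mul_div_assoc] at hC; exact_mod_cast hC))
      fun i hi j hj h1 h2 => by
        have : Subsingleton {χ : IrrCharacter G // χ ∈ (B0 M G).1 ∧ 0 < ε * a χ} :=
          Finite.card_le_one_iff_subsingleton.1 (by omega)
        exact congrArg Subtype.val (this.elim ⟨i, by simpa using hi, h1⟩ ⟨j, by simpa using hj, h2⟩)
    have h6 := hr _ (by simpa using trivChar_mem_B0) (mul_ne_zero hε (by exact_mod_cast h4))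
    have h7 : (x (trivChar G) : ℂ) = 1 := (hx _).symm
    rw [charDegree_trivChar, show x (trivChar G) = 1 by exact_mod_cast h7] at h6
    obtain ⟨χ, hχ, h8, h9⟩ : ∃ χ ∈ (B0 M G).1, χ ≠ trivChar G ∧ a χ ≠ 0 := by
      by_contra! hn
      rw [Finset.sum_eq_single (trivChar G) (fun χ hχ h => by simp [hn χ (by simpa using hχ) h])
        (by simp [trivChar_mem_B0]), charDegree_trivChar] at hA
      exact h4 (by simpa using hA)
    have h10 := hr χ (by simpa using hχ) (mul_ne_zero hε (by exact_mod_cast h9))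
    refine ⟨charKer χ.1, χ.2.isClassFunction.charKer_normal, fun h => h8 (Subtype.ext ?_), fun n hn =>
      χ.2.isCharacter.mem_charKer.2 (B0_ker hχ _ not_dvd_pPrimeCore n hn), χ.2.isCharacter.mem_charKer.2 ?_⟩
    · by_contra hne
      have := χ.2.inner_of_ne isIrrCharacter_one hne
      simp [classInner, fun g => χ.2.isCharacter.mem_charKer.1 (h ▸ Subgroup.mem_top g), χ.2.deg_ne_zero] at this
    · rw [hx, irr_deg]
      have : (r : ℝ) = 1 := by simpa using h6.symm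
      rw [this, one_mul] at h10
      exact_mod_cast h10
  by_contra! hn
  obtain ⟨hn, hK⟩ := hn
  by_cases h : 2 ≤ Nat.card {χ : IrrCharacter G // χ ∈ (B0 M G).1 ∧ 0 < (1 : ℝ) * a χ}
  · obtain ⟨K, k1, k2, k3, k4⟩ := h5 (-1) (by simp) (by simpa using hn (by simpa using h))
    exact hK K k1 k2 k3 k4
  · obtain ⟨K, k1, k2, k3, k4⟩ := h5 1 (by simp) h
    exact hK K k1 k2 k3 k4

end Cfsg.Agent.S4722
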