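import Cfsg.Statements.S4723
import Cfsg.Agent.H9.FR

set_option autoImplicit false
open Cfsg

namespace Cfsg.Agent.S4723
open H9 H3 MonoidAlgebra
open scoped Pointwise
set_option linter.style.haveILetI false
set_option linter.unusedVariables false


/-- Let p be a prime, M a maximal ideal of the algebraic integers containing p, H a normal subgroup of the finite group G and b a p-block of H. Let T be the stabilizer of b in G. Then b contains a character θ of height zero whose own stabilizer in G (the elements g with θ(g h g⁻¹) = θ(h) for all h ∈ H) has index prime to p in T, i.e. contains a Sylow p-subgroup of T. -/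
theorem result {G : Type*} [Group G] [Finite G] (p : ℕ) [Fact p.Prime] (M : Ideal Cfsg.AlgInt) (hM : Cfsg.IsPModular p M) (H : Subgroup G) [H.Normal] (b : Set (Cfsg.IrrCharacter ↥H)) (hb : Cfsg.IsPBlock M b) (T : Subgroup G) (hT : (∀ g : G, g ∈ T ↔ ∀ θ ∈ b, ∀ θ' : Cfsg.IrrCharacter ↥H, (∀ h h' : ↥H, (h' : G) = g * h * g⁻¹ → (θ' : ↥H → ℂ) h' = (θ : ↥H → ℂ) h) → θ' ∈ b)) : ∃ θ ∈ b, Cfsg.blockHeight p b (θ : ↥H → ℂ) = 0 ∧ ∃ S : Subgroup G, S ≤ T ∧ (∀ g : G, g ∈ S ↔ (g ∈ T ∧ ∀ h h' : ↥H, (h' : G) = g * h * g⁻¹ → (θ : ↥H → ℂ) h' = (θ : ↥H → ℂ) h)) ∧ ¬ p ∣ S.relIndex T := by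
  haveI : PMod p M := ⟨hM⟩
  lift b to Bl M H using hb
  obtain rfl : T = stab b.E := Subgroup.ext fun g => (hT g).trans
    (Bl.mem_stab_iff_forall (le_nrm_of_normal ⊤ H trivial)).symm
  obtain ⟨P, hP⟩ := H1.exists_isSylowIn p (stab b.E)
  obtain ⟨θ, h1, h2, h3⟩ := b.exists_fixed_height_zero hP.isPGroup hP.le
  refine ⟨θ, h1, h2, inertia θ.1, inertia_le_stab h1, fun g => ⟨fun h =>
    ⟨inertia_le_stab h1 h, fun x y e => ?_⟩, fun h => mem_inertia'.2 fun n => h.2 _ _ rfl⟩,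
    fun h => hP.not_dvd (h.trans (Subgroup.relIndex_dvd_of_le_left _ h3))⟩
  rw [← mem_inertia'.1 h x]
  exact congrArg _ (Subtype.ext e)

end Cfsg.Agent.S4723
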