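import Cfsg.Statements.S4725
import Cfsg.Agent.H9.FR

set_option autoImplicit false
open Cfsg

namespace Cfsg.Agent.S4725
open H9 H3 MonoidAlgebra
open scoped Pointwise
set_option linter.style.haveILetI false
set_option linter.unusedVariables false


/-- Let p be a prime, M a maximal ideal of the algebraic integers containing p, H a subgroup of the finite group G, and b a p-block of H inducing the p-block B of G, with b and B of the same defect. Then for every height-zero ζ ∈ b there is a height-zero χ ∈ B whose multiplicity in the character induced from ζ is not divisible by p. -/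
theorem result {G : Type*} [Group G] [Fintype G] (p : ℕ) [Fact p.Prime] (M : Ideal Cfsg.AlgInt) (hM : Cfsg.IsPModular p M) (H : Subgroup G) (b : Set (Cfsg.IrrCharacter ↥H)) (B : Set (Cfsg.IrrCharacter G)) (hind : Cfsg.IsInducedBlock M H b B) (hdef : Cfsg.blockDefect p b = Cfsg.blockDefect p B) (ζ : Cfsg.IrrCharacter ↥H) (hζ : ζ ∈ b) (hζ0 : Cfsg.blockHeight p b (ζ : ↥H → ℂ) = 0) : ∃ χ ∈ B, Cfsg.blockHeight p B (χ : G → ℂ) = 0 ∧ ∃ a : ℕ, Cfsg.classInner (Cfsg.indFun H (ζ : ↥H → ℂ)) (χ : G → ℂ) = (a : ℂ) ∧ ¬ p ∣ a := by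
  classical
  haveI : PMod p M := ⟨hM⟩
  lift b to Bl M H using hind.1
  lift B to Bl M G using hind.2.1
  rw [isInducedBlock_iff] at hind
  obtain ⟨n, h1, h2, -⟩ := hind.exists_blockPart_deg hζ B
  obtain ⟨h2, h3⟩ := h2 rfl
  rw [factorization_indFun, (Bl.height_eq_zero_iff hζ).1 hζ0] at h3
  have h4 := B.minv_add_defect
  have h5 := b.minv_add_defect
  have h6 := factorization_card_add_index p H
  obtain ⟨a, ha, -⟩ := (ζ.2.isCharacter.ind (H := H)).exists_coeff
  by_contra! h0
  have h7 : (n : ℂ) / ((p ^ B.minv : ℕ) : ℂ) ∈ LI M := by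
    rw [← h1, blockPart_apply, Finset.sum_div]
    refine sum_mem fun χ hχ => ?_
    have hχ := (Finset.mem_filter.1 hχ).2
    rw [mul_div_assoc, ha]
    by_cases h : blockHeight p B.1 χ.1 = 0
    · exact LI_mul_right ((natCast_mem_LI_iff _).2 (h0 χ hχ h _ (ha χ))) (Bl.deg_div_mem hχ)
    · refine LI_mul_left (natCast_mem _ _) ?_
      have := Bl.minv_add_height hχ
      rw [irr_deg, nat_div_mem_LI_iff (charDegree_ne_zero χ.2) (p_pow_ne_zero _),
        factorization_p_pow]
      omega
  rw [nat_div_mem_LI_iff h2 (p_pow_ne_zero _), factorization_p_pow] at h7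
  omega

end Cfsg.Agent.S4725
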