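import Cfsg.Statements.S4726
import Cfsg.Agent.H9.Ker

set_option autoImplicit false
open Cfsg

namespace Cfsg.Agent.S4726
open H9 H3 MonoidAlgebra
open scoped Pointwise
set_option linter.style.haveILetI false
set_option linter.unusedVariables false


/-- Let p be a prime, M a maximal ideal of the algebraic integers containing p, H a subgroup of the finite group G and b a p-block of H with defect group D₀ such that C_G(D₀) ≤ H. Then b induces a block of G, and for every block B of G induced by b there is a defect group D of B with Z(D) ≤ Z(D₀) ≤ D₀ ≤ D (as subgroups of G). In particular, if the defect groups of B are abelian then D₀ is a defect group of B. -/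
theorem result {G : Type*} [Group G] [Finite G] (p : ℕ) [Fact p.Prime] (M : Ideal Cfsg.AlgInt) (hM : Cfsg.IsPModular p M) (H : Subgroup G) (b : Set (Cfsg.IrrCharacter ↥H)) (hb : Cfsg.IsPBlock M b) (D₀ : Subgroup ↥H) (hD₀ : Cfsg.IsDefectGroup p M b D₀) (hC : Subgroup.centralizer ((D₀.map H.subtype : Subgroup G) : Set G) ≤ H) : Cfsg.InducedBlockDefined M H b ∧ ∀ B : Set (Cfsg.IrrCharacter G), Cfsg.IsInducedBlock M H b B → (∃ D : Subgroup G, Cfsg.IsDefectGroup p M B D ∧ (Subgroup.center ↥D).map D.subtype ≤ ((Subgroup.center ↥D₀).map D₀.subtype).map H.subtype ∧ ((Subgroup.center ↥D₀).map D₀.subtype).map H.subtype ≤ D₀.map H.subtype ∧ D₀.map H.subtype ≤ D) ∧ (∀ D : Subgroup G, Cfsg.IsDefectGroup p M B D → IsMulCommutative ↥D → Cfsg.IsDefectGroup p M B (D₀.map H.subtype)) := by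
  haveI : PMod p M := ⟨hM⟩
  lift b to Bl M H using hb
  have hD : b.IsDef D₀ := hD₀
  have hC' : cen (D₀.map H.subtype) ≤ H.subtype.range := by rwa [Subgroup.range_subtype]
  obtain ⟨B, hB⟩ := exists_ind_of_br H.subtype_injective hD.isPGroup hC' hD.br_ne_zero
  refine ⟨⟨B.1, isInducedBlock_iff.2 hB⟩, fun B hB => ?_⟩
  lift B to Bl M G using hB.2.1
  obtain ⟨a, m⟩ := exists_maxP_of_isDef hD
  obtain ⟨D, c, h1, h2⟩ := exists_maxP_ge (MaxP.nsub_of_ind H.subtype_injective m.nsub
    (isInducedBlock_iff.1 hB) hC')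
  have h4 := (adef_push_iff H.subtype_injective).2 (m.bp.loc_sup.adef_cen
    (m.adef_of_le (Sub.refl _ _) m.bp.loc_sup le_sup_left))
  rw [Subgroup.map_inf _ _ _ H.subtype_injective, map_cen H.subtype_injective, inf_eq_right.2 hC'] at h4
  have h3 : D ⊓ cen (D₀.map H.subtype) ≤ D₀.map H.subtype := (Subgroup.eq_of_le_of_card_ge
    (inf_le_inf_right _ h2.le) (h1.card_inf_cen_le h2 h4)).ge.trans inf_le_left
  refine ⟨⟨D, h1.isDef, ?_, Subgroup.map_mono (Subgroup.map_subtype_le _), h2.le⟩, fun E hE hc => ?_⟩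
  · rintro _ ⟨x, hx, rfl⟩
    have h5 : (x : G) ∈ cen (D₀.map H.subtype) := Subgroup.mem_centralizer_iff.2 fun y hy =>
      congrArg Subtype.val (Subgroup.mem_center_iff.1 hx ⟨y, h2.le hy⟩)
    obtain ⟨y, hy, e⟩ := h3 ⟨x.2, h5⟩
    refine ⟨y, ⟨⟨y, hy⟩, Subgroup.mem_center_iff.2 fun z => Subtype.ext (Subtype.ext ?_), rfl⟩, e⟩
    have := Subgroup.mem_centralizer_iff.1 h5 _ (Subgroup.mem_map_of_mem _ z.2)
    rwa [show (x : G) = _ from e.symm] at this
  · obtain ⟨g, rfl⟩ := Bl.IsDef.exists_conj_eq hE h1.isDef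
    have h5 : E ≤ cen E := fun x hx => Subgroup.mem_centralizer_iff.2 fun y hy =>
      congrArg Subtype.val (hc.1.1 ⟨y, hy⟩ ⟨x, hx⟩)
    have h6 : MulAut.conj g • E ≤ cen (MulAut.conj g • E) :=
      conj_smul_cen g E ▸ Subgroup.pointwise_smul_le_pointwise_smul_iff.2 h5
    rw [le_antisymm h2.le ((le_inf le_rfl (h6.trans (cen_anti h2.le))).trans h3)]
    exact h1.isDef

end Cfsg.Agent.S4726
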