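import Cfsg.Statements.S4727
import Cfsg.Agent.H9.Ker

set_option autoImplicit false
open Cfsg

namespace Cfsg.Agent.S4727
open H9 H3 MonoidAlgebra
open scoped Pointwise
set_option linter.style.haveILetI false
set_option linter.unusedVariables false


/-- Let p be a prime, π a set of primes containing p, M a maximal ideal of the algebraic integers containing p, and B a p-block of the finite group G with defect group D; let B₁ be the block of N_G(D) with defect group D that induces B (the Brauer correspondent of B). Suppose every element of O_π'(N_G(D)), the largest normal subgroup of N_G(D) whose order has no prime divisor in π, lies in the kernel of every member of B₁. If y is a p-element whose centralizer C has a normal Hall π'-subgroup (every element of C whose order has no prime divisor in π lies in O_π'(C)), then χ(y x) = χ(y) for every χ ∈ B and every x ∈ C whose order has no prime divisor in π. -/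
theorem result {G : Type*} [Group G] [Finite G] (p : ℕ) [Fact p.Prime] (M : Ideal Cfsg.AlgInt) (hM : Cfsg.IsPModular p M) (π : Set ℕ) (hpπ : p ∈ π) (B : Set (Cfsg.IrrCharacter G)) (hB : Cfsg.IsPBlock M B) (D : Subgroup G) (hBD : Cfsg.IsDefectGroup p M B D) (B₁ : Set (Cfsg.IrrCharacter ↥(Subgroup.normalizer (D : Set G)))) (hB₁ : Cfsg.IsInducedBlock M (Subgroup.normalizer (D : Set G)) B₁ B) (hB₁D : Cfsg.IsDefectGroup p M B₁ (D.subgroupOf (Subgroup.normalizer (D : Set G)))) (hker : ∀ n : ↥(Subgroup.normalizer (D : Set G)), n ∈ Cfsg.piCore {q | q ∉ π} ↥(Subgroup.normalizer (D : Set G)) → n ∈ Cfsg.blockKer B₁) (y : G) (hy : ∃ k : ℕ, orderOf y = p ^ k) (hC : ∀ x : ↥(Subgroup.centralizer ({y} : Set G)), (∀ q : ℕ, q.Prime → q ∣ orderOf x → q ∉ π) → x ∈ Cfsg.piCore {q | q ∉ π} ↥(Subgroup.centralizer ({y} : Set G))) : ∀ χ ∈ B, ∀ x : G, x ∈ Subgroup.centralizer ({y} : Set G) → (∀ q : ℕ, q.Prime → q ∣ orderOf x → q ∉ π) → (χ : G → ℂ) (y * x) = (χ : G → ℂ) y := by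
  classical
  haveI : PMod p M := ⟨hM⟩
  lift B to Bl M G using hB
  lift B₁ to Bl M (nrm D) using hB₁.1
  intro χ hχ x hx hπ
  have hr : IsPRegular p (⟨x, hx⟩ : cen1 y) := isPRegular_coe.1 fun h => hπ p Fact.out h hpπ
  have h1 := blockPart_section hy B χ.2.isClassFunction hr
  have h2 := blockPart_section hy B χ.2.isClassFunction isPRegular_one
  rw [blockPart_irr_of_mem hχ] at h1 h2
  refine h1.trans (Eq.trans (Finset.sum_congr rfl fun c hc => blockPart_of_ker
    (Bl.piCore_le_ker hpπ ?_ (hC _ (by simpa using hπ))) _) (by simpa using h2.symm))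
  have := Bl.IsDef.Opi_le_aK hpπ hBD (isInducedBlock_iff.1 hB₁) (fun n hn => Bl.mem_ker.2 (hker n hn))
    ((ind_cen1_iff hy).1 (Finset.mem_filter.1 hc).2)
  rwa [cen_zpowers] at this

end Cfsg.Agent.S4727
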