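import Cfsg.Statements.S4728
import Cfsg.Agent.H9.Ker

set_option autoImplicit false
open Cfsg

namespace Cfsg.Agent.S4728
open H9 H3 MonoidAlgebra
open scoped Pointwise
set_option linter.style.haveILetI false
set_option linter.unusedVariables false


/-- Let p be a prime, π a set of primes containing p, M a maximal ideal of the algebraic integers containing p, B a p-block of the finite group G with defect group D, and B₁ the block of N_G(D) with defect group D inducing B. Let D₀ be a p-subgroup, H₀ = D₀·C_G(D₀), and b a block of H₀ inducing B. Write O_π'(X) for the largest normal subgroup of X whose order has no prime divisor in π. Suppose that O_π'(C_G(D₀)) is a normal Hall π'-subgroup of C_G(D₀) (it contains every element of C_G(D₀) whose order has no prime divisor in π) and that every element of it lies in the kernel of every member of b. Then every element of O_π'(N_G(D)) lies in the kernel of every member of B₁. -/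
theorem result {G : Type*} [Group G] [Finite G] (p : ℕ) [Fact p.Prime] (M : Ideal Cfsg.AlgInt) (hM : Cfsg.IsPModular p M) (π : Set ℕ) (hpπ : p ∈ π) (B : Set (Cfsg.IrrCharacter G)) (hB : Cfsg.IsPBlock M B) (D : Subgroup G) (hBD : Cfsg.IsDefectGroup p M B D) (B₁ : Set (Cfsg.IrrCharacter ↥(Subgroup.normalizer (D : Set G)))) (hB₁ : Cfsg.IsInducedBlock M (Subgroup.normalizer (D : Set G)) B₁ B) (hB₁D : Cfsg.IsDefectGroup p M B₁ (D.subgroupOf (Subgroup.normalizer (D : Set G)))) (D₀ : Subgroup G) (hD₀ : IsPGroup p D₀) (H₀ : Subgroup G) (hH₀ : H₀ = D₀ ⊔ Subgroup.centralizer (D₀ : Set G)) (b : Set (Cfsg.IrrCharacter ↥H₀)) (hb : Cfsg.IsInducedBlock M H₀ b B) (hcompl : ∀ x : ↥(Subgroup.centralizer (D₀ : Set G)), (∀ q : ℕ, q.Prime → q ∣ orderOf x → q ∉ π) → x ∈ Cfsg.piCore {q | q ∉ π} ↥(Subgroup.centralizer (D₀ : Set G))) (hkerb : ∀ x : ↥(Subgroup.centralizer (D₀ : Set G)), x ∈ Cfsg.piCore {q | q ∉ π} ↥(Subgroup.centralizer (D₀ : Set G)) → ∀ θ ∈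 b, ∀ h : ↥H₀, (h : G) = (x : G) → (θ : ↥H₀ → ℂ) h = (θ : ↥H₀ → ℂ) 1) : ∀ n : ↥(Subgroup.normalizer (D : Set G)), n ∈ Cfsg.piCore {q | q ∉ π} ↥(Subgroup.normalizer (D : Set G)) → n ∈ Cfsg.blockKer B₁ := by
  haveI : PMod p M := ⟨hM⟩
  subst hH₀
  lift B to Bl M G using hB
  lift B₁ to Bl M (nrm D) using hB₁.1
  lift b to Bl M ↥(D₀ ⊔ cen D₀) using hb.1
  have hD : B.IsDef D := hBD
  have n : NSub ⊥ B.e D₀ b.E := nsub_bot_iff.2 ⟨bp_of_isBlk_sup hD₀ b.isBlk, (isInducedBlock_iff_br hD₀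
    le_sup_left le_sup_right (sup_le Subgroup.le_normalizer (cen_le_nrm _))).1 hb⟩
  obtain ⟨c, h1, h2⟩ := exists_bp_of_isBlk hD.isPGroup Subgroup.le_normalizer (cen_le_nrm D) le_rfl B₁.isBlk
  have h3 := (isInducedBlock_iff_br hD.isPGroup Subgroup.le_normalizer (cen_le_nrm D) le_rfl).1 hB₁
  have m : MaxP B D c := ⟨nsub_bot_iff.2 ⟨h1, by rw [← h2, ← mul_assoc, h3]⟩, adef_top_iff.2 hD⟩
  obtain ⟨g, hg⟩ := m.exists_conj_sub n
  have h4 : H7.Opi πᶜ (nrm D) ≤ aK c := fun x hx => by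
    have h5 := Opi_nrm_le_cen hpπ hD.isPGroup hx
    have h6 : g⁻¹ * x * g ∈ cen D₀ := by
      have := cen_anti hg.le h5
      rw [← conj_smul_cen, Subgroup.mem_pointwise_smul_iff_inv_smul_mem] at this
      simpa using this
    refine hg.mem_aK h5 ?_
    have := conj_mem_aK (Bl.mem_aK_E (c := b) (x := ⟨_, Subgroup.mem_sup_right h6⟩) (Bl.mem_ker.2
      fun θ hθ => hkerb ⟨_, h6⟩ (hcompl _ fun q hq hd => H7.piN_Opi πᶜ (nrm D) q hq (hd.trans ?_)) θ hθ _ rfl)) g
    · simpa [mul_assoc] using this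
    · rw [← Subgroup.orderOf_coe]
      exact (orderOf_dvd_of_pow_eq_one (x := g⁻¹ * x * g) (by
        rw [← inv_inv g, inv_inv g⁻¹, conj_pow, pow_orderOf_eq_one]; simp)).trans
        (Subgroup.orderOf_dvd_natCard _ hx)
  refine fun x hx => Bl.mem_ker.1 (Bl.piCore_le_ker hpπ (B₁.isBlk.le_aK (H7.Opi_le _ _)
    (H7.le_nrm_Opi _ _) (not_dvd_Opi hpπ _) fun h0 => ?_) hx)
  have := setSum_mul_of_le h4
  rw [← h2, ← mul_assoc, h0, zero_mul, h2] at this
  exact smul_ne_zero (natCast_RF_ne_zero (not_dvd_Opi hpπ _)) h1.blk.ne_zero this.symm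

end Cfsg.Agent.S4728
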