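import Cfsg.Statements.S4729
import Cfsg.Agent.H9.Misc3

set_option autoImplicit false
open Cfsg

namespace Cfsg.Agent.S4729
open H9 H3 MonoidAlgebra
open scoped Pointwise
set_option linter.style.haveILetI false
set_option linter.unusedVariables false


/-- Let p be a prime, M a maximal ideal of the algebraic integers containing p, G a finite perfect group and P a Sylow p-subgroup. If the principal p-block of G contains a faithful irreducible character of degree less than 2p, then the centralizer of P is a p-group. -/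
theorem result {G : Type*} [Group G] [Finite G] (p : ℕ) [Fact p.Prime] (M : Ideal Cfsg.AlgInt) (hM : Cfsg.IsPModular p M) (hperf : commutator G = ⊤) (P : Sylow p G) (χ : Cfsg.IrrCharacter G) (hχ : χ ∈ Cfsg.principalBlock M G) (hfaith : ∀ g : G, (χ : G → ℂ) g = (χ : G → ℂ) 1 → g = 1) (hdeg : Cfsg.charDegree (χ : G → ℂ) < 2 * p) : IsPGroup p ↥(Subgroup.centralizer ((P : Subgroup G) : Set G)) := by
  classical
  haveI : PMod p M := ⟨hM⟩
  refine isPGroup_of_forall fun y hy => pq_eq_one_iff.1 ?_
  have hx := pq_mem (p := p) hy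
  have hr := isPRegular_pq (p := p) y
  generalize pq p y = x at hx hr
  set Z := Subgroup.zpowers x
  haveI := Fintype.ofFinite Z
  have hZ : ¬ p ∣ Nat.card Z := by rwa [Nat.card_zpowers]
  have hc := χ.2.isCharacter.res Z
  have ab : ∀ a b : Z, a * b = b * a := fun a b => Subtype.ext (commute_of_mem_zpowers a.2 b.2)
  choose m hm using fun l : Z →* ℂˣ => hc.inner_nat (lf_ch l)
  have e := eq_sum_lf ab fun z : Z => χ.1 z
  simp only [hm] at e
  have h1 : ∀ l, l ≠ 1 → p ∣ m l := fun l hl => by
    have := inner_div_sub_mem (M := M) hZ (χ.1 1) (fun z => B0_div_sub_one_mem hχ (not_dvd_index_cen1 P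
      (Subgroup.zpowers_le.2 hx z.2))) (lf_ch l)
    rw [hm, ← lf_one, H3.inner_lf, if_neg hl.symm, sub_zero] at this
    have := LI_mul_right this (irr_mem_LR χ 1)
    rwa [div_mul_cancel₀ _ χ.2.deg_ne_zero, natCast_mem_LI_iff] at this
  have h2 : charDegree χ.1 = ∑ l, m l := by
    have := congrFun e 1
    simp only [Finset.sum_apply, OneMemClass.coe_one, irr_deg, Pi.smul_apply, lf_apply, map_one,
      Units.val_one, smul_eq_mul, mul_one] at this
    exact_mod_cast this
  have h3 : ∏ l, l ^ m l = 1 := by
    have h4 : dt χ.1 = 1 := by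
      ext g
      have := Abelianization.commutator_subset_ker (dt χ.1) (hperf.ge (Subgroup.mem_top g))
      simpa using this
    have := congrArg dt e
    rw [dt_sum _ _ fun l _ => (lf_ch l).natCast_smul _] at this
    simp only [(lf_ch _).dt_nsmul, dt_lf] at this
    rw [← this]
    ext z
    rw [χ.2.isCharacter.dt_res, h4]; rfl
  have h4 : ∀ l, l ≠ 1 → m l = 0 := fun l hl => by
    by_contra h0
    have h5 : ∀ l', l' ≠ l → l' ≠ 1 → m l' = 0 := fun l' a b => by
      by_contra h6
      have := Finset.add_le_sum (fun l _ => Nat.zero_le (m l)) (Finset.mem_univ l') (Finset.mem_univ l) a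
      have := Nat.le_of_dvd (Nat.pos_of_ne_zero h0) (h1 l hl)
      have := Nat.le_of_dvd (Nat.pos_of_ne_zero h6) (h1 l' b)
      omega
    have h6 : ∏ l', l' ^ m l' = l ^ m l := by
      refine Finset.prod_eq_single l (fun l' _ a => ?_) (by simp)
      by_cases b : l' = 1
      · ext z; simp [b]
      · ext z; simp [h5 l' a b]
    rw [h6] at h3
    obtain ⟨k, hk⟩ := h1 l hl
    have := Finset.single_le_sum (fun l _ => Nat.zero_le (m l)) (Finset.mem_univ l)
    obtain rfl : k = 1 := by
      have : k < 2 := Nat.lt_of_mul_lt_mul_left (a := p) (by omega)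
      have : k ≠ 0 := by rintro rfl; simp [hk] at h0
      omega
    rw [hk, mul_one] at h3
    exact hl (orderOf_eq_one_iff.1 (Nat.eq_one_of_dvd_coprimes ((Nat.Prime.coprime_iff_not_dvd Fact.out).2 hZ)
      (orderOf_dvd_of_pow_eq_one h3) (orderOf_lin_dvd_card l)))
  rw [Finset.sum_eq_single 1 (fun l _ hl => by simp [h4 l hl]) (by simp)] at e
  exact hfaith x ((congrFun e ⟨x, Subgroup.mem_zpowers x⟩).trans (congrFun e 1).symm)

end Cfsg.Agent.S4729
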