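import Cfsg.Statements.S4730
import Cfsg.Agent.H9.Misc3

set_option autoImplicit false
open Cfsg

namespace Cfsg.Agent.S4730
open H9 H3 MonoidAlgebra
open scoped Pointwise
set_option linter.style.haveILetI false
set_option linter.unusedVariables false


/-- Let p be a prime, M a maximal ideal of the algebraic integers containing p, and G a finite group with trivial centre, Sylow p-subgroup P of order p^a and centre Z(P) of order p^b. If χ is a faithful irreducible character of G whose degree is a power of p, then the p-block of χ has defect at most a − b; in particular, if P is abelian then χ lies in a block of defect zero. -/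
theorem result {G : Type*} [Group G] [Finite G] (p : ℕ) [Fact p.Prime] (M : Ideal Cfsg.AlgInt) (hM : Cfsg.IsPModular p M) (hZ : Subgroup.center G = ⊥) (P : Sylow p G) (a b : ℕ) (ha : Nat.card P = p ^ a) (hb : Nat.card (Subgroup.center ↥(P : Subgroup G)) = p ^ b) (χ : Cfsg.IrrCharacter G) (hfaith : ∀ g : G, (χ : G → ℂ) g = (χ : G → ℂ) 1 → g = 1) (n : ℕ) (hdeg : Cfsg.charDegree (χ : G → ℂ) = p ^ n) : Cfsg.blockDefect p (Cfsg.blockOf M (χ : G → ℂ)) ≤ a - b ∧ (IsMulCommutative ↥(P : Subgroup G) → Cfsg.blockDefect p (Cfsg.blockOf M (χ : G → ℂ)) = 0) := by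
  classical
  haveI : PMod p M := ⟨hM⟩
  suffices h : blockDefect p (blk M χ).1 ≤ a - b from ⟨h, fun hab => Nat.le_zero.1 (h.trans_eq (by
    rw [Subgroup.center_eq_top, Subgroup.card_top, ha, Nat.pow_right_inj (Fact.out : p.Prime).one_lt] at hb
    omega))⟩
  obtain ⟨ψ, hψ, e⟩ := (blk M χ).exists_eq_minv
  rw [Bl.defect_eq, ← e, ← Nat.pow_right_injective (Fact.out : p.Prime).two_le
    (ha.symm.trans P.card_eq_multiplicity)]
  refine Nat.sub_le_sub_left ?_ _
  set Z := Subgroup.center (P : Subgroup G)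
  haveI := Fintype.ofFinite Z
  let φ := (P : Subgroup G).subtype.comp Z.subtype
  obtain ⟨m, hm⟩ := (ψ.2.isCharacter.comp φ).inner_nat isCharacter_one
  have h1 : ((p ^ b * m : ℕ) : ℂ) / charDegree ψ.1 - 1 ∈ LI M := by
    rw [inner_one_right, inv_mul_eq_iff_eq_mul₀ (card_ne_zero _), hb] at hm
    rw [Nat.cast_mul, ← hm, ← irr_deg, ← Finset.add_sum_erase _ _ (Finset.mem_univ 1), map_one, add_div,
      div_self ψ.2.deg_ne_zero, add_sub_cancel_left, Finset.sum_div]
    refine sum_mem fun z hz => ?_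
    have h2 := not_dvd_index_cen1 P (x := φ z) (Subgroup.mem_centralizer_iff.2 fun g hg =>
      congrArg Subtype.val (Subgroup.mem_center_iff.1 z.2 ⟨g, hg⟩))
    have h3 := Bl.div_sub_div_mem hψ (mem_blk χ) h2
    rcases χ.2.eq_zero_or_norm_eq ((irr_deg χ).trans (congrArg _ hdeg)) (φ z)
      (Nat.Coprime.pow_left _ ((Nat.Prime.coprime_iff_not_dvd Fact.out).2 h2)) with h4 | h4
    · simpa [h4] using h3
    · have := χ.2.isCharacter.mem_charCenter.2 (h4.trans (by rw [irr_deg, hdeg, Complex.norm_natCast]))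
      rw [χ.2.charCenter_eq_center (eq_bot_iff.2 fun g hg => hfaith g (χ.2.isCharacter.mem_charKer.1 hg)),
        hZ] at this
      exact (Finset.ne_of_mem_erase hz (Subtype.ext (Subtype.ext this))).elim
  have h2 : ((p ^ b * m : ℕ) : ℂ) / charDegree ψ.1 ∉ LI M := fun h => one_not_mem_LI (M := M) (by
    simpa using sub_mem h h1)
  have m0 : m ≠ 0 := by rintro rfl; simp at h2
  rw [nat_div_mem_LI_iff (mul_ne_zero (p_pow_ne_zero _) m0) (charDegree_ne_zero ψ.2),
    Nat.factorization_mul (p_pow_ne_zero _) m0, Finsupp.add_apply, factorization_p_pow] at h2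
  omega

end Cfsg.Agent.S4730
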