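import Cfsg.Statements.S4733
import Cfsg.Agent.H9.Contr

set_option autoImplicit false
open Cfsg

namespace Cfsg.Agent.S4733
open H9 H3 MonoidAlgebra
open scoped Pointwise
set_option linter.style.haveILetI false
set_option linter.unusedVariables false


/-- Let p be a prime, M a maximal ideal of the algebraic integers containing p, and B a p-block of the finite group G with k irreducible characters and p-regular rank l (the number of irreducible Brauer characters). Then l ≤ k, and the following are equivalent: B has defect 0; k = l = 1; k = l. -/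
theorem result {G : Type*} [Group G] [Finite G] (p : ℕ) [Fact p.Prime] (M : Ideal Cfsg.AlgInt) (hM : Cfsg.IsPModular p M) (B : Set (Cfsg.IrrCharacter G)) (hB : Cfsg.IsPBlock M B) : Cfsg.blockRank p B ≤ Nat.card B ∧ (Cfsg.blockDefect p B = 0 ↔ (Nat.card B = 1 ∧ Cfsg.blockRank p B = 1)) ∧ (Cfsg.blockDefect p B = 0 ↔ Nat.card B = Cfsg.blockRank p B) := by
  haveI : PMod p M := ⟨hM⟩
  lift B to Bl M G using hB
  refine ⟨B.rank_le_card, ⟨fun h => ⟨Bl.card_eq_one_iff.2 h, Bl.rank_eq_one_of_defect_zero h⟩,
    fun h => Bl.card_eq_one_iff.1 h.1⟩, fun h => ?_, fun h => ?_⟩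
  · rw [Bl.card_eq_one_iff.2 h, Bl.rank_eq_one_of_defect_zero h]
  · by_contra h0
    exact (Bl.rank_lt_card h0).ne' h

end Cfsg.Agent.S4733
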