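import Cfsg.Statements.S4734
import Cfsg.Agent.H9.Ker

set_option autoImplicit false
open Cfsg

namespace Cfsg.Agent.S4734
open H9 H3 MonoidAlgebra
open scoped Pointwise
set_option linter.style.haveILetI false
set_option linter.unusedVariables false


/-- Let p be a prime, π a set of primes containing p, M a maximal ideal of the algebraic integers containing p, B a p-block of the finite group G with defect group D, and B₁ the block of N_G(D) with defect group D inducing B. Write O_π'(X) for the largest normal subgroup of X whose order has no prime divisor in π, and suppose every element of O_π'(N_G(D)) lies in the kernel of every member of B₁. Let G₀ be a subgroup and B₀ a block of G₀ with defect group D₀ such that C_G(D₀) ≤ G₀ and B₀ induces B. Then every element of O_π'(G₀) lies in the kernel of every member of B₀. -/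
theorem result {G : Type*} [Group G] [Finite G] (p : ℕ) [Fact p.Prime] (M : Ideal Cfsg.AlgInt) (hM : Cfsg.IsPModular p M) (π : Set ℕ) (hpπ : p ∈ π) (B : Set (Cfsg.IrrCharacter G)) (hB : Cfsg.IsPBlock M B) (D : Subgroup G) (hBD : Cfsg.IsDefectGroup p M B D) (B₁ : Set (Cfsg.IrrCharacter ↥(Subgroup.normalizer (D : Set G)))) (hB₁ : Cfsg.IsInducedBlock M (Subgroup.normalizer (D : Set G)) B₁ B) (hB₁D : Cfsg.IsDefectGroup p M B₁ (D.subgroupOf (Subgroup.normalizer (D : Set G)))) (hker : ∀ n : ↥(Subgroup.normalizer (D : Set G)), n ∈ Cfsg.piCore {q | q ∉ π} ↥(Subgroup.normalizer (D : Set G)) → n ∈ Cfsg.blockKer B₁) (G₀ : Subgroup G) (B₀ : Set (Cfsg.IrrCharacter ↥G₀)) (hB₀ : Cfsg.IsInducedBlock M G₀ B₀ B) (D₀ : Subgroup ↥G₀) (hD₀ : Cfsg.IsDefectGroup p M B₀ D₀) (hC : Subgroup.centralizer ((D₀.map G₀.subtype : Subgroup G) : Set G) ≤ G₀) : ∀ x : ↥G₀, x ∈ Cfsg.piCore {q | q ∉ π} ↥G₀ → x ∈ Cfsg.blockKer B₀ := by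
  haveI : PMod p M := ⟨hM⟩
  lift B to Bl M G using hB
  lift B₁ to Bl M (nrm D) using hB₁.1
  lift B₀ to Bl M G₀ using hB₀.1
  obtain ⟨a, m⟩ := exists_maxP_of_isDef (B := B₀) hD₀
  have n := MaxP.nsub_of_ind G₀.subtype_injective m.nsub (isInducedBlock_iff.1 hB₀) (by rwa [Subgroup.range_subtype])
  have h := Bl.IsDef.Opi_le_aK hpπ hBD (isInducedBlock_iff.1 hB₁) (fun n hn => Bl.mem_ker.2 (hker n hn)) n
  refine fun x hx => Bl.mem_ker.1 (Bl.piCore_le_ker hpπ (B₀.isBlk.Opi_le_aK hpπ n.right.isPGroup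
    ((Subgroup.map_subtype_le _).trans Subgroup.le_normalizer) hC
    (Fix_mono (Subgroup.map_subtype_le _) B₀.isBlk.mem_Fix) n.right.blk.ne_zero ?_ h) hx)
  rw [br_push G₀.subtype_injective, ← map_mul, m.nsub.mul]

end Cfsg.Agent.S4734
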