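import Cfsg.Statements.S4735
import Cfsg.Agent.H9.Misc3

set_option autoImplicit false
open Cfsg

namespace Cfsg.Agent.S4735
open H9 H3 MonoidAlgebra
open scoped Pointwise
set_option linter.style.haveILetI false
set_option linter.unusedVariables false


/-- Let p be a prime, M a maximal ideal of the algebraic integers containing p, G a finite group, H = O_p'(G) and Ḡ = G/H. For x ∈ G write λ(G, x) for the sum of |χ(x)|^2 over the irreducible characters χ in the principal p-block of G. Then λ(G, x) is a positive integer, λ(G, x) = λ(Ḡ, x̄) where x̄ is the image of x, and λ(G, x) ≤ #C_Ḡ(x̄). Moreover λ(G, 1) = [G : H] if and only if the principal block is the only p-block of Ḡ. -/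
theorem result {G : Type*} [Group G] [Finite G] (p : ℕ) [Fact p.Prime] (M : Ideal Cfsg.AlgInt) (hM : Cfsg.IsPModular p M) (x : G) : (∃ n : ℕ, 0 < n ∧ ∑ᶠ χ ∈ Cfsg.principalBlock M G, Complex.normSq ((χ : G → ℂ) x) = n) ∧ ∑ᶠ χ ∈ Cfsg.principalBlock M G, Complex.normSq ((χ : G → ℂ) x) = ∑ᶠ ψ ∈ Cfsg.principalBlock M (G ⧸ Cfsg.pPrimeCore p G), Complex.normSq ((ψ : G ⧸ Cfsg.pPrimeCore p G → ℂ) (QuotientGroup.mk x)) ∧ ∑ᶠ χ ∈ Cfsg.principalBlock M G, Complex.normSq ((χ : G → ℂ) x) ≤ (Nat.card ↥(Subgroup.centralizer ({(QuotientGroup.mk x : G ⧸ Cfsg.pPrimeCore p G)} : Set (G ⧸ Cfsg.pPrimeCore p G))) : ℝ) ∧ ((∑ᶠ χ ∈ Cfsg.principalBlock M G, Cfsg.charDegree (χ : G → ℂ) ^ 2) = (Cfsg.pPrimeCore p G).index ↔ ∀ B : Set (Cfsg.IrrCharacter (G ⧸ Cfsg.pPrimeCore p G)), Cfsg.IsPBlock M B → B = Cfsg.principalBlock M (G ⧸ Cfsg.pPrimeCore p G)) := by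
  classical
  haveI : PMod p M := ⟨hM⟩
  have hπ := QuotientGroup.mk'_surjective (pPrimeCore p G)
  simp only [← B0_val, finsum_mem_irr]
  have h1 := sum_B0_infl (M := M) hπ not_dvd_ker_pPrimeCore fun χ => Complex.normSq (χ.1 x)
  refine ⟨?_, h1.symm, ?_, ?_⟩
  · obtain ⟨n, hn⟩ := exists_int_of_fixed (α := ∑ χ with χ ∈ (B0 M G).1, χ.1 x * (starRingEnd ℂ) (χ.1 x))
      (IsIntegral.sum _ fun χ _ => (χ.2.isCharacter.isIntegral _).mul (χ.2.isCharacter.conj.isIntegral _))
      fun σ => by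
        rw [map_sum]
        refine Finset.sum_nbij' (fun χ => (⟨_, χ.2.gal σ.toRingHom⟩ : IrrCharacter G))
          (fun χ => (⟨_, χ.2.gal σ.symm.toRingHom⟩ : IrrCharacter G))
          (fun χ h => Finset.mem_filter.2 ⟨Finset.mem_univ _, gal_mem_B0 _ (Finset.mem_filter.1 h).2⟩)
          (fun χ h => Finset.mem_filter.2 ⟨Finset.mem_univ _, gal_mem_B0 _ (Finset.mem_filter.1 h).2⟩)
          (fun χ _ => Subtype.ext (funext fun g => σ.symm_apply_apply _))
          (fun χ _ => Subtype.ext (funext fun g => σ.apply_symm_apply _)) fun χ _ => ?_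
        rw [map_mul]
        exact congrArg _ (χ.2.isGen.gal_conj σ.toRingHom x)
    simp only [Complex.mul_conj, ← Complex.ofReal_sum] at hn
    have h2 : ∑ χ with χ ∈ (B0 M G).1, Complex.normSq (χ.1 x) = n := by exact_mod_cast hn
    have h3 := Finset.single_le_sum (f := fun χ : IrrCharacter G => Complex.normSq (χ.1 x))
      (fun _ _ => Complex.normSq_nonneg _) (Finset.mem_filter.2 ⟨Finset.mem_univ _, trivChar_mem_B0 (M := M)⟩)
    rw [h2] at h3 ⊢
    have h4 : 1 ≤ n := by exact_mod_cast (by simpa [trivChar] using h3 : (1 : ℝ) ≤ n)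
    lift n to ℕ using by omega
    exact ⟨n, by omega, rfl⟩
  · rw [← h1, ← sum_normSq_irr]
    simp only [← Complex.normSq_eq_norm_sq]
    exact Finset.sum_le_sum_of_subset_of_nonneg (Finset.filter_subset _ _) fun _ _ _ => Complex.normSq_nonneg _
  · rw [← sum_B0_infl (M := M) hπ not_dvd_ker_pPrimeCore, Subgroup.index_eq_card, ← sum_dg_sq]
    simp only [charDegree_infl]
    refine ⟨fun h B hB => ?_, fun h => Finset.sum_congr (Finset.filter_true_of_mem fun ψ _ =>
      h _ (blk M ψ).2 ▸ mem_blk ψ) fun _ _ => rfl⟩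
    lift B to Bl M (G ⧸ pPrimeCore p G) using hB
    refine congrArg Subtype.val (Bl.eq_of_mem B.rep_mem (by_contra fun e => h.not_lt ?_))
    exact Finset.sum_lt_sum_of_subset (Finset.filter_subset _ _) (Finset.mem_univ B.rep) (by simpa using e)
      (pow_pos (Nat.pos_of_ne_zero (charDegree_ne_zero B.rep.2)) _) fun _ _ _ => Nat.zero_le _

end Cfsg.Agent.S4735
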