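import Cfsg.Statements.S4736
import Cfsg.Agent.H9.Misc3
import Cfsg.Agent.S4713

set_option autoImplicit false
open Cfsg

namespace Cfsg.Agent.S4736
open H9 H3 MonoidAlgebra
open scoped Pointwise
set_option linter.style.haveILetI false
set_option linter.unusedVariables false


/-- Let p be a prime, M a maximal ideal of the algebraic integers containing p, and G a finite p-solvable group with Sylow p-subgroup P. Then P is abelian if and only if every irreducible character in the principal p-block of G has height zero. -/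
theorem result {G : Type*} [Group G] [Finite G] (p : ℕ) [Fact p.Prime] (M : Ideal Cfsg.AlgInt) (hM : Cfsg.IsPModular p M) (hsolv : Cfsg.IsPSolvable p G) (P : Sylow p G) : IsMulCommutative P ↔ ∀ χ ∈ Cfsg.principalBlock M G, Cfsg.blockHeight p (Cfsg.principalBlock M G) (χ : G → ℂ) = 0 := by
  haveI : PMod p M := ⟨hM⟩
  have hπ := QuotientGroup.mk'_surjective (pPrimeCore p G)
  have hs : IsPSolvable p (G ⧸ pPrimeCore p G) := (H1.isPSolvable_iff_piSep Fact.out).2
    (((H1.isPSolvable_iff_piSep Fact.out).1 hsolv).of_surjective hπ)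
  have h1 := Cfsg.Agent.S4713.result p hs (P.mapSurjective hπ)
  have h2 : Function.Injective ((QuotientGroup.mk' (pPrimeCore p G)).subgroupMap P) := by
    refine (injective_iff_map_eq_one _).2 fun x hx => Subtype.ext (eq_one_of_isPElt_of_isPRegular
      (isPElt_of_mem P.2 x.2) (isPRegular_of_mem not_dvd_pPrimeCore ?_))
    exact (QuotientGroup.eq_one_iff _).1 (congrArg Subtype.val hx)
  have h3 : ∀ χ ∈ (B0 M G).1, blockHeight p (B0 M G).1 χ.1 = 0 ↔ ¬ p ∣ charDegree χ.1 := fun χ h => by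
    rw [Bl.height_eq_zero_iff h, B0_minv, Nat.factorization_eq_zero_iff]
    simp [(Fact.out : p.Prime), charDegree_ne_zero χ.2]
  refine ⟨fun h χ hχ => (h3 χ hχ).2 ?_, fun h => ?_⟩
  · obtain ⟨ψ, -, rfl⟩ := (dom_B0 hπ).exists_infl_of_not_dvd hπ not_dvd_ker_pPrimeCore hχ
    have ab : ∀ a ∈ P.mapSurjective hπ, ∀ b ∈ P.mapSurjective hπ, a * b = b * a := by
      rintro _ ⟨a, ha, rfl⟩ _ ⟨b, hb, rfl⟩
      rw [← map_mul, ← map_mul]
      exact congrArg (fun x : P => QuotientGroup.mk' _ (x : G)) (h.is_comm.comm ⟨a, ha⟩ ⟨b, hb⟩)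
    rw [charDegree_infl]
    refine h1.1 ⟨?_, ⟨⟨fun a b => Subtype.ext (ab _ a.2 _ b.2)⟩⟩⟩ ψ
    have h4 := H1.isPGroup_pCore.le_sylow_of_normal (P.mapSurjective hπ)
    rw [le_antisymm (le_trans (fun a ha => Subgroup.mem_centralizer_iff.2 fun b hb => ab _ (h4 hb) _ ha)
      (H1.centralizer_pCore_le_of_isPSolvable hs H1.pPrimeCore_quotient_pPrimeCore)) h4]
    infer_instance
  · have := (h1.2 fun ψ => charDegree_infl hπ ψ ▸ (h3 _ ((dom_B0 hπ).infl_mem hπ
      (mem_B0_quot_of_psolv hsolv ψ))).1 (h _ ((dom_B0 hπ).infl_mem hπ (mem_B0_quot_of_psolv hsolv ψ)))).2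
    exact ⟨⟨fun a b => h2 (by rw [map_mul, map_mul]; exact this.is_comm.comm _ _)⟩⟩

end Cfsg.Agent.S4736
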