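import Cfsg.Statements.S4955
import Cfsg.Agent.H3.Cnt

set_option autoImplicit false
open Cfsg

namespace Cfsg.Agent.S4955
open H3
export H3 (inner_add_left inner_add_right inner_sub_left inner_sub_right inner_neg_left inner_neg_right
  inner_zero_left inner_zero_right inner_smul_left inner_smul_right inner_conj_symm inner_self_eq_zero
  inner_self_im)

/-- Let X be a finite group with an abelian normal Sylow p-subgroup V (a normal p-subgroup of index prime to p in which any two elements commute), and let G be a complement to V in X. Then for every v in V, writing C for the centralizer of v in G, the number k(X) of conjugacy classes of X satisfies k(X) ≤ (order of C)·(order of V) − ((order of G) − k(G)); the statement is written with the subtracted term moved to the left. In particular, if some v in V is centralized by no nonidentity element of G, then k(X) is at most the order of V. -/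
theorem result {X : Type*} [Group X] [Finite X] (p : ℕ) [Fact p.Prime] (V : Subgroup X) [V.Normal] (hVp : IsPGroup p V) (hidx : ¬ p ∣ V.index) (hab : ∀ a ∈ V, ∀ b ∈ V, a * b = b * a) (G : Subgroup X) (hGV : Subgroup.IsComplement' V G) (v : X) (hv : v ∈ V) : Nat.card (ConjClasses X) + Nat.card G ≤ Nat.card ↥(G ⊓ Subgroup.centralizer ({v} : Set X)) * Nat.card V + Nat.card (ConjClasses G) := by
  set_option maxSynthPendingDepth 3 in
  classical
  haveI := Fintype.ofFinite X
  have hp : p.Prime := Fact.out
  let K : Finset (IrrCharacter X) := Finset.univ.filter fun χ => ∀ x ∈ V, χ.1 x = χ.1 1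
  let e : X ⧸ V ≃* G := hGV.symm.QuotientMulEquiv
  have i : ∀ F : (X → ℂ) → ℕ, ∑ χ ∈ K, F χ.1 = ∑ ψ : IrrCharacter G, F fun x => ψ.1 (e x) := fun F => by
    symm
    refine Finset.sum_bij (fun ψ _ => ⟨_, (ψ.2.comp_equiv e).inflate⟩) (fun ψ _ => ?_) (fun ψ _ φ _ a => ?_)
      (fun χ a => ?_) fun _ _ => rfl
    · exact Finset.mem_filter.2 ⟨Finset.mem_univ _, fun x a => by simp [(QuotientGroup.eq_one_iff x).2 a]⟩
    · refine Subtype.ext (funext fun g => ?_)
      obtain ⟨x, rfl⟩ := (e.surjective.comp QuotientGroup.mk_surjective) g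
      exact congrFun (congrArg Subtype.val a) x
    · obtain ⟨ψ, b, c⟩ := χ.2.exists_quotient V (Finset.mem_filter.1 a).2
      exact ⟨⟨_, b.comp_equiv e.symm⟩, Finset.mem_univ _, Subtype.ext (funext fun x => by simp [c])⟩
  have a : K.card = Nat.card (ConjClasses G) := by rw [← card_irr]; simpa using i fun _ => 1
  have b : ∑ χ ∈ K, ‖χ.1 v‖ ^ 2 = Nat.card G := by
    rw [← sum_dg_sq, ← (show _ = ∑ ψ : IrrCharacter G, dg ψ.1 ^ 2 from (i fun χ => dg χ ^ 2).trans
      (Finset.sum_congr rfl fun ψ _ => by rw [dg_congr (ψ := ψ.1) (by simp)])), Nat.cast_sum]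
    exact Finset.sum_congr rfl fun χ c => by rw [(Finset.mem_filter.1 c).2 v hv, χ.2.deg]; simp
  have c := card_le_sum_normSq Kᶜ (fun χ => χ.1 v) (fun χ _ => χ.2.isCharacter.isIntegral v) (fun χ _ c => ?_) fun σ => ?_
  · have d := sum_normSq_irr v
    have f : Nat.card (Subgroup.centralizer {v}) ≤ Nat.card ↥(G ⊓ Subgroup.centralizer {v}) * Nat.card V := by
      have l : V ≤ Subgroup.centralizer {v} := fun w u => Subgroup.mem_centralizer_singleton_iff.2 (hab w u v hv)
      rw [← Nat.card_prod]
      refine Nat.card_le_card_of_surjective (fun x => ⟨x.2 * x.1, mul_mem (l x.2.2) x.1.2.2⟩) fun y => ?_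
      obtain ⟨⟨w, g⟩, u⟩ := hGV.2 y
      exact ⟨(⟨g, g.2, (Subgroup.mul_mem_cancel_left _ (l w.2)).1 (u.symm ▸ y.2 :)⟩, w), Subtype.ext u⟩
    rw [← Finset.sum_add_sum_compl K, b] at d
    rw [← card_irr, ← a, Nat.card_eq_fintype_card, ← Finset.card_add_card_compl K]
    have : Kᶜ.card + Nat.card G ≤ Nat.card (Subgroup.centralizer {v}) := by
      rw [← Nat.cast_le (α := ℝ), Nat.cast_add]; linarith
    omega
  · obtain ⟨k, d⟩ := hVp ⟨v, hv⟩
    exact hidx ((χ.2.isCharacter.dvd_deg_of_eq_zero hp (congrArg Subtype.val d) c χ.2.deg).trans (χ.2.dg_dvd_index V hab))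
  · refine Finset.prod_equiv (galIrr σ) (fun χ => ?_) fun χ _ => rfl
    simp [K, galIrr_apply]

end Cfsg.Agent.S4955
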