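import Cfsg.Statements.S4956
import Cfsg.Agent.H3.Cls

set_option autoImplicit false
open Cfsg

namespace Cfsg.Agent.S4956
open H3
export H3 (inner_add_left inner_add_right inner_sub_left inner_sub_right inner_neg_left inner_neg_right
  inner_zero_left inner_zero_right inner_smul_left inner_smul_right inner_conj_symm inner_self_eq_zero
  inner_self_im)

open H7

/-- Let X be a finite group, V an abelian normal subgroup of X (any two elements of V commute) and G a complement to V in X whose order is coprime to that of V. Let S be a set of representatives of the orbits of G on V under conjugation: S lies in V and every element of V is conjugate under G to exactly one member of S. Then the number of conjugacy classes of X equals the sum, over s in S, of the number of conjugacy classes of the centralizer of s in G. -/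
theorem result {X : Type*} [Group X] [Finite X] (V : Subgroup X) [V.Normal] (hab : ∀ a ∈ V, ∀ b ∈ V, a * b = b * a) (G : Subgroup X) (hGV : Subgroup.IsComplement' V G) (hcop : (Nat.card V).Coprime (Nat.card G)) (S : Finset X) (hSV : ∀ s ∈ S, s ∈ V) (hrep : ∀ v ∈ V, ∃! s, s ∈ S ∧ ∃ g ∈ G, g * v * g⁻¹ = s) : Nat.card (ConjClasses X) = ∑ s ∈ S, Nat.card (ConjClasses ↥(G ⊓ Subgroup.centralizer ({s} : Set X))) := by
  set_option maxSynthPendingDepth 3 in
  have hX : Nat.card X = ord V * ord G := hGV.card_mul.symm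
  obtain ⟨e, e1, e2⟩ := exists_modEq_one_dvd hcop
  obtain ⟨f, f1, f2⟩ := exists_modEq_one_dvd hcop.symm
  have pw : ∀ s ∈ V, ∀ g ∈ G ⊓ cen1 s, (s * g) ^ e = s ∧ (s * g) ^ f = g := fun s a g b =>
    ⟨mul_pow_eq_left (mem_cen1.1 b.2).symm (orderOf_dvd_card' a) (orderOf_dvd_card' b.1) e1 e2,
      mul_pow_eq_right (mem_cen1.1 b.2).symm (orderOf_dvd_card' a) (orderOf_dvd_card' b.1) f1 f2⟩
  rw [← Finset.sum_coe_sort S, ← Nat.card_sigma]
  refine (card_eq_of_rel (fun C D => ∃ g, D.2 = ConjClasses.mk g ∧ C = ConjClasses.mk (D.1.1 * g.1)) (fun C => ?_) ?_ ?_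
    fun ⟨s, D⟩ => ?_)
  · obtain ⟨x, rfl⟩ := ConjClasses.mk_surjective C
    have o := hX ▸ orderOf_dvd_natCard x
    have a : x ^ e ∈ V := mem_of_coprime_index (hGV.symm.index_eq_card ▸
      hcop.coprime_dvd_left (orderOf_pow_dvd_left o e2))
    have c : (ord (Subgroup.zpowers (x ^ f))).Coprime (ord V) := card_zpowers_eq (x ^ f) ▸
      hcop.symm.coprime_dvd_left (orderOf_pow_dvd_left (mul_comm (ord V) _ ▸ o) f2)
    obtain ⟨n, n1, n2⟩ := sz_conj_le (H := G) ⟨le_nrm_of_normal _ V, c, .inl (solv_of_comm (isComm_zpowers _))⟩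
      (le_nrm_of_normal _ V) (le_top.trans (sup_comm V G ▸ hGV.sup_eq_top.ge)) hcop.symm
    obtain ⟨s, ⟨s1, g, g1, rfl⟩, -⟩ := hrep _ a
    have u : n * x ^ e * n⁻¹ = x ^ e := by rw [hab n n1 _ a, mul_inv_cancel_right]
    refine ⟨⟨⟨_, s1⟩, ConjClasses.mk ⟨g * (n * x ^ f * n⁻¹) * g⁻¹, G.mul_mem (G.mul_mem g1
      (n2 (conj_mem_cj.2 (Subgroup.mem_zpowers _)))) (inv_mem g1), mem_cen1.2 ?_⟩⟩, _, rfl,
      ConjClasses.mk_eq_mk_iff_isConj.2 (isConj_iff.2 ⟨g * n, ?_⟩)⟩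
    · change _ * (g * x ^ e * g⁻¹) = (g * x ^ e * g⁻¹) * _
      rw [← u]
      group
    · change _ = (g * x ^ e * g⁻¹) * (g * (n * x ^ f * n⁻¹) * g⁻¹)
      clear s1
      rw [← u]
      conv_lhs => rw [← pow_mul_pow_eq hcop o e1 e2 f1 f2]
      simp [mul_assoc]
  · rintro x ⟨⟨s, s1⟩, C⟩ ⟨⟨t, t1⟩, D⟩ p q
    obtain ⟨g, rfl, rfl⟩ : ∃ g : ↥(G ⊓ cen1 s), C = ConjClasses.mk g ∧ x = ConjClasses.mk (s * g.1) := p
    obtain ⟨h, rfl, k⟩ : ∃ h : ↥(G ⊓ cen1 t), D = ConjClasses.mk h ∧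
      ConjClasses.mk (s * g.1) = ConjClasses.mk (t * h.1) := q
    obtain ⟨x, k⟩ := isConj_iff.1 (ConjClasses.mk_eq_mk_iff_isConj.1 k)
    obtain ⟨y, y1, v, v1, rfl⟩ := fac_of_sup hGV.sup_eq_top x
    have k1 := congrArg (· ^ e) k
    have k2 := congrArg (· ^ f) k
    simp only [conj_pow, pw s (hSV s s1) g g.2, pw t (hSV t t1) h h.2] at k1 k2
    replace k1 : y * s * y⁻¹ = t := by rw [← k1, mul_assoc y v, hab v v1 s (hSV s s1)]; group
    obtain rfl := (hrep s (hSV s s1)).unique ⟨s1, 1, one_mem _, by simp⟩ ⟨t1, y, y1, k1⟩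
    congr 1
    refine mk_eq_mk_sub.2 ⟨y, ⟨y1, mem_cen1.2 (mul_inv_eq_iff_eq_mul.1 k1)⟩, mul_inv_eq_one.1 ?_⟩
    refine hGV.disjoint.le_bot ⟨(QuotientGroup.eq_one_iff _).1 ?_,
      G.mul_mem (G.mul_mem (G.mul_mem y1 g.2.1) (G.inv_mem y1)) (G.inv_mem h.2.1)⟩
    simp [← k2, (QuotientGroup.eq_one_iff v).2 v1]
  · rintro _ _ ⟨s, D⟩ ⟨g, a, rfl⟩ ⟨h, b, rfl⟩
    obtain ⟨y, y1, k⟩ := mk_eq_mk_sub.1 (a.symm.trans b)
    exact ConjClasses.mk_eq_mk_iff_isConj.2 (isConj_iff.2 ⟨y, by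
      rw [← k, ← mul_assoc, mem_cen1.1 y1.2]; simp only [mul_assoc]⟩)
  · obtain ⟨g, rfl⟩ := ConjClasses.mk_surjective D
    exact ⟨_, g, rfl, rfl⟩

end Cfsg.Agent.S4956
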