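import Cfsg.Statements.S4964
import Cfsg.Agent.H9.Cent

set_option autoImplicit false
open Cfsg

namespace Cfsg.Agent.S4964
open H9 H3 MonoidAlgebra
open scoped Pointwise
set_option linter.style.haveILetI false
set_option linter.unusedVariables false


/-- Let D be a normal p-subgroup of the finite group G, let D′ be its commutator subgroup (normal in G), and fix a maximal ideal M of the algebraic integers containing p. Then (i) two irreducible characters of G ⧸ D′ lie in the same p-block if and only if their inflations to G do, and (ii) every p-block of G contains the inflation of some irreducible character of G ⧸ D′; so inflation induces a bijection between the p-blocks of G ⧸ D′ and the p-blocks of G. -/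
theorem result {G : Type*} [Group G] [Finite G] (p : ℕ) [Fact p.Prime] (M : Ideal Cfsg.AlgInt) (hM : Cfsg.IsPModular p M) (D : Subgroup G) [D.Normal] (hD : IsPGroup p D) : (∀ χ ψ : Cfsg.IrrCharacter (G ⧸ ⁅D, D⁆), Cfsg.SameBlock M (χ : G ⧸ ⁅D, D⁆ → ℂ) (ψ : G ⧸ ⁅D, D⁆ → ℂ) ↔ Cfsg.SameBlock M ((χ : G ⧸ ⁅D, D⁆ → ℂ) ∘ QuotientGroup.mk) ((ψ : G ⧸ ⁅D, D⁆ → ℂ) ∘ QuotientGroup.mk)) ∧ ∀ B : Set (Cfsg.IrrCharacter G), Cfsg.IsPBlock M B → ∃ χ : Cfsg.IrrCharacter (G ⧸ ⁅D, D⁆), ∃ θ ∈ B, (θ : G → ℂ) = (χ : G ⧸ ⁅D, D⁆ → ℂ) ∘ QuotientGroup.mk := by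
  haveI : PMod p M := ⟨hM⟩
  have hπ := QuotientGroup.mk'_surjective ⁅D, D⁆
  have hle : ⁅D, D⁆ ≤ D := Subgroup.commutator_le_left D D
  have hk : IsPGroup p (QuotientGroup.mk' ⁅D, D⁆).ker := by
    rw [QuotientGroup.ker_mk']; exact hD.to_le hle
  refine ⟨fun χ ψ => ⟨fun h => ?_, fun h => ?_⟩, fun B hB => ?_⟩
  · exact blk_eq_iff.1 ((dom_blk hπ χ).unique (blk_eq_iff.2 h ▸ dom_blk hπ ψ))
  · refine blk_eq_iff.1 ((dom_blk hπ ψ).eq_of_cen hπ hk (fun g hg h0 => ?_)
      ((blk_eq_iff (χ := infl hπ χ) (ψ := infl hπ ψ)).2 h ▸ dom_blk hπ χ))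
    rw [QuotientGroup.ker_mk']
    haveI := Subgroup.Normal.map (inferInstance : D.Normal) _ hπ
    have h1 := (blk M ψ).mem_centralizer_of_coeff (hD.map (QuotientGroup.mk' ⁅D, D⁆)) h0
    haveI := hD.isNilpotent
    refine cen_anti hle (Subgroup.zpowers_le.1 (H1.coprime_centralizes_of_frattini
      (le_nrm_of_normal _ _) ?_ (le_trans ?_ (H1.commutator_le_map_frattini D))))
    · obtain ⟨k, hk⟩ := (hD.to_subgroup (frattini D)).exists_card_eq
      rw [Nat.card_zpowers, hk]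
      exact (isPRegular_iff_coprime.1 hg).pow_right _
    · have h2 : Subgroup.zpowers g ≤ (cen (D.map (QuotientGroup.mk' ⁅D, D⁆))).comap
          (QuotientGroup.mk' ⁅D, D⁆) := Subgroup.zpowers_le.2 h1
      refine Subgroup.commutator_le.2 fun d hd x hx => ?_
      rw [← QuotientGroup.eq_one_iff, ← QuotientGroup.mk'_apply, map_commutatorElement,
        commutatorElement_eq_one_iff_mul_comm]
      exact h2 hx _ ⟨d, hd, rfl⟩
  · lift B to Bl M G using hB
    obtain ⟨χ, h⟩ := B.exists_mem_comp hπ hk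
    exact ⟨χ, _, h, rfl⟩

end Cfsg.Agent.S4964
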