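import Cfsg.Statements.S4965
import Cfsg.Agent.H3.Cls

set_option autoImplicit false
open Cfsg

namespace Cfsg.Agent.S4965
open H3
export H3 (inner_add_left inner_add_right inner_sub_left inner_sub_right inner_neg_left inner_neg_right
  inner_zero_left inner_zero_right inner_smul_left inner_smul_right inner_conj_symm inner_self_eq_zero
  inner_self_im)

open H7

/-- Let X be a finite group with an abelian normal subgroup V (any two elements of V commute), and let φ be the action of X ⧸ V on V induced by conjugation (well defined because V is abelian; the hypothesis hφ says that the class of x acts as conjugation by x). Then X has at most as many conjugacy classes as the semidirect product of V by X ⧸ V formed with this action: the split extension has the largest class number among extensions with the given action. -/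
theorem result {X : Type*} [Group X] [Finite X] (V : Subgroup X) [V.Normal] (hab : ∀ a ∈ V, ∀ b ∈ V, a * b = b * a) (φ : X ⧸ V →* MulAut ↥V) (hφ : ∀ (x : X) (v : ↥V), ((φ (QuotientGroup.mk x) v : ↥V) : X) = x * v * x⁻¹) : Nat.card (ConjClasses X) ≤ Nat.card (ConjClasses (SemidirectProduct ↥V (X ⧸ V) φ)) := by
  set_option maxSynthPendingDepth 3 in
  let m : {p : X × X // Commute p.1 p.2} → (X ⧸ V) × (X ⧸ V) := fun p => (p.1.1, p.1.2)
  haveI : Nonempty {p : X × X // Commute p.1 p.2} := ⟨⟨1, Commute.refl 1⟩⟩
  let r := fun p => Function.invFun m (m p)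
  have hr : ∀ p, m (r p) = m p := fun p => Function.invFun_eq ⟨p, rfl⟩
  have k : ∀ {a b : X}, (b : X ⧸ V) = a → a * b⁻¹ ∈ V := fun {a b} h => (QuotientGroup.eq_one_iff _).1 (by simp [h])
  let F : {p : X × X // Commute p.1 p.2} → {p : SemidirectProduct V (X ⧸ V) φ × SemidirectProduct V (X ⧸ V) φ //
      Commute p.1 p.2} := fun p =>
    ⟨(⟨⟨_, k (congrArg Prod.fst (hr p))⟩, p.1.1⟩, ⟨⟨_, k (congrArg Prod.snd (hr p))⟩, p.1.2⟩), by
      refine SemidirectProduct.ext (Subtype.ext ?_) (p.2.map (QuotientGroup.mk' V))
      have e1 : (p.1.1 : X ⧸ V) = (r p).1.1 := (congrArg Prod.fst (hr p)).symm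
      have e2 : (p.1.2 : X ⧸ V) = (r p).1.2 := (congrArg Prod.snd (hr p)).symm
      simp only [SemidirectProduct.mul_left, Subgroup.coe_mul]
      rw [e1, e2, hφ, hφ]
      simp only [mul_assoc, inv_mul_cancel_left]
      rw [← mul_assoc, p.2.eq, (r p).2.inv_inv.eq, mul_assoc]⟩
  have i : Function.Injective F := fun p q h => by
    have h := congrArg Subtype.val h
    have e : r p = r q := congrArg (Function.invFun m) (Prod.ext (congrArg (·.1.right) h) (congrArg (·.2.right) h))
    have e1 : p.1.1 * (r p).1.1⁻¹ = q.1.1 * (r q).1.1⁻¹ := congrArg (·.1.left.1) h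
    have e2 : p.1.2 * (r p).1.2⁻¹ = q.1.2 * (r q).1.2⁻¹ := congrArg (·.2.left.1) h
    rw [e] at e1 e2
    exact Subtype.ext (Prod.ext (mul_right_cancel e1) (mul_right_cancel e2))
  haveI : Finite (SemidirectProduct V (X ⧸ V) φ) := Finite.of_equiv _ SemidirectProduct.equivProd.symm
  have := Nat.card_le_card_of_injective F i
  rw [card_comm_eq_card_conjClasses_mul_card, card_comm_eq_card_conjClasses_mul_card, SemidirectProduct.card,
    mul_comm (Nat.card V), ← V.card_eq_card_quotient_mul_card_subgroup] at this
  exact Nat.le_of_mul_le_mul_right this Nat.card_pos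

end Cfsg.Agent.S4965
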