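import Cfsg.Statements.S4966
import Cfsg.Agent.H2.SD2

set_option autoImplicit false
open Cfsg

namespace Cfsg.Agent.S4966



/-- Let F be a finite field of characteristic p, G a finite group of order prime to p, and V a finite-dimensional representation of G over F carrying a nondegenerate G-invariant bilinear form (equivalently, V is self-dual). Then V is the direct sum of two G-invariant subspaces U and W such that U carries a G-invariant alternating bilinear form that is nondegenerate on U and W carries a G-invariant symmetric bilinear form that is nondegenerate on W; moreover when p = 2 the decomposition can be chosen with G acting trivially on W. -/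
theorem result {F : Type*} [Field F] [Fintype F] (p : ℕ) [Fact p.Prime] [CharP F p] {G : Type*} [Group G] [Finite G] (hcop : ¬ p ∣ Nat.card G) {V : Type*} [AddCommGroup V] [Module F V] [FiniteDimensional F V] (ρ : Representation F G V) (B : LinearMap.BilinForm F V) (hB : B.Nondegenerate) (hBinv : ∀ g : G, ∀ x y : V, B (ρ g x) (ρ g y) = B x y) : ∃ U W : Submodule F V, IsCompl U W ∧ (∀ g : G, ∀ u ∈ U, ρ g u ∈ U) ∧ (∀ g : G, ∀ w ∈ W, ρ g w ∈ W) ∧ (∃ A : LinearMap.BilinForm F V, (∀ x : V, A x x = 0) ∧ (∀ g : G, ∀ x ∈ U, ∀ y ∈ U, A (ρ g x) (ρ g y) = A x y) ∧ (∀ x ∈ U, (∀ y ∈ U, A x y = 0) → x = 0)) ∧ (∃ S : LinearMap.BilinForm F V, (∀ x y : V, S x y = S y x) ∧ (∀ g : G, ∀ x ∈ W, ∀ y ∈ W, S (ρ g x) (ρ g y) = S x y) ∧ (∀ x ∈ W, (∀ y ∈ W, S x y = 0) → x = 0)) ∧ (p = 2 → ∀ g : G, ∀ w ∈ W, ρ g w = w) := by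
  haveI := Fintype.ofFinite G
  have hc : (Fintype.card G : F) ≠ 0 := by
    rw [Ne, CharP.cast_eq_zero_iff F p, ← Nat.card_eq_fintype_card]; exact hcop
  obtain ⟨A, S, π, hπ, hπ1, hπ2, hA, hAi, hSi, hSs, hn, hP⟩ := H2.sd_split ρ hc B hB hBinv
  have hR : ∀ g, ∀ x ∈ LinearMap.ker A, ρ g x ∈ LinearMap.ker A := by
    intro g x hx
    rw [← hπ2 x hx, ← hπ]; exact hπ1 _
  have hU : ∀ x, x - π x ∈ LinearMap.ker π := fun x => by
    rw [LinearMap.mem_ker, map_sub, hπ2 _ (hπ1 x), sub_self]
  refine ⟨LinearMap.ker π, LinearMap.ker A, ⟨?_, ?_⟩, fun g u hu => ?_, hR,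
    ⟨A, hA, fun g x _ y _ => hAi g x y, fun x hx h => ?_⟩,
    ⟨S, hSs, fun g x _ y _ => hSi g x y, hn⟩, fun h2 => ?_⟩
  · rw [Submodule.disjoint_def]
    intro x h1 h2
    rw [← hπ2 x h2]; exact h1
  · rw [codisjoint_iff, eq_top_iff]
    intro x _
    have : x = (x - π x) + π x := by abel
    rw [this]
    exact Submodule.add_mem_sup (hU x) (hπ1 x)
  · rw [LinearMap.mem_ker] at hu ⊢
    rw [hπ, hu, map_zero]
  · have hx' : x ∈ LinearMap.ker A := by
      rw [LinearMap.mem_ker]
      ext y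
      have h1 := h _ (hU y)
      have h2 : A x (π y) = 0 := by
        rw [← LinearMap.IsAlt.neg hA, LinearMap.mem_ker.1 (hπ1 y)]; simp
      rw [map_sub, h2, sub_zero] at h1
      exact h1
    rw [← hπ2 x hx']; exact hx
  · subst h2
    refine H2.sd_two ρ ?_ S _ hR hSi hSs hn (fun C hCi hC x hx y hy => ?_)
    · have : Odd (Fintype.card G) := by
        rw [← Nat.not_even_iff_odd, even_iff_two_dvd, ← Nat.card_eq_fintype_card]; exact hcop
      obtain ⟨k, hk⟩ := this
      rw [hk]; push_cast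
      rw [CharTwo.two_eq_zero]; simp
    · have := hP C hCi hC x y
      rwa [hπ2 x hx, hπ2 y hy] at this

end Cfsg.Agent.S4966
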