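import Cfsg.Statements.S5005
import Cfsg.Agent.H7.M22a
import Cfsg.Agent.H9.FR
import Cfsg.Agent.H9.Pairs
import Cfsg.Agent.H6.More
import Cfsg.Agent.S0381

set_option autoImplicit false
open Cfsg

namespace Cfsg.Agent.S5005
open H9 H3 MonoidAlgebra
open scoped Pointwise
set_option linter.style.haveILetI false
set_option linter.unusedVariables false

theorem eq_B0 {G : Type*} [Group G] [Finite G] {p : ℕ} [Fact p.Prime] {M : Ideal AlgInt} [PMod p M] (B : Bl M G)
    {E : Subgroup G} (hE : IsPGroup p E) (hc : Subgroup.centralizer (E : Set G) ≤ E) (hb : br (RF M) E B.e ≠ 0) :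
    B = B0 M G := by
  have h0 : br (RF M) E (B0 M G).e ≠ 0 := by
    obtain ⟨Q, hQ⟩ := hE.exists_le_sylow
    exact (B0_isDef_iff.2 (H1.isSylowIn_top Q)).br_ne_zero_of_le hQ
  have h1 : ∀ B : Bl M G, br (RF M) E B.e ≠ 0 →
      (br (RF M) E B.e).coeff 1 ≠ 0 ∧ ∀ g, g ≠ 1 → (br (RF M) E B.e).coeff g = 0 := fun B hB => by
    have h2 : ∀ g, g ≠ 1 → (br (RF M) E B.e).coeff g = 0 := fun g hg => by
      by_cases hm : g ∈ Subgroup.centralizer (E : Set G)
      · rw [coeff_br_of_mem _ hm]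
        by_contra h0
        exact hg (eq_one_of_isPElt_of_isPRegular (isPElt_of_mem hE (hc hm)) (B.isPRegular_of_coeff_e h0))
      · exact coeff_br_of_not_mem _ hm
    refine ⟨fun h0 => hB (ga_ext fun g => ?_), h2⟩
    by_cases hg : g = 1
    · rw [hg, h0]; rfl
    · exact h2 g hg
  by_contra hne
  have h3 := br_mulF hE (mem_Fix_of_mem_Zc B.e_mem E) (mem_Fix_of_mem_Zc (B0 M G).e_mem E)
  rw [Bl.e_mul_of_ne hne, map_zero] at h3
  have h4 := congrArg (fun a => a.coeff 1) h3
  haveI := Fintype.ofFinite G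
  simp only [coeff_mul_left] at h4
  rw [Finset.sum_eq_single 1 (fun g _ hg => by rw [(h1 _ hb).2 g hg, zero_mul]) (by simp)] at h4
  exact mul_ne_zero (h1 _ hb).1 (h1 _ h0).1 (by simpa using h4.symm)

theorem all_B0 {G : Type*} [Group G] [Finite G] {M : Ideal AlgInt} [PMod 2 M] (hG : Nat.card G = 443520)
    (hC : ∀ p : ℕ, p = 5 ∨ p = 7 ∨ p = 11 → ∀ P : Sylow p G, Nat.card (Subgroup.centralizer (P : Set G)) = p)
    (hE : ∀ z : G, orderOf z = 2 → ∃ E : Subgroup G, IsPGroup 2 E ∧ z ∈ E ∧ (∀ a ∈ E, a * z = z * a) ∧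
      (∀ c, c * z = z * c → ∀ a ∈ E, c * a * c⁻¹ ∈ E) ∧ Subgroup.centralizer (E : Set G) ≤ E) (B : Bl M G) :
    B = B0 M G := by
  obtain ⟨D, hD⟩ := B.exists_isDef
  by_cases hd : blockDefect 2 B.1 = 0
  · exfalso
    obtain ⟨χ, -, hχ⟩ := B.exists_eq_minv
    have h1 := B.minv_add_defect
    have f2 : (443520 : ℕ).factorization 2 = 7 := by
      rw [show (443520 : ℕ) = 2 ^ 7 * 3465 by norm_num, Nat.factorization_mul (by norm_num) (by norm_num),
        Finsupp.add_apply, factorization_p_pow, Nat.factorization_eq_zero_of_not_dvd (show ¬ 2 ∣ 3465 by norm_num)]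
    rw [hd, hG, f2, ← hχ, add_zero] at h1
    refine H7.M22.no_def0 hG hC χ.2 (irr_deg χ) ?_
    have := Nat.ordProj_dvd (charDegree χ.1) 2
    rwa [h1] at this
  · obtain ⟨z, hz⟩ := exists_prime_orderOf_dvd_card' (G := D) 2 (by rw [hD.card_eq]; exact dvd_pow_self 2 hd)
    obtain ⟨E, h1, h2, h3, h4, h5⟩ := hE z (by rw [Subgroup.orderOf_coe, hz])
    have hZ : Subgroup.zpowers (z : G) ≤ D := by simp
    have hZE : Subgroup.zpowers (z : G) ≤ E := by simpa using h2
    have hm : ∀ c, c ∈ Subgroup.centralizer (Subgroup.zpowers (z : G) : Set G) ↔ c * z = z * c := fun c =>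
      ⟨fun h => (h z (Subgroup.mem_zpowers _)).symm, fun h => by
        rintro _ ⟨k, rfl⟩; exact (Commute.zpow_right h k).eq.symm⟩
    have ha := br_mem_ZS_cen (P := Subgroup.zpowers (z : G)) (mem_Fix_of_mem_Zc B.e_mem _)
    have := ZS_br_of_normal ha (br_idem (h1.to_le hZE) (mem_Fix_of_mem_Zc B.e_mem _) B.e_mul_self) h1
      (fun a ha => (hm a).2 (h3 a ha)) (fun c hc => by
        have hc' := (hm c).1 hc
        have hc'' := (hm c⁻¹).1 (inv_mem hc)
        rw [Subgroup.mem_normalizer_iff]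
        exact fun a => ⟨h4 c hc' a, fun h => by simpa [mul_assoc] using h4 c⁻¹ hc'' _ h⟩)
    rw [br_br_of_le hZE] at this
    exact eq_B0 B h1 h5 (this ▸ hD.br_ne_zero_of_le hZ)

section M24
open H6 Finset MulAction

theorem fix_mod {y : M24} {p : ℕ} (hp : p.Prime) (hy : y ^ p = 1) (S : Finset GolayPt) (hS : ∀ a ∈ S, y • a ∈ S) :
    S.card ≡ (S.filter fun a => y • a = a).card [MOD p] := by
  haveI := Fact.mk hp
  let f : Function.End S := fun a => ⟨y • a.1, hS a.1 a.2⟩
  have hf : ∀ (n : ℕ) (a : S), ((f ^ n) a).1 = y ^ n • a.1 := fun n => by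
    induction n with
    | zero => intro a; simp; rfl
    | succ n ih => intro a; rw [pow_succ', pow_succ', mul_smul, ← ih]; rfl
  have h := Equiv.Perm.card_fixedPoints_modEq (f := f) (p := p) (n := 1) (by
    funext a; apply Subtype.ext; rw [hf, pow_one, hy, one_smul]; rfl)
  rw [Fintype.card_coe] at h
  refine h.trans (Eq.subst (motive := fun n => _ ≡ n [MOD p]) ?_ (Nat.ModEq.refl _))
  rw [← Fintype.card_coe]
  exact Fintype.card_congr ⟨fun a => ⟨a.1.1, mem_filter.2 ⟨a.1.2, congrArg Subtype.val a.2⟩⟩,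
    fun a => ⟨⟨a.1, (mem_filter.1 a.2).1⟩, Subtype.ext (mem_filter.1 a.2).2⟩, fun _ => rfl, fun _ => rfl⟩

theorem nf_tab {x : M24} {l : ℕ} (hl : l.Prime) (hx : orderOf x = l) :
    nf x ≡ 24 [MOD l] ∧ ((l = 2 ∧ (nf x = 0 ∨ nf x = 8)) ∨ (l = 3 ∧ (nf x = 0 ∨ nf x = 6)) ∨ (l ≠ 2 ∧ l ≠ 3 ∧ nf x ≤ 4)) := by
  refine ⟨?_, ?_⟩
  · have := fix_mod hl (hx ▸ pow_orderOf_eq_one x) univ (fun _ _ => mem_univ _)
    rw [card_univ, card_pt] at this
    exact this.symm
  by_cases h2 : l = 2
  · subst h2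
    refine Or.inl ⟨rfl, ?_⟩
    by_cases h : nf x = 0
    · exact Or.inl h
    · obtain ⟨g, rfl⟩ := invol_A hx h
      rw [nf_conj, nf_zA]; simp
  by_cases h3 : l = 3
  · subst h3
    refine Or.inr (Or.inl ⟨rfl, ?_⟩)
    by_cases h : nf x = 0
    · exact Or.inl h
    · obtain ⟨g, rfl⟩ := ord3_A hx h
      rw [nf_conj, nf_yA]; simp
  refine Or.inr (Or.inr ⟨h2, h3, ?_⟩)
  by_contra h
  obtain ⟨s, hs, hs5⟩ := Finset.exists_subset_card_eq (s := univ.filter fun p : GolayPt => x • p = p) (n := 5)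
    (by unfold nf at h; omega)
  have h1 := M24_mpt.index_of_fixingSubgroup_mul (s := (s : Set GolayPt)) (by simp [hs5])
  rw [Nat.card_eq_fintype_card, card_pt] at h1
  have h4 := (fixingSubgroup M24 (s : Set GolayPt)).card_mul_index
  rw [card_M24] at h4
  have h5 : (fixingSubgroup M24 (s : Set GolayPt)).index = 5100480 := by
    norm_num [Nat.factorial] at h1; omega
  have h6 : Nat.card (fixingSubgroup M24 (s : Set GolayPt)) = 2 ^ 4 * 3 := by rw [h5] at h4; omega
  have h7 : x ∈ fixingSubgroup M24 (s : Set GolayPt) :=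
    (mem_fixingSubgroup_iff M24).2 fun a ha => (mem_filter.1 (hs ha)).2
  have h8 := Subgroup.orderOf_dvd_natCard _ h7
  rw [hx, h6, hl.dvd_mul] at h8
  rcases h8 with h8 | h8
  · exact h2 ((Nat.prime_dvd_prime_iff_eq hl Nat.prime_two).1 (hl.dvd_of_dvd_pow h8))
  · exact h3 ((Nat.prime_dvd_prime_iff_eq hl Nat.prime_three).1 h8)

theorem nf_le {x : M24} (hx : x ≠ 1) : nf x ≤ 8 := by
  have h1 : orderOf x ≠ 1 := by simpa using hx
  have hl := Nat.minFac_prime h1
  have h2 := orderOf_pow_orderOf_div (orderOf_pos x).ne' (Nat.minFac_dvd (orderOf x))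
  have h3 := (nf_tab hl h2).2
  have h4 : nf x ≤ nf (x ^ (orderOf x / (orderOf x).minFac)) :=
    card_le_card fun a ha => mem_filter.2 ⟨mem_univ _, (stabilizer M24 a).pow_mem (mem_filter.1 ha).2 _⟩
  omega

theorem no_comm {a b : GolayPt} (hab : a ≠ b) {y c : M24} {p l : ℕ} (hp : p = 5 ∨ p = 7 ∨ p = 11) (hl : l.Prime)
    (hld : l ∣ 443520) (hy : orderOf y = p) (hc : orderOf c = l) (h : c * y = y * c) (ya : y • a = a) (yb : y • b = b)
    (ca : c • a = a) (cb : c • b = b) : l = p := by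
  have hpp : p.Prime := by rcases hp with rfl | rfl | rfl <;> norm_num
  have t1 := nf_tab hpp hy
  have t2 := nf_tab hl hc
  have m1 := fix_mod hpp (hy ▸ pow_orderOf_eq_one y) (univ.filter fun p : GolayPt => c • p = p) fun t ht =>
    mem_filter.2 ⟨mem_univ _, by rw [← mul_smul, h, mul_smul, (mem_filter.1 ht).2]⟩
  have m2 := fix_mod hl (hc ▸ pow_orderOf_eq_one c) (univ.filter fun p : GolayPt => y • p = p) fun t ht =>
    mem_filter.2 ⟨mem_univ _, by rw [← mul_smul, ← h, mul_smul, (mem_filter.1 ht).2]⟩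
  rw [filter_comm] at m2
  have k1 : 2 ≤ ((univ.filter fun p : GolayPt => c • p = p).filter fun p => y • p = p).card := by
    rw [← card_pair hab]
    exact card_le_card (by simp [insert_subset_iff, ya, yb, ca, cb])
  have k2 : ((univ.filter fun p : GolayPt => c • p = p).filter fun p => y • p = p).card ≤ nf c := card_filter_le _ _
  have k3 : ((univ.filter fun p : GolayPt => c • p = p).filter fun p => y • p = p).card ≤ nf y := by
    rw [filter_comm]; exact card_filter_le _ _
  change nf c ≡ _ [MOD p] at m1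
  change nf y ≡ _ [MOD l] at m2
  have hl' : l = 2 ∨ l = 3 ∨ l = 5 ∨ l = 7 ∨ l = 11 := by
    rw [show (443520 : ℕ) = 2 ^ 7 * (3 ^ 2 * (5 * (7 * 11))) by norm_num, hl.dvd_mul, hl.dvd_mul, hl.dvd_mul,
      hl.dvd_mul] at hld
    rcases hld with h | h | h | h | h
    · exact Or.inl ((Nat.prime_dvd_prime_iff_eq hl Nat.prime_two).1 (hl.dvd_of_dvd_pow h))
    · exact Or.inr (Or.inl ((Nat.prime_dvd_prime_iff_eq hl Nat.prime_three).1 (hl.dvd_of_dvd_pow h)))
    · exact Or.inr (Or.inr (Or.inl ((Nat.prime_dvd_prime_iff_eq hl (by norm_num)).1 h)))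
    · exact Or.inr (Or.inr (Or.inr (Or.inl ((Nat.prime_dvd_prime_iff_eq hl (by norm_num)).1 h))))
    · exact Or.inr (Or.inr (Or.inr (Or.inr ((Nat.prime_dvd_prime_iff_eq hl (by norm_num)).1 h))))
  unfold Nat.ModEq at *
  rcases hp with rfl | rfl | rfl <;> rcases hl' with rfl | rfl | rfl | rfl | rfl <;> omega

theorem oct_E {z : M24} (hz : orderOf z = 2) (hn : nf z ≠ 0) : ∃ o ∈ octads, ∀ p, p ∈ o ↔ z • p = p := by
  obtain ⟨g, rfl⟩ := invol_A hz hn
  have h0 : ∀ p, p ∈ O0 ↔ E zA • p = p := gd_zA.fix_iff (m := 0x149f) (by decide +kernel)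
  refine ⟨g • O0, by rw [← orb_O0]; exact ⟨g, trivial, rfl⟩, fun p => ?_⟩
  rw [← Finset.inv_smul_mem_iff, h0, mul_smul, mul_smul, smul_eq_iff_eq_inv_smul g]

theorem E_comm {o : Finset GolayPt} (ho : o ∈ octads) {a b : M24} (ha : a ∈ fixingSubgroup M24 (o : Set GolayPt))
    (hb : b ∈ fixingSubgroup M24 (o : Set GolayPt)) : a * b = b * a := by
  have h : ∀ a ∈ fixingSubgroup M24 (o : Set GolayPt), a * a = 1 := fun a ha =>
    Subtype.ext ((Cfsg.Agent.S0381.result o ho).2 a.1 ⟨a.2, ha⟩)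
  have h1 := h _ (mul_mem ha hb)
  calc a * b = (b * b) * (a * b) * (a * a) := by rw [h a ha, h b hb]; simp
    _ = b * (b * a * (b * a)) * a := by group
    _ = b * a := by rw [h _ (mul_mem hb ha)]; simp

theorem cen_E {o : Finset GolayPt} (ho : o ∈ octads) {c : M24} (hs : c • o = o)
    (hc : ∀ a ∈ fixingSubgroup M24 (o : Set GolayPt), a * c = c * a) : c ∈ fixingSubgroup M24 (o : Set GolayPt) := by
  obtain ⟨p, hp⟩ := exists_not_mem (s := o) (by rw [ho.2]; norm_num)
  have h1 : c • p ∈ orb (fixingSubgroup M24 (o : Set GolayPt)) p := by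
    rw [orb_fix_octad ho hp]
    intro h
    rw [← hs, smul_mem_smul_finset_iff] at h
    exact hp h
  obtain ⟨t, ht, e⟩ := h1
  suffices t⁻¹ * c = 1 by rw [inv_mul_eq_one] at this; exact this ▸ ht
  by_contra hne
  have h2 := nf_le hne
  have h3 : oᶜ.card ≤ nf (t⁻¹ * c) := card_le_card fun q hq => by
    have : q ∈ orb (fixingSubgroup M24 (o : Set GolayPt)) p := by
      rw [orb_fix_octad ho hp]; exact mem_compl.1 hq
    obtain ⟨s, hs', rfl⟩ := this
    refine mem_filter.2 ⟨mem_univ _, ?_⟩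
    rw [← mul_smul, mul_assoc, ← hc s hs', ← mul_assoc, E_comm ho (inv_mem ht) hs', mul_smul, mul_smul, ← e,
      inv_smul_smul]
  rw [card_compl, card_pt, ho.2] at h3
  omega

end M24


/-- All irreducible complex characters of the Mathieu group `M₂₂` lie in a single 2-block: any two of them lie in the same block relative to every maximal ideal of the algebraic integers containing 2. -/
theorem result (M : Ideal Cfsg.AlgInt) (hM : Cfsg.IsPModular 2 M)
    (χ ψ : Cfsg.IrrCharacter ↥Cfsg.Spor.M22) : Cfsg.SameBlock M (χ : ↥Cfsg.Spor.M22 → ℂ) (ψ : ↥Cfsg.Spor.M22 → ℂ) := by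
  haveI : PMod 2 M := ⟨hM⟩
  obtain ⟨a, b, hab⟩ : ∃ a b : GolayPt, a ≠ b := ⟨H6.pt 0, H6.pt 1, by decide⟩
  obtain ⟨e⟩ := H6.isoM22 hab
  let φ : Spor.M22 →* M24 := (MulAction.stabilizer M24 a ⊓ MulAction.stabilizer M24 b).subtype.comp e.toMonoidHom
  have hφ : Function.Injective φ := Subtype.val_injective.comp e.injective
  have fa : ∀ g, φ g • a = a := fun g => (e g).2.1
  have fb : ∀ g, φ g • b = b := fun g => (e g).2.2
  have sj : ∀ x : M24, x • a = a → x • b = b → ∃ g, φ g = x := fun x h1 h2 => ⟨e.symm ⟨x, h1, h2⟩, by simp [φ]⟩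
  have hG : Nat.card Spor.M22 = 443520 := (Nat.card_congr e.toEquiv).trans (H6.card_stab2 hab)
  have key := all_B0 (M := M) hG (fun p hp P => by
      have hpp : p.Prime := by rcases hp with rfl | rfl | rfl <;> norm_num
      haveI := Fact.mk hpp
      have hd : p ∣ Nat.card P := P.dvd_card_of_dvd_card (by rw [hG]; rcases hp with rfl | rfl | rfl <;> norm_num)
      obtain ⟨y, hy⟩ := exists_prime_orderOf_dvd_card' (G := P) p hd
      have hy' : orderOf (y : Spor.M22) = p := by rw [Subgroup.orderOf_coe, hy]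
      have hdv : Nat.card (Subgroup.centralizer (P : Set Spor.M22)) ∣ 443520 := hG ▸ Subgroup.card_subgroup_dvd_card _
      have h1 : ∀ {l : ℕ}, l.Prime → l ∣ Nat.card (Subgroup.centralizer (P : Set Spor.M22)) → l = p := fun {l} hl h => by
        haveI := Fact.mk hl
        obtain ⟨c, hc⟩ := exists_prime_orderOf_dvd_card' l h
        refine no_comm hab hp hl (h.trans hdv) ((orderOf_injective φ hφ y).trans hy')
          ((orderOf_injective φ hφ c).trans ((Subgroup.orderOf_coe c).trans hc)) ?_ (fa _) (fb _) (fa _) (fb _)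
        rw [← map_mul, ← map_mul, c.2 y y.2]
      have h2 := Nat.eq_prime_pow_of_unique_prime_dvd Nat.card_pos.ne' h1
      generalize (Nat.card (Subgroup.centralizer (P : Set Spor.M22))).primeFactorsList.length = k at h2
      have h3 : ¬ p ^ 2 ∣ 443520 := by rcases hp with rfl | rfl | rfl <;> norm_num
      have h4 : k ≤ 1 := by
        by_contra h
        exact h3 ((pow_dvd_pow p (by omega)).trans (h2 ▸ hdv))
      have hP : Nat.card P = p := by
        obtain ⟨j, hj⟩ := P.isPGroup'.exists_card_eq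
        have h5 : Nat.card P ∣ 443520 := hG ▸ Subgroup.card_subgroup_dvd_card _
        have h6 : j ≤ 1 := by
          by_contra h
          exact h3 ((pow_dvd_pow p (by omega)).trans (hj ▸ h5))
        interval_cases j
        · rw [hj] at hd; exact absurd (Nat.dvd_one.1 (by simpa using hd)) hpp.one_lt.ne'
        · simpa using hj
      interval_cases k
      · exfalso
        haveI : IsCyclic P := isCyclic_of_prime_card hP
        have h7 : (y : Spor.M22) ∈ Subgroup.centralizer (P : Set Spor.M22) := fun t ht =>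
          congrArg Subtype.val ((IsCyclic.commGroup (α := P)).mul_comm ⟨t, ht⟩ y)
        have h8 := Subgroup.orderOf_dvd_natCard _ h7
        rw [h2, hy'] at h8
        exact absurd (Nat.dvd_one.1 (by simpa using h8)) hpp.one_lt.ne'
      · simpa using h2)
    (fun z hz => by
      have hz' := (orderOf_injective φ hφ z).trans hz
      obtain ⟨o, ho, hf⟩ := oct_E hz' (Finset.card_ne_zero.2 ⟨a, Finset.mem_filter.2 ⟨Finset.mem_univ _, fa z⟩⟩)
      have zm : φ z ∈ fixingSubgroup M24 (o : Set GolayPt) := (mem_fixingSubgroup_iff M24).2 fun p hp => (hf p).1 hp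
      have st : ∀ c, c * z = z * c → φ c • o = o := fun c hc => H6.cent_le_stab_fix hf
        (Subgroup.mem_centralizer_singleton_iff.2 (by rw [← map_mul, ← map_mul, hc]))
      refine ⟨(fixingSubgroup M24 (o : Set GolayPt)).comap φ,
        (IsPGroup.of_card (n := 4) (H6.card_fix_octad ho)).comap_of_injective φ hφ, zm,
        fun t ht => hφ (by rw [map_mul, map_mul]; exact E_comm ho ht zm), fun c hc t ht => ?_, fun c hc => ?_⟩
      · rw [Subgroup.mem_comap, map_mul, map_mul, map_inv, mem_fixingSubgroup_iff]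
        intro p hp
        have : (φ c)⁻¹ • p ∈ o := by rw [Finset.inv_smul_mem_iff, st c hc]; exact hp
        rw [mul_smul, mul_smul, (mem_fixingSubgroup_iff M24).1 ht _ this, smul_inv_smul]
      · refine cen_E ho (st c (hc z zm).symm) fun t ht => ?_
        obtain ⟨s, rfl⟩ := sj t ((mem_fixingSubgroup_iff M24).1 ht a ((hf a).2 (fa z)))
          ((mem_fixingSubgroup_iff M24).1 ht b ((hf b).2 (fb z)))
        rw [← map_mul, ← map_mul, hc s ht])
  rw [← blk_eq_iff, key (blk M χ), key (blk M ψ)]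

end Cfsg.Agent.S5005
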