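import Cfsg.Statements.S5006
import Cfsg.Agent.H7.M24a
import Cfsg.Agent.S5005

set_option autoImplicit false
open Cfsg

namespace Cfsg.Agent.S5006
open H9 H3 MonoidAlgebra Cfsg.Agent.S5005
open scoped Pointwise
set_option linter.style.haveILetI false
set_option linter.unusedVariables false

theorem all_B0' {G : Type*} [Group G] [Finite G] {M : Ideal AlgInt} [PMod 2 M]
    (h0 : ∀ χ : IrrCharacter G, (∀ g, 2 ∣ orderOf g → χ.1 g = 0) → ¬ 2 ^ (Nat.card G).factorization 2 ∣ charDegree χ.1)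
    (hE : ∀ x : G, orderOf x = 2 → ∃ (g z : G) (E : Subgroup G), x = g * z * g⁻¹ ∧ IsPGroup 2 E ∧ z ∈ E ∧
      (∀ a ∈ E, a * z = z * a) ∧
      (∀ c, c * z = z * c → ∀ a ∈ E, c * a * c⁻¹ ∈ E) ∧ Subgroup.centralizer (E : Set G) ≤ E) (B : Bl M G) :
    B = B0 M G := by
  obtain ⟨D, hD⟩ := B.exists_isDef
  by_cases hd : blockDefect 2 B.1 = 0
  · exfalso
    obtain ⟨χ, hB, hχ⟩ := B.exists_eq_minv
    have h1 := B.minv_add_defect
    rw [hd, ← hχ, add_zero] at h1
    refine h0 χ (fun g hg => Bl.apply_eq_zero_of_defect_zero hd hB (not_not.2 hg)) ?_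
    have := Nat.ordProj_dvd (charDegree χ.1) 2
    rwa [h1] at this
  · obtain ⟨x, hx⟩ := exists_prime_orderOf_dvd_card' (G := D) 2 (by rw [hD.card_eq]; exact dvd_pow_self 2 hd)
    obtain ⟨g, z, E, hg, h1, h2, h3, h4, h5⟩ := hE x (by rw [Subgroup.orderOf_coe, hx])
    have hZE : Subgroup.zpowers (z : G) ≤ E := by simpa using h2
    have hZ : br (RF M) (Subgroup.zpowers z) B.e ≠ 0 := (hD.br_ne_zero_iff (h1.to_le hZE)).2 ⟨g, by
      rintro _ ⟨_, ⟨k, rfl⟩, rfl⟩
      have : (MulAut.conj g) (z ^ k) ∈ D := by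
        rw [map_zpow, MulAut.conj_apply, ← hg]; exact D.zpow_mem x.2 k
      exact this⟩
    have hm : ∀ c, c ∈ Subgroup.centralizer (Subgroup.zpowers (z : G) : Set G) ↔ c * z = z * c := fun c =>
      ⟨fun h => (h z (Subgroup.mem_zpowers _)).symm, fun h => by
        rintro _ ⟨k, rfl⟩; exact (Commute.zpow_right h k).eq.symm⟩
    have ha := br_mem_ZS_cen (P := Subgroup.zpowers (z : G)) (mem_Fix_of_mem_Zc B.e_mem _)
    have := ZS_br_of_normal ha (br_idem (h1.to_le hZE) (mem_Fix_of_mem_Zc B.e_mem _) B.e_mul_self) h1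
      (fun a ha => (hm a).2 (h3 a ha)) (fun c hc => by
        have hc' := (hm c).1 hc
        have hc'' := (hm c⁻¹).1 (inv_mem hc)
        rw [Subgroup.mem_normalizer_iff]
        exact fun a => ⟨h4 c hc' a, fun h => by simpa [mul_assoc] using h4 c⁻¹ hc'' _ h⟩)
    rw [br_br_of_le hZE] at this
    exact eq_B0 B h1 h5 (this ▸ hZ)

theorem card_le_p {G : Type*} [Group G] [Finite G] {p n : ℕ} (hp : p.Prime) (hn : Nat.card G ∣ n) (h2 : ¬ p ^ 2 ∣ n)
    (h : ∀ (l : ℕ) (c : G), l.Prime → orderOf c = l → l = p) : Nat.card G ≤ p := by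
  have h1 : ∀ {l : ℕ}, l.Prime → l ∣ Nat.card G → l = p := fun {l} hl hd => by
    haveI := Fact.mk hl
    obtain ⟨c, hc⟩ := exists_prime_orderOf_dvd_card' l hd
    exact h l c hl hc
  have h3 := Nat.eq_prime_pow_of_unique_prime_dvd Nat.card_pos.ne' h1
  generalize (Nat.card G).primeFactorsList.length = k at h3
  have h4 : k ≤ 1 := by
    by_contra h
    exact h2 ((pow_dvd_pow p (by omega)).trans (h3 ▸ hn))
  rw [h3]
  interval_cases k
  · simpa using hp.one_lt.le
  · simp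

section M24
open H6 Finset MulAction

theorem cent_le {y : M24} {p : ℕ} (hp : p = 5 ∨ p = 7 ∨ p = 11) (hy : orderOf y = p) (C : Subgroup M24)
    (hC : ∀ c ∈ C, c * y = y * c) : Nat.card C ≤ p * (nf y * (nf y - 1)) := by
  have hpp : p.Prime := by rcases hp with rfl | rfl | rfl <;> norm_num
  have t1 := nf_tab hpp hy
  have h2 : 1 < nf y := by
    unfold Nat.ModEq at t1
    rcases hp with rfl | rfl | rfl <;> omega
  obtain ⟨a, ha, b, hb, hab⟩ := Finset.one_lt_card.1 h2
  have ya := (mem_filter.1 ha).2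
  have yb := (mem_filter.1 hb).2
  have fx : ∀ c ∈ C, ∀ t : GolayPt, y • t = t → y • c • t = c • t := fun c hc t ht => by
    rw [← mul_smul, ← hC c hc, mul_smul, ht]
  have o1 : (orb C a).ncard ≤ nf y := by
    rw [nf, ← Set.ncard_coe_finset]
    refine Set.ncard_le_ncard ?_ (Finset.finite_toSet _)
    rintro _ ⟨c, hc, rfl⟩
    simpa using fx c hc a ya
  have o2 : (orb (C ⊓ stabilizer M24 a) b).ncard ≤ nf y - 1 := by
    rw [nf, ← card_erase_of_mem ha, ← Set.ncard_coe_finset]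
    refine Set.ncard_le_ncard ?_ (Finset.finite_toSet _)
    rintro _ ⟨c, hc, rfl⟩
    refine mem_coe.2 (mem_erase.2 ⟨fun h => hab ?_, mem_filter.2 ⟨mem_univ _, fx c hc.1 b yb⟩⟩)
    have h' : c • a = a := hc.2
    exact (smul_left_cancel c (h.trans h'.symm)).symm
  have hdv : Nat.card ↥(C ⊓ stabilizer M24 a ⊓ stabilizer M24 b) ∣ 443520 := by
    rw [← card_stab2 hab]
    exact Subgroup.card_dvd_of_le (inf_le_inf_right _ inf_le_right)
  have o3 : Nat.card ↥(C ⊓ stabilizer M24 a ⊓ stabilizer M24 b) ≤ p :=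
    card_le_p hpp hdv (by rcases hp with rfl | rfl | rfl <;> norm_num) fun l c hl hc =>
      no_comm hab hp hl ((hc ▸ orderOf_dvd_natCard c).trans hdv) hy ((Subgroup.orderOf_coe c).trans hc)
        (hC _ c.2.1.1) ya yb c.2.1.2 c.2.2
  rw [card_orb C a, card_orb (C ⊓ stabilizer M24 a) b]
  calc _ ≤ nf y * ((nf y - 1) * p) := by gcongr
    _ = _ := by ring

theorem cent_le23 {y : M24} (hy : orderOf y = 23) (C : Subgroup M24)
    (hC : ∀ c ∈ C, c * y = y * c) : Nat.card C ≤ 23 := by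
  refine card_le_p (n := 244823040) (by norm_num) (card_M24 ▸ C.card_subgroup_dvd_card) (by norm_num) fun l c hl hc => ?_
  have hc' : orderOf (c : M24) = l := (Subgroup.orderOf_coe c).trans hc
  have h := hC c c.2
  have hpp : Nat.Prime 23 := by norm_num
  have t1 := nf_tab hpp hy
  have t2 := nf_tab hl hc'
  have m1 := fix_mod hpp (hy ▸ pow_orderOf_eq_one y) (univ.filter fun p : GolayPt => c.1 • p = p) fun t ht =>
    mem_filter.2 ⟨mem_univ _, by rw [← mul_smul, h, mul_smul, (mem_filter.1 ht).2]⟩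
  have m2 := fix_mod hl (hc' ▸ pow_orderOf_eq_one c.1) (univ.filter fun p : GolayPt => y • p = p) fun t ht =>
    mem_filter.2 ⟨mem_univ _, by rw [← mul_smul, ← h, mul_smul, (mem_filter.1 ht).2]⟩
  rw [filter_comm] at m2
  have k3 : ((univ.filter fun p : GolayPt => c.1 • p = p).filter fun p => y • p = p).card ≤ nf y := by
    rw [filter_comm]; exact card_filter_le _ _
  change nf c ≡ _ [MOD 23] at m1
  change nf y ≡ _ [MOD l] at m2
  generalize ((univ.filter fun p : GolayPt => c.1 • p = p).filter fun p => y • p = p).card = k at *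
  have n1 : nf y = 1 := by unfold Nat.ModEq at t1; omega
  rw [n1] at m2 k3
  have k1 : k = 1 := by
    interval_cases k
    · exact absurd (Nat.dvd_one.1 ((Nat.modEq_zero_iff_dvd).1 m2)) hl.one_lt.ne'
    · rfl
  have n2 : nf c = 1 := by unfold Nat.ModEq at m1; omega
  have := t2.1
  rw [n2] at this
  exact (Nat.prime_dvd_prime_iff_eq hl hpp).1 ((Nat.modEq_iff_dvd' (by norm_num)).1 this)

noncomputable def E6 : Subgroup M24 :=
  fixingSubgroup M24 (S0 : Set (Finset GolayPt)) ⊓ Subgroup.centralizer {E zB}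

theorem mem_E6 {g : M24} : g ∈ E6 ↔ (∀ τ ∈ S0, g • τ = τ) ∧ g * E zB = E zB * g := by
  rw [E6, Subgroup.mem_inf, mem_fixingSubgroup_iff, Subgroup.mem_centralizer_singleton_iff]; rfl

theorem E6_p : IsPGroup 2 E6 := by
  have h1 : ∀ {l : ℕ}, l.Prime → l ∣ Nat.card E6 → l = 2 := fun {l} hl hd => by
    haveI := Fact.mk hl
    obtain ⟨c, hc⟩ := exists_prime_orderOf_dvd_card' l hd
    have hc' : orderOf (c : M24) = l := (Subgroup.orderOf_coe c).trans hc
    obtain ⟨h2, h3⟩ := mem_E6.1 c.2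
    by_contra hne
    have hz : E zB ^ 2 = 1 := gd_zB.pow_eq_one (by decide +kernel)
    have key : ∀ τ ∈ S0, ∀ a ∈ τ, c.1 • a = a := fun τ hτ => by
      have m1 := fix_mod hl (hc' ▸ pow_orderOf_eq_one c.1) τ fun a ha => by
        rw [← h2 τ hτ]; exact smul_mem_smul_finset ha
      have m2 := fix_mod Nat.prime_two hz (τ.filter fun a => c.1 • a = a) fun a ha => by
        refine mem_filter.2 ⟨?_, by rw [← mul_smul, h3, mul_smul, (mem_filter.1 ha).2]⟩
        rw [← zB_fix_tetrads τ hτ]; exact smul_mem_smul_finset (mem_filter.1 ha).1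
      have z0 : ((τ.filter fun a => c.1 • a = a).filter fun a => E zB • a = a).card = 0 :=
        Nat.le_zero.1 (nf_zB ▸ card_le_card (filter_subset_filter _ (subset_univ _)))
      have k4 := card_filter_le τ fun a => c.1 • a = a
      rw [z0] at m2
      have c4 := S0_mem.2.1 τ hτ
      have k5 : (τ.filter fun a => c.1 • a = a).card = 4 := by
        rw [c4] at m1 k4
        generalize (τ.filter fun a => c.1 • a = a).card = k at *
        have d := (Nat.modEq_iff_dvd' k4).1 m1.symm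
        unfold Nat.ModEq at m2
        by_contra h
        have : 4 - k = 2 ∨ 4 - k = 2 ^ 2 := by omega
        rcases this with e | e <;> rw [e] at d
        · exact hne ((Nat.prime_dvd_prime_iff_eq hl Nat.prime_two).1 d)
        · exact hne ((Nat.prime_dvd_prime_iff_eq hl Nat.prime_two).1 (hl.dvd_of_dvd_pow d))
      exact filter_eq_self.1 (eq_of_subset_of_card_le (filter_subset _ _) (by rw [k5, c4]))
    have cov : ∀ a : GolayPt, ∃ τ ∈ S0, a ∈ τ := fun a => by
      have : ∀ j < 24, ∃ i < 6, (lane 24 mS0 i).testBit j = true := by decide +kernel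
      obtain ⟨i, hi, h⟩ := this _ (idx_lt a)
      exact ⟨_, mem_decF.2 ⟨i, hi, rfl⟩, mem_dec.2 h⟩
    have : (c : M24) = 1 := Subtype.ext (Equiv.ext fun a => by
      obtain ⟨τ, h, h'⟩ := cov a
      exact key τ h a h')
    rw [this, orderOf_one] at hc'
    exact hl.one_lt.ne hc'
  exact IsPGroup.of_card (Nat.eq_prime_pow_of_unique_prime_dvd Nat.card_pos.ne' h1)

theorem mem_E6_of {t : ℕ} (h : (inM t && Nat.beq (mulT t zB) (mulT zB t) &&
    allLt 6 fun i => Nat.beq (img t (lane 24 mS0 i)) (lane 24 mS0 i)) = true) : Gd t ∧ E t ∈ E6 := by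
  simp only [Bool.and_eq_true, Nat.beq_eq] at h
  have g := gd_of h.1.1
  refine ⟨g, mem_E6.2 ⟨fun τ hτ => ?_, by rw [← g.E_mul gd_zB, ← gd_zB.E_mul g, h.1.2]⟩⟩
  obtain ⟨i, hi, rfl⟩ := mem_decF.1 hτ
  rw [g.smul_eq_iff, enc_dec (lane_lt _ _ _)]
  exact allLt_iff.1 h.2 i hi

theorem cen_E6 : Subgroup.centralizer (E6 : Set M24) ≤ E6 := fun c hc => by
  have z6 : E zB ∈ E6 := mem_E6.2 ⟨zB_fix_tetrads, rfl⟩
  have k : ∀ t m : ℕ, (inM t && Nat.beq (mulT t zB) (mulT zB t) &&
      allLt 6 fun i => Nat.beq (img t (lane 24 mS0 i)) (lane 24 mS0 i)) = true →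
      allLt 24 (fun j => Nat.beq (ap t j) j == tb m j) = true → c • dec m = dec m := fun t m h1 h2 =>
    cent_le_stab_fix ((mem_E6_of h1).1.fix_iff h2)
      (Subgroup.mem_centralizer_singleton_iff.2 (hc _ (mem_E6_of h1).2).symm)
  have k0 := k 0x72eb4848b345da7b10cf6262a18820 0x34200f (by decide +kernel) (by decide +kernel)
  have k1 := k 0xb9ab47ca289b9a749170658aa10c01 0xb66020 (by decide +kernel) (by decide +kernel)
  have k2 := k 0xbadb29d2307baa7b10c8624aa00443 0x8bc120 (by decide +kernel) (by decide +kernel)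
  have k3 := k 0x299b29d1d07c6ac4a9683dae410c01 0x99590 (by decide +kernel) (by decide +kernel)
  have k4 := k 0x2da4d455cf8468c5a93339ae408062 0x401ed0 (by decide +kernel) (by decide +kernel)
  have k5 := k 0x75a95434af85e4a5b13321a2718820 0x400a4f (by decide +kernel) (by decide +kernel)
  refine mem_E6.2 ⟨fun τ hτ => ?_, (hc _ z6).symm⟩
  have di : ∀ a b : ℕ, c • dec a = dec a → c • dec b = dec b → ∀ m, m = a &&& b → c • dec m = dec m := by
    rintro a b ha hb _ rfl
    have : dec (a &&& b) = dec a ∩ dec b := by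
      ext p; rw [mem_inter, mem_dec, mem_dec, mem_dec, Nat.testBit_and, Bool.and_eq_true]
    rw [this, smul_finset_inter, ha, hb]
  obtain ⟨i, hi, rfl⟩ := mem_decF.1 hτ
  interval_cases i
  · exact di _ _ k5 k0 _ (by decide +kernel)
  · exact di _ _ k0 k1 _ (by decide +kernel)
  · exact di _ _ k1 k2 _ (by decide +kernel)
  · exact di _ _ k2 k3 _ (by decide +kernel)
  · exact di _ _ k3 k4 _ (by decide +kernel)
  · exact di _ _ k4 k5 _ (by decide +kernel)

theorem hE24 (x : M24) (hx : orderOf x = 2) : ∃ (g z : M24) (F : Subgroup M24), x = g * z * g⁻¹ ∧ IsPGroup 2 F ∧ z ∈ F ∧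
      (∀ a ∈ F, a * z = z * a) ∧
      (∀ c, c * z = z * c → ∀ a ∈ F, c * a * c⁻¹ ∈ F) ∧ Subgroup.centralizer (F : Set M24) ≤ F := by
  by_cases hn : nf x = 0
  · obtain ⟨g, hg⟩ := invol_B hx (by omega)
    refine ⟨g, E zB, E6, hg, E6_p, mem_E6.2 ⟨zB_fix_tetrads, rfl⟩, fun a ha => (mem_E6.1 ha).2, fun c hc a ha => ?_, cen_E6⟩
    obtain ⟨h1, h2⟩ := mem_E6.1 ha
    have hc' : c ∈ Subgroup.centralizer {E zB} := Subgroup.mem_centralizer_singleton_iff.2 hc
    refine mem_E6.2 ⟨fun τ hτ => ?_, Subgroup.mem_centralizer_singleton_iff.1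
      (mul_mem (mul_mem hc' (Subgroup.mem_centralizer_singleton_iff.2 h2)) (inv_mem hc'))⟩
    have st : c • S0 = S0 := cent_zB_le hc'
    have : c⁻¹ • τ ∈ S0 := by rw [Finset.inv_smul_mem_iff, st]; exact hτ
    rw [mul_smul, mul_smul, h1 _ this, smul_inv_smul]
  · obtain ⟨o, ho, hf⟩ := oct_E hx hn
    have zm : x ∈ fixingSubgroup M24 (o : Set GolayPt) := (mem_fixingSubgroup_iff M24).2 fun p hp => (hf p).1 hp
    have st : ∀ c, c * x = x * c → c • o = o := fun c hc => cent_le_stab_fix hf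
      (Subgroup.mem_centralizer_singleton_iff.2 hc)
    refine ⟨1, x, fixingSubgroup M24 (o : Set GolayPt), by simp, IsPGroup.of_card (n := 4) (card_fix_octad ho), zm,
      fun t ht => E_comm ho ht zm, fun c hc t ht => ?_, fun c hc => cen_E ho (st c (hc x zm).symm) hc⟩
    rw [mem_fixingSubgroup_iff]
    intro p hp
    have : c⁻¹ • p ∈ o := by rw [Finset.inv_smul_mem_iff, st c hc]; exact hp
    rw [mul_smul, mul_smul, (mem_fixingSubgroup_iff M24).1 ht _ this, smul_inv_smul]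

theorem exists_syl {p m : ℕ} [hp : Fact p.Prime] (hG : 244823040 = p * m) (hm : ¬ p ∣ m) {y : M24} (hy : orderOf y = p) :
    ∃ P : Sylow p M24, (P : Subgroup M24) = Subgroup.zpowers y := by
  have hz : Nat.card (Subgroup.zpowers y) = p := by rw [Nat.card_zpowers, hy]
  obtain ⟨Q, hQ⟩ := (IsPGroup.of_card (n := 1) (hz.trans (pow_one p).symm)).exists_le_sylow
  exact ⟨Q, (Subgroup.eq_of_le_of_card_ge hQ (by rw [H7.M22.syl_card (card_M24.trans hG) hm, hz])).symm⟩

theorem even_ord {p : ℕ} (hp : Odd p) {x u : M24} (hx : x ^ p = 1) (hc : Commute x u) (hu : u ^ 2 = 1) (h1 : u ≠ 1) :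
    2 ∣ orderOf (x * u) := by
  obtain ⟨k, rfl⟩ := hp
  have : (x * u) ^ (2 * k + 1) = u := by rw [hc.mul_pow, hx, one_mul, pow_succ, pow_mul, hu, one_pow, one_mul]
  have h2 := orderOf_pow_dvd (x := x * u) (2 * k + 1)
  rwa [this, orderOf_eq_prime hu h1] at h2

theorem ord_of {t p : ℕ} [Fact p.Prime] (h : (inM t && Nat.beq (powT t p) idT && !(eqT t idT)) = true) :
    Gd t ∧ orderOf (E t) = p := by
  simp only [Bool.and_eq_true, Nat.beq_eq, Bool.not_eq_true'] at h
  exact ⟨gd_of h.1.1, orderOf_eq_prime ((gd_of h.1.1).pow_eq_one h.1.2) ((gd_of h.1.1).ne_one_iff.2 h.2)⟩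

theorem comm_of {s t : ℕ} (hs : Gd s) (ht : Gd t) (h : mulT s t = mulT t s) : Commute (E s) (E t) := by
  show _ = _
  rw [← hs.E_mul ht, ← ht.E_mul hs, h]

theorem mem_two {a u : M24} (ha : orderOf a = 2) (hu : u ∈ Subgroup.zpowers a) : u = 1 ∨ u = a := by
  rw [mem_zpowers_iff_mem_range_orderOf, ha] at hu
  obtain ⟨k, hk, rfl⟩ := Finset.mem_image.1 hu
  have := Finset.mem_range.1 hk
  interval_cases k <;> simp

theorem no_def (χ : IrrCharacter M24) (h0 : ∀ g, 2 ∣ orderOf g → χ.1 g = 0) :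
    ¬ 2 ^ (Nat.card M24).factorization 2 ∣ charDegree χ.1 := fun hd => by
  haveI : Fact (Nat.Prime 5) := ⟨by norm_num⟩
  haveI : Fact (Nat.Prime 7) := ⟨by norm_num⟩
  haveI : Fact (Nat.Prime 11) := ⟨by norm_num⟩
  haveI : Fact (Nat.Prime 23) := ⟨by norm_num⟩
  have f2 : (244823040 : ℕ).factorization 2 = 10 := by
    rw [show (244823040 : ℕ) = 2 ^ 10 * 239085 by norm_num, Nat.factorization_mul (by norm_num) (by norm_num),
      Finsupp.add_apply, factorization_p_pow, Nat.factorization_eq_zero_of_not_dvd (show ¬ 2 ∣ 239085 by norm_num)]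
  rw [card_M24, f2] at hd
  obtain ⟨g5, o5⟩ := ord_of (t := 0x306a828229810ec5d1d310d4f959b7) (p := 5) (by decide +kernel)
  obtain ⟨ga, oa⟩ := ord_of (t := 0x81707099454cd1abd091b4853caf6) (p := 2) (by decide +kernel)
  obtain ⟨gb, ob⟩ := ord_of (t := 0x9a632bd2a23848b60ec0794cd541c8) (p := 2) (by decide +kernel)
  obtain ⟨g7, o7⟩ := ord_of (t := 0x355cc6ae30b9c4924d05928161be81) (p := 7) (by decide +kernel)
  obtain ⟨gt, ot⟩ := ord_of (t := 0xabef494e11b196c69d28538a219020) (p := 2) (by decide +kernel)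
  have c5a := comm_of g5 ga (by decide +kernel)
  have c5b := comm_of g5 gb (by decide +kernel)
  have cab := comm_of ga gb (by decide +kernel)
  have c7t := comm_of g7 gt (by decide +kernel)
  have nab : E 0x81707099454cd1abd091b4853caf6 * E 0x9a632bd2a23848b60ec0794cd541c8 ≠ 1 := by
    rw [Ne, ga.mul_eq_one_iff gb]; decide +kernel
  generalize E 0x306a828229810ec5d1d310d4f959b7 = y5 at *
  generalize E 0x81707099454cd1abd091b4853caf6 = a at *
  generalize E 0x9a632bd2a23848b60ec0794cd541c8 = b at *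
  generalize E 0x355cc6ae30b9c4924d05928161be81 = y7 at *
  generalize E 0xabef494e11b196c69d28538a219020 = t at *
  obtain ⟨y11, o11⟩ := exists_prime_orderOf_dvd_card' (G := M24) 11 (by rw [card_M24]; norm_num)
  obtain ⟨y23, o23⟩ := exists_prime_orderOf_dvd_card' (G := M24) 23 (by rw [card_M24]; norm_num)
  obtain ⟨P5, e5⟩ := exists_syl (m := 48964608) rfl (by norm_num) o5
  obtain ⟨P7, e7⟩ := exists_syl (m := 34974720) rfl (by norm_num) o7
  obtain ⟨P11, e11⟩ := exists_syl (m := 22256640) rfl (by norm_num) o11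
  obtain ⟨P23, e23⟩ := exists_syl (m := 10644480) rfl (by norm_num) o23
  have cc : ∀ {p : ℕ} (P : Sylow p M24) (y : M24), (P : Subgroup M24) = Subgroup.zpowers y →
      ∀ c ∈ Subgroup.centralizer (P : Set M24), c * y = y * c := fun P y e c hc =>
    (hc y (show y ∈ (P : Subgroup M24) from e ▸ Subgroup.mem_zpowers y)).symm
  have n5 : nf y5 = 4 := by have := nf_tab (by norm_num) o5; unfold Nat.ModEq at this; omega
  have n7 : nf y7 = 3 := by have := nf_tab (by norm_num) o7; unfold Nat.ModEq at this; omega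
  have n11 : nf y11 = 2 := by have := nf_tab (by norm_num) o11; unfold Nat.ModEq at this; omega
  have C5 := cent_le (by simp) o5 _ (cc P5 y5 e5)
  have C7 := cent_le (by simp) o7 _ (cc P7 y7 e7)
  have C11 := cent_le (by simp) o11 _ (cc P11 y11 e11)
  have C23 := cent_le23 o23 _ (cc P23 y23 e23)
  rw [n5] at C5; rw [n7] at C7; rw [n11] at C11
  let f5 : Subgroup.zpowers a × Subgroup.zpowers b →* M24 :=
    MonoidHom.noncommCoprod (Subgroup.zpowers a).subtype (Subgroup.zpowers b).subtype (by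
      rintro ⟨_, i, rfl⟩ ⟨_, j, rfl⟩; exact cab.zpow_zpow i j)
  have a2 : a ^ 2 = 1 := oa ▸ pow_orderOf_eq_one a
  have b2 : b ^ 2 = 1 := ob ▸ pow_orderOf_eq_one b
  have t2 : t ^ 2 = 1 := ot ▸ pow_orderOf_eq_one t
  have k5 : ∀ x ∈ P5, ∀ u, Commute x (f5 u) := by
    rintro x hx ⟨⟨_, i, rfl⟩, ⟨_, j, rfl⟩⟩
    obtain ⟨k, rfl⟩ : x ∈ Subgroup.zpowers y5 := e5 ▸ hx
    exact (c5a.zpow_zpow k i).mul_right (c5b.zpow_zpow k j)
  have k7 : ∀ x ∈ P7, ∀ u, Commute x ((Subgroup.zpowers t).subtype u) := by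
    rintro x hx ⟨_, i, rfl⟩
    obtain ⟨k, rfl⟩ : x ∈ Subgroup.zpowers y7 := e7 ▸ hx
    exact c7t.zpow_zpow k i
  have xp : ∀ {p : ℕ} {x y : M24}, orderOf y = p → x ∈ Subgroup.zpowers y → x ^ p = 1 := fun {p x y} h hx => by
    obtain ⟨k, rfl⟩ := hx
    show (y ^ k) ^ p = 1
    rw [← zpow_natCast, ← zpow_mul, mul_comm, zpow_mul, zpow_natCast, ← h, pow_orderOf_eq_one, one_zpow]
  refine H7.M22.no_def0' card_M24 P5 P7 P11 P23 C5 C7 C11 C23 χ.2 f5
    (by rw [Nat.card_prod, Nat.card_zpowers, Nat.card_zpowers, oa, ob]) k5 (fun x hx u hu => h0 _ ?_)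
    (Subgroup.zpowers t).subtype (by rw [Nat.card_zpowers, ot]) k7 (fun x hx u hu => h0 _ ?_) (irr_deg χ) hd
  · have a1 : a ≠ 1 := by rintro rfl; simp at oa
    have b1 : b ≠ 1 := by rintro rfl; simp at ob
    refine even_ord (by decide) (xp o5 (e5 ▸ hx)) (k5 x hx u) ?_ ?_
    · obtain ⟨⟨u, h1⟩, ⟨v, h2⟩⟩ := u
      show (u * v) ^ 2 = 1
      rcases mem_two oa h1 with rfl | rfl <;> rcases mem_two ob h2 with rfl | rfl <;> simp [a2, b2, cab.mul_pow]
    · obtain ⟨⟨u, h1⟩, ⟨v, h2⟩⟩ := u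
      show u * v ≠ 1
      rcases mem_two oa h1 with rfl | rfl <;> rcases mem_two ob h2 with rfl | rfl
      · exact absurd rfl hu
      · simpa using b1
      · simpa using a1
      · exact nab
  · exact even_ord (by decide) (xp o7 (e7 ▸ hx)) (k7 x hx u) (xp ot u.2) fun e => hu (Subtype.ext e)

end M24


/-- All irreducible complex characters of the Mathieu group `M₂₄` lie in a single 2-block: any two of them lie in the same block relative to every maximal ideal of the algebraic integers containing 2. -/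
theorem result (M : Ideal Cfsg.AlgInt) (hM : Cfsg.IsPModular 2 M)
    (χ ψ : Cfsg.IrrCharacter ↥Cfsg.M24) : Cfsg.SameBlock M (χ : ↥Cfsg.M24 → ℂ) (ψ : ↥Cfsg.M24 → ℂ) := by
  haveI : PMod 2 M := ⟨hM⟩
  have key := all_B0' (M := M) no_def hE24
  rw [← blk_eq_iff, key (blk M χ), key (blk M ψ)]

end Cfsg.Agent.S5006
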