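import Cfsg.Statements.S5014
import Cfsg.Agent.H5.RS1

set_option autoImplicit false
open Cfsg

namespace Cfsg.Agent.S5014

open H5.RS Cfsg.IsRankOnePair

/-- Let X = ⟨A, B⟩ be a rank one group with unipotent subgroups A and B and let Ω be the set of conjugates of A under X. Then Ω has at least three members, X acts doubly transitively on Ω by conjugation (any two ordered pairs of distinct members are carried to one another by a single element of X), and A acts regularly on Ω with A removed: for C, D in Ω different from A there is exactly one element of A conjugating C to D. -/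
theorem result {G : Type*} [Group G] {A B : Subgroup G} (h : Cfsg.IsRankOnePair A B) :
    (∃ C₁ ∈ Cfsg.unipotentSubgroups A B, ∃ C₂ ∈ Cfsg.unipotentSubgroups A B, ∃ C₃ ∈ Cfsg.unipotentSubgroups A B,
      C₁ ≠ C₂ ∧ C₁ ≠ C₃ ∧ C₂ ≠ C₃) ∧
    (∀ C₁ ∈ Cfsg.unipotentSubgroups A B, ∀ C₂ ∈ Cfsg.unipotentSubgroups A B, ∀ D₁ ∈ Cfsg.unipotentSubgroups A B,
      ∀ D₂ ∈ Cfsg.unipotentSubgroups A B, C₁ ≠ C₂ → D₁ ≠ D₂ →
        ∃ x ∈ A ⊔ B, Cfsg.conjBy C₁ x = D₁ ∧ Cfsg.conjBy C₂ x = D₂) ∧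
    (∀ C ∈ Cfsg.unipotentSubgroups A B, ∀ D ∈ Cfsg.unipotentSubgroups A B, C ≠ A → D ≠ A →
      ∃! a : G, a ∈ A ∧ Cfsg.conjBy C a = D) := by
  refine ⟨?_, fun C₁ h1 C₂ h2 D₁ h3 D₂ h4 n1 n2 => ?_, fun C hC D hD n1 n2 => ?_⟩
  · obtain ⟨a, ha, h1⟩ := h.h5ex
    refine ⟨A, h5left, B, h.h5right, _, h5Ωconj h.h5right (Subgroup.mem_sup_left ha), h.ne, fun e => ?_,
      fun e => h1 (h.h5one ha e.symm)⟩
    exact h.ne (conjBy_inj.1 ((conjBy_of_mem ha).trans e))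
  · obtain ⟨x, hx, rfl, rfl⟩ := h.h5two h1 h2 n1
    obtain ⟨y, hy, rfl, rfl⟩ := h.h5two h3 h4 n2
    exact ⟨y * x⁻¹, mul_mem hy (inv_mem hx), by simp [conjBy_conjBy], by simp [conjBy_conjBy]⟩
  · obtain ⟨x, hx, rfl⟩ := hC
    obtain ⟨y, hy, rfl⟩ := hD
    obtain ⟨a, ha, e⟩ := (h.h5Ω hx).resolve_left n1
    obtain ⟨a', ha', e'⟩ := (h.h5Ω hy).resolve_left n2
    rw [e, e']
    refine ⟨a' * a⁻¹, ⟨mul_mem ha' (inv_mem ha), by simp [conjBy_conjBy]⟩, fun c ⟨hc, e⟩ => ?_⟩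
    rw [conjBy_conjBy] at e
    rw [← h.h5uniq (mul_mem hc ha) ha' e, mul_inv_cancel_right]

end Cfsg.Agent.S5014
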