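import Cfsg.Statements.S5015
import Cfsg.Agent.H5.RS1

set_option autoImplicit false
open Cfsg

namespace Cfsg.Agent.S5015

open H5.RS

/-- Let a group Y act doubly transitively on a set Ω with at least three points, and suppose that the stabilizer of a point α contains a nilpotent subgroup A, normalized by that stabilizer, which acts regularly on the points other than α. Then for any y in Y moving α, the subgroups A and y A y⁻¹ are the unipotent subgroups of a rank one group, and the normal closure of A in Y (the subgroup generated by all conjugates of A) is generated by A and y A y⁻¹ alone. -/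
theorem result {Y Ω : Type*} [Group Y] [MulAction Y Ω]
    (h2 : MulAction.IsMultiplyPretransitive Y Ω 2) (hΩ : 3 ≤ ENat.card Ω) (α : Ω) (A : Subgroup Y)
    (hA : A ≤ MulAction.stabilizer Y α) (hAn : ∀ y ∈ MulAction.stabilizer Y α, Cfsg.conjBy A y = A)
    (hnil : Group.IsNilpotent A) (hreg : ∀ β γ : Ω, β ≠ α → γ ≠ α → ∃! a : Y, a ∈ A ∧ a • β = γ)
    (y : Y) (hy : y ∉ MulAction.stabilizer Y α) :
    Cfsg.IsRankOnePair A (Cfsg.conjBy A y) ∧ Subgroup.normalClosure (A : Set Y) = A ⊔ Cfsg.conjBy A y := by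
  have hy' : y • α ≠ α := hy
  have hy2 : y⁻¹ • α ≠ α := fun e => hy' (by rw [inv_smul_eq_iff] at e; exact e.symm)
  have one : ∀ a ∈ A, ∀ β, β ≠ α → a • β = β → a = 1 := fun a ha β hβ e =>
    (hreg β β hβ hβ).unique ⟨ha, e⟩ ⟨one_mem _, one_smul _ _⟩
  have F : ∀ g g' : Y, g • α = g' • α → conjBy A g = conjBy A g' := fun g g' e =>
    conjBy_eq_conjBy.2 (hAn _ (by rw [MulAction.mem_stabilizer_iff, mul_smul, e, inv_smul_smul]))
  have fixA : ∀ a ∈ A, a • α = α := fun a ha => hA ha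
  refine ⟨⟨fun e => ?_, hnil, Group.nilpotent_of_mulEquiv (Subgroup.equivMapOfInjective _ _ (MulAut.conj y).injective),
    fun a ha h1 => ?_, ?_⟩, le_antisymm ?_ (sup_le Subgroup.le_normalClosure ?_)⟩
  · obtain ⟨γ, h1, h2⟩ : ∃ γ, γ ≠ α ∧ γ ≠ y • α := by
      by_contra hc
      push Not at hc
      have : (Set.univ : Set Ω) ⊆ {α, y • α} := fun γ _ => by by_cases h : γ = α; exact Or.inl h; exact Or.inr (hc γ h)
      have h3 := Set.encard_le_encard this
      rw [Set.encard_univ, Set.encard_pair hy'.symm] at h3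
      exact absurd (hΩ.trans h3) (by decide)
    obtain ⟨a, ⟨ha, e'⟩, -⟩ := hreg _ _ hy' h1
    have := fixA _ (mem_conjBy.1 (e ▸ ha))
    rw [mul_smul, mul_smul, e', inv_smul_eq_iff] at this
    exact h2 this
  · have h3 : y⁻¹ • a⁻¹ • y • α ≠ α := fun e => by
      rw [inv_smul_eq_iff] at e
      exact inv_ne_one.2 h1 (one _ (inv_mem ha) _ hy' e)
    obtain ⟨c, ⟨hc, e⟩, -⟩ := hreg _ _ hy2 h3
    have e' : (y * c * y⁻¹) • α = (a⁻¹ * y) • α := by rw [mul_smul, mul_smul, e, smul_inv_smul, mul_smul]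
    refine ⟨_, inv_mem (conj_mem hc), inv_ne_one.2 fun e2 => ?_, by rw [inv_inv, conjBy_conjBy]; exact F _ _ e'⟩
    rw [e2, one_smul, mul_smul, eq_inv_smul_iff, fixA a ha] at e'
    exact hy' e'.symm
  · rintro _ ⟨c, hc, rfl⟩ h1
    have hc1 : c ≠ 1 := by rintro rfl; simp at h1
    have h3 : (y * c⁻¹ * y⁻¹) • α ≠ α := fun e => by
      rw [mul_smul, mul_smul, smul_eq_iff_eq_inv_smul] at e
      exact inv_ne_one.2 hc1 (one _ (inv_mem hc) _ hy2 e)
    obtain ⟨a, ⟨ha, e⟩, -⟩ := hreg _ _ hy' h3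
    refine ⟨_, inv_mem ha, inv_ne_one.2 fun e2 => ?_, ?_⟩
    · rw [e2, one_smul, mul_smul, mul_smul, smul_left_cancel_iff, eq_inv_smul_iff, fixA c hc] at e
      exact hy2 e.symm
    · rw [inv_inv, conjBy_conjBy]
      exact F _ _ (by rw [mul_smul, e]; simp [mul_assoc])
  · refine (Subgroup.closure_le _).2 fun x hx => ?_
    obtain ⟨a, ha, e⟩ := Group.mem_conjugatesOfSet_iff.1 hx
    obtain ⟨g, rfl⟩ := isConj_iff.1 e
    have h1 : g * a * g⁻¹ ∈ conjBy A g := conj_mem ha
    by_cases h2 : g • α = α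
    · exact Subgroup.mem_sup_left (hAn g h2 ▸ h1)
    · obtain ⟨c, ⟨hc, e⟩, -⟩ := hreg _ _ hy' h2
      rw [F g (c * y) (by rw [mul_smul, e]), ← conjBy_conjBy] at h1
      exact conjBy_le le_sup_right (Subgroup.mem_sup_left hc) h1
  · rintro _ ⟨a, ha, rfl⟩
    exact Subgroup.normalClosure_normal.conj_mem _ (Subgroup.le_normalClosure ha) y

end Cfsg.Agent.S5015
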