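import Cfsg.Statements.S5018
import Cfsg.Agent.H5.RS1

set_option autoImplicit false
open Cfsg

namespace Cfsg.Agent.S5018

/-- A rank one group is not nilpotent, and its second centre equals its centre. -/
theorem result {X : Type*} [Group X] {A B : Subgroup X} (h : Cfsg.IsRankOneGroup X A B) :
    Subgroup.upperCentralSeries X 2 = Subgroup.center X ∧ ¬ Group.IsNilpotent X := by
  refine ⟨h.2.h5center h.1, fun hn => ?_⟩
  have k : ∀ n, Subgroup.upperCentralSeries X (n + 1) = Subgroup.center X := by
    intro n
    induction n with
    | zero => exact Subgroup.upperCentralSeries_one X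
    | succ n ih =>
      rw [← h.2.h5center h.1]
      ext x
      rw [Subgroup.mem_upperCentralSeries_succ_iff, ih, Subgroup.mem_upperCentralSeries_succ_iff,
        Subgroup.upperCentralSeries_one]
  obtain ⟨n, e⟩ := hn.nilpotent'
  exact h.2.h5center_ne h.1 (top_le_iff.1 (e ▸ k n ▸ Subgroup.upperCentralSeries_mono X (Nat.le_succ n)))

end Cfsg.Agent.S5018
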