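import Cfsg.Statements.S5020
import Cfsg.Agent.H5.RS6

set_option autoImplicit false
open Cfsg

namespace Cfsg.Agent.S5020

open H5.RS

theorem quasi_congr {G H : Type*} [Group G] [Group H] (e : G ≃* H) (h : IsQuasisimple G) : IsQuasisimple H := by
  have := h.1
  have := h.2
  refine ⟨Group.IsPerfect.ofSurjective (f := e.toMonoidHom) e.surjective,
    (QuotientGroup.congr (Subgroup.center G) (Subgroup.center H) e ?_).symm.isSimpleGroup⟩
  ext x
  simp only [Subgroup.mem_map, Subgroup.mem_center_iff]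
  exact ⟨by rintro ⟨y, hy, rfl⟩ g; simpa using congrArg e (hy (e.symm g)),
    fun h => ⟨e.symm x, fun g => e.injective (by simpa using h (e g)), by simp⟩⟩

/-- Let X be a special rank one group with abelian unipotent subgroups A and B, and H = N(A) ∩ N(B) its diagonal subgroup. Then either A has at most three elements and X is isomorphic to SL₂(2), SL₂(3) or PSL₂(3); or X = X' A with the commutator subgroup X' quasisimple and the commutator subgroup ⁅A, H⁆ having more than three elements. -/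
theorem result {X : Type*} [Group X] {A B : Subgroup X} (h : Cfsg.IsRankOneGroup X A B)
    (hs : Cfsg.IsSpecialRankOnePair A B) (hab : Cfsg.HasAbelianUnipotents A B) :
    (ENat.card A ≤ 3 ∧ (Nonempty (X ≃* Matrix.SpecialLinearGroup (Fin 2) (ZMod 2)) ∨
        Nonempty (X ≃* Matrix.SpecialLinearGroup (Fin 2) (ZMod 3)) ∨
        Nonempty (X ≃* Matrix.ProjectiveSpecialLinearGroup (Fin 2) (ZMod 3)))) ∨
    (commutator X ⊔ A = ⊤ ∧ Cfsg.IsQuasisimple (commutator X) ∧
      3 < ENat.card ↥(⁅A, Cfsg.rankOneDiagonal A B⁆ : Subgroup X)) := by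
  have hA := comm_self hab.1
  have hB := comm_self hab.2
  by_cases h3 : 3 < ENat.card A
  · have hp : commutator X = ⊤ := top_le_iff.1 (by simpa [h.1, commutator_def] using sp_perfect hs hA h3)
    refine Or.inr ⟨by simp [hp], ?_, by rwa [sp_comm hs hA h3]⟩
    rw [hp]
    exact quasi_congr Subgroup.topEquiv.symm (h.2.h5quasi h.1 ⟨hp⟩)
  refine Or.inl ⟨not_lt.1 h3, ?_⟩
  have : Finite A := ENat.card_lt_top.1 ((not_lt.1 h3).trans_lt (by decide))
  rw [ENat.card_eq_coe_natCard, not_lt] at h3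
  obtain ⟨a, ha, h1⟩ := h.2.h5ex
  obtain ⟨b, hb, e⟩ := sp_ex hs ha h1
  have h2 : 1 < Nat.card A := Finite.one_lt_card_iff_nontrivial.2 ⟨⟨⟨a, ha⟩, 1, fun e => h1 (congrArg Subtype.val e)⟩⟩
  have k : ∀ p : ℕ, ∀ [Fact p.Prime], Nat.card A = p → Nonempty (X ≃* Matrix.SpecialLinearGroup (Fin 2) (ZMod p)) ∨
      (Nonempty (X ≃* Matrix.ProjectiveSpecialLinearGroup (Fin 2) (ZMod p)) ∧ (2 : ZMod p) ≠ 0) := by
    intro p _ hp
    obtain ⟨f, f1, f2⟩ := sp_sl2 (p := p) hs hA hB (fun x hx => congrArg Subtype.val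
      (hp ▸ pow_card_eq_one' : (⟨x, hx⟩ : A) ^ p = 1)) ha (inv_mem hb) h1 (by rwa [inv_inv])
    have e1 : A ≤ f.range := fun x hx => by
      obtain ⟨n, e⟩ := mem_zpowers_of_prime_card hp (g := ⟨a, ha⟩) (g' := ⟨x, hx⟩) fun e => h1 (congrArg Subtype.val e)
      rw [← show a ^ n = x from congrArg Subtype.val e]
      exact zpow_mem (f2 ▸ Subgroup.subset_closure (by simp)) n
    have e2 : b ∈ f.range := inv_mem_iff.1 (f2 ▸ Subgroup.subset_closure (by simp))
    have e3 : f.range = ⊤ := top_le_iff.1 (h.1 ▸ sup_le e1 ((e.swap h.2 ha hb h1).2.1 ▸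
      conjBy_le e1 (mul_mem (mul_mem (e1 ha) e2) (e1 ha))))
    have i : X ≃* f.range := Subgroup.topEquiv.symm.trans (MulEquiv.subgroupCongr e3.symm)
    exact (sl_iso f f1).imp (fun ⟨j⟩ => ⟨i.trans j⟩) fun ⟨⟨j⟩, h⟩ => ⟨⟨i.trans j⟩, h⟩
  have h4 : Nat.card A ≤ 3 := by exact_mod_cast h3
  rcases (by omega : Nat.card A = 2 ∨ Nat.card A = 3) with h5 | h5
  · exact Or.inl ((k 2 h5).resolve_right fun h => h.2 rfl)
  · exact Or.inr ((k 3 h5).imp_right (·.1))

end Cfsg.Agent.S5020
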