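import Cfsg.Statements.S5023
import Cfsg.Agent.H5.RS5

set_option autoImplicit false
open Cfsg

namespace Cfsg.Agent.S5023

open H5.RS

/-- Let X be a rank one group with unipotent subgroups A and B that acts faithfully on an abelian group V (written additively) with A acting quadratically: a' • (a • v − v) = a • v − v for all a, a' in A and v in V. Then A is either torsion-free or an elementary abelian p-group for some prime p. -/
theorem result {X : Type*} [Group X] {A B : Subgroup X} (h : Cfsg.IsRankOneGroup X A B)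
    {V : Type*} [AddCommGroup V] [DistribMulAction X V] (hf : ∀ x : X, (∀ v : V, x • v = v) → x = 1)
    (hq : ∀ a ∈ A, ∀ a' ∈ A, ∀ v : V, a' • (a • v - v) = a • v - v) :
    (∀ a ∈ A, a ≠ 1 → ¬ IsOfFinOrder a) ∨ ∃ p : ℕ, p.Prime ∧ Cfsg.IsElementaryAbelian p A := by
  have k : ∀ x y : X, (∀ v : V, y • (x • v - v) = x • v - v) → (∀ v : V, x • (y • v - v) = y • v - v) → x * y = y * x := by
    intro x y h1 h2
    refine (inv_mul_eq_one.1 (hf _ fun v => ?_)).symm
    have e1 := h1 v
    have e2 := h2 v
    rw [smul_sub, sub_eq_iff_eq_add] at e1 e2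
    rw [mul_smul, inv_smul_eq_iff, mul_smul, mul_smul, e1, e2]; abel
  have hA : Comm A A := fun a ha b hb => k a b (hq a ha b hb) (hq b hb a ha)
  obtain ⟨m, -, e, -⟩ := h.2.h5swap
  have hs := sp_module (N := V) h.2 h.1 (fun d hd v hv => (br_agree (x := d) (y := 1) (fun a ha n => by
    rw [hq a ha d hd n, one_smul]) v hv).trans (one_smul _ _)) (by
      by_contra h1
      push Not at h1
      exact h.2.h5not_comm fun a _ b _ => k a b (h1 a b) (h1 b a))
  exact (sp_char hs hA (e ▸ hA.conj m)).symm.imp_left (·.1)

end Cfsg.Agent.S5023
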