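import Cfsg.Statements.S5024
import Cfsg.Agent.H5.RS2

set_option autoImplicit false
open Cfsg

namespace Cfsg.Agent.S5024

open H5.RS Cfsg.IsRankOnePair

/-- Let S be a set of abstract root subgroups of G, A and C members of S, B a rank one partner of A in S and D a rank one partner of C in S. If the rank one group ⟨A, B⟩ is contained in ⟨C, D⟩ then the two coincide, and C and D are conjugates of A inside ⟨A, B⟩. -/
theorem result {G : Type*} [Group G] {S : Set (Subgroup G)} (hS : Cfsg.IsRootSubgroupSet S)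
    {A B C D : Subgroup G} (hA : A ∈ S) (hC : C ∈ S) (hB : B ∈ Cfsg.rankOnePartners S A) (hD : D ∈ Cfsg.rankOnePartners S C)
    (hle : A ⊔ B ≤ C ⊔ D) : A ⊔ B = C ⊔ D ∧ C ∈ Cfsg.unipotentSubgroups A B ∧ D ∈ Cfsg.unipotentSubgroups A B := by
  have k : ∀ {A B : Subgroup G}, A ∈ S → IsRankOnePair A B → A ⊔ B ≤ C ⊔ D → A ∈ unipotentSubgroups C D :=
    fun hA h hle => (hS.h5mem_or hD.2 hC hA (le_sup_left.trans hle)).resolve_right fun h1 =>
      h.h5not_comm (h1.mono le_rfl (le_sup_right.trans hle))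
  have h1 := k hA hB.2 hle
  have h2 := (hD.2.h5pair h1 (k hB.1 hB.2.h5symm (sup_comm A B ▸ hle)) hB.2.ne).2
  obtain ⟨x, hx, e⟩ := h1
  obtain ⟨y, hy, e', -⟩ := hD.2.h5swap
  have h3 : C ∈ unipotentSubgroups A B := ⟨x⁻¹, h2 ▸ inv_mem hx, conjBy_eq_iff.1 e.symm⟩
  exact ⟨h2, h3, e' ▸ h5Ωconj h3 (h2 ▸ hy)⟩

end Cfsg.Agent.S5024
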