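import Cfsg.Statements.S5026
import Cfsg.Agent.H5.RS2

set_option autoImplicit false
open Cfsg

namespace Cfsg.Agent.S5026

open H5.RS Cfsg.IsRankOnePair

/-- Let S be a degenerate set of abstract root subgroups of G (a set of abstract transvection groups) and let a, b be commuting non-identity elements of members of S with a b ≠ 1. Then the members of S centralizing a b are exactly those centralizing both a and b. -/
theorem result {G : Type*} [Group G] {S : Set (Subgroup G)} (hS : Cfsg.IsRootSubgroupSet S) (hdeg : Cfsg.IsDegenerateRootSet S)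
    {a b : G} (ha : a ∈ Cfsg.rootElements S) (hb : b ∈ Cfsg.rootElements S) (hab : a * b = b * a) (hab1 : a * b ≠ 1) :
    Cfsg.centralizingMembers S (Subgroup.zpowers (a * b)) =
      Cfsg.centralizingMembers S (Subgroup.zpowers a) ∩ Cfsg.centralizingMembers S (Subgroup.zpowers b) := by
  have m : ∀ (x : G) (C : Subgroup G), C ∈ centralizingMembers S (Subgroup.zpowers x) ↔ C ∈ S ∧ ∀ c ∈ C, x * c = c * x := by
    intro x C
    refine and_congr_right fun _ => forall₂_congr fun c _ => ⟨fun h => h x (Subgroup.mem_zpowers x), ?_⟩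
    rintro h _ ⟨n, rfl⟩
    exact (Commute.zpow_left h n).eq
  obtain ⟨ha1, A, hA, ha⟩ := ha
  obtain ⟨hb1, B, hB, hb⟩ := hb
  ext C
  simp only [Set.mem_inter_iff, m]
  refine ⟨fun ⟨hC, h⟩ => ?_, fun ⟨⟨hC, h1⟩, _, h2⟩ => ⟨hC, fun c hc => (Commute.mul_left (h1 c hc) (h2 c hc)).eq⟩⟩
  have k : ∀ c ∈ C, a * c = c * a := by
    rcases hS.h5tri hA hC with h1 | h1 | h1
    · exact h1 a ha
    · exfalso
      have e : conjBy C b⁻¹ = conjBy C a := by
        rw [eq_comm, conjBy_eq_conjBy, inv_inv, ← hab]; exact conjBy_of_comm h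
      obtain ⟨-, -, h2⟩ := hS.h5opp' h1 hC hB ha ha1 (inv_mem hb) e
      by_cases e' : A = B
      · subst e'
        exact hab1 (h1.h5comm (mul_mem ha hb) h)
      · have h3 := (h1.h5pair h5left h2 e').1
        exact hb1 ((h3.h5pair' ha ha1).h5inf hb ⟨b, hb, by simp [hab]⟩)
    · exact absurd h1 (hdeg A hA C hC)
  refine ⟨⟨hC, k⟩, hC, fun c hc => mul_left_cancel (a := a) ?_⟩
  rw [← mul_assoc, h c hc, ← mul_assoc, ← mul_assoc, k c hc]

end Cfsg.Agent.S5026
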