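import Cfsg.Statements.S5027
import Cfsg.Agent.H5.RS2

set_option autoImplicit false
open Cfsg

namespace Cfsg.Agent.S5027

open H5.RS Cfsg.IsRankOnePair
open scoped commutatorElement

/-- Let S be a set of abstract root subgroups of G such that every member of S has a rank one partner in S (the graph of rank one pairs on S has no isolated vertex). Then the second centre of G equals its centre. -/
theorem result {G : Type*} [Group G] {S : Set (Subgroup G)} (hS : Cfsg.IsRootSubgroupSet S)
    (hF : ∀ A ∈ S, ¬ Cfsg.IsIsolatedIn (Cfsg.FAdj S) S A) : Subgroup.upperCentralSeries G 2 = Subgroup.center G := by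
  refine le_antisymm (fun x hx => ?_) (Subgroup.upperCentralSeries_one G ▸ Subgroup.upperCentralSeries_mono G (by norm_num))
  have : Subgroup.centralizer {x} = ⊤ := hS.h5gen fun A hA a ha => by
    obtain ⟨E, hE, h⟩ := IsRootSubgroupSet.h5noniso hA (hF A hA)
    have h2 := Subgroup.mem_upperCentralSeries_succ_iff.1 hx a
    rw [Subgroup.upperCentralSeries_one, Subgroup.mem_center_iff] at h2
    by_cases h1 : a = 1
    · exact h1 ▸ one_mem _
    · have := hS.h5root h hE (hS.conj_mem A hA x) (fun y _ => (h2 y).symm) ha h1 ⟨a, ha, by simp [commutatorElement_def]⟩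
      exact Subgroup.mem_centralizer_singleton_iff.2 (commutatorElement_eq_one_iff_mul_comm.1 this).symm
  exact Subgroup.mem_center_iff.2 fun g => Subgroup.mem_centralizer_singleton_iff.1 (this.ge trivial)

end Cfsg.Agent.S5027
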