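import Cfsg.Statements.S5029
import Cfsg.Agent.H5.RS2

set_option autoImplicit false
open Cfsg

namespace Cfsg.Agent.S5029

open H5.RS Cfsg.IsRankOnePair
open scoped commutatorElement

/-- Let S be a set of abstract root subgroups of G, A ∈ S having a rank one partner in S, and B ∈ S with C = ⁅A, B⁆ ∈ S. Then the members of S contained in AC are the conjugates of A by elements of B together with C, they partition AC, the members of S inside AC partition AC so that A is a line partner of C, and for every non-identity a ∈ A the map b ↦ a⁻¹ b⁻¹ a b is an isomorphism from B onto C. -/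
theorem result {G : Type*} [Group G] {S : Set (Subgroup G)} (hS : Cfsg.IsRootSubgroupSet S)
    {A B : Subgroup G} (hA : ¬ Cfsg.IsIsolatedIn (Cfsg.FAdj S) S A) (hAS : A ∈ S) (hB : B ∈ S) (hC : ⁅A, B⁆ ∈ S) :
    Cfsg.membersIn S (A ⊔ ⁅A, B⁆) = (fun b : G => Cfsg.conjBy A b) '' (B : Set G) ∪ {⁅A, B⁆} ∧
    Cfsg.IsSubgroupPartition (A ⊔ ⁅A, B⁆) (Cfsg.membersIn S (A ⊔ ⁅A, B⁆)) ∧
    A ∈ Cfsg.linePartners S ⁅A, B⁆ ∧
    ∀ a ∈ A, a ≠ 1 → ∃ φ : ↥B ≃* ↥⁅A, B⁆, ∀ b : ↥B, (φ b : G) = a⁻¹ * (b : G)⁻¹ * a * b := by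
  obtain ⟨E, hE, h⟩ := IsRootSubgroupSet.h5noniso hAS hA
  have hc := hS.h5cc hAS hB hC
  refine ⟨Set.ext fun D => hS.h5line h hE hAS hc, hS.h5part h hE hAS hc, hS.h5lp h hE hAS hc, fun a ha h1 => ?_⟩
  let f : B →* ↥⁅A, B⁆ := MonoidHom.mk' (fun b => ⟨⁅a⁻¹, (b : G)⁻¹⁆, Subgroup.commutator_mem_commutator (inv_mem ha) (inv_mem b.2)⟩)
    fun b b' => Subtype.ext (by
      have := hc.h5mul (inv_mem ha) (inv_mem b.2) (inv_mem b'.2)
      rwa [← mul_inv_rev, hS.h5ab hB _ b'.2 _ b.2] at this)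
  refine ⟨MulEquiv.ofBijective f ⟨(injective_iff_map_eq_one f).2 fun b hb => ?_, fun ⟨d, hd⟩ => ?_⟩,
    fun b => by simp [f, commutatorElement_def]⟩
  · exact Subtype.ext (inv_eq_one.1 (hS.h5inj h hE hAS hc (inv_mem ha) (inv_ne_one.2 h1) (inv_mem b.2)
      (congrArg Subtype.val hb)))
  · obtain ⟨b, hb, e⟩ := hc.h5surj (inv_mem ha) (inv_ne_one.2 h1) hd
    exact ⟨⟨b⁻¹, inv_mem hb⟩, Subtype.ext (by simpa [f] using e)⟩

end Cfsg.Agent.S5029
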