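import Cfsg.Statements.S5030
import Cfsg.Agent.H5.RS4

set_option autoImplicit false
open Cfsg

namespace Cfsg.Agent.S5030

open H5.RS Cfsg.IsRootSubgroupSet
open scoped commutatorElement

theorem elt_sup {G : Type*} [Group G] {A B L : Subgroup G} {x : G} (h : ∀ y ∈ A ⊔ B, ∀ l ∈ L, y * l * y⁻¹ ∈ L)
    (h1 : ∀ a ∈ A, ⁅x, a⁆ ∈ L) (h2 : ∀ a ∈ B, ⁅x, a⁆ ∈ L) : ∀ y ∈ A ⊔ B, ⁅x, y⁆ ∈ L := by
  intro y hy
  rw [Subgroup.sup_eq_closure] at hy h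
  induction hy using Subgroup.closure_induction'' with
  | one => simp
  | mul y z hy _ h1 h2 => rw [commutatorElement_mul_right_eq_mul_conj, mul_assoc, mul_assoc, ← mul_assoc y]; exact mul_mem h1 (h y hy _ h2)
  | mem y hy => exact hy.elim (h1 y) (h2 y)
  | inv_mem y hy => exact hy.elim (fun h => h1 _ (inv_mem h)) fun h => h2 _ (inv_mem h)

theorem cl2 {G : Type*} [Group G] {S : Set (Subgroup G)} (hS : IsRootSubgroupSet S) {A B : Subgroup G} (hA : A ∈ S)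
    (hB : B ∈ S) (h : RootCommutatorCase S A B) : ¬ IsMulCommutative ↥(A ⊔ B) ∧ ⁅⁅A ⊔ B, A ⊔ B⁆, A ⊔ B⁆ = ⊥ := by
  refine ⟨fun h1 => hS.h5cc_not h ((comm_self h1).mono le_sup_left le_sup_right), comm_iff.2 (h.h5cent.mono ?_ le_rfl)⟩
  have k : ∀ y ∈ A ⊔ B, ∀ l ∈ ⁅A, B⁆, y * l * y⁻¹ ∈ ⁅A, B⁆ := fun y hy l hl => by
    rwa [← h.h5cent l hl y hy, mul_inv_cancel_right]
  refine Subgroup.commutator_le.2 fun x hx => elt_sup k (fun a ha => ?_) fun a ha => ?_ <;>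
    rw [← commutatorElement_inv] <;> refine inv_mem (elt_sup k (fun b hb => ?_) (fun b hb => ?_) x hx)
  · rw [commutatorElement_eq_one_iff_mul_comm.2 (hS.h5ab hA a ha b hb)]; exact one_mem _
  · exact Subgroup.commutator_mem_commutator ha hb
  · exact Subgroup.commutator_comm A B ▸ Subgroup.commutator_mem_commutator ha hb
  · rw [commutatorElement_eq_one_iff_mul_comm.2 (hS.h5ab hB a ha b hb)]; exact one_mem _

theorem aux {G : Type*} [Group G] {S : Set (Subgroup G)} (hS : IsRootSubgroupSet S) {A B C : Subgroup G} (hA : A ∈ S)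
    (hC : C ∈ S) (h1 : RootCommutatorCase S A B) (h2 : RootCommutatorCase S C B) (hc : Comm A C) {b : G} (hb : b ∈ B)
    (hb1 : b ≠ 1) : (Comm A (conjBy C b) ∨ RootCommutatorCase S A (conjBy C b)) ∧
      (Comm C (conjBy A b) → Comm A (conjBy C b)) := by
  constructor
  · refine (hS.h5tri hA (hS.conj_mem C hC b)).imp_right fun h => h.resolve_left fun h => ?_
    obtain ⟨d, hd, hd1⟩ := hS.h5ex h1.1
    obtain ⟨a, ha, rfl⟩ := h1.h5surj' hb hb1 hd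
    have ha1 : a ≠ 1 := by rintro rfl; simp at hd1
    have := hS.h5root h (hS.conj_mem C hC b) h1.1 (comm_sup ((hS.h5line_ab hA h1).mono (h1.h5le hb) le_sup_left _
      (conj_mem ha)) (hc.conj b _ (conj_mem ha))) (inv_mem ha) (inv_ne_one.2 ha1) hd
    exact ha1 (by simpa using this)
  · intro h
    have h3 := hc.symm.sup h
    rw [h1.h5sup hb hb1] at h3
    have h4 : ⁅⁅C, B⁆, A⁆ = ⊥ := Subgroup.commutator_commutator_eq_bot_of_rotate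
      (comm_iff.2 (Subgroup.commutator_comm A B ▸ (h3.mono le_rfl le_sup_right).symm))
      (by rw [comm_iff.2 hc, Subgroup.commutator_bot_left])
    exact (hc.sup (comm_iff.1 h4).symm).mono le_rfl (h2.h5le hb)

/-- Let S be a set of abstract root subgroups of G and A, B, C ∈ S with ⁅A, B⁆ ∈ S and ⁅B, C⁆ ∈ S, where A and C are different and commute. For a non-identity b ∈ B put X = ⟨A, b⁻¹ C b⟩ and Y = ⟨b⁻¹ A b, C⟩ and R = ⟨A, B, C⟩. Then X and Y are either both abelian or both nilpotent of class exactly two; X and Y commute elementwise; XY is normal in R with R = (XY) B; and R is nilpotent. -/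
theorem result {G : Type*} [Group G] {S : Set (Subgroup G)} (hS : Cfsg.IsRootSubgroupSet S)
    {A B C : Subgroup G} (hA : A ∈ S) (hB : B ∈ S) (hC : C ∈ S) (hAB : ⁅A, B⁆ ∈ S) (hBC : ⁅B, C⁆ ∈ S)
    (hAC : C ∈ Cfsg.commutingPartners S A)
    {b : G} (hb : b ∈ B) (hb1 : b ≠ 1) :
    ((IsMulCommutative ↥(A ⊔ Cfsg.conjBy C b⁻¹) ∧ IsMulCommutative ↥(Cfsg.conjBy A b⁻¹ ⊔ C)) ∨
      ((¬ IsMulCommutative ↥(A ⊔ Cfsg.conjBy C b⁻¹) ∧
          ⁅⁅A ⊔ Cfsg.conjBy C b⁻¹, A ⊔ Cfsg.conjBy C b⁻¹⁆, A ⊔ Cfsg.conjBy C b⁻¹⁆ = ⊥) ∧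
        (¬ IsMulCommutative ↥(Cfsg.conjBy A b⁻¹ ⊔ C) ∧
          ⁅⁅Cfsg.conjBy A b⁻¹ ⊔ C, Cfsg.conjBy A b⁻¹ ⊔ C⁆, Cfsg.conjBy A b⁻¹ ⊔ C⁆ = ⊥))) ∧
    ⁅A ⊔ Cfsg.conjBy C b⁻¹, Cfsg.conjBy A b⁻¹ ⊔ C⁆ = ⊥ ∧
    (∀ r ∈ A ⊔ B ⊔ C, Cfsg.conjBy ((A ⊔ Cfsg.conjBy C b⁻¹) ⊔ (Cfsg.conjBy A b⁻¹ ⊔ C)) r =
      (A ⊔ Cfsg.conjBy C b⁻¹) ⊔ (Cfsg.conjBy A b⁻¹ ⊔ C)) ∧
    ((A ⊔ Cfsg.conjBy C b⁻¹) ⊔ (Cfsg.conjBy A b⁻¹ ⊔ C)) ⊔ B = A ⊔ B ⊔ C ∧
    Group.IsNilpotent ↥(A ⊔ B ⊔ C) := by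
  have h1 := hS.h5cc hA hB hAB
  have h2 := (hS.h5cc hB hC hBC).h5symm
  have hc : Comm A C := comm_iff.1 hAC.2.2
  have hb' := inv_mem hb
  have hb2 := inv_ne_one.2 hb1
  generalize b⁻¹ = β at *
  obtain ⟨k1, k2⟩ := aux hS hA hC h1 h2 hc hb' hb2
  obtain ⟨k3, k4⟩ := aux hS hC hA h2 h1 hc.symm hb' hb2
  have hA' := hS.conj_mem A hA β
  have hC' := hS.conj_mem C hC β
  have ab : ∀ {A B}, A ∈ S → B ∈ S → Comm A B → IsMulCommutative ↥(A ⊔ B) := fun hA hB h =>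
    (((hS.h5ab hA).sup h).sup' (h.symm.sup (hS.h5ab hB))).isMulCommutative
  have c1 : (IsMulCommutative ↥(A ⊔ conjBy C β) ∧ IsMulCommutative ↥(conjBy A β ⊔ C)) ∨
      ((¬ IsMulCommutative ↥(A ⊔ conjBy C β) ∧ ⁅⁅A ⊔ conjBy C β, A ⊔ conjBy C β⁆, A ⊔ conjBy C β⁆ = ⊥) ∧
        (¬ IsMulCommutative ↥(conjBy A β ⊔ C) ∧ ⁅⁅conjBy A β ⊔ C, conjBy A β ⊔ C⁆, conjBy A β ⊔ C⁆ = ⊥)) := by
    rcases k1 with h | h
    · exact Or.inl ⟨ab hA hC' h, ab hA' hC (k4 h).symm⟩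
    · exact Or.inr ⟨cl2 hS hA hC' h, cl2 hS hA' hC (k3.resolve_left fun h' => hS.h5cc_not h (k2 h')).h5symm⟩
  have c2 : Comm (A ⊔ conjBy C β) (conjBy A β ⊔ C) :=
    (((hS.h5line_ab hA h1).mono le_sup_left (h1.h5le hb')).sup hc).sup'
      ((hc.conj β).symm.sup ((hS.h5line_ab hC h2).mono (h2.h5le hb') le_sup_left))
  have eN : (A ⊔ conjBy C β) ⊔ (conjBy A β ⊔ C) = (A ⊔ ⁅A, B⁆) ⊔ (C ⊔ ⁅C, B⁆) := by
    rw [← h1.h5sup hb' hb2, ← h2.h5sup hb' hb2]; ac_rfl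
  have c3 : ∀ r ∈ A ⊔ B ⊔ C, conjBy ((A ⊔ conjBy C β) ⊔ (conjBy A β ⊔ C)) r = (A ⊔ conjBy C β) ⊔ (conjBy A β ⊔ C) :=
    fun r hr => conjBy_eq_self.2 ((sup_le (sup_le ((le_sup_left.trans le_sup_left).trans Subgroup.le_normalizer)
      fun x hx => conjBy_eq_self.1 (by rw [eN, conjBy_sup, h1.h5norm hx, h2.h5norm hx]))
      ((le_sup_right.trans le_sup_right).trans Subgroup.le_normalizer) : _ ≤ Subgroup.normalizer _) hr)
  have lA : A ≤ A ⊔ B ⊔ C := le_sup_of_le_left le_sup_left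
  have lB : B ≤ A ⊔ B ⊔ C := le_sup_of_le_left le_sup_right
  have lC : C ≤ A ⊔ B ⊔ C := le_sup_right
  refine ⟨c1, comm_iff.2 c2, c3, le_antisymm (sup_le (sup_le (sup_le lA (conjBy_le lC (lB hb')))
    (sup_le (conjBy_le lA (lB hb')) lC)) lB) (sup_le (sup_le (le_sup_of_le_left (le_sup_of_le_left le_sup_left))
      le_sup_right) (le_sup_of_le_left (le_sup_of_le_right le_sup_right))), ?_⟩
  obtain ⟨N, hN⟩ : ∃ N, N = (A ⊔ conjBy C β) ⊔ (conjBy A β ⊔ C) := ⟨_, rfl⟩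
  have cX : ∀ {X : Subgroup G}, IsMulCommutative X → Comm ⁅X, X⁆ X := fun h =>
    (comm_self h).mono (Subgroup.commutator_le_self _) le_rfl
  have cN : Comm ⁅A ⊔ conjBy C β, A ⊔ conjBy C β⁆ N ∧ Comm ⁅conjBy A β ⊔ C, conjBy A β ⊔ C⁆ N := by
    rw [hN]
    exact ⟨(c1.elim (fun h => cX h.1) fun h => comm_iff.1 h.1.2).sup (c2.mono (Subgroup.commutator_le_self _) le_rfl),
      (c2.symm.mono (Subgroup.commutator_le_self _) le_rfl).sup (c1.elim (fun h => cX h.2) fun h => comm_iff.1 h.2.2)⟩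
  rw [← hN] at c3 eN
  generalize hR : A ⊔ B ⊔ C = R at *
  let Z : ℕ → Subgroup G := fun n => (Subgroup.upperCentralSeries R n).map R.subtype
  have z1 : ∀ n x, x ∈ R → (∀ a ∈ A, ⁅x, a⁆ ∈ Z n) → (∀ a ∈ B, ⁅x, a⁆ ∈ Z n) → (∀ a ∈ C, ⁅x, a⁆ ∈ Z n) → x ∈ Z (n + 1) := by
    intro n x hx h1 h2 h3
    have k : ∀ y ∈ R, ∀ l ∈ Z n, y * l * y⁻¹ ∈ Z n := by
      rintro y hy _ ⟨l, hl, rfl⟩
      exact ⟨_, Subgroup.Normal.conj_mem inferInstance l hl ⟨y, hy⟩, rfl⟩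
    refine ⟨⟨x, hx⟩, Subgroup.mem_upperCentralSeries_succ_iff.2 fun y => ?_, rfl⟩
    obtain ⟨l, hl, e⟩ := elt_sup (hR ▸ k) (elt_sup (fun y hy => k y (sup_le lA lB hy)) h1 h2) h3 y (hR ▸ y.2)
    exact (Subtype.ext e : l = ⁅(⟨x, hx⟩ : R), y⁆) ▸ hl
  have o : ∀ {n x y}, x * y = y * x → ⁅x, y⁆ ∈ Z n := fun h => commutatorElement_eq_one_iff_mul_comm.2 h ▸ one_mem _
  have z2 : ∀ {A' C' : Subgroup G}, (∀ n x, x ∈ R → (∀ a ∈ A', ⁅x, a⁆ ∈ Z n) → (∀ a ∈ B, ⁅x, a⁆ ∈ Z n) →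
      (∀ a ∈ C', ⁅x, a⁆ ∈ Z n) → x ∈ Z (n + 1)) → RootCommutatorCase S A' B → RootCommutatorCase S C' B → Comm A' C' →
      A' ≤ R → C' ≤ R → Comm ⁅conjBy A' β ⊔ C', conjBy A' β ⊔ C'⁆ N → A' ≤ N → C' ⊔ ⁅C', B⁆ ≤ N → ⁅A', B⁆ ≤ Z 3 := by
    intro A' C' z1 h1 h2 hc lA lC cN n1 n2 d hd
    have dR : d ∈ R := sup_le lA lB (Subgroup.commutator_le_sup _ _ hd)
    refine z1 _ _ dR (fun x hx => o (h1.h5cl x hx d hd).symm) (fun x hx => o (h1.h5cr x hx d hd).symm) fun c hc1 => ?_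
    have hw : ∀ n ∈ N, ⁅d, c⁆ * n = n * ⁅d, c⁆ := by
      obtain ⟨a, ha, rfl⟩ := h1.h5surj' hb' hb2 hd
      rw [commutatorElement_def β, commutatorElement_mul_left_eq_conj_mul, mul_assoc β, commutatorElement_eq_one_iff_mul_comm.2
        (hc _ (inv_mem ha) c hc1), mul_one, mul_inv_cancel, one_mul, ← mul_assoc]
      exact cN _ (Subgroup.commutator_mem_commutator (Subgroup.mem_sup_left (conj_mem ha)) (Subgroup.mem_sup_right hc1))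
    have wR : ⁅d, c⁆ ∈ R := mul_mem (mul_mem (mul_mem dR (lC hc1)) (inv_mem dR)) (inv_mem (lC hc1))
    refine z1 _ _ wR (fun x hx => o (hw x (n1 hx))) (fun y hy => ?_) fun x hx => o (hw x (n2 (Subgroup.mem_sup_left hx)))
    have hw2 : ∀ n ∈ N, ⁅⁅d, c⁆, y⁆ * n = n * ⁅⁅d, c⁆, y⁆ := fun n hn => by
      have := hw _ (mem_conjBy.1 ((c3 y (lB hy)).symm ▸ hn))
      have e : y * ⁅d, c⁆ * y⁻¹ * n = n * (y * ⁅d, c⁆ * y⁻¹) := by
        calc _ = y * (⁅d, c⁆ * (y⁻¹ * n * y)) * y⁻¹ := by group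
          _ = _ := by rw [this]; group
      have := (Commute.mul_left (hw n hn) (Commute.inv_left e)).eq
      simpa [commutatorElement_def ⁅d, c⁆, mul_assoc] using this
    refine z1 _ _ (mul_mem (mul_mem (mul_mem wR (lB hy)) (inv_mem wR)) (inv_mem (lB hy))) (fun x hx => o (hw2 x (n1 hx)))
      (fun x hx => o ?_) fun x hx => o (hw2 x (n2 (Subgroup.mem_sup_left hx)))
    have he : ⁅y, c⁆ ∈ ⁅C', B⁆ := Subgroup.commutator_comm C' B ▸ Subgroup.commutator_mem_commutator hy hc1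
    have e : ⁅⁅d, c⁆, y⁆ = ⁅⁅y, c⁆, d⁆ := by
      have e1 : y * ⁅d, c⁆ * y⁻¹ = ⁅d, ⁅y, c⁆⁆ * ⁅d, c⁆ := by
        rw [conjugate_commutatorElement, h1.h5cr y hy d hd, mul_inv_cancel_right, show y * c * y⁻¹ = ⁅y, c⁆ * c by
          simp [commutatorElement_def], commutatorElement_mul_right_eq_mul_conj, mul_assoc _ ⁅y, c⁆,
          ← hw _ (n2 (Subgroup.mem_sup_right he))]
        group
      have e2 := hw2 _ (n2 (Subgroup.mem_sup_right he))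
      calc _ = ⁅d, c⁆ * (y * ⁅d, c⁆ * y⁻¹)⁻¹ := by simp only [commutatorElement_def ⁅d, c⁆]; group
        _ = _ := by rw [e1, ← commutatorElement_inv d]; group
    have q1 : Commute x d := h1.h5cr x hx d hd
    have q2 : Commute x ⁅y, c⁆ := h2.h5cr x hx _ he
    rw [e, commutatorElement_def ⁅y, c⁆]
    exact (((q2.mul_right q1).mul_right q2.inv_right).mul_right q1.inv_right).eq.symm
  have nA : A ⊔ ⁅A, B⁆ ≤ N := eN ▸ le_sup_left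
  have nC : C ⊔ ⁅C, B⁆ ≤ N := eN ▸ le_sup_right
  have zA := z2 z1 h1 h2 hc lA lC cN.2 (le_sup_left.trans nA) nC
  have zC := z2 (fun n x h1 h2 h3 h4 => z1 n x h1 h4 h3 h2) h2 h1 hc.symm lC lA (sup_comm A _ ▸ cN.1) (le_sup_left.trans nC) nA
  have zR : R ≤ Z 4 := hR ▸ sup_le (sup_le
    (fun a ha => z1 _ _ (lA ha) (fun x hx => o (hS.h5ab hA a ha x hx))
      (fun x hx => zA (Subgroup.commutator_mem_commutator ha hx)) fun x hx => o (hc a ha x hx))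
    fun a ha => z1 _ _ (lB ha) (fun x hx => zA (Subgroup.commutator_comm A B ▸ Subgroup.commutator_mem_commutator ha hx))
      (fun x hx => o (hS.h5ab hB a ha x hx)) fun x hx => zC (Subgroup.commutator_comm C B ▸ Subgroup.commutator_mem_commutator ha hx))
    fun a ha => z1 _ _ (lC ha) (fun x hx => o (hc x hx a ha).symm)
      (fun x hx => zC (Subgroup.commutator_mem_commutator ha hx)) fun x hx => o (hS.h5ab hC a ha x hx)
  refine ⟨4, top_le_iff.1 fun x _ => ?_⟩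
  obtain ⟨y, hy, e⟩ := zR x.2
  exact (Subtype.ext e : y = x) ▸ hy

end Cfsg.Agent.S5030
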