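import Cfsg.Statements.S5032
import Cfsg.Agent.H5.RS4

set_option autoImplicit false
open Cfsg

namespace Cfsg.Agent.S5032

open Cfsg.IsRootSubgroupSet

/-- Let S be a set of abstract root subgroups of G with more than one member. Then the graph of rank one pairs on S is connected if and only if S is a single conjugacy class of G and some member of S has a rank one partner in S. -/
theorem result {G : Type*} [Group G] {S : Set (Subgroup G)} (hS : Cfsg.IsRootSubgroupSet S) (h2 : ∃ A ∈ S, ∃ B ∈ S, A ≠ B) :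
    Cfsg.IsConnectedFamily (Cfsg.FAdj S) S ↔
      (Cfsg.IsConjClassOfSubgroups S ∧ ∃ A ∈ S, ¬ Cfsg.IsIsolatedIn (Cfsg.FAdj S) S A) := by
  refine ⟨fun h => ?_, fun ⟨hc, A, hA, h⟩ => hS.h5Fconn hc (hS.h5class_non hc ⟨A, hA, h5noniso hA h⟩)⟩
  obtain ⟨A, hA, -⟩ := id h2
  obtain ⟨E, hE, h1⟩ := h5conn_non h2 h A hA
  exact ⟨⟨⟨A, hA⟩, fun A hA B hB => h5Fconj (h A hA B hB)⟩, A, hA, fun h3 => (h3.2 E).1 ⟨hA, hE, h1⟩⟩

end Cfsg.Agent.S5032
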