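import Cfsg.Statements.S5033
import Cfsg.Agent.H5.RS4
import Cfsg.Agent.H5.RS5

set_option autoImplicit false
open Cfsg

namespace Cfsg.Agent.S5033

open H5.RS Cfsg.IsRootSubgroupSet
open scoped commutatorElement

theorem quasi_congr {G H : Type*} [Group G] [Group H] (e : G ≃* H) (h : IsQuasisimple G) : IsQuasisimple H := by
  have := h.1
  have := h.2
  refine ⟨Group.IsPerfect.ofSurjective (f := e.toMonoidHom) e.surjective, (QuotientGroup.congr (Subgroup.center G) (Subgroup.center H) e ?_).symm.isSimpleGroup⟩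
  ext x
  simp only [Subgroup.mem_map, Subgroup.mem_center_iff]
  exact ⟨by rintro ⟨y, hy, rfl⟩ g; simpa using congrArg e (hy (e.symm g)),
    fun h => ⟨e.symm x, fun g => e.injective (by simpa using h (e g)), by simp⟩⟩

/-- Quasisimplicity criterion for groups generated by abstract root subgroups. Let S be a set of abstract root subgroups of G with more than one member such that: the graph of rank one pairs on S is connected; no two different members of S have the same set of commuting members of S; if S is degenerate then every member of S has more than three elements; and every rank one pair in S is special. Then for every A ∈ S one has G = G' A with A ∩ G' ≠ 1, and the commutator subgroup G' is quasisimple. Moreover G is perfect if S is non-degenerate, or if some rank one pair A, B in S generates a perfect group. -/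
theorem result {G : Type*} [Group G] {S : Set (Subgroup G)} (hS : Cfsg.IsRootSubgroupSet S) (h2 : ∃ A ∈ S, ∃ B ∈ S, A ≠ B)
    (h1 : Cfsg.IsConnectedFamily (Cfsg.FAdj S) S)
    (h2' : ∀ A ∈ S, ∀ C ∈ S, A ≠ C → Cfsg.centralizingMembers S A ≠ Cfsg.centralizingMembers S C)
    (h3 : Cfsg.IsDegenerateRootSet S → ∀ A ∈ S, 3 < ENat.card A)
    (h4 : ∀ A ∈ S, ∀ B ∈ Cfsg.rankOnePartners S A, Cfsg.IsSpecialRankOnePair A B) :
    (∀ A ∈ S, commutator G ⊔ A = ⊤ ∧ A ⊓ commutator G ≠ ⊥) ∧ Cfsg.IsQuasisimple ↥(commutator G) ∧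
    (Cfsg.IsNondegenerateRootSet S → commutator G = ⊤) ∧
    ((∃ A ∈ S, ∃ B ∈ Cfsg.rankOnePartners S A, Group.IsPerfect ↥(A ⊔ B)) → commutator G = ⊤) := by
  have hF := h5conn_non h2 h1
  obtain ⟨A₀, hA₀, -⟩ := h2
  have hc : IsConjClassOfSubgroups S := ⟨⟨A₀, hA₀⟩, fun A hA B hB => h5Fconj (h1 A hA B hB)⟩
  have top : ∀ (N : Subgroup G) [N.Normal], ∀ A ∈ S, A ≤ N → N = ⊤ := fun N hN A hA h => hS.h5gen fun B hB => by
    obtain ⟨g, rfl⟩ := hc.2 A hA B hB
    rintro _ ⟨a, ha, rfl⟩
    exact hN.conj_mem a (h ha) g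
  have cl : ∀ (N : Subgroup G) [N.Normal] {A B C : Subgroup G}, Comm A C → B ≤ N ⊔ A → ⁅B, C⁆ ≤ N := by
    intro N hN A B C h h'
    refine Subgroup.commutator_le.2 fun b hb c hc => ?_
    obtain ⟨n, hn, a, ha, rfl⟩ := Subgroup.mem_sup_of_normal_left.1 (h' hb)
    rw [commutatorElement_mul_left_eq_conj_mul, commutatorElement_eq_one_iff_mul_comm.2 (h a ha c hc), mul_one, mul_inv_cancel,
      one_mul, commutatorElement_def, mul_assoc, mul_assoc, ← mul_assoc c]
    exact mul_mem hn (hN.conj_mem _ (inv_mem hn) c)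
  have k1 : ∀ (N : Subgroup G) [N.Normal], ∀ A ∈ S, ∀ B ∈ S, IsRankOnePair A B → B ≤ N ⊔ A → N = ⊤ := by
    intro N hN A hA B hB h hle
    by_cases hd : IsDegenerateRootSet S
    · refine top N A hA (le_sup_left.trans ((sp_perfect (h4 A hA B ⟨hB, h⟩) (hS.h5ab hA) (h3 hd A hA)).trans ?_))
      have := Subgroup.commutator_mono (sup_le (le_sup_right : A ≤ N ⊔ A) hle) (sup_le (le_sup_right : A ≤ N ⊔ A) hle)
      refine this.trans (Subgroup.commutator_le.2 fun x hx y hy => ?_)
      rw [← QuotientGroup.eq_one_iff, ← QuotientGroup.mk'_apply, map_commutatorElement, commutatorElement_eq_one_iff_mul_comm]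
      obtain ⟨n, hn, a, ha, rfl⟩ := Subgroup.mem_sup_of_normal_left.1 hx
      obtain ⟨m, hm, b, hb, rfl⟩ := Subgroup.mem_sup_of_normal_left.1 hy
      simp only [map_mul, QuotientGroup.mk'_apply, (QuotientGroup.eq_one_iff _).2 hn, (QuotientGroup.eq_one_iff _).2 hm, one_mul]
      rw [← QuotientGroup.mk_mul, hS.h5ab hA a ha b hb, QuotientGroup.mk_mul]
    · obtain ⟨D, hD⟩ := hS.h5haslp hc hF (by simpa [IsDegenerateRootSet] using hd) hA
      obtain ⟨C, hC, l1, -⟩ := hS.h5K4 hF hA hD hB h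
      exact top N _ l1.1 (cl N (lp_comm hC) hle)
  have cle : ∀ (N : Subgroup G) [N.Normal] (A : Subgroup G), ∀ n ∈ N, conjBy A n ≤ N ⊔ A := fun N _ A n hn =>
    conjBy_le le_sup_right (Subgroup.mem_sup_left hn)
  obtain ⟨E₀, hE₀, hAE⟩ := hF A₀ hA₀
  have hp : commutator G = ⊤ := by
    obtain ⟨x, -, e, -⟩ := hAE.h5swap
    refine k1 _ A₀ hA₀ E₀ hE₀ hAE (e ▸ ?_)
    rintro _ ⟨a, ha, rfl⟩
    rw [MulEquiv.coe_toMonoidHom, conj_eq_commutatorElement_mul]
    exact mul_mem (Subgroup.mem_sup_left (Subgroup.commutator_mem_commutator trivial trivial)) (Subgroup.mem_sup_right ha)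
  have k2 : ∀ (N : Subgroup G) [N.Normal], N = ⊤ ∨ N ≤ Subgroup.center G := by
    intro N hN
    refine or_iff_not_imp_left.2 fun hn => ?_
    have l1 : ∀ A ∈ S, ∀ n ∈ N, ∀ D ∈ S, Comm A D → Comm (conjBy A n) D := fun A hA n hn' D hD h => by
      have hA' := hS.conj_mem A hA n
      rcases hS.h5tri hA' hD with h' | h' | h'
      · exact h'
      · obtain ⟨d, hd, hd1⟩ := hS.h5ex hD
        refine absurd (k1 N _ hA' _ (hS.conj_mem _ hA' d) (h'.h5symm.h5pair' hd hd1) ?_) hn
        have : conjBy (conjBy A n) d = conjBy (conjBy A n) (d * n * d⁻¹ * n⁻¹) := by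
          rw [conjBy_conjBy, conjBy_conjBy, inv_mul_cancel_right, ← conjBy_conjBy A d⁻¹, h.symm.conjBy_eq (inv_mem hd)]
        exact this ▸ cle N _ _ (mul_mem (hN.conj_mem n hn' d) (inv_mem hn'))
      · exact absurd (top N _ h'.1 (cl N h (cle N A n hn'))) hn
    have l2 : ∀ A ∈ S, ∀ n ∈ N, conjBy A n = A := fun A hA n hn' => by
      by_contra e
      refine h2' _ (hS.conj_mem A hA n) A hA e (Set.ext fun D => and_congr_right fun hD => ⟨fun h d hd a ha => ?_,
        fun h d hd a ha => l1 A hA n hn' D hD (fun a ha d hd => h hd a ha) a ha d hd⟩)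
      have := l1 _ (hS.conj_mem A hA n) _ (inv_mem hn') D hD fun a ha d hd => h hd a ha
      rw [← conjBy_eq_iff.1 rfl] at this
      exact this a ha d hd
    intro n hn'
    have : Subgroup.centralizer {n} = ⊤ := hS.h5gen fun A hA a ha => by
      obtain ⟨E, -, h⟩ := hF A hA
      exact Subgroup.mem_centralizer_singleton_iff.2 (h.h5central (fun x hx y _ => hN.conj_mem x hx y) (l2 A hA) n hn' a
        (Subgroup.mem_sup_left ha)).symm
    exact Subgroup.mem_center_iff.2 fun g => Subgroup.mem_centralizer_singleton_iff.1 (this.ge trivial)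
  have hq : IsQuasisimple G := by
    refine ⟨⟨hp⟩, @IsSimpleGroup.mk _ _ (QuotientGroup.nontrivial_iff.2 fun e => hAE.h5not_comm fun a _ b _ =>
      Subgroup.mem_center_iff.1 (e.ge trivial) _) fun N hN => ?_⟩
    rcases k2 (N.comap (QuotientGroup.mk' _)) with e | e
    · exact Or.inr (top_le_iff.1 (by rintro ⟨x⟩ -; exact e.ge trivial))
    · exact Or.inl (eq_bot_iff.2 (by rintro ⟨x⟩ hx; exact (QuotientGroup.eq_one_iff x).2 (e hx)))
  refine ⟨fun A hA => by simpa [hp] using hS.ne_bot A hA, ?_, fun _ => hp, fun _ => hp⟩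
  rw [hp]
  exact quasi_congr Subgroup.topEquiv.symm hq

end Cfsg.Agent.S5033
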