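import Cfsg.Statements.S5035
import Cfsg.Agent.H5.RS4

set_option autoImplicit false
open Cfsg

namespace Cfsg.Agent.S5035

open H5.RS Cfsg.IsRootSubgroupSet
open scoped commutatorElement

/-- Let S be a set of abstract root subgroups of G whose graph of rank one pairs is connected, and f a homomorphism from G onto a group H. Then either the images of the members of S form a set of abstract root subgroups of H whose graph of rank one pairs is again connected, or H equals the image of a member of S. -/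
theorem result {G H : Type*} [Group G] [Group H] {S : Set (Subgroup G)} (hS : Cfsg.IsRootSubgroupSet S)
    (hc : Cfsg.IsConnectedFamily (Cfsg.FAdj S) S) (f : G →* H) (hf : Function.Surjective f) :
    (Cfsg.IsRootSubgroupSet ((fun A : Subgroup G => A.map f) '' S) ∧
      Cfsg.IsConnectedFamily (Cfsg.FAdj ((fun A : Subgroup G => A.map f) '' S)) ((fun A : Subgroup G => A.map f) '' S)) ∨
    ∃ A ∈ S, A.map f = ⊤ := by
  refine or_iff_not_imp_right.2 fun hn => ?_
  have mc : ∀ (A : Subgroup G) g, (conjBy A g).map f = conjBy (A.map f) (f g) := fun A g => by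
    rw [conjBy, conjBy, Subgroup.map_map, Subgroup.map_map]; congr 1; ext; simp
  have cm : ∀ {A B : Subgroup G}, Comm A B → Comm (A.map f) (B.map f) := fun h => by
    rw [← comm_iff, ← Subgroup.map_commutator, comm_iff.2 h, Subgroup.map_bot]
  have gen : (⨆ A ∈ (fun A : Subgroup G => A.map f) '' S, A) = ⊤ := by
    rw [iSup_image, ← Subgroup.map_top_of_surjective f hf, ← hS.generates]
    simp only [Subgroup.map_iSup]
  have r1 : ∀ {A B : Subgroup G}, IsRankOnePair A B → A.map f = B.map f ∨ IsRankOnePair (A.map f) (B.map f) := by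
    intro A B h
    rcases h.h5dich (K := f.ker ⊓ (A ⊔ B)) (fun x hx y hy => ⟨f.normal_ker.conj_mem x hx.1 y,
      (A ⊔ B).mul_mem ((A ⊔ B).mul_mem hy hx.2) (inv_mem hy)⟩) inf_le_right with ⟨x, hx, e⟩ | h1
    · exact Or.inl (by rw [← e, mc, show f x = 1 from hx.1, conjBy_one])
    · have k : ∀ {C D : Subgroup G}, IsRankOnePair C D → C ⊔ D = A ⊔ B → RankOneCondition (C.map f) (D.map f) := by
        rintro C D h e _ ⟨a, ha, rfl⟩ h2
        obtain ⟨b, hb, h3, e'⟩ := h.cond_left a ha (by rintro rfl; simp at h2)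
        refine ⟨_, ⟨b, hb, rfl⟩, fun h4 => h3 (h.h5symm.h5comm hb fun c hc =>
          h1 b ⟨h4, e ▸ Subgroup.mem_sup_right hb⟩ c (e ▸ Subgroup.mem_sup_left hc)), ?_⟩
        rw [← map_inv, ← map_inv, ← mc, ← mc, e']
      have nil : ∀ {C : Subgroup G}, Group.IsNilpotent C → Group.IsNilpotent (C.map f) := fun h =>
        Group.nilpotent_of_surjective _ (f.subgroupMap_surjective _)
      refine or_iff_not_imp_left.2 fun h2 => ⟨h2, nil h.2, nil h.3, k h rfl, k h.h5symm (sup_comm _ _)⟩
  have ab : ∀ A ∈ S, Comm (A.map f) (A.map f) := fun A hA => cm (hS.h5ab hA)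
  refine ⟨⟨?_, ?_, gen, ?_, ?_⟩, ?_⟩
  · rintro _ ⟨A, hA, rfl⟩
    exact (ab A hA).isMulCommutative
  · rintro _ ⟨A, hA, rfl⟩ e
    refine hn ⟨A, hA, top_le_iff.1 (gen ▸ iSup₂_le ?_)⟩
    rintro _ ⟨B, hB, rfl⟩
    obtain ⟨g, rfl⟩ := h5Fconj (hc A hA B hB)
    simp only [mc, show A.map f = ⊥ from e, conjBy_bot, le_refl]
  · rintro _ ⟨A, hA, rfl⟩ g
    obtain ⟨g, rfl⟩ := hf g
    exact ⟨_, hS.conj_mem A hA g, mc A g⟩
  · rintro _ ⟨A, hA, rfl⟩ _ ⟨B, hB, rfl⟩
    rcases hS.h5tri hA hB with h | h | h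
    · exact Or.inl (comm_iff.2 (cm h))
    · exact (r1 h).imp (fun e => comm_iff.2 (by simpa only [← e] using ab A hA)) Or.inl
    · refine Or.inr (Or.inr ⟨⟨_, h.1, Subgroup.map_commutator _ _ f⟩, ?_, ?_, ?_⟩)
      · rw [← Subgroup.map_commutator, ← Subgroup.map_sup]; exact cm h.h5cent
      · rintro _ ⟨a, ha, rfl⟩ h1
        rw [← Subgroup.map_commutator, ← h.2.2.1 a ha (by rintro rfl; simp at h1), MonoidHom.map_closure,
          Subgroup.coe_map, Set.image_image, Set.image_image]
        simp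
      · rintro _ ⟨a, ha, rfl⟩ h1
        rw [← Subgroup.map_commutator, ← h.2.2.2 a ha (by rintro rfl; simp at h1), MonoidHom.map_closure,
          Subgroup.coe_map, Set.image_image, Set.image_image]
        simp
  · rintro _ ⟨A, hA, rfl⟩ _ ⟨B, hB, rfl⟩
    have := hc A hA B hB
    clear hB
    induction this with
    | refl => rfl
    | tail _ h ih =>
      rcases r1 h.2.2 with e | e
      · simpa only [← e] using ih
      · exact ih.tail ⟨⟨_, h.1, rfl⟩, ⟨_, h.2.1, rfl⟩, e⟩

end Cfsg.Agent.S5035
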