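import Cfsg.Statements.S5036
import Cfsg.Agent.H5.RS4

set_option autoImplicit false
open Cfsg

namespace Cfsg.Agent.S5036

open H5.RS

/-- Let S be a set of abstract root subgroups of G, A, B ∈ S with C = ⁅A, B⁆ ∈ S, and D ∈ S with ⁅D, C⁆ = A. Put X = ⟨B, D⟩ and N = AC. Then B, D form a rank one pair; the conjugates of A under X are the conjugates of C under X, namely the conjugates of A by elements of B together with C, equally the conjugates of C by elements of D together with A, and they partition N; and the centralizer of N in X is central in X. -/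
theorem result {G : Type*} [Group G] {S : Set (Subgroup G)} (hS : Cfsg.IsRootSubgroupSet S)
    {A B D : Subgroup G} (hA : A ∈ S) (hB : B ∈ S) (hC : ⁅A, B⁆ ∈ S) (hD : D ∈ S) (hDC : ⁅D, ⁅A, B⁆⁆ = A) :
    Cfsg.IsRankOnePair B D ∧
    {E | ∃ x ∈ B ⊔ D, E = Cfsg.conjBy A x} = {E | ∃ x ∈ B ⊔ D, E = Cfsg.conjBy ⁅A, B⁆ x} ∧
    {E | ∃ x ∈ B ⊔ D, E = Cfsg.conjBy A x} = (fun b : G => Cfsg.conjBy A b) '' (B : Set G) ∪ {⁅A, B⁆} ∧
    {E | ∃ x ∈ B ⊔ D, E = Cfsg.conjBy A x} = (fun d : G => Cfsg.conjBy ⁅A, B⁆ d) '' (D : Set G) ∪ {A} ∧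
    Cfsg.IsSubgroupPartition (A ⊔ ⁅A, B⁆) {E | ∃ x ∈ B ⊔ D, E = Cfsg.conjBy A x} ∧
    ∀ x ∈ (B ⊔ D) ⊓ Subgroup.centralizer ((A ⊔ ⁅A, B⁆ : Subgroup G) : Set G), ∀ y ∈ B ⊔ D, x * y = y * x := by
  have h1 := hS.h5cc hA hB hC
  have e2 : ⁅⁅A, B⁆, D⁆ = A := by rwa [Subgroup.commutator_comm]
  have h2 := hS.h5cc hC hD (e2.symm ▸ hA)
  have o1 := hS.h5sl_orb h1 h2 rfl e2 hB hD
  have o2 := hS.h5sl_orb h2 h1 e2 rfl hD hB
  have k := (hS.h5sl_sub h1 h2 rfl e2 hB hD).antisymm (hS.h5sl_sub h2 h1 e2 rfl hD hB)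
  refine ⟨hS.h5sl_opp h1 h2 rfl e2 hB hD, by rw [o1, k, ← o2, sup_comm], o1, o1.trans k, ⟨?_, fun x hx _ => ?_, ?_⟩,
    hS.h5sl_cent h1 h2 rfl e2 hB hD⟩
  · rintro _ ⟨x, hx, rfl⟩
    exact IsRootSubgroupSet.h5sl_norm h1 h2 rfl e2 x hx ▸ conjBy_mono le_sup_left x
  · rw [o1]
    rcases hS.h5line_mem h1 hx with h | ⟨b, hb, h⟩
    · exact ⟨_, Or.inr rfl, h⟩
    · exact ⟨_, Or.inl ⟨b, hb, rfl⟩, h⟩
  · rintro _ ⟨x, hx, rfl⟩ _ ⟨y, hy, rfl⟩ hne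
    have : conjBy A (x⁻¹ * y) ∈ (fun d : G => conjBy ⁅A, B⁆ d) '' (D : Set G) ∪ {A} :=
      (o1.trans k).le ⟨_, mul_mem (inv_mem hx) hy, rfl⟩
    rcases this with ⟨d, hd, e⟩ | e
    · have e3 : conjBy (A ⊓ ⁅A, B⁆) d = ⊥ := by
        rw [conjBy_eq_iff, conjBy_bot]; exact eq_bot_iff.2 fun z hz => hS.h5cc_inf h1 hz.1 hz.2
      rw [conjBy_inf, (e2 ▸ h2.h5cr : Comm D A).conjBy_eq hd] at e3
      rwa [← conjBy_inj (g := x⁻¹), conjBy_inf, conjBy_conjBy, conjBy_conjBy, inv_mul_cancel, conjBy_one, ← e, conjBy_bot]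
    · exact absurd (conjBy_eq_conjBy.2 e).symm hne

end Cfsg.Agent.S5036
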