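import Cfsg.Statements.S5037
import Cfsg.Agent.H5.RS4

set_option autoImplicit false
open Cfsg

namespace Cfsg.Agent.S5037

open H5.RS Cfsg.IsRootSubgroupSet
open scoped commutatorElement

/-- Let S be a class of abstract root subgroups of G that is either degenerate or non-degenerate (so either the commutator case never occurs, or all three cases occur), and A ≠ C members of S. If every member of S commuting with A commutes with C, then A and C have the same commuting members of S; and if every rank one partner of A is a rank one partner of C, then A and C commute and have the same rank one partners. -/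
theorem result {G : Type*} [Group G] {S : Set (Subgroup G)} (hS : Cfsg.IsRootSubgroupClass S)
    (hdn : Cfsg.IsDegenerateRootSet S ∨ Cfsg.IsNondegenerateRootSet S)
    {A C : Subgroup G} (hA : A ∈ S) (hC : C ∈ S) (hAC : A ≠ C) :
    (Cfsg.centralizingMembers S A ⊆ Cfsg.centralizingMembers S C →
      Cfsg.centralizingMembers S A = Cfsg.centralizingMembers S C) ∧
    (Cfsg.rankOnePartners S A ⊆ Cfsg.rankOnePartners S C →
      ⁅A, C⁆ = ⊥ ∧ Cfsg.rankOnePartners S A = Cfsg.rankOnePartners S C) := by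
  have hF : ∀ A ∈ S, ∃ E ∈ S, IsRankOnePair A E := hS.1.h5class_non hS.2 (by
    rcases hdn with h | h
    · by_contra h1
      have : Subgroup.normalizer (A : Set G) = ⊤ := hS.1.h5gen fun B hB b hb => by
        rcases hS.1.h5tri hB hA with h2 | h2 | h2
        · exact conjBy_eq_self.1 (h2.conjBy_eq hb)
        · exact absurd ⟨B, hB, A, hA, h2⟩ h1
        · exact absurd h2 (h B hB A hA)
      obtain ⟨g, rfl⟩ := hS.2.2 A hA C hC
      exact hAC (conjBy_eq_self.2 (this.ge trivial)).symm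
    · exact h.2.1)
  have m : ∀ A B : Subgroup G, B ∈ centralizingMembers S A ↔ B ∈ S ∧ Comm A B := fun A B =>
    and_congr_right fun _ => ⟨fun h a ha b hb => h hb a ha, fun h b hb a ha => h a ha b hb⟩
  have cj : ∀ (A B : Subgroup G) g, conjBy (conjBy B g⁻¹) g = B := fun A B g => by
    rw [conjBy_conjBy, mul_inv_cancel, conjBy_one]
  refine ⟨fun h => h.antisymm ?_, fun h => ?_⟩
  · have hc : Comm C A := ((m _ _).1 (h ((m _ _).2 ⟨hA, hS.1.h5ab hA⟩))).2
    obtain ⟨D, hD, h1⟩ := hF C hC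
    refine h5order (S := S) (r := fun A B => centralizingMembers S A ⊆ centralizingMembers S B) (fun h h' => h.trans h')
      (fun {A B} g h E hE => ?_) (fun {A B} h hA _ h' => ?_) hS.1.conj_mem h hc.symm hD ?_ h1
    · rw [m] at hE ⊢
      have h2 := hE.2.conj g⁻¹
      rw [← conjBy_eq_iff.1 rfl] at h2
      exact ⟨hE.1, cj A E g ▸ ((m _ _).1 (h ((m _ _).2 ⟨hS.1.conj_mem _ hE.1 _, h2⟩))).2.conj g⟩
    · exact h.h5not_comm ((m _ _).1 (h' ((m _ _).2 ⟨hA, hS.1.h5ab hA⟩))).2.symm
    · rcases hS.1.h5tri hD hA with h2 | h2 | h2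
      · exact absurd ((m _ _).1 (h ((m _ _).2 ⟨hD, h2.symm⟩))).2 h1.h5not_comm
      · exact h2.h5symm
      · exfalso
        obtain ⟨d, hd, hd1⟩ := hS.1.h5ex hD
        obtain ⟨p, hp, hp1⟩ := hS.1.h5ex h2.1
        obtain ⟨a, -, e⟩ := h5ce h2 hd hd1 hp
        exact hp1 (hS.1.h5root h1.h5symm hC (hS.1.conj_mem D hD a) (comm_sup (h2.h5cl.symm p hp)
          (((m _ _).1 (h ((m _ _).2 ⟨h2.1, h2.h5cr⟩))).2.symm p hp)) hd hd1 (e ▸ H5.RS.conj_mem hd))
  · have hc : Comm A C := by
      rcases hS.1.h5tri hA hC with h2 | h2 | h2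
      · exact h2
      · exact absurd rfl (h ⟨hC, h2⟩).2.ne
      · obtain ⟨P, hP, h3, h4⟩ := hS.1.h5cc_opp hF hA hC h2
        exact absurd h3 (h ⟨hP, h4⟩).2.h5not_comm
    obtain ⟨D, hD, h1⟩ := hF A hA
    refine ⟨comm_iff.2 hc, h.antisymm (h5order (S := S) (r := fun A B => rankOnePartners S A ⊆ rankOnePartners S B)
      (fun h h' => h.trans h') (fun {A B} g h E hE => ?_) (fun {A B} h _ hB h' => ?_) hS.1.conj_mem h hc hD h1
      (h ⟨hD, h1⟩).2)⟩
    · have h2 := hE.2.h5conj g⁻¹
      rw [← conjBy_eq_iff.1 rfl] at h2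
      exact ⟨hE.1, cj A E g ▸ (h ⟨hS.1.conj_mem _ hE.1 _, h2⟩).2.h5conj g⟩
    · exact (h' ⟨hB, h⟩).2.ne rfl

end Cfsg.Agent.S5037
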