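import Cfsg.Statements.S5040
import Cfsg.Agent.H5.RS4

set_option autoImplicit false
open Cfsg

namespace Cfsg.Agent.S5040

open H5.RS

/-- Let S be a non-degenerate class of abstract root subgroups of G and Δ a weak TI-subset of S. Then the members of Δ commute with one another elementwise. -/
theorem result {G : Type*} [Group G] {S : Set (Subgroup G)} (hS : Cfsg.IsRootSubgroupClass S) (hnd : Cfsg.IsNondegenerateRootSet S)
    {Δ : Set (Subgroup G)} (hΔ : Cfsg.IsWeakTISubset S Δ) : Cfsg.IsAbelianFamily Δ := by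
  have hF := hS.1.h5class_non hS.2 hnd.2.1
  obtain ⟨h1, -, h3, h4⟩ := hΔ
  let H : Subgroup G :=
    { carrier := {g | (fun A => conjBy A g) '' Δ = Δ}
      one_mem' := by simp [conjBy_one]
      mul_mem' := fun {x y} hx hy => by
        have : (fun A => conjBy A x) '' ((fun A => conjBy A y) '' Δ) = Δ := by rw [hy, hx]
        simpa only [Set.image_image, conjBy_conjBy, Set.mem_setOf_eq] using this
      inv_mem' := fun {x} hx => by
        have := congrArg ((fun A => conjBy A x⁻¹) '' ·) hx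
        simpa [Set.image_image, conjBy_conjBy, conjBy_one] using this.symm }
  have k : ∀ A ∈ Δ, ∀ B ∈ S, Comm A B → B ≤ H := fun A hA B hB h b hb => by
    by_cases e : b = 1
    · exact e ▸ one_mem H
    · exact (h4 b ⟨e, B, hB, hb⟩).resolve_right (Set.not_disjoint_iff.2 ⟨A, ⟨A, hA, h.symm.conjBy_eq hb⟩, hA⟩)
  have k2 : ∀ A ∈ Δ, ∀ B ∈ S, IsRankOnePair A B → ¬ B ≤ H := fun A hA B hB h hle => by
    have := hS.1.h5lp_gen hS.2 hF hnd.2.2 (h1 hA) hB h (fun C hC => k A hA C hC.1.1 (lp_comm hC)) hle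
    refine h3 (h1.antisymm fun C hC => ?_)
    obtain ⟨g, rfl⟩ := hS.2.2 A (h1 hA) C hC
    exact (this.ge (Subgroup.mem_top g) : _ = Δ).le ⟨A, hA, rfl⟩
  intro A hA B hB
  rcases hS.1.h5tri (h1 hA) (h1 hB) with h | h | h
  · exact h
  · exact absurd (k B hB B (h1 hB) (hS.1.h5ab (h1 hB))) (k2 A hA B (h1 hB) h)
  · obtain ⟨P, hP, h5, h6⟩ := hS.1.h5cc_opp hF (h1 hA) (h1 hB) h
    exact absurd (k B hB P hP h5) (k2 A hA P hP h6)

end Cfsg.Agent.S5040
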