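import Cfsg.Statements.S5045
import Cfsg.Agent.H5.RI1

set_option autoImplicit false
open Cfsg

namespace Cfsg.Agent.S5045

open H5.RI IsRootInvolutionSet

/-- Let G be a finite group generated by a set D of root involutions, and W the set of members of D whose product with every other member of D has even order or is trivial (the isolated vertices of the odd-order-product graph on D). Then W is conjugation-invariant and generates a normal 2-subgroup of G meeting D in exactly W; the commutator of two members of D lying in different connected components of that graph, each with more than one member, lies in the subgroup generated by W; and for a in such a component, every member of D commuting with a, different from a and with product with a in D, lies in that component or in W. -/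
theorem result {G : Type*} [Group G] [Finite G] {D : Set G} (hD : Cfsg.IsRootInvolutionSet D) :
    (∀ w ∈ {w | Cfsg.IsIsolatedElem (Cfsg.OddAdj D) D w}, ∀ g : G, g * w * g⁻¹ ∈ {w | Cfsg.IsIsolatedElem (Cfsg.OddAdj D) D w}) ∧
    (Subgroup.closure {w | Cfsg.IsIsolatedElem (Cfsg.OddAdj D) D w}).Normal ∧
    IsPGroup 2 ↥(Subgroup.closure {w | Cfsg.IsIsolatedElem (Cfsg.OddAdj D) D w}) ∧
    (Subgroup.closure {w | Cfsg.IsIsolatedElem (Cfsg.OddAdj D) D w} : Set G) ∩ D = {w | Cfsg.IsIsolatedElem (Cfsg.OddAdj D) D w} ∧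
    (∀ a ∈ D, ∀ b ∈ D, (∃ a' ∈ Cfsg.elemComponentOf (Cfsg.OddAdj D) D a, a' ≠ a) →
      (∃ b' ∈ Cfsg.elemComponentOf (Cfsg.OddAdj D) D b, b' ≠ b) →
      Cfsg.elemComponentOf (Cfsg.OddAdj D) D a ≠ Cfsg.elemComponentOf (Cfsg.OddAdj D) D b →
        a * b * a⁻¹ * b⁻¹ ∈ Subgroup.closure {w | Cfsg.IsIsolatedElem (Cfsg.OddAdj D) D w}) ∧
    (∀ a ∈ D, (∃ a' ∈ Cfsg.elemComponentOf (Cfsg.OddAdj D) D a, a' ≠ a) →
      Cfsg.productPartners D a ⊆ Cfsg.elemComponentOf (Cfsg.OddAdj D) D a ∪ {w | Cfsg.IsIsolatedElem (Cfsg.OddAdj D) D w}) := by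
  have m : ∀ w, w ∈ {w | IsIsolatedElem (OddAdj D) D w} ↔ w ∈ D ∧ ∀ x ∈ D, ¬ Od w x := fun w => and_congr_right fun hw =>
    ⟨fun h x hx o => (h x).1 ⟨hw, hx, o⟩, fun h x => ⟨fun o => h x o.2.1 o.2.2, fun o => h x o.1 (Od.symm o.2.2)⟩⟩
  generalize {w | IsIsolatedElem (OddAdj D) D w} = W at *
  have h1 : ∀ w ∈ W, ∀ g : G, g * w * g⁻¹ ∈ W := fun w hw g => (m _).2 ⟨hD.conj_mem w ((m w).1 hw).1 g, fun x hx o =>
    ((m w).1 hw).2 _ (hD.conj_mem x hx g⁻¹) (by simpa [mul_assoc] using o.conj g⁻¹)⟩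
  have h2 : (Subgroup.closure W).Normal := ⟨fun n hn g => by
    have := Subgroup.mem_map_of_mem (MulAut.conj g).toMonoidHom hn
    rw [MonoidHom.map_closure] at this
    exact Subgroup.closure_mono (by rintro _ ⟨w, hw, rfl⟩; exact h1 w hw g) this⟩
  have h3 := hD.h5baer (W := W) (fun w hw => ((m w).1 hw).1) (fun a ha b hb => by
    simpa [hD.h5inv ((m b).1 hb).1, mul_assoc] using h1 a ha b) fun a ha b hb => ((m a).1 ha).2 b ((m b).1 hb).1
  have h4 : ∀ a ∈ D, (∃ a' ∈ elemComponentOf (OddAdj D) D a, a' ≠ a) → ∀ b ∈ D, a * b ∈ D →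
      b ∈ elemComponentOf (OddAdj D) D a ∪ W := fun a ha ⟨a', h, n⟩ b hb hab => by
    obtain ⟨x, hx, o⟩ := h5Onon h.2 n
    refine or_iff_not_imp_right.2 fun c => ?_
    obtain ⟨y, hy, o'⟩ : ∃ y ∈ D, Od b y := by simpa [m, hb] using c
    exact ⟨hb, hD.h5lp ha hb hab hx hy o o'⟩
  have h5 : ∀ {a b}, b ∈ elemComponentOf (OddAdj D) D a → elemComponentOf (OddAdj D) D a = elemComponentOf (OddAdj D) D b :=
    fun h => Set.ext fun _ => and_congr_right fun _ => ⟨(h5Osymm h.2).trans, h.2.trans⟩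
  refine ⟨h1, h2, h3, Set.ext fun d => ⟨fun ⟨h, hd⟩ => (m d).2 ⟨hd, fun x hx => hD.h5two h3 hd hx (mul_mem h (by
    simpa [hD.h5inv hx, mul_assoc] using h2.conj_mem d h x))⟩, fun h => ⟨Subgroup.subset_closure h, ((m d).1 h).1⟩⟩,
    fun a ha b hb n1 n2 n => ?_, fun a ha n b hb => h4 a ha n b hb.1.1 (hb.1.2.1 ▸ hb.2)⟩
  rcases hD.h5tri ha hb with h | h | h
  · simp [h]
  · exact (n (h5 ⟨hb, .single ⟨ha, hb, h⟩⟩)).elim
  · obtain ⟨hz, -, k1, k2⟩ := hD.h5cm ha hb h.1
    rw [hD.h5inv ha, hD.h5inv hb, mul_assoc, mul_assoc]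
    exact Subgroup.subset_closure ((h4 a ha n1 _ hz k1).elim (fun c => (h4 b hb n2 _ hz k2).resolve_left fun c' =>
      n ((h5 c).trans (h5 c').symm)) id)

end Cfsg.Agent.S5045
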