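import Cfsg.Statements.S5046
import Cfsg.Agent.H5.RI1

set_option autoImplicit false
open Cfsg

namespace Cfsg.Agent.S5046

open H5.RI

/-- Let G be a finite group generated by a set D of root involutions whose odd-order-product graph is connected, and d ∈ D. Then the members e of D with the same commuting members as d are exactly those for which the union of the commuting members of d and the members whose product with d has order 4 equals the corresponding union for e. -/
theorem result {G : Type*} [Group G] [Finite G] {D : Set G} (hD : Cfsg.IsRootInvolutionSet D)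
    (hc : Cfsg.IsConnectedSet (Cfsg.OddAdj D) D) {d : G} (hd : d ∈ D) :
    Cfsg.sameCommutingClass D d =
      {e | e ∈ D ∧ Cfsg.commutingMembers D d ∪ Cfsg.fourPartners D d = Cfsg.commutingMembers D e ∪ Cfsg.fourPartners D e} := by
  have m : ∀ {d}, d ∈ D → ∀ x, x ∈ commutingMembers D d ∪ fourPartners D d ↔ x ∈ D ∧ ¬ Od d x := fun {d} hd x =>
    ⟨fun h => h.elim (fun h => ⟨h.1, fun o => hD.h5odnc hd h.1 o h.2.symm⟩) fun h => ⟨h.1, fun o => o.not_fo h.2⟩,
      fun h => (hD.h5tri hd h.1).elim (fun c => Or.inl ⟨h.1, c.symm⟩) fun c => Or.inr ⟨h.1, (c.resolve_left h.2).1⟩⟩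
  ext e
  refine ⟨fun h => ⟨h.1, Set.ext fun x => ?_⟩, fun h => (hD.h5Eiff hc hd h.1).2 fun x hx => not_iff_not.1 ?_⟩
  · rw [m hd, m h.1]; exact and_congr_right fun hx => ((hD.h5Eiff hc hd h.1).1 h x hx).not
  · simpa [m hd, m h.1, hx] using Set.ext_iff.1 h.2 x

end Cfsg.Agent.S5046
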