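import Cfsg.Statements.S5047
import Cfsg.Agent.H5.RI1

set_option autoImplicit false
open Cfsg

namespace Cfsg.Agent.S5047

open H5.RI

/-- Let G be a finite group generated by a set D of root involutions whose odd-order-product graph is connected, a ∈ D, and b a member of D different from a, commuting with a, with ab ∈ D, but not having the same commuting members as a. Then some member x of D with bx of order 4 has ax of order 3. -/
theorem result {G : Type*} [Group G] [Finite G] {D : Set G} (hD : Cfsg.IsRootInvolutionSet D)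
    (hc : Cfsg.IsConnectedSet (Cfsg.OddAdj D) D) {a b : G} (ha : a ∈ D) (hb : b ∈ Cfsg.productPartners D a)
    (hbE : b ∉ Cfsg.sameCommutingClass D a) : ∃ x ∈ Cfsg.fourPartners D b, orderOf (a * x) = 3 := by
  obtain ⟨⟨hb, c, -⟩, hab⟩ := hb
  obtain ⟨w, hw, f, e⟩ := hD.h5P' hc ha hb (c ▸ hab) hbE
  obtain ⟨-, e1, -, k⟩ := e ▸ hD.h5cm ha hw f
  have k' := hD.h5lc hw hb k ▸ k
  obtain ⟨u, hu, f', e'⟩ := hD.h5P' hc hb hw k' fun h => hD.h5fonc ha hw f (h.2.le ⟨ha, c.symm⟩).2
  exact ⟨u, ⟨hu, f'⟩, hD.h5S4 hw ha hu f.symm e1 f' e'⟩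

end Cfsg.Agent.S5047
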