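import Cfsg.Statements.S5048
import Cfsg.Agent.H5.RI1

set_option autoImplicit false
open Cfsg

namespace Cfsg.Agent.S5048

open H5.RI

/-- Let G be a finite group generated by a set D of root involutions whose odd-order-product graph is connected, with some product of two different commuting members of D again in D. Then the largest solvable normal subgroup of G is the preimage of the centre of G/O₂(G), and the quotient of G by it is a simple group. -/
theorem result {G : Type*} [Group G] [Finite G] {D : Set G} (hD : Cfsg.IsRootInvolutionSet D)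
    (hc : Cfsg.IsConnectedSet (Cfsg.OddAdj D) D) (hDD : (D ∩ Cfsg.commutingProducts D).Nonempty) :
    Cfsg.solvableRadical G = Cfsg.twoZCore G ∧ IsSimpleGroup (G ⧸ Cfsg.twoZCore G) := by
  obtain ⟨_, hab, a, ha, b, hb, -, -, rfl⟩ := hDD
  have hQ : IsPGroup 2 (pCore 2 G) := H7.pCore_eq (G := G) 2 ▸ H7.isPGroup_Op 2 ⊤
  have top : ∀ (N : Subgroup G) [N.Normal], ∀ d ∈ D, d ∈ N → N = ⊤ := fun N hN d hd h =>
    top_le_iff.1 (hD.generates.ge.trans ((Subgroup.closure_le _).2 fun e he => by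
      obtain ⟨g, rfl⟩ := hD.h5Oconj (hc d hd e he); exact hN.conj_mem d h g))
  have key : ∀ (N : Subgroup G) [N.Normal], N = ⊤ ∨ N ≤ twoZCore G := fun N hN => or_iff_not_imp_left.2 fun n => by
    have k1 : ∀ x ∈ N, ¬ Od a (x * a * x⁻¹) := fun x hx o => by
      have ha' := hD.conj_mem a ha x
      have m : cm b (x * a * x⁻¹) ∈ N := by
        convert mul_mem (mul_mem (mul_mem (hN.conj_mem x hx b) (hN.conj_mem _ (inv_mem hx) (b * a))) (hN.conj_mem x hx a)) (inv_mem hx) using 1
        simp [cm, mul_assoc, hD.h5inv hb, hD.h5inv ha, hD.h5sq' hb, hD.h5sq' ha, ← mul_assoc a b, hD.h5lc ha hb hab]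
      rcases hD.h5tri hb ha' with h | h | h
      · exact hD.h5L1 ha hb hab ha' o h
      · obtain ⟨j, e⟩ := odd_sqrt h.2
        have := pow_mem m j
        rw [cm, ← mul_assoc, e] at this
        refine n (top N _ hab ?_)
        convert mul_mem (mul_mem this hx) (hN.conj_mem _ (inv_mem hx) a) using 1
        simp [mul_assoc, hD.h5inv ha, hD.h5sq' ha, hD.h5lc ha hb hab]
      · exact n (top N _ h.2 m)
    let W := {d | ∃ x ∈ N, d = x * a * x⁻¹}
    have w1 : ∀ d ∈ W, ∀ x ∈ N, x * d * x⁻¹ ∈ W := by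
      rintro _ ⟨y, hy, rfl⟩ x hx; exact ⟨x * y, mul_mem hx hy, by group⟩
    have w2 := hD.h5baer (W := W) (by rintro _ ⟨x, -, rfl⟩; exact hD.conj_mem a ha x) (by
      rintro _ ⟨x, hx, rfl⟩ _ ⟨y, hy, rfl⟩
      exact ⟨y * (a * (y⁻¹ * x) * a⁻¹), mul_mem hy (hN.conj_mem _ (mul_mem (inv_mem hy) hx) a), by
        simp [mul_assoc, hD.h5inv ha, hD.h5sq' ha]⟩) (by
      rintro _ ⟨x, hx, rfl⟩ _ ⟨y, hy, rfl⟩ o
      exact k1 (x⁻¹ * y) (mul_mem (inv_mem hx) hy) (by simpa [mul_assoc] using o.conj x⁻¹))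
    have w3 : Subgroup.closure W ⊓ N ≤ pCore 2 G := (H7.le_Op (H := N) inf_le_right (H7.nrm_inf
      (H7.nrm_closure fun x hx d hd => w1 d hd x hx) (H7.le_nrm_self _)) (w2.to_le inf_le_left)).trans
      (le_sSup ⟨Subgroup.normalizer_eq_top_iff.1 (top_le_iff.1 (H7.nrm_Opi _ (Subgroup.normalizer_eq_top N).ge)), H7.isPGroup_Op 2 N⟩)
    have w4 : ∀ x ∈ N, (QuotientGroup.mk' (pCore 2 G) x) * QuotientGroup.mk' _ a = QuotientGroup.mk' _ a * QuotientGroup.mk' _ x :=
      fun x hx => by
        rw [← commutatorElement_eq_one_iff_mul_comm, ← map_commutatorElement, QuotientGroup.mk'_apply, QuotientGroup.eq_one_iff]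
        exact w3 <| Subgroup.mem_inf.2 ⟨mul_mem (Subgroup.subset_closure ⟨x, hx, rfl⟩) (inv_mem (Subgroup.subset_closure ⟨1, one_mem _, by simp⟩)),
          by simpa [commutatorElement_def, mul_assoc] using mul_mem hx (hN.conj_mem _ (inv_mem hx) a)⟩
    intro x hx
    have : (Subgroup.centralizer {QuotientGroup.mk' (pCore 2 G) x}).comap (QuotientGroup.mk' (pCore 2 G)) = ⊤ :=
      top_le_iff.1 (hD.generates.ge.trans ((Subgroup.closure_le _).2 fun e he => by
        obtain ⟨g, rfl⟩ := hD.h5Oconj (hc a ha e he)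
        refine Subgroup.mem_centralizer_singleton_iff.2 ?_
        simpa [mul_assoc] using congrArg (fun y => (g : G ⧸ pCore 2 G) * y * (g : G ⧸ pCore 2 G)⁻¹)
          (w4 _ (hN.conj_mem x hx g⁻¹)).symm))
    refine Subgroup.mem_center_iff.2 ?_
    rintro ⟨g⟩
    exact Subgroup.mem_centralizer_singleton_iff.1 (this.ge (Subgroup.mem_top g))
  have pf : Group.IsPerfect G := ⟨top _ _ hab (by
    obtain ⟨g, e⟩ := hD.h5Oconj (hc a ha b hb)
    have := Subgroup.commutator_mem_commutator (Subgroup.mem_top a) (Subgroup.mem_top g)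
    simpa [e, commutator,  commutatorElement_def, hD.h5inv ha, mul_assoc] using this)⟩
  have : Nontrivial G := ⟨a, 1, hD.h5ne ha⟩
  have ns : ∀ N : Subgroup G, Group.IsSolvable N → N ≠ ⊤ := by
    rintro _ h rfl
    exact Group.IsPerfect.not_isSolvable _ h
  have sol : Group.IsSolvable (twoZCore G) := by
    have := hQ.isNilpotent
    have : Group.IsSolvable (Subgroup.center (G ⧸ pCore 2 G)) := Group.isSolvable_of_comm fun a b => Subtype.ext (Subgroup.mem_center_iff.1 b.2 a)
    refine Group.isSolvable_of_ker_le_range (Subgroup.inclusion (show pCore 2 G ≤ twoZCore G from fun x hx => by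
      simp [twoZCore, (QuotientGroup.eq_one_iff x).2 hx])) ((QuotientGroup.mk' (pCore 2 G)).subgroupComap _) fun x hx => ?_
    exact ⟨⟨x, (QuotientGroup.eq_one_iff _).1 (congrArg Subtype.val hx)⟩, rfl⟩
  refine ⟨le_antisymm (sSup_le fun N hN => (@key N hN.1).resolve_left (ns N hN.2)) (le_sSup ⟨inferInstance, sol⟩),
    @IsSimpleGroup.mk _ _ (QuotientGroup.nontrivial_iff.2 (ns _ sol)) fun N hN => ?_⟩
  rcases key (N.comap (QuotientGroup.mk' _)) with e | e
  · exact Or.inr (top_le_iff.1 (by rintro ⟨x⟩ -; exact e.ge trivial))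
  · exact Or.inl (eq_bot_iff.2 (by rintro ⟨x⟩ hx; exact (QuotientGroup.eq_one_iff x).2 (e hx)))

end Cfsg.Agent.S5048
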