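import Cfsg.Statements.S5049
import Cfsg.Agent.H5.RI1

set_option autoImplicit false
open Cfsg

namespace Cfsg.Agent.S5049

open H5.RI

/-- Let G be a finite group generated by a set D of odd transpositions (root involutions with no product of order 4), Q = O₂(G), and for a ∈ D let Q_a be the commutator subgroup of Q with a. Then every member of D commuting with a centralizes Q_a; and for b ∈ D with ab of odd order greater than 1, the centralizer of ab in Q is the intersection of the centralizers of a and b in Q. -/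
theorem result {G : Type*} [Group G] [Finite G] {D : Set G} (hD : Cfsg.IsOddTranspositionSet D) {a : G} (ha : a ∈ D) :
    (∀ e ∈ Cfsg.commutingMembers D a, ∀ q ∈ ⁅Cfsg.pCore 2 G, Subgroup.zpowers a⁆, e * q = q * e) ∧
    (∀ b ∈ Cfsg.oddPartners D a,
      Cfsg.pCore 2 G ⊓ Subgroup.centralizer {a * b} = Cfsg.pCore 2 G ⊓ Subgroup.centralizer {a} ⊓ Subgroup.centralizer {b}) := by
  have hQ : IsPGroup 2 (pCore 2 G) := H7.pCore_eq (G := G) 2 ▸ H7.isPGroup_Op 2 ⊤
  have hN : (pCore 2 G).Normal := inferInstance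
  generalize pCore 2 G = Q at *
  have h := hD.1
  have k : ∀ e ∈ D, e * a = a * e → ∀ q ∈ Q, e * (q * a * q⁻¹) = q * a * q⁻¹ * e := fun e he c q hq => by
    have ha' := h.conj_mem a ha q
    refine ((h.h5tri he ha').resolve_right fun o => o.elim (h.h5two hQ he ha' ?_) fun f => hD.2 e he _ ha' f.1)
    convert mul_mem (mul_mem (mul_mem (hN.conj_mem q hq e) (hN.conj_mem _ (inv_mem hq) (e * a))) (hN.conj_mem q hq a)) (inv_mem hq) using 1
    simp [cm, mul_assoc, h.h5inv he, h.h5inv ha, h.h5sq' he, h.h5sq' ha, ← mul_assoc a e, ← c]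
  refine ⟨fun e he q hq => ?_, fun b hb => le_antisymm (fun q hq => ?_) fun q hq => ⟨hq.1.1, ?_⟩⟩
  · refine Subgroup.mem_centralizer_singleton_iff.1 (Subgroup.commutator_le.2 (fun q hq x hx => ?_) hq) |>.symm
    obtain ⟨n, rfl⟩ := hx
    have c1 : Commute e (q * a * q⁻¹) := k e he.1 he.2 q hq
    have c2 : Commute e a := he.2
    refine Subgroup.mem_centralizer_singleton_iff.2 (Commute.symm ?_)
    simpa [commutatorElement_def] using (c1.zpow_right n).mul_right (c2.zpow_right n).inv_right
  · have c : Commute q (a * b) := Subgroup.mem_centralizer_singleton_iff.1 hq.2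
    have ha' := h.conj_mem a ha q
    have c2 : q * a = a * q := by
      by_contra n
      refine hb.2.1 (h.h5eq ha (h.h5E (c := q * a * q⁻¹ * a) ha' hb.1 (h.h5csq ha' ha (k a ha rfl q hq.1).symm)
        (fun e => n (mul_inv_eq_iff_eq_mul.1 (h.h5eq ha' e))) ?_ hb.2.2 (by simp [mul_assoc, h.h5sq' ha]))).symm
      have c3 : Commute (a * q⁻¹ * a) (a * b) := by
        have := (c.inv_left.inv_right).conj a
        simpa [h.h5inv ha, h.h5inv hb.1, mul_assoc, h.h5sq' ha, h.h5sq ha] using this
      simpa [mul_assoc] using c.mul_left c3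
    refine ⟨⟨hq.1, Subgroup.mem_centralizer_singleton_iff.2 c2⟩, Subgroup.mem_centralizer_singleton_iff.2 ?_⟩
    simpa [h.h5sq' ha] using (Commute.mul_right c2 c).eq
  · exact Subgroup.mem_centralizer_singleton_iff.2 (Commute.mul_right (Subgroup.mem_centralizer_singleton_iff.1 hq.1.2)
      (Subgroup.mem_centralizer_singleton_iff.1 hq.2))

end Cfsg.Agent.S5049
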