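import Cfsg.Statements.S5057


set_option autoImplicit false
open Cfsg

namespace Cfsg.Agent.S5057

set_option maxRecDepth 100000 in
theorem aux : ∀ g : Equiv.Perm (Fin 6), Equiv.Perm.sign g = 1 → g ^ 3 = 1 ∨ g ^ 4 = 1 ∨ g ^ 5 = 1 := by
  decide +kernel

theorem ord (g : alternatingGroup (Fin 6)) : orderOf g = 1 ∨ orderOf g = 2 ∨ orderOf g = 3 ∨ orderOf g = 4 ∨
    orderOf g = 5 := by
  rw [← Subgroup.orderOf_coe]
  rcases aux g g.2 with h | h | h <;>
  · have h1 := orderOf_dvd_of_pow_eq_one h
    have h2 := Nat.le_of_dvd (by norm_num) h1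
    have h3 := orderOf_pos (g : Equiv.Perm (Fin 6))
    omega

theorem ct {g : alternatingGroup (Fin 6)} (h : orderOf g = 2) :
    (g : Equiv.Perm (Fin 6)).cycleType = Multiset.replicate 2 2 := by
  rw [← Subgroup.orderOf_coe] at h
  obtain ⟨n, hn⟩ := Equiv.Perm.cycleType_prime_order (σ := (g : Equiv.Perm (Fin 6))) (h ▸ Nat.prime_two)
  have h1 := Equiv.Perm.sum_cycleType_le (g : Equiv.Perm (Fin 6))
  have h2 := (Equiv.Perm.sign_of_cycleType (g : Equiv.Perm (Fin 6))).symm.trans (Equiv.Perm.mem_alternatingGroup.1 g.2)
  rw [hn, h] at h1 h2 ⊢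
  simp at h1
  have : n ≤ 2 := by omega
  interval_cases n
  · exact absurd h2 (by decide)
  · rfl
  · exact absurd h2 (by decide)

/-- The involutions of the alternating group of degree 6 form a class of root involutions (a single conjugacy class of involutions generating the group, any two of which commute, have product of odd order, or have product of order 4 whose square is again an involution of the class), and the product of any two of them has order at most 5. -/
theorem result :
    Cfsg.IsRootInvolutionClass {g : ↥(alternatingGroup (Fin 6)) | orderOf g = 2} ∧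
    ∀ d ∈ {g : ↥(alternatingGroup (Fin 6)) | orderOf g = 2}, ∀ e ∈ {g : ↥(alternatingGroup (Fin 6)) | orderOf g = 2},
      orderOf (d * e) ≤ 5 := by
  have d0 : orderOf (⟨Equiv.swap 0 1 * Equiv.swap 2 3, Equiv.Perm.mem_alternatingGroup.2 (by decide)⟩ :
      alternatingGroup (Fin 6)) = 2 := orderOf_eq_prime (by decide) (by decide)
  have cj : ∀ d g : alternatingGroup (Fin 6), orderOf d = 2 → orderOf (g * d * g⁻¹) = 2 := fun d g h => by
    rw [← h]; exact (SemiconjBy.orderOf_eq g (by simp [SemiconjBy])).symm
  refine ⟨⟨⟨fun d h => h, ?_, fun d h g => cj d g h, fun a ha b hb => ?_⟩, ⟨_, d0⟩, fun a ha b hb => ?_⟩,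
    fun d _ e _ => by have := ord (d * e); omega⟩
  · haveI := alternatingGroup.isSimpleGroup (α := Fin 6) (by simp)
    have : (Subgroup.closure {g : ↥(alternatingGroup (Fin 6)) | orderOf g = 2}).Normal := by
      refine ⟨fun x hx g => ?_⟩
      induction hx using Subgroup.closure_induction with
      | mem x hx => exact Subgroup.subset_closure (cj x g hx)
      | one => simp
      | mul x y _ _ hx hy => simpa using mul_mem hx hy
      | inv x _ hx => simpa [mul_assoc] using inv_mem hx
    refine this.eq_bot_or_eq_top.resolve_left fun e => ?_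
    have m := Subgroup.subset_closure (k := {g : ↥(alternatingGroup (Fin 6)) | orderOf g = 2}) d0
    rw [e] at m
    rw [Subgroup.mem_bot.1 m] at d0; simp at d0
  · have i : ∀ x : alternatingGroup (Fin 6), orderOf x = 2 → x⁻¹ = x := fun x hx =>
      inv_eq_of_mul_eq_one_left (by rw [← pow_two, ← hx, pow_orderOf_eq_one])
    rcases ord (a * b) with h | h | h | h | h
    · right; left; rw [h]; decide
    · left; rw [← i _ h, mul_inv_rev, i a ha, i b hb]
    · right; left; rw [h]; decide
    · right; right
      exact ⟨h, by show orderOf _ = 2; rw [orderOf_pow, h]; rfl⟩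
    · right; left; rw [h]; decide
  · obtain ⟨g, hg⟩ := isConj_iff.1 (alternatingGroup.isConj_of (σ := a) (τ := b)
      (Equiv.Perm.isConj_iff_cycleType_eq.2 ((ct ha).trans (ct hb).symm))
      (by rw [← Equiv.Perm.sum_cycleType, ct ha]; decide))
    exact ⟨g, hg.symm⟩

end Cfsg.Agent.S5057
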