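import Cfsg.Statements.S5058
import Cfsg.Agent.H5.RT3

set_option autoImplicit false
open Matrix
open Cfsg

namespace Cfsg.Agent.S5058

/-- Let F be a finite field of characteristic 2 and n a natural number. Then the transvections of SL_{n+3}(F) (so in every dimension at least 3) (the conjugates of the elementary matrices 1 + c E₁₂, c ≠ 0) form a class of root involutions of SL_{n+3}(F); when F has two elements they form a class of {3,4}⁺-transpositions (every product of odd order has order 1 or 3). -/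
theorem result (F : Type*) [Field F] [Fintype F] [CharP F 2] (n : ℕ) :
    Cfsg.IsRootInvolutionClass {t : Matrix.SpecialLinearGroup (Fin (n + 3)) F | ∃ c : F, c ≠ 0 ∧
        ∃ g : Matrix.SpecialLinearGroup (Fin (n + 3)) F, ((g⁻¹ * t * g : Matrix.SpecialLinearGroup (Fin (n + 3)) F) :
          Matrix (Fin (n + 3)) (Fin (n + 3)) F) = Matrix.transvection 0 1 c} ∧
    (Fintype.card F = 2 → Cfsg.IsThreeFourPlusTranspositionSet {t : Matrix.SpecialLinearGroup (Fin (n + 3)) F | ∃ c : F, c ≠ 0 ∧
        ∃ g : Matrix.SpecialLinearGroup (Fin (n + 3)) F, ((g⁻¹ * t * g : Matrix.SpecialLinearGroup (Fin (n + 3)) F) :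
          Matrix (Fin (n + 3)) (Fin (n + 3)) F) = Matrix.transvection 0 1 c}) := by
  simp only [H5.RT.setD (i := (0 : Fin (n + 3))) (j := 1) (by simp)]
  refine ⟨⟨H5.RT.rootD, ⟨SpecialLinearGroup.transvection (i := (0 : Fin (n + 3))) (j := 1) (by simp) 1,
    (H5.RT.setD (i := (0 : Fin (n + 3))) (j := 1) (by simp) _).1 ⟨1, one_ne_zero, 1, by simp; rfl⟩⟩,
    fun a ha b hb => H5.RT.clsD (i := (0 : Fin (n + 3))) (j := 1) (l := ⟨2, by omega⟩) (by simp)
      (by simp [Fin.ext_iff]) (by simp [Fin.ext_iff]) ha hb⟩, fun h => ⟨H5.RT.rootD, fun a ha b hb o => ?_⟩⟩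
  rcases H5.RT.famSL.tri2 ha hb with e | e | e
  · left
    have h2 : (a * b) ^ 2 = 1 := by
      rw [(show Commute a b from e).mul_pow, orderOf_dvd_iff_pow_eq_one.1 (H5.RT.famSL.inv2 ha).dvd,
        orderOf_dvd_iff_pow_eq_one.1 (H5.RT.famSL.inv2 hb).dvd, one_mul]
    rcases (Nat.dvd_prime Nat.prime_two).1 (orderOf_dvd_of_pow_eq_one h2) with e | e
    · exact e
    · rw [e] at o; exact absurd o (by decide)
  · exact (Nat.dvd_prime Nat.prime_three).1 (orderOf_dvd_of_pow_eq_one (e.2 (by rw [Nat.card_eq_fintype_card, h])))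
  · rw [e.1] at o; exact absurd o (by decide)

end Cfsg.Agent.S5058
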