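import Cfsg.Statements.S5060
import Cfsg.Agent.H5.RS7

set_option autoImplicit false
open Cfsg

namespace Cfsg.Agent.S5060

open H5.RS Matrix Polynomial
open scoped MatrixGroups IntermediateField

/-- Let k ⊆ K be fields with the characteristic of k not 2 and k not of order 3, and let α ∈ K be a non-zero element algebraic over k. Then the subgroup of SL₂(K) generated by the upper unitriangular matrices with entry c and the lower unitriangular matrices with entry cα, c ranging over k, is exactly the group of matrices of SL₂(K) with all entries in k(α). -/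
theorem result {k K : Type*} [Field k] [Field K] [Algebra k K] (hk2 : ringChar k ≠ 2) (hk3 : Nat.card k ≠ 3)
    (α : K) (hα : IsAlgebraic k α) (hα0 : α ≠ 0) :
    (Subgroup.closure ({g : Matrix.SpecialLinearGroup (Fin 2) K | ∃ c : k, (g : Matrix (Fin 2) (Fin 2) K) = !![1, algebraMap k K c; 0, 1]} ∪
        {g : Matrix.SpecialLinearGroup (Fin 2) K | ∃ c : k, (g : Matrix (Fin 2) (Fin 2) K) = !![1, 0; algebraMap k K c * α, 1]}) :
      Set (Matrix.SpecialLinearGroup (Fin 2) K)) =
    {g : Matrix.SpecialLinearGroup (Fin 2) K | ∀ i j : Fin 2, (g : Matrix (Fin 2) (Fin 2) K) i j ∈ IntermediateField.adjoin k ({α} : Set K)} := by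
  refine Set.Subset.antisymm (fun g hg => ?_) fun g hg => ?_
  · induction hg using Subgroup.closure_induction'' with
    | one => intro i j; fin_cases i <;> fin_cases j <;> simp
    | mul x y _ _ h1 h2 => exact fun i j => sl_mul x y i j ▸ add_mem (mul_mem (h1 _ _) (h2 _ _)) (mul_mem (h1 _ _) (h2 _ _))
    | mem x hx =>
      rcases hx with ⟨c, e⟩ | ⟨c, e⟩ <;> intro i j <;> fin_cases i <;> fin_cases j <;> simp [e]
      exact mul_mem (IntermediateField.algebraMap_mem _ c) (IntermediateField.mem_adjoin_simple_self k α)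
    | inv_mem x hx =>
      rcases hx with ⟨c, e⟩ | ⟨c, e⟩ <;> intro i j <;> fin_cases i <;> fin_cases j <;> simp [e]
      exact mul_mem (IntermediateField.algebraMap_mem _ c) (IntermediateField.mem_adjoin_simple_self k α)
  · have := zal (K := k⟮α⟯) (l := IntermediateField.AdjoinSimple.gen k α) (H := (Subgroup.closure
      ({g : SL(2, K) | ∃ c : k, (g : Matrix (Fin 2) (Fin 2) K) = !![1, algebraMap k K c; 0, 1]} ∪
        {g : SL(2, K) | ∃ c : k, (g : Matrix (Fin 2) (Fin 2) K) = !![1, 0; algebraMap k K c * α, 1]})).comap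
        (SpecialLinearGroup.map (algebraMap k⟮α⟯ K))) hk2 hk3 (fun e => hα0 (congrArg Subtype.val e))
      (IntermediateField.isAlgebraic_iff.2 hα) (fun x => ((IntermediateField.adjoin.powerBasis hα.isIntegral).exists_eq_aeval' x).imp fun _ h => h.symm)
      (fun c => Subgroup.subset_closure (Or.inl ⟨c, by ext i j; fin_cases i <;> fin_cases j <;> simp⟩))
      (fun c => Subgroup.subset_closure (Or.inr ⟨c, by ext i j; fin_cases i <;> fin_cases j <;> simp⟩))
    have h := this.ge (Subgroup.mem_top ⟨!![⟨_, hg 0 0⟩, ⟨_, hg 0 1⟩; ⟨_, hg 1 0⟩, ⟨_, hg 1 1⟩],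
      by rw [det_fin_two_of]; exact Subtype.ext (sl_det g)⟩)
    refine SetLike.mem_coe.2 (Eq.subst (motive := (· ∈ _)) ?_ (Subgroup.mem_comap.1 h))
    ext i j; fin_cases i <;> fin_cases j <;> rfl

end Cfsg.Agent.S5060
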