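import Cfsg.Statements.S5063
import Cfsg.Agent.H5.QP10

set_option autoImplicit false
universe u
open Cfsg

namespace Cfsg.Agent.S5063

open H5.QP H5.RS Module

variable {k : Type*} [Field k] {M : Type*} [AddCommGroup M] [Module k M]

/-- the factors -/
structure PP (G L : Subgroup (End k M)ˣ) : Prop where
  le : L ≤ G
  nor : ∀ g ∈ G, conjBy L g = L
  nc : ¬ Comm L L
  pf : L ≤ ⁅L, L⁆
  sim : ∀ N ≤ L, (∀ g ∈ L, ∀ n ∈ N, g * n * g⁻¹ ∈ N) → L ≤ N ∨ Comm N L
  gen : Subgroup.closure (quadraticElements G ∩ L) = L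
  dich : ∀ q ∈ quadraticElements G, q ∈ L ∨ ∀ x ∈ L, q * x = x * q

variable [FiniteDimensional k M] {G L L' : Subgroup (End k M)ˣ}

theorem PP.comm (hG : IsIrreducibleFor G) (h : PP G L) (h' : PP G L') (hn : L ≠ L') : Comm L L' := by
  have : ∀ {L L'}, PP G L → PP G L' → ∀ q ∈ quadraticElements G, q ∈ L → q ∈ L' → L ≤ L' := fun {L L'} h h' q hq h1 h2 => by
    refine ((h.sim (L ⊓ L') inf_le_left fun g hg n hn => Subgroup.mem_inf.2 ⟨mul_mem (mul_mem hg hn.1) (inv_mem hg),
      h'.nor g (h.le hg) ▸ H5.RS.conj_mem hn.2⟩).resolve_right fun c => ?_).trans inf_le_right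
    obtain ⟨a, b⟩ := mem_Q.1 hq
    have n : Nop (TG G) _ _ := ⟨a, a, fun _ h => by rw [cls_r h a.1, mul_zero], fun _ h => by rw [cls_r h a.1, mul_zero]⟩
    have := red_of hG h.le h.nor (Subgroup.zpowers q) (Subgroup.zpowers_le.2 h1)
      (n.unip (Subgroup.zpowers_le.2 (Subgroup.mem_sup_left (EE_of (cls_self a) (by simp))))) fun g hg u hu => by
        rwa [mul_assoc, c u (Subgroup.zpowers_le.2 (Subgroup.mem_inf.2 ⟨h1, h2⟩) hu) g hg, inv_mul_cancel_left]
    rw [Subgroup.zpowers_eq_bot.1 this] at b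
    simp at b
  intro a ha b hb
  refine (h.gen.ge.trans ((Subgroup.closure_le (Subgroup.centralizer L')).2 fun q hq x hx => ?_) ha b hb).symm
  exact (((h'.dich q hq.1).resolve_left fun c => hn (le_antisymm (this h h' q hq.1 hq.2 c) (this h' h q hq.1 c hq.2))) x hx).symm

theorem cover (hk2 : ringChar k ≠ 2) (hk3 : Nat.card k ≠ 3) (hG : IsQuadraticPair G) {q : (End k M)ˣ} (hq : q ∈ quadraticElements G) :
    ∃ L, PP G L ∧ q ∈ L := by
  by_contra! hc
  let Q := {q ∈ quadraticElements G | ∀ L, PP G L → ∀ x ∈ L, q * x = x * q}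
  have c0 : Subgroup.closure Q ≤ G := (Subgroup.closure_le _).2 fun x hx => hx.1.1
  have c1 : ∀ L, PP G L → Comm (Subgroup.closure Q) L := fun L h a ha b hb =>
    ((Subgroup.closure_le (Subgroup.centralizer L)).2 (fun q hq x hx => (hq.2 L h x hx).symm) ha b hb).symm
  have c2 : ∀ q ∈ Q, InQ (TG (Subgroup.closure Q)) ((q : End k M) - 1) := fun q hq => by
    obtain ⟨a, b⟩ := mem_Q.1 hq.1
    refine ⟨a.1, fun c => ?_⟩
    by_cases c0 : c = 0
    · simp [c0]
    obtain ⟨g, e⟩ := un_ex (a.smul c).1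
    refine e ▸ mem_TG.2 (Subgroup.subset_closure ⟨mem_Q.2 (by simpa [e, c0, b] using a.smul c), fun L h x hx => Units.ext ?_⟩)
    have : (q : End k M) * x = x * q := congrArg Units.val (hq.2 L h x hx)
    simp [e, add_mul, mul_add, sub_mul, mul_sub, this]
  have c3 : ∀ g ∈ G, conjBy (Subgroup.closure Q) g ≤ Subgroup.closure Q := fun g hg => by
    rw [conjBy, MonoidHom.map_closure]
    refine Subgroup.closure_mono ?_
    rintro _ ⟨q, hq, rfl⟩
    obtain ⟨a, b⟩ := mem_Q.1 hq.1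
    refine ⟨mem_Q.2 ⟨by simpa [mul_sub, sub_mul] using a.conj (mem_TG.2 hg) (mem_TG.2 (inv_mem hg)) (by simp) (by simp), fun e => b ?_⟩,
      fun L h x hx => ?_⟩
    · simpa [mul_sub, sub_mul, mul_assoc] using congrArg (fun z => (g⁻¹ : (End k M)ˣ) * z * (g : End k M)) e
    · simpa [mul_assoc] using congrArg (fun z => g * z * g⁻¹) (hq.2 L h _ (mem_conjBy.1 ((h.nor g hg).ge hx)))
  have hq' : q ∈ Q := ⟨hq, fun L h => (h.dich q hq).resolve_left (hc L h)⟩
  have c4 : ∀ q ∈ quadraticElements G, q ∈ Q ∨ ∀ x ∈ Subgroup.closure Q, q * x = x * q := fun q hq =>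
    or_iff_not_imp_left.2 fun a x hx => by
      obtain ⟨L, h, b⟩ : ∃ L, PP G L ∧ q ∈ L := by
        by_contra! b
        exact a ⟨hq, fun L h => (h.dich q hq).resolve_left (b L h)⟩
      exact (c1 L h x hx q b).symm
  have c5 : ∀ {p : (End k M)ˣ → Prop}, p 1 → (∀ q ∈ Q, p q) → (∀ q ∈ Q, p q⁻¹) → (∀ x y, p x → p y → p (x * y)) →
      ∀ g ∈ Subgroup.closure Q, p g := fun h0 h1 h2 h3 g hg => by
    induction hg using Subgroup.closure_induction'' with
    | one => exact h0
    | mul x y _ _ h h' => exact h3 x y h h'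
    | mem x hx => exact h1 x hx
    | inv_mem x hx => exact h2 x hx
  have c6 : Q ⊆ Subgroup.closure Q := Subgroup.subset_closure
  generalize Subgroup.closure Q = C at *
  have hR : Red C := red_of hG.1 c0 fun g hg => le_antisymm (c3 g hg) (by
    simpa [conjBy_conjBy, conjBy_one] using conjBy_mono (c3 _ (inv_mem hg)) g)
  obtain ⟨d, hm, h1, -⟩ := ex_min hk2 hk3 C
  obtain ⟨σ, s1, s2⟩ := (measure commutatorRank).wf.has_min _ ⟨q, mem_Q.2 ⟨c2 q hq', (mem_Q.1 hq).2⟩⟩
  have hA : EE (TG C) _ ∈ Sg (TG C) d := ⟨_, (h1 σ).1 ⟨s1, fun τ h => not_lt.1 (s2 τ h)⟩, rfl⟩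
  generalize EE (TG C) _ = A at hA
  have hΓ : ∀ g ∈ C, ∀ B ∈ cp C d A, conjBy B g ∈ cp C d A := c5 (by simp [conjBy_one])
    (fun q hq B => hm.q_norm hR (c2 q hq) (by simp)) (fun q hq B => hm.q_norm hR (c2 q hq).neg (by
      rw [inv_val (c2 q hq).1 (by simp), sub_eq_add_neg])) fun x y hx hy B hB => conjBy_conjBy B y x ▸ hx _ (hy B hB)
  have le : ⨆ B ∈ cp C d A, B ≤ C := cp_le.trans Sg_le'
  have nor : ∀ g ∈ G, conjBy (⨆ B ∈ cp C d A, B) g = ⨆ B ∈ cp C d A, B := fun g hg => conjBy_eq_self.2 (hG.2.ge.trans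
    ((Subgroup.closure_le _).2 fun q hq => conjBy_eq_self.1 ((c4 q hq).elim
      (fun a => conjBy_bisup (fun B hB g hg => hΓ g hg B hB) (c6 a)) fun a => conjBy_of_comm fun x hx => a x (le hx))) hg)
  have nc := hm.rcp_ncomm hR hA
  refine nc ((c1 _ ⟨le.trans c0, nor, nc, hm.rcp_perf hR, fun _ => hm.rcp_norm hR hA,
    le_antisymm ((Subgroup.closure_le _).2 Set.inter_subset_right) (iSup₂_le fun B hB b hb => ?_), fun q hq => ?_⟩).mono le le_rfl)
  · by_cases b1 : b = 1
    · simp [b1]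
    have := mem_bisup hB hb
    obtain ⟨β, h, rfl⟩ := hB.1
    have a := ((mem_EE h.1.1).1 hb).1 h.1.1
    exact Subgroup.subset_closure ⟨mem_Q.2 ⟨⟨a.1, fun c => Submonoid.monotone_map c0 (a.2 c)⟩,
      fun e => b1 (Units.ext (sub_eq_zero.1 e))⟩, this⟩
  refine (c4 q hq).elim (fun a => (hm.q_dich hR hA (fun hB _ hg => hΓ _ hg _ hB) (fun x hx => ?_) (c2 q a)).imp
    (fun a => mem_TG.1 (by simpa using a.2 1)) fun a x hx => Units.ext (by simpa [sub_mul, mul_sub] using a x hx))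
    fun a => Or.inr fun x hx => a x (le hx)
  rcases hG.1.2 (commutatorSubmodule (⨆ B ∈ cp C d A, B)) (fun g hg => (com_le (W := Submodule.comap (g : End k M) (commutatorSubmodule (⨆ B ∈ cp C d A, B)))).2 fun u hu m => by
    simpa [← Module.End.mul_apply, mul_assoc] using com_le.1 le_rfl _ ((nor g hg).le (H5.RS.conj_mem hu)) ((g : End k M) m)) with e | e
  · exact (nc fun a ha b hb => Units.ext (LinearMap.ext fun m => by
      simp [sub_eq_zero.1 (com_le.1 e.le a ha _), sub_eq_zero.1 (com_le.1 e.le b hb _)])).elim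
  · exact LinearMap.ker_eq_top.1 (top_le_iff.1 (e.ge.trans (com_le.2 fun g hg m => by
      simpa [sub_eq_zero] using LinearMap.congr_fun (hx g hg) m)))

/-- Let k be a field of characteristic not 2 with k not of order 3, M a finite-dimensional k-vector space and G ≤ GL(M) such that (G, M) is a quadratic pair (M irreducible for G, and G generated by its quadratically acting elements σ whose scalar family 1 + c(σ − 1), c ∈ k, lies in G). Write 𝒬_d for the quadratic elements of G of minimal commutator rank, E(σ) for the subgroup generated by the members of 𝒬_d with the same fixed space and commutator space as σ, and Σ for the set of these subgroups. Then G is a central product of finitely many quasisimple normal subgroups G₁, …, G_s (pairwise commuting and together generating G), each generated by the quadratic elements of G it contains, and every quadratic element of G lies in one of them. -/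
theorem result {k : Type u} [Field k] (hk2 : ringChar k ≠ 2) (hk3 : Nat.card k ≠ 3)
    {M : Type u} [AddCommGroup M] [Module k M] [FiniteDimensional k M]
    {G : Subgroup (LinearMap.GeneralLinearGroup k M)} (hG : Cfsg.IsQuadraticPair G) :
    ∃ (s : ℕ) (Gi : Fin s → Subgroup (LinearMap.GeneralLinearGroup k M)),
      (∀ i, Gi i ≤ G ∧ ∀ g ∈ G, Cfsg.conjBy (Gi i) g = Gi i) ∧ (∀ i j, i ≠ j → ⁅Gi i, Gi j⁆ = ⊥) ∧ (⨆ i, Gi i) = G ∧
      (∀ i, Cfsg.IsQuasisimple ↥(Gi i) ∧ Subgroup.closure (Cfsg.quadraticElements G ∩ (Gi i : Set (LinearMap.GeneralLinearGroup k M))) = Gi i) ∧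
      Cfsg.quadraticElements G ⊆ ⋃ i, (Gi i : Set (LinearMap.GeneralLinearGroup k M)) := by
  have := fin_of_comm (fun L : {L // PP G L} => L.1) (fun i j h => i.2.comm hG.1 j.2 fun e => h (Subtype.ext e)) fun i => i.2.nc
  obtain ⟨r, ⟨f⟩⟩ := Finite.exists_equiv_fin {L // PP G L}
  have cov : quadraticElements G ⊆ ⋃ i, ((f.symm i).1 : Set (End k M)ˣ) := fun q hq => by
    obtain ⟨L, h, a⟩ := cover hk2 hk3 hG hq
    exact Set.mem_iUnion.2 ⟨f ⟨L, h⟩, by simpa using a⟩
  refine ⟨r, fun i => (f.symm i).1, fun i => ⟨(f.symm i).2.le, (f.symm i).2.nor⟩, fun i j h => comm_iff.2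
    ((f.symm i).2.comm hG.1 (f.symm j).2 fun e => h (f.symm.injective (Subtype.ext e))),
    le_antisymm (iSup_le fun i => (f.symm i).2.le) (hG.2.ge.trans ((Subgroup.closure_le _).2 fun q hq => ?_)),
    fun i => ⟨quasi_of (f.symm i).2.pf (f.symm i).2.nc (f.symm i).2.sim, (f.symm i).2.gen⟩, cov⟩
  obtain ⟨i, h⟩ := Set.mem_iUnion.1 (cov hq)
  exact Subgroup.mem_iSup_of_mem i h

end Cfsg.Agent.S5063
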