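import Cfsg.Statements.S5064
import Cfsg.Agent.H5.QP5

set_option autoImplicit false
universe u
open Cfsg

namespace Cfsg.Agent.S5064

open H5.QP Polynomial Matrix Module
open scoped MatrixGroups

theorem rhohom {k E : Type*} [Field k] [Ring E] [Algebra k E] {α β : E} (ha : α * α = 0) (hb : β * β = 0) :
    ∃ ρ : H0 k →* Eˣ, ∀ g : H0 k, (ρ g : E) = rho α β g.1 :=
  ⟨MonoidHom.toHomUnits ⟨⟨fun g : H0 k => rho α β g.1, by rw [OneMemClass.coe_one, rho_one]⟩, fun x y => by
    dsimp only; rw [Subgroup.coe_mul, rho_mul ha hb (good_of_mem x.2) (good_of_mem y.2)]⟩, fun _ => MonoidHom.coe_toHomUnits _ _⟩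

theorem piker {k K : Type*} [Field k] [Field K] [Algebra k K] {l : K}
    (h : (H0 k ⊓ DD k 0).map (SpecialLinearGroup.map (aeval l : k[X] →ₐ[k] K).toRingHom) = ⊤) :
    ∃ π : H0 k →* SL(2, K), π.range = ⊤ ∧ ∀ (g : H0 k) {r p q s : k[X]},
      (g.1 : Matrix (Fin 2) (Fin 2) k[X]) = !![1 + X * r, p; X * q, 1 + X * s] →
      (g ∈ π.ker ↔ aeval l (X * r) = 0 ∧ aeval l p = 0 ∧ aeval l (X * q) = 0 ∧ aeval l (X * s) = 0) := by
  refine ⟨(SpecialLinearGroup.map (aeval l : k[X] →ₐ[k] _).toRingHom).comp (H0 k).subtype, ?_, fun g r p q s e => ?_⟩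
  · rw [MonoidHom.range_comp, Subgroup.range_subtype]
    exact top_le_iff.1 (h.ge.trans (Subgroup.map_mono inf_le_left))
  · rw [MonoidHom.mem_ker, Matrix.SpecialLinearGroup.ext_iff]
    simp [e, Fin.forall_fin_two, and_assoc]

theorem kerl {k : Type*} [Field k] {M : Type*} [AddCommGroup M] [Module k M] [FiniteDimensional k M] {T : Submonoid (End k M)}
    {d : ℕ} {α β : End k M} (hm : H5.QP.Min T d) (h : Nd T d α) (h' : Nd T d β) {f r p q s : k[X]} (hf : Irreducible f)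
    (cx : IsCoprime f X) (e1 : P α β f * α = 0) (e2 : P α β f * β = 0) :
    nf α β r p q s = 1 ↔ f ∣ X * r ∧ f ∣ p ∧ f ∣ X * q ∧ f ∣ X * s := by
  rw [nf]
  letI := modP (α * β + β * α)
  obtain ⟨sm, l1, la, lb, m1, m2, mz, -, cp⟩ := pack h.1.1 h'.1.1
  simp only [sm] at e1 e2 ⊢
  have dv : ∀ {x : End k M} {u : k[X]}, x ≠ 0 → f • x = 0 → u • x = 0 → f ∣ u := fun h0 h1 h2 =>
    not_not.1 fun a => h0 (cp (hf.coprime_iff_not_dvd.2 a) h1 h2)
  have z : ∀ {x : End k M} {u : k[X]}, f • x = 0 → f ∣ u → u • x = 0 := fun h1 ⟨c, e⟩ => by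
    rw [e, mul_comm, mul_smul, h1, smul_zero]
  have ha : ∀ w, α * (α * w) = 0 := fun w => by rw [← mul_assoc, h.1.1, zero_mul]
  have hb : ∀ w, β * (β * w) = 0 := fun w => by rw [← mul_assoc, h'.1.1, zero_mul]
  constructor
  · intro e
    have b1 := congrArg (fun x => α * (β * (x * α))) e
    have b2 := congrArg (fun x => β * (x * β)) e
    have b3 := congrArg (fun x => α * (x * α)) e
    have b4 := congrArg (fun x => β * (α * (x * β))) e
    simp only [add_mul, mul_add, l1, la, lb, mul_assoc, ha, hb, h.1.1, h'.1.1, m1, m2, smul_zero, mul_zero, one_mul, add_zero,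
      smul_smul, zero_add, add_eq_left] at b1 b2 b3 b4
    exact ⟨(cx.dvd_of_dvd_mul_right (cx.dvd_of_dvd_mul_right (mul_assoc r X X ▸ dv (hm.ne h) e1 b1))).mul_left _,
      cx.dvd_of_dvd_mul_right (dv (hm.ne h') e2 b2), mul_comm X q ▸ dv (hm.ne h) e1 b3,
      (cx.dvd_of_dvd_mul_right (cx.dvd_of_dvd_mul_right (mul_assoc s X X ▸ dv (hm.ne h') e2 b4))).mul_left _⟩
  · rintro ⟨b1, b2, b3, b4⟩
    rw [← l1, ← l1, z e1 (cx.dvd_of_dvd_mul_left b1), z e1 b2, z e2 (cx.dvd_of_dvd_mul_left b3), z e2 (cx.dvd_of_dvd_mul_left b4)]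
    simp

/-- Let k be a field of characteristic not 2 with k not of order 3, M a finite-dimensional k-vector space and G ≤ GL(M) such that (G, M) is a quadratic pair (M irreducible for G, and G generated by its quadratically acting elements σ whose scalar family 1 + c(σ − 1), c ∈ k, lies in G). Write 𝒬_d for the quadratic elements of G of minimal commutator rank, E(σ) for the subgroup generated by the members of 𝒬_d with the same fixed space and commutator space as σ, and Σ for the set of these subgroups. If σ, τ ∈ 𝒬_d and the subgroup H generated by their two scalar families does not act unipotently on M, then H is isomorphic to SL₂ over a simple algebraic extension k(λ) of k. -/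
theorem result {k : Type u} [Field k] (hk2 : ringChar k ≠ 2) (hk3 : Nat.card k ≠ 3)
    {M : Type u} [AddCommGroup M] [Module k M] [FiniteDimensional k M]
    {G : Subgroup (LinearMap.GeneralLinearGroup k M)} (hG : Cfsg.IsQuadraticPair G)
    {σ τ : LinearMap.GeneralLinearGroup k M} (hσ : σ ∈ Cfsg.minimalQuadraticElements G) (hτ : τ ∈ Cfsg.minimalQuadraticElements G)
    (hH : ¬ Cfsg.IsUnipotentOn (Subgroup.closure (Cfsg.scalarFamily σ ∪ Cfsg.scalarFamily τ))) :
    ∃ (K : Type u) (_ : Field K) (_ : Algebra k K) (lam : K), IsAlgebraic k lam ∧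
      IntermediateField.adjoin k ({lam} : Set K) = ⊤ ∧
      Nonempty (↥(Subgroup.closure (Cfsg.scalarFamily σ ∪ Cfsg.scalarFamily τ)) ≃* Matrix.SpecialLinearGroup (Fin 2) K) := by
  obtain ⟨d, hm, h1, -, -, -⟩ := ex_min hk2 hk3 G
  have h := (h1 _).1 hσ
  have h' := (h1 _).1 hτ
  unfold scalarFamily at hH ⊢
  generalize (σ : M →ₗ[k] M) - 1 = α, (τ : M →ₗ[k] M) - 1 = β at h h' hH ⊢
  have o : Opp α β := by
    by_contra o
    refine hH ((hm.nop h h' o).unip ((Subgroup.closure_le _).2 ?_))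
    rintro g (⟨c, e⟩ | ⟨c, e⟩)
    · exact Subgroup.mem_sup_left (EE_of (Submodule.smul_mem _ _ (cls_self h.1)) e)
    · exact Subgroup.mem_sup_right (EE_of (Submodule.smul_mem _ _ (cls_self h'.1)) e)
  obtain ⟨f, hf, cx, e1, e2, -⟩ := hm.K1 h h' ((hm.opp_iff h h').1 o)
  have := Fact.mk hf
  have hl : AdjoinRoot.root f ≠ 0 := fun e =>
    hf.coprime_iff_not_dvd.1 cx (AdjoinRoot.mk_eq_zero.1 ((AdjoinRoot.mk_X (f := f)).trans e))
  have hs : ∀ x : AdjoinRoot f, ∃ p : k[X], aeval (AdjoinRoot.root f) p = x := fun x => by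
    obtain ⟨p, rfl⟩ := AdjoinRoot.mk_surjective x; exact ⟨p, AdjoinRoot.aeval_eq p⟩
  have al := AdjoinRoot.isAlgebraic_root hf.ne_zero
  refine ⟨AdjoinRoot f, inferInstance, inferInstance, AdjoinRoot.root f, al, eq_top_iff.2 fun x _ => ?_, ?_⟩
  · obtain ⟨p, rfl⟩ := hs x
    exact IntermediateField.algebra_adjoin_le_adjoin _ _ (aeval_mem_adjoin_singleton _ _)
  obtain ⟨ρ, hρ⟩ := rhohom (k := k) h.1.1 h'.1.1
  obtain ⟨π, p1, hπ⟩ := piker (G1 hk2 hk3 hl al hs 0)
  have p2 : ρ.ker = π.ker := by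
    ext g
    obtain ⟨r, p, q, s, e⟩ := good_of_mem g.2
    rw [hπ g e, MonoidHom.mem_ker, Units.ext_iff, hρ, rho_eq α β e, Units.val_one, kerl hm h h' hf cx e1 e2]
    simp only [← AdjoinRoot.mk_eq_zero, ← AdjoinRoot.aeval_eq]
  generalize hH : Subgroup.closure (G := (End k M)ˣ) _ = H
  have p3 : ρ.range = H := by
    refine le_antisymm ?_ (hH ▸ (Subgroup.closure_le _).2 ?_)
    · rintro _ ⟨g, rfl⟩
      have : ∀ γ : End k M, γ * γ = 0 → {τ : (End k M)ˣ | ∃ c : k, (τ : End k M) = 1 + c • γ} ⊆ H → ∀ c : k, 1 + c • γ ∈ TG H :=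
        fun γ h0 h1 c => by
          obtain ⟨g, e⟩ := un_ex (β := c • γ) (by simp [h0])
          exact e ▸ mem_TG.2 (h1 ⟨c, e⟩)
      exact mem_TG.1 (hρ g ▸ rho_mem h.1.1 h'.1.1 (this _ h.1.1 (hH ▸ Set.subset_union_left.trans Subgroup.subset_closure))
        (this _ h'.1.1 (hH ▸ Set.subset_union_right.trans Subgroup.subset_closure)) g.2)
    · rintro g (⟨c, e⟩ | ⟨c, e⟩)
      · exact ⟨⟨_, up_mem c⟩, Units.ext (by rw [hρ, rho_up]; simp [e, Algebra.smul_def])⟩
      · exact ⟨⟨_, lo_mem c⟩, Units.ext (by rw [hρ, rho_lo]; simp [e, Algebra.smul_def])⟩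
  exact ⟨(MulEquiv.subgroupCongr p3.symm).trans ((QuotientGroup.quotientKerEquivRange _).symm.trans
    ((QuotientGroup.quotientMulEquivOfEq p2).trans ((QuotientGroup.quotientKerEquivRange _).trans
      ((MulEquiv.subgroupCongr p1).trans Subgroup.topEquiv))))⟩

end Cfsg.Agent.S5064
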