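import Cfsg.Statements.S5065
import Cfsg.Agent.H5.QP5

set_option autoImplicit false
universe u
open Cfsg

namespace Cfsg.Agent.S5065

open H5.QP

/-- Let k be a field of characteristic not 2 with k not of order 3, M a finite-dimensional k-vector space and G ≤ GL(M) such that (G, M) is a quadratic pair (M irreducible for G, and G generated by its quadratically acting elements σ whose scalar family 1 + c(σ − 1), c ∈ k, lies in G). Write 𝒬_d for the quadratic elements of G of minimal commutator rank, E(σ) for the subgroup generated by the members of 𝒬_d with the same fixed space and commutator space as σ, and Σ for the set of these subgroups. For σ, τ ∈ 𝒬_d put A = E(σ), B = E(τ) and X = ⟨A, B⟩. Then either X acts unipotently on M, or A and B are the unipotent subgroups of a special rank one group X; in the latter case X contains exactly one central involution acting as −1 on the commutator space [M, X] and trivially on the fixed space C_M(X), and M is the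 direct sum of C_M(X) and [M, X]. -/
theorem result {k : Type u} [Field k] (hk2 : ringChar k ≠ 2) (hk3 : Nat.card k ≠ 3)
    {M : Type u} [AddCommGroup M] [Module k M] [FiniteDimensional k M]
    {G : Subgroup (LinearMap.GeneralLinearGroup k M)} (hG : Cfsg.IsQuadraticPair G)
    {σ τ : LinearMap.GeneralLinearGroup k M} (hσ : σ ∈ Cfsg.minimalQuadraticElements G) (hτ : τ ∈ Cfsg.minimalQuadraticElements G) :
    Cfsg.IsUnipotentOn (Cfsg.sameActionSubgroup G σ ⊔ Cfsg.sameActionSubgroup G τ) ∨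
    (Cfsg.IsSpecialRankOnePair (Cfsg.sameActionSubgroup G σ) (Cfsg.sameActionSubgroup G τ) ∧
      (∃! i : LinearMap.GeneralLinearGroup k M, i ∈ Cfsg.sameActionSubgroup G σ ⊔ Cfsg.sameActionSubgroup G τ ∧ i ≠ 1 ∧ i * i = 1 ∧
        (∀ x ∈ Cfsg.sameActionSubgroup G σ ⊔ Cfsg.sameActionSubgroup G τ, i * x = x * i) ∧
        (∀ m ∈ Cfsg.commutatorSubmodule (Cfsg.sameActionSubgroup G σ ⊔ Cfsg.sameActionSubgroup G τ), (i : M →ₗ[k] M) m = -m) ∧
        (∀ m ∈ Cfsg.fixedSubmodule (Cfsg.sameActionSubgroup G σ ⊔ Cfsg.sameActionSubgroup G τ), (i : M →ₗ[k] M) m = m)) ∧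
      IsCompl (Cfsg.fixedSubmodule (Cfsg.sameActionSubgroup G σ ⊔ Cfsg.sameActionSubgroup G τ))
        (Cfsg.commutatorSubmodule (Cfsg.sameActionSubgroup G σ ⊔ Cfsg.sameActionSubgroup G τ))) := by
  obtain ⟨d, hm, h1, -, h3, -⟩ := ex_min hk2 hk3 G
  have h := (h1 _).1 hσ
  have h' := (h1 _).1 hτ
  rw [h3 _ hσ, h3 _ hτ]
  generalize (σ : M →ₗ[k] M) - 1 = α, (τ : M →ₗ[k] M) - 1 = β at h h'
  by_cases o : Opp α β
  swap
  · exact Or.inl ((hm.nop h h' o).unip le_rfl)
  refine Or.inr ⟨hm.special h h' o, ?_⟩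
  obtain ⟨a, ha, -, a1⟩ := hm.EE_ne h
  obtain ⟨x, hx, x0, e, b, hb, b1, y, hy, y0, e', p⟩ := hm.partner' h h' o ha a1
  have n := mul_mem (mul_mem (Subgroup.mem_sup_left ha) (Subgroup.mem_sup_right hb)) (Subgroup.mem_sup_left (T := EE _ β) ha)
  rw [← hm.EE_eq h hx x0, ← hm.EE_eq h' hy y0] at n ⊢
  rw [fix_sup, com_sup, fix_EE (hx.1 h.1.1), fix_EE (hy.1 h'.1.1), com_EE (hx.1 h.1.1), com_EE (hy.1 h'.1.1)]
  have v := p.ival e e'
  have n := mul_mem n n
  generalize a * b * a * (a * b * a) = i at v n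
  have c1 : ∀ m ∈ LinearMap.range x ⊔ LinearMap.range y, (i : M →ₗ[k] M) m = -m := fun m hm => by
    obtain ⟨_, ⟨u, rfl⟩, _, ⟨w, rfl⟩, rfl⟩ := Submodule.mem_sup.1 hm
    rw [map_add, neg_add, v]
    exact congrArg₂ _ (LinearMap.congr_fun p.ia u) (LinearMap.congr_fun p.ib w)
  have c2 : ∀ m ∈ LinearMap.ker x ⊓ LinearMap.ker y, (i : M →ₗ[k] M) m = m := fun m ⟨h1, h2⟩ => by
    simp [v, show x m = 0 from h1, show y m = 0 from h2]
  have ext : ∀ f g : M →ₗ[k] M, (∀ m ∈ LinearMap.range x ⊔ LinearMap.range y, f m = g m) →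
      (∀ m ∈ LinearMap.ker x ⊓ LinearMap.ker y, f m = g m) → f = g := fun f g h1 h2 => LinearMap.ext fun m => by
    obtain ⟨u, hu, w, hw, rfl⟩ := Submodule.mem_sup.1 (p.compl.sup_eq_top.ge (Submodule.mem_top (x := m)))
    rw [map_add, map_add, h1 w hw, h2 u hu]
  refine ⟨⟨i, ⟨n, ?_, Units.ext (ext _ _ (fun m hm => by simp [c1 m hm]) fun m hm => by simp [c2 m hm]), ?_, c1, c2⟩,
    fun j ⟨_, _, _, _, j1, j2⟩ => Units.ext (ext _ _ (fun m hm => by rw [c1 m hm, j1 m hm]) fun m hm => by rw [c2 m hm, j2 m hm])⟩,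
    p.compl⟩
  · rintro rfl
    have := p.ia
    rw [← v, Units.val_one, one_mul, eq_neg_iff_add_eq_zero, ← two_smul k, smul_eq_zero] at this
    exact this.elim (Ring.two_ne_zero hk2) x0
  · have : ∀ z : Module.End k M, z * z = 0 → i * z = -z → z * i = -z → ∀ g ∈ EE (TG G) z, i * g = g * i := fun z h0 h1 h2 g hg => by
      obtain ⟨w, hw, e, -⟩ := EE_val h0 hg
      have e1 := cls_l hw (x := i + 1) (by simp [add_mul, h1])
      have e2 := cls_r hw (x := i + 1) (by simp [mul_add, h2])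
      ext1
      simp only [Units.val_mul, e, mul_add, add_mul, mul_one, one_mul] at e1 e2 ⊢
      rw [eq_neg_of_add_eq_zero_left e1, eq_neg_of_add_eq_zero_left e2]
    exact H5.RS.comm_sup (this x p.a (v ▸ p.ia) (v ▸ p.ai)) (this y p.b (v ▸ p.ib) (v ▸ p.bi))

end Cfsg.Agent.S5065
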