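import Cfsg.Statements.S5067


set_option autoImplicit false
open Cfsg

namespace Cfsg.Agent.S5067

open scoped commutatorElement in
theorem aux {P : Type*} [Group P] [Group.IsNilpotent P] (hna : ¬ IsMulCommutative P) {E : Subgroup P}
    (hE : IsMulCommutative ↥E) :
    Group.nilpotencyClass ↥(Subgroup.normalClosure (E : Set P)) < Group.nilpotencyClass P := by
  set N := Subgroup.normalClosure (E : Set P)
  have hc : 2 ≤ Group.nilpotencyClass P := by
    by_contra h; exact hna (Group.IsNilpotent.nilpotencyClass_le_one_iff.1 (by omega))
  let K := (⊤ : Subgroup P).lowerCentralSeries 2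
  let π := QuotientGroup.mk' K
  have cen : ∀ u ∈ commutator P, ∀ y, Commute (π u) (π y) := fun u hu y => by
    rw [← commutatorElement_eq_one_iff_commute, ← map_commutatorElement]
    exact (QuotientGroup.eq_one_iff _).2 (Subgroup.commutator_mem_commutator hu (Subgroup.mem_top y))
  haveI : (E ⊔ commutator P).Normal := Subgroup.Normal.of_commutator_le _ le_sup_right
  have le : N ≤ E ⊔ commutator P := Subgroup.normalClosure_le_normal (le_sup_left (a := E))
  have base : ⁅N, N⁆ ≤ K := Subgroup.commutator_le.2 fun x hx y hy => by
    obtain ⟨e, he, u, hu, rfl⟩ := Subgroup.mem_sup_of_normal_right.1 (le hx)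
    obtain ⟨f, hf, v, hv, rfl⟩ := Subgroup.mem_sup_of_normal_right.1 (le hy)
    rw [← QuotientGroup.eq_one_iff]
    change π _ = 1
    rw [map_commutatorElement, commutatorElement_eq_one_iff_commute, map_mul]
    refine Commute.mul_left ?_ (cen u hu _)
    rw [map_mul]
    refine Commute.mul_right (Commute.map ?_ π) (cen v hv _).symm
    exact congrArg Subtype.val (hE.is_comm.comm ⟨e, he⟩ ⟨f, hf⟩)
  have step : ∀ i, N.lowerCentralSeries (i + 1) ≤ (⊤ : Subgroup P).lowerCentralSeries (i + 2) := fun i => by
    induction i with
    | zero => exact base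
    | succ i ih => exact Subgroup.commutator_mono ih le_top
  obtain ⟨c, hc'⟩ := Nat.exists_eq_add_of_le' hc
  have := step c
  rw [← hc', Subgroup.lowerCentralSeries_nilpotencyClass, le_bot_iff, ← Subgroup.top_subtype_lowerCentralSeries,
    Subgroup.map_eq_bot_iff_of_injective _ N.subtype_injective,
    Subgroup.lowerCentralSeries_eq_bot_iff_nilpotencyClass_le] at this
  omega

/-- Let P be a non-abelian nilpotent p-group (every element of p-power order; P possibly infinite) generated by two abelian subgroups E and F. Then the normal closure of E in P, and likewise that of F, has nilpotency class strictly smaller than that of P. -/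
theorem result {P : Type*} [Group P] {p : ℕ} [Fact p.Prime] (hP : IsPGroup p P) [Group.IsNilpotent P]
    (hna : ¬ IsMulCommutative P) {E F : Subgroup P} (hE : IsMulCommutative ↥E) (hF : IsMulCommutative ↥F) (hgen : E ⊔ F = ⊤) :
    Group.nilpotencyClass ↥(Subgroup.normalClosure (E : Set P)) < Group.nilpotencyClass P ∧
    Group.nilpotencyClass ↥(Subgroup.normalClosure (F : Set P)) < Group.nilpotencyClass P := by
  exact ⟨aux hna hE, aux hna hF⟩

end Cfsg.Agent.S5067
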