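import Cfsg.Statements.S5073
import Cfsg.Agent.H5.QP7
import Cfsg.Agent.H5.RS2

set_option autoImplicit false
universe u
open Cfsg

namespace Cfsg.Agent.S5073

open H5.QP H5.RS Module

/-- Let k be a field of characteristic not 2 with k not of order 3, M a finite-dimensional k-vector space and G ≤ GL(M) such that (G, M) is a quadratic pair (M irreducible for G, and G generated by its quadratically acting elements σ whose scalar family 1 + c(σ − 1), c ∈ k, lies in G). Write 𝒬_d for the quadratic elements of G of minimal commutator rank, E(σ) for the subgroup generated by the members of 𝒬_d with the same fixed space and commutator space as σ, and Σ for the set of these subgroups. Let E, F ∈ Σ. If some non-identity element of E commutes with some non-identity element of F, or some non-identity element of E normalizes F, then E and F commute elementwise. -/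
theorem result {k : Type u} [Field k] (hk2 : ringChar k ≠ 2) (hk3 : Nat.card k ≠ 3)
    {M : Type u} [AddCommGroup M] [Module k M] [FiniteDimensional k M]
    {G : Subgroup (LinearMap.GeneralLinearGroup k M)} (hG : Cfsg.IsQuadraticPair G)
    {E F : Subgroup (LinearMap.GeneralLinearGroup k M)} (hE : E ∈ Cfsg.quadraticRootSubgroups G) (hF : F ∈ Cfsg.quadraticRootSubgroups G)
    (h : (∃ e ∈ E, e ≠ 1 ∧ ∃ f ∈ F, f ≠ 1 ∧ e * f = f * e) ∨ E ⊓ Subgroup.normalizer (F : Set (LinearMap.GeneralLinearGroup k M)) ≠ ⊥) :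
    ⁅E, F⁆ = ⊥ := by
  obtain ⟨d, hm, -, -, -, e⟩ := ex_min hk2 hk3 G
  rw [e] at hE hF
  have h' : (∃ e ∈ E, e ≠ 1 ∧ ∃ f ∈ F, f ≠ 1 ∧ e * f = f * e) ∨ ∃ e ∈ E, e ≠ 1 ∧ conjBy F e = F := h.imp_right fun h => by
    obtain ⟨⟨e, he⟩, h1⟩ := Subgroup.ne_bot_iff_exists_ne_one.1 h
    exact ⟨e, he.1, fun a => h1 (Subtype.ext a), conjBy_eq_self.2 he.2⟩
  rcases hm.tri (hm.ex_opp hG.1) hE hF with p | p | p
  · exact p
  · exfalso
    rcases h' with ⟨e, he, e1, f, hf, f1, c⟩ | ⟨e, he, e1, c⟩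
    · exact f1 ((p.h5pair' he e1).h5inf hf (mem_conjBy.2 (by rwa [mul_assoc, ← c, inv_mul_cancel_left])))
    · exact e1 (p.h5one he c)
  by_contra hn
  have hn' : ¬ Comm E F := fun c => hn (comm_iff.2 c)
  have eq : ∀ A ∈ Sg (TG G) d, ∀ g ∈ A, g ≠ 1 → A = EE (TG G) ((g : End k M) - 1) := by
    rintro _ ⟨α, h, rfl⟩ g hg g1
    exact (hm.EE_eq h ((mem_EE h.1.1).1 hg) fun e => g1 (Units.ext (sub_eq_zero.1 e))).symm
  have K : ∀ e ∈ E, e ≠ 1 → ∀ f ∈ F, f ≠ 1 → e * f ≠ f * e := by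
    obtain ⟨α, a, rfl⟩ := hE
    obtain ⟨β, b, rfl⟩ := hF
    have o : ¬ Opp α β := fun o => by
      have q := (hm.special a b o).1
      obtain ⟨x, hx, x1⟩ := q.h5ex
      obtain ⟨y, hy, -, e⟩ := q.h5cond hx x1
      have c1 : Comm (conjBy (EE (TG G) α) x) (conjBy (EE (TG G) β) x) := by
        rw [← e, conjBy_of_mem hx]
        exact ((EE_comm a.1.1).sup p.h5cl).mono le_rfl (p.h5le hy)
      have c2 := c1.conj x⁻¹
      rw [conjBy_conjBy, conjBy_conjBy, inv_mul_cancel, conjBy_one, conjBy_one] at c2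
      exact hn' c2
    obtain ⟨x, y, hx, hy, e1, e2, n, h0⟩ := hm.ncomm a b (hm.nop a b o) hn'
    rw [e1, e2]
    intro e he e1 f hf f1 c
    obtain ⟨u, hu, v1, -, u0⟩ := EE_val hx.1.1 he
    obtain ⟨w, hw, v2, -, w0⟩ := EE_val hy.1.1 hf
    refine (hm.cc2 hx hy n h0 hu hw).2 (u0 e1) (w0 f1) ?_
    have := congrArg Units.val c
    simp only [Units.val_mul, v1, v2, mul_add, add_mul, one_mul, mul_one] at this
    linear_combination (norm := abel1) this
  rcases h' with ⟨e, he, e1, f, hf, f1, c⟩ | ⟨e, he, e1, c⟩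
  · exact K e he e1 f hf f1 c
  · obtain ⟨⟨f, hf⟩, f1⟩ := Subgroup.ne_bot_iff_exists_ne_one.1 (hm.Sg_ne hF)
    have g1 : e * f * e⁻¹ * f⁻¹ ≠ 1 := fun a => K e he e1 f hf (fun a => f1 (Subtype.ext a)) (by
      rw [mul_inv_eq_one, mul_inv_eq_iff_eq_mul] at a; exact a)
    have m1 : e * f * e⁻¹ * f⁻¹ ∈ F := mul_mem (c ▸ H5.RS.conj_mem hf) (inv_mem hf)
    have := (eq _ hF _ m1 g1).trans (eq _ p.1 _ (Subgroup.commutator_mem_commutator he hf) g1).symm
    exact hn' (by have c := p.h5cl; rwa [← this] at c)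

end Cfsg.Agent.S5073
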