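import Cfsg.Statements.S5074
import Cfsg.Agent.H5.QP10

set_option autoImplicit false
universe u
open Cfsg

namespace Cfsg.Agent.S5074

open H5.QP H5.RS Module

/-- Let k be a field of characteristic not 2 with k not of order 3, M a finite-dimensional k-vector space and G ≤ GL(M) such that (G, M) is a quadratic pair (M irreducible for G, and G generated by its quadratically acting elements σ whose scalar family 1 + c(σ − 1), c ∈ k, lies in G). Write 𝒬_d for the quadratic elements of G of minimal commutator rank, E(σ) for the subgroup generated by the members of 𝒬_d with the same fixed space and commutator space as σ, and Σ for the set of these subgroups. Then G is the product of the subgroup G₀ generated by Σ with the centralizer of G₀ in G. -/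
theorem result {k : Type u} [Field k] (hk2 : ringChar k ≠ 2) (hk3 : Nat.card k ≠ 3)
    {M : Type u} [AddCommGroup M] [Module k M] [FiniteDimensional k M]
    {G : Subgroup (LinearMap.GeneralLinearGroup k M)} (hG : Cfsg.IsQuadraticPair G) :
    (⨆ A ∈ Cfsg.quadraticRootSubgroups G, A) ⊔
      (G ⊓ Subgroup.centralizer ((⨆ A ∈ Cfsg.quadraticRootSubgroups G, A : Subgroup (LinearMap.GeneralLinearGroup k M)) : Set (LinearMap.GeneralLinearGroup k M))) = G := by
  obtain ⟨d, hm, -, -, -, e⟩ := ex_min hk2 hk3 G
  rw [e]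
  have hR : Red G := red_of hG.1 le_rfl fun g hg => conjBy_of_mem hg
  refine le_antisymm (sup_le Sg_le' inf_le_left) (hG.2.ge.trans ((Subgroup.closure_le _).2 fun q hq => ?_))
  have hΓ : ∀ A, ∀ g ∈ G, ∀ B ∈ cp G d A, conjBy B g ∈ cp G d A := fun A g hg => by
    rw [← hG.2] at hg
    induction hg using Subgroup.closure_induction'' with
    | one => simp [conjBy_one]
    | mul x y _ _ hx hy => exact fun B hB => conjBy_conjBy B y x ▸ hx _ (hy B hB)
    | mem q hq => exact fun B => hm.q_norm hR (mem_Q.1 hq).1 (by simp)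
    | inv_mem q hq =>
      exact fun B => hm.q_norm hR (mem_Q.1 hq).1.neg (by rw [inv_val (mem_Q.1 hq).1.1 (by simp), sub_eq_add_neg])
  by_cases c : ∀ A ∈ Sg (TG G) d, ∀ x ∈ ⨆ B ∈ cp G d A, B, q * x = x * q
  · refine Subgroup.mem_sup_right (Subgroup.mem_inf.2 ⟨hq.1, fun x hx => ?_⟩)
    refine bisup_ind (p := fun x => x * q = q * x) (by simp) (fun A hA g hg => (c A hA g (mem_bisup (cp_self hA) hg)).symm)
      (fun x y hx hy => by rw [mul_assoc, hy, ← mul_assoc, hx, mul_assoc]) hx
  simp only [not_forall] at c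
  obtain ⟨A, hA, c⟩ := c
  have nor : ∀ g ∈ G, conjBy (⨆ B ∈ cp G d A, B) g = ⨆ B ∈ cp G d A, B := fun g hg =>
    conjBy_bisup (fun B hB g hg => hΓ A g hg B hB) hg
  have nc := hm.rcp_ncomm hR hA
  refine (hm.q_dich hR hA (fun hB _ hg => hΓ A _ hg _ hB) (fun x hx => ?_) (mem_Q.1 hq).1).elim
    (fun a => Subgroup.mem_sup_left (cp_le (mem_TG.1 (by simpa using a.2 1)))) fun a => ?_
  · rcases hG.1.2 (commutatorSubmodule (⨆ B ∈ cp G d A, B)) (fun g hg => (com_le (W := Submodule.comap (g : End k M) (commutatorSubmodule (⨆ B ∈ cp G d A, B)))).2 fun u hu m => by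
      simpa [← Module.End.mul_apply, mul_assoc] using com_le.1 le_rfl _ ((nor g hg).le (H5.RS.conj_mem hu)) ((g : End k M) m)) with e | e
    · exact (nc fun a ha b hb => Units.ext (LinearMap.ext fun m => by
        simp [sub_eq_zero.1 (com_le.1 e.le a ha _), sub_eq_zero.1 (com_le.1 e.le b hb _)])).elim
    · exact LinearMap.ker_eq_top.1 (top_le_iff.1 (e.ge.trans (com_le.2 fun g hg m => by
        simpa [sub_eq_zero] using LinearMap.congr_fun (hx g hg) m)))
  · obtain ⟨x, hx, c⟩ := c
    exact (c (Units.ext (by simpa [sub_mul, mul_sub] using a x hx))).elim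

end Cfsg.Agent.S5074
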