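import Cfsg.Statements.S5077
import Cfsg.Agent.H2.FS5

set_option autoImplicit false
open Cfsg

namespace Cfsg.Agent.S5077

open Subgroup H2


/-- A fusion system over a finite p-group S is saturated if and only if (Sylow axiom) every fully normalized subgroup is fully centralized and fully automized, and (extension axiom) every fully centralized subgroup is receptive. -/
theorem result {Ω : Type*} [Group Ω] {S : Subgroup Ω} [Finite S] (p : ℕ) [Fact p.Prime] (hS : IsPGroup p S) (F : Cfsg.FusionSystem S) : F.IsSaturated p ↔ ((∀ P : Subgroup Ω, F.IsFullyNormalized P → F.IsFullyCentralized P ∧ F.IsFullyAutomized p P) ∧ (∀ P : Subgroup Ω, F.IsFullyCentralized P → F.IsReceptive P)) := by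
  constructor
  · intro hF
    exact ⟨fun P hP => ⟨sat_fullyCentralized hS hF hP, sat_automized hS hF hP⟩,
      fun P hP => sat_receptive' hS hF hP⟩
  · rintro ⟨h1, h2⟩
    exact saturated_of_fullyNormalized fun Q hQ => ⟨(h1 Q hQ).2, h2 Q (h1 Q hQ).1⟩

end Cfsg.Agent.S5077
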