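import Cfsg.Statements.S5081
import Cfsg.Agent.H2.FS5

set_option autoImplicit false
open Cfsg

namespace Cfsg.Agent.S5081

open Subgroup H2


/-- Let F be a saturated fusion system over a finite p-group S, P a proper subgroup of S that is fully normalized, and H the subgroup of Aut_F(P) generated by the automorphisms that extend to maps of the system defined on strictly larger subgroups of S. Then either P is not essential and H is all of Aut_F(P), or P is essential and the image of H in Out_F(P) = Aut_F(P)/Inn(P) is strongly p-embedded there. -/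
theorem result {Ω : Type*} [Group Ω] {S : Subgroup Ω} [Finite S] (p : ℕ) [Fact p.Prime] (hS : IsPGroup p S) (F : Cfsg.FusionSystem S) (hF : F.IsSaturated p) (P : Subgroup Ω) (hPS : P < S) (hPn : F.IsFullyNormalized P) (H : Subgroup (MulAut P)) (hH : H = Subgroup.closure {α : MulAut P | ∃ (Q : Subgroup Ω) (hPQ : P < Q) (φ : Q →* Ω), φ ∈ F.Hom Q ∧ ∀ x : P, φ (Subgroup.inclusion hPQ.le x) = α x}) : (¬ F.IsEssential p P ∧ H = F.autGroup P) ∨ (F.IsEssential p P ∧ ∃ _ : ((Cfsg.Inn P).subgroupOf (F.autGroup P)).Normal, Cfsg.IsStronglyPEmbedded p ((H.subgroupOf (F.autGroup P)).map (QuotientGroup.mk' ((Cfsg.Inn P).subgroupOf (F.autGroup P))))) := by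
  have e : H = extAut F P := by
    rw [hH, extAut]
    congr 1
    ext α
    constructor
    · rintro ⟨Q, hPQ, φ, hφ, e⟩
      refine ⟨Q, fn φ, hPQ, mor_fn hφ, fun x hx => ?_⟩
      rw [afn_mem _ hx, fn_mem _ (hPQ.le hx)]
      exact (e ⟨x, hx⟩).symm
    · rintro ⟨Q, f, hPQ, hf, e⟩
      refine ⟨Q, hPQ, hf.homOn.toHom, hf.toHom_mem, fun x => ?_⟩
      rw [← afn_coe, e x x.2]; rfl
  subst e
  by_cases h : F.autGroup P ≤ extAut F P
  · exact Or.inl ⟨fun he => essential_not_le hS hF he h, le_antisymm (extAut_le F P) h⟩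
  · have he := essential_of_not_le hS hF hPn hPS h
    exact Or.inr ⟨he, inferInstance, spe_extAut hS hF hPn hPS (centric_self he.1) h⟩

end Cfsg.Agent.S5081
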