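import Cfsg.Statements.S5087
import Cfsg.Agent.H2.FS6

set_option autoImplicit false
open Cfsg

namespace Cfsg.Agent.S5087

open Subgroup H2


/-- In a saturated fusion system over a finite p-group S, a subgroup Q is normal in the system if and only if every subgroup P that equals S or is essential contains Q and every element of Aut_F(P) maps Q onto itself. -/
theorem result {Ω : Type*} [Group Ω] {S : Subgroup Ω} [Finite S] (p : ℕ) [Fact p.Prime] (hS : IsPGroup p S) (F : Cfsg.FusionSystem S) (hF : F.IsSaturated p) (Q : Subgroup Ω) : F.IsNormal Q ↔ ∀ P : Subgroup Ω, (P = S ∨ F.IsEssential p P) → (Q ≤ P ∧ ∀ α ∈ F.autGroup P, (Q.subgroupOf P).map α.toMonoidHom = Q.subgroupOf P) := by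
  constructor
  · intro h P hP
    have hQP := normal_le_essS hS hF h hP
    exact ⟨hQP, fun α hα => (map_subgroupOf_eq_iff α hQP).2
      (wc_img (normal_wc h) ((mem_autGroup (EssS.le hP)).1 hα) hQP)⟩
  · intro h
    refine normal_of_essS hS hF fun R hR => ⟨(h R hR).1, fun a ha ha' x hx => ?_⟩
    haveI := finite_of_le hR.le
    obtain ⟨α, hα, e⟩ := ha.exists_aut ha'
    rw [← e x ((h R hR).1 hx)]
    exact ((map_subgroupOf_eq_iff α (h R hR).1).1 ((h R hR).2 α hα)).le (mem_img_of_mem _ hx)

end Cfsg.Agent.S5087
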