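import Cfsg.Statements.S5088
import Cfsg.Agent.H2.FS6

set_option autoImplicit false
open Cfsg

namespace Cfsg.Agent.S5088

open Subgroup H2


/-- In a saturated fusion system over a finite p-group, a subgroup Q is normal in the system if and only if there is a chain of subgroups 1 = Q₀ ≤ Q₁ ≤ ⋯ ≤ Qₙ = Q such that each Qᵢ with i ≥ 1 is strongly closed in the system and [Q, Qᵢ] ≤ Qᵢ₋₁. -/
theorem result {Ω : Type*} [Group Ω] {S : Subgroup Ω} [Finite S] (p : ℕ) [Fact p.Prime] (hS : IsPGroup p S) (F : Cfsg.FusionSystem S) (hF : F.IsSaturated p) (Q : Subgroup Ω) : F.IsNormal Q ↔ ∃ (n : ℕ) (Qs : Fin (n + 1) → Subgroup Ω), Qs 0 = ⊥ ∧ Qs (Fin.last n) = Q ∧ Monotone Qs ∧ ∀ i : Fin n, F.StronglyClosed (Qs i.succ) ∧ ⁅Q, Qs i.succ⁆ ≤ Qs (Fin.castSucc i) := by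
  constructor
  · intro h
    haveI := finite_of_le h.1
    obtain ⟨n, hn⟩ := exists_ucs_eq (hS.to_le h.1)
    refine ⟨n, fun i => ucs Q i, ucs_zero Q, hn, fun i j hij => ucs_mono Q hij, fun i =>
      ⟨normal_sc (normal_of_characteristic h (ucs_le Q _) inferInstance), ?_⟩⟩
    rw [commutator_comm]; exact commutator_ucs_le Q i
  · rintro ⟨n, C, h0, hn, hC, h⟩
    refine normal_of_sc_chain hS hF (natChain_mono hC) ((natChain_zero C).trans h0)
      ((natChain_of_le C le_rfl).trans hn) (fun i hi => ?_) fun i hi => ?_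
    · rcases i with _ | i
      · rw [natChain_zero, h0]; exact sc_bot F
      · rw [natChain_succ C hi]; exact (h _).1
    · rw [natChain_succ C hi, natChain_castSucc C hi, commutator_comm]; exact (h _).2

end Cfsg.Agent.S5088
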