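import Cfsg.Statements.S5089
import Cfsg.Agent.H2.FS6

set_option autoImplicit false
open Cfsg

namespace Cfsg.Agent.S5089

open Subgroup H2


/-- A saturated fusion system over a finite p-group has a nontrivial subgroup that is normal in the system (O_p(F) ≠ 1) if and only if some nontrivial abelian subgroup is strongly closed in the system. -/
theorem result {Ω : Type*} [Group Ω] {S : Subgroup Ω} [Finite S] (p : ℕ) [Fact p.Prime] (hS : IsPGroup p S) (F : Cfsg.FusionSystem S) (hF : F.IsSaturated p) : F.core ≠ ⊥ ↔ ∃ Q : Subgroup Ω, Q ≠ ⊥ ∧ IsMulCommutative Q ∧ F.StronglyClosed Q := by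
  constructor
  · intro h
    haveI := finite_of_le (core_le F)
    exact ⟨_, inf_centralizer_ne_bot (hS.to_le (core_le F)) h, isMulCommutative_center _,
      normal_sc (normal_of_characteristic (normal_core F) inf_le_left (characteristic_center _))⟩
  · rintro ⟨Q, h1, h2, h3⟩ h
    exact h1 (le_bot_iff.1 ((le_core (normal_of_abelian_sc hS hF h3 h2)).trans h.le))

end Cfsg.Agent.S5089
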