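import Cfsg.Statements.S5094
import Cfsg.Agent.H9.ZStar
import Cfsg.Agent.H2.Mod3

set_option autoImplicit false
open Cfsg

namespace Cfsg.Agent.S5094

open Subgroup H2 Cfsg.FusionSystem

universe u
theorem aux (n : ℕ) : ∀ (G : Type u) [Group G] [Finite G] (S : Subgroup G), IsSylowIn 2 S ⊤ →
    H7.Opi {2}ᶜ (⊤ : Subgroup G) = ⊥ → ∀ x ∈ S, x ^ 2 ^ n = 1 →
    (∀ g, g * x * g⁻¹ ∈ S → g * x * g⁻¹ = x) → x ∈ center G := by
  induction n with
  | zero => intro G _ _ S _ _ x _ h _; rw [pow_zero, pow_one] at h; rw [h]; exact one_mem _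
  | succ n ih =>
    intro G _ _ S hS hO x hx h hw
    have hF := (isGF_group S).saturated hS
    have hxc : x ∈ (groupFusionSystem S).center := by
      refine (mem_center_iff' hS.isPGroup hF).2 ⟨hx, fun P f hf hP => ?_⟩
      obtain ⟨g, -, hg⟩ := (isGF_group S).exists_conj hf
      have := hf.mem hP
      rw [hg x hP] at this ⊢
      exact hw g this
    have hzc : x ^ 2 ^ n ∈ (groupFusionSystem S).center := Subgroup.pow_mem _ hxc _
    set z := x ^ 2 ^ n with hz
    have z2 : z ^ 2 = 1 := by rw [hz, ← pow_mul, ← pow_succ, h]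
    have hzw : ∀ g, g * z * g⁻¹ ∈ S → g * z * g⁻¹ = z := fun g hg => by
      have hm := mor_group_conj (S := S) (P := zpowers z) (g := g)
        (zpowers_le.2 (Subgroup.pow_mem _ hx _)) (by rw [H7.cj_zpowers]; exact zpowers_le.2 hg)
      exact ((mem_center_iff' hS.isPGroup hF).1 hzc).2 _ _ hm (mem_zpowers z)
    have hzZ : z ∈ center G := by
      refine mem_center_iff.2 fun g => ?_
      have := (H9.iso_of_sylow (H7.syl_to_H1 hS) z2 hzw).zstar g
      rw [H7.pPrimeCore_eq, hO, mem_bot] at this
      exact (commutatorElement_eq_one_iff_commute.1 this).symm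
    have nz : (zpowers z).Normal := ⟨fun v hv g => by
      rwa [mem_center_iff.1 (zpowers_le.2 hzZ hv) g, mul_inv_cancel_right]⟩
    have hzp : IsPGroup 2 (zpowers z) := H7.isPGroup_zpowers (k := 1) (by simpa using z2)
    let π := QuotientGroup.mk' (zpowers z)
    have hπ : Function.Surjective π := QuotientGroup.mk'_surjective _
    have hS' : IsSylowIn 2 (S.map π) ⊤ := by
      have := hS.map π
      rwa [← MonoidHom.range_eq_map, MonoidHom.range_eq_top.2 hπ] at this
    have hO' : H7.Opi {2}ᶜ (⊤ : Subgroup (G ⧸ zpowers z)) = ⊥ := by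
      -- preimage is centrally extended
      set K := (H7.Opi {2}ᶜ (⊤ : Subgroup (G ⧸ zpowers z))).comap π with hK
      have hKn : K.Normal := by
        have : (H7.Opi {2}ᶜ (⊤ : Subgroup (G ⧸ zpowers z))).Normal :=
          H7.normal_iff_top_le_nrm.2 (H7.le_nrm_Opi _ _)
        exact this.comap π
      have hzK : zpowers z ≤ K := fun y hy => by
        rw [hK, mem_comap, show π y = 1 from (QuotientGroup.eq_one_iff y).2 hy]; exact one_mem _
      have hidx : (zpowers z).relIndex K = Nat.card (H7.Opi {2}ᶜ (⊤ : Subgroup (G ⧸ zpowers z))) := by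
        have : zpowers z = π.ker := (QuotientGroup.ker_mk' _).symm
        conv_lhs => rw [this]
        rw [relIndex_ker, hK, map_comap_eq_self_of_surjective hπ]
      have hsyl : IsSylowIn 2 (zpowers z) K := ⟨hzK, hzp, by rw [hidx]; exact H7.not_dvd_Op' 2 _⟩
      have hc : K ≤ centralizer (zpowers z : Set G) := fun k _ y hy =>
        (mem_center_iff.1 (zpowers_le.2 hzZ hy) k).symm
      have hn := npc_cen_of_centric (H := K) (hsyl.mono (le_inf hzK le_normalizer) inf_le_left)
        le_rfl inf_le_left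
      rw [inf_eq_left.2 hc] at hn
      have h1 : pRes 2 K = ⊥ := by
        rw [hn.pRes_eq, eq_bot_iff, ← hO]
        exact H7.Opi_le_of_normal _ le_top (H7.le_nrm_of_normal _ _)
      have h2 : IsPGroup 2 K := pgroup_of_pRes (h1 ▸ IsPGroup.of_bot)
      have h3 := h2.map π
      rw [hK, map_comap_eq_self_of_surjective hπ] at h3
      exact H7.eq_bot_of_isPGroup_of_coprime h3 (H7.coprime_Op' 2 _)
    have hzS : zpowers z ≤ S := zpowers_le.2 (Subgroup.pow_mem _ hx _)
    have key : ∀ g, π (g * x * g⁻¹) ∈ S.map π → g * x * g⁻¹ = x := fun g ⟨s, hs, e⟩ => by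
      apply hw
      have := hzS (QuotientGroup.eq.1 e)
      simpa using Subgroup.mul_mem _ hs this
    have hxq := ih (G ⧸ zpowers z) (S.map π) hS' hO' (π x) ⟨x, hx, rfl⟩
      (by rw [← map_pow]; exact (QuotientGroup.eq_one_iff _).2 (mem_zpowers z)) (fun g hg => by
        obtain ⟨g, rfl⟩ := hπ g
        rw [← map_inv, ← map_mul, ← map_mul] at hg ⊢
        rw [key g hg])
    refine mem_center_iff.2 fun g => ?_
    have := key g (by
      rw [map_mul, map_mul, mem_center_iff.1 hxq, map_inv, mul_inv_cancel_right]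
      exact ⟨x, hx, rfl⟩)
    rw [← mul_inv_eq_iff_eq_mul]; exact this

/-- Glauberman's Z*-Theorem in fusion language: for a finite group G with Sylow 2-subgroup S, the centre of the fusion system of G on S is the set of elements of S whose image in G/O(G) is central, O(G) being the largest normal subgroup of odd order. -/
theorem result {G : Type*} [Group G] [Finite G] (S : Sylow 2 G) : (Cfsg.groupFusionSystem (S : Subgroup G)).center = (S : Subgroup G) ⊓ (Subgroup.center (G ⧸ Cfsg.oddCore G)).comap (QuotientGroup.mk' (Cfsg.oddCore G)) := by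
  have hS := sylow_isSylowIn_top S
  have hF := (isGF_group (S : Subgroup G)).saturated hS
  let π := QuotientGroup.mk' (oddCore G)
  have hπ : Function.Surjective π := QuotientGroup.mk'_surjective _
  have hinj : ∀ x ∈ (S : Subgroup G), ∀ y ∈ (S : Subgroup G), π x = π y → x = y := by
    intro x hx y hy e
    have h1 : x⁻¹ * y ∈ (S : Subgroup G) ⊓ oddCore G :=
      ⟨Subgroup.mul_mem _ (Subgroup.inv_mem _ hx) hy, QuotientGroup.eq.1 e⟩
    rw [H7.inf_eq_bot_of_isPGroup S.isPGroup' H1.coprime_pPrimeCore, mem_bot] at h1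
    exact inv_mul_eq_one.1 h1
  have hS' : IsSylowIn 2 ((S : Subgroup G).map π) ⊤ := by
    have := hS.map π
    rwa [← MonoidHom.range_eq_map, MonoidHom.range_eq_top.2 hπ] at this
  ext x
  rw [mem_center_iff' hS.isPGroup hF, mem_inf, mem_comap]
  refine and_congr_right fun hx => ⟨fun h => ?_, fun h P f hf hP => ?_⟩
  · obtain ⟨n, hn⟩ := isPGroup_iff_mem.1 S.isPGroup' x hx
    refine aux n _ _ hS' ?_ _ ⟨x, hx, rfl⟩ (by rw [← map_pow, hn, map_one]) ?_
    · have := H7.Opi_im_eq_bot (π := {2}ᶜ) (H := ⊤) (f := H7.res π ⊤) le_rfl (by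
        rw [H7.kr_top, top_inf_eq, QuotientGroup.ker_mk']; exact H7.pPrimeCore_eq 2)
      rwa [H7.im_top, ← MonoidHom.range_eq_map, MonoidHom.range_eq_top.2 hπ] at this
    · have hm : SMor (groupFusionSystem (S : Subgroup G))
          (groupFusionSystem ((S : Subgroup G).map π)) π := by
        refine (isGF_group _).smor hS (homOn_hom π ⊤) ?_ (img_hom π _)
        rw [img_hom, ← MonoidHom.range_eq_map, MonoidHom.range_eq_top.2 hπ]
        exact isGF_group _
      have hc := hm.central_img (central_center _)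
      have hxc : π x ∈ img π (groupFusionSystem (S : Subgroup G)).center :=
        mem_img_of_mem _ ((mem_center_iff' hS.isPGroup hF).2 ⟨hx, h⟩)
      intro g hg
      have hm' := mor_group_conj (S := (S : Subgroup G).map π) (P := zpowers (π x)) (g := g)
        (zpowers_le.2 ⟨x, hx, rfl⟩) (by rw [H7.cj_zpowers]; exact zpowers_le.2 hg)
      exact central_fix hc hm' (mem_zpowers _) hxc
  · obtain ⟨g, -, hg⟩ := (isGF_group (S : Subgroup G)).exists_conj hf
    refine hinj _ (hf.mem hP) _ hx ?_
    rw [hg x hP, map_mul, map_mul, mem_center_iff.1 h, map_inv, mul_inv_cancel_right]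

end Cfsg.Agent.S5094
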