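import Cfsg.Statements.S5102
import Cfsg.Agent.H2.FS10

set_option autoImplicit false
open Cfsg

namespace Cfsg.Agent.S5102

open Subgroup H2 Cfsg.FusionSystem


/-- A normal p-subgroup of a finite group G is normal in the fusion system of G on a Sylow p-subgroup. -/
theorem result {G : Type*} [Group G] [Finite G] (p : ℕ) [Fact p.Prime] (S : Sylow p G) (R : Subgroup G) [R.Normal] (hR : IsPGroup p R) : (Cfsg.groupFusionSystem (S : Subgroup G)).IsNormal R := by
  exact (isGF_group _).normal ((sylow_isSylowIn_top S).le_of_normal hR le_top
    (le_top.trans (normalizer_eq_top R).ge)) (normalizer_eq_top R).ge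

end Cfsg.Agent.S5102
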