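import Cfsg.Statements.S5105
import Cfsg.Agent.H2.Mod3

set_option autoImplicit false
open Cfsg

namespace Cfsg.Agent.S5105

open Subgroup H2 Cfsg.FusionSystem

open H7 in
theorem aux {G : Type*} [Group G] [Finite G] {p : ℕ} [Fact p.Prime] {T : Subgroup G}
    (hT : IsSylowIn p T ⊤) (hc : ChP p (⊤ : Subgroup G)) (ψ : G ≃* G) (h : ∀ t ∈ T, ψ t = t) :
    ∃ z ∈ T, ∀ g, ψ g = z * g * z⁻¹ := by
  have hO := Op_le_of_sylow hT
  have nO : ∀ g, g ∈ nrm (Op p (⊤ : Subgroup G)) := fun g => le_nrm_Opi _ _ (mem_top g)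
  set A := Op p (⊤ : Subgroup G) ⊓ cen (Op p ⊤)
  have nA : ∀ g, g ∈ nrm A := fun g => nrm_inf le_rfl (nrm_cen le_rfl) (nO g)
  have hA : IsPGroup p A := (isPGroup_Op p ⊤).to_le inf_le_left
  have h1 : ∀ g, ψ g * g⁻¹ ∈ A := fun g => by
    have : ψ g * g⁻¹ ∈ cen (Op p (⊤ : Subgroup G)) := mem_cen.2 fun x hx => by
      have e := h _ (hO (nconj_mem' (nO g) hx))
      rw [map_mul, map_mul, map_inv, h x (hO hx)] at e
      calc x * (ψ g * g⁻¹) = ψ g * ((ψ g)⁻¹ * x * ψ g) * g⁻¹ := by group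
        _ = ψ g * g⁻¹ * x := by rw [e]; group
    exact ⟨hc ⟨mem_top _, this⟩, this⟩
  obtain ⟨N, hN⟩ := exists_cprod (isMulCommutative_center (Op p (⊤ : Subgroup G))) (G ⧸ T)
  have hn : ¬ p ∣ Nat.card (G ⧸ T) := by
    have := hT.not_dvd; rwa [relIndex_top_right] at this
  obtain ⟨z, hz, ez⟩ := exists_pow_eq_of_coprime hA hn (hN.mem fun ω => ψ ω.out * ω.out⁻¹)
  refine ⟨z, hO hz.1, fun g => ?_⟩
  have h2 := hN.perm (fun ω => ψ ω.out * ω.out⁻¹) (MulAction.toPerm g)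
  have h3 : (fun ω : G ⧸ T => ψ (MulAction.toPerm g ω).out * (MulAction.toPerm g ω).out⁻¹) =
      fun ω => (ψ g * g⁻¹) * (g * (ψ ω.out * ω.out⁻¹) * g⁻¹) := funext fun ω => by
    obtain ⟨t, ht⟩ := QuotientGroup.mk_out_eq_mul T (g * ω.out)
    have : MulAction.toPerm g ω = (g * ω.out : G) := by
      conv_lhs => rw [← QuotientGroup.out_eq' ω]
      rfl
    rw [this, ht, map_mul, map_mul, h t t.2]; group
  rw [h3, hN.mul _ _ (fun _ => h1 g) (fun ω => nconj_mem (nA g) (h1 _)), hN.const _ (h1 g),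
    hN.map _ (fun x => g * x * g⁻¹) (fun ω => h1 _) (homOn_conj _ _)
      (fun a ha => nconj_mem (nA g) ha), ← ez, ← conj_pow] at h2
  have c := isComm_iff'.1 (isMulCommutative_center (Op p (⊤ : Subgroup G)))
  have m1 := nconj_mem (nA g) hz
  have h4 : ψ g * g⁻¹ * (g * z * g⁻¹) * z⁻¹ = 1 := by
    refine eq_one_of_pow_coprime hA hn (A.mul_mem (A.mul_mem (h1 g) m1) (A.inv_mem hz)) ?_
    rw [Commute.mul_pow (c _ (A.mul_mem (h1 g) m1) _ (A.inv_mem hz)),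
      Commute.mul_pow (c _ (h1 g) _ m1), h2, inv_pow, mul_inv_cancel]
  calc ψ g = (ψ g * g⁻¹ * (g * z * g⁻¹) * z⁻¹) * (z * g * z⁻¹) := by group
    _ = _ := by rw [h4, one_mul]

/-- Model Theorem, rigidity: if G is a model of a constrained fusion system over a finite p-group S (through ι : S → G), then every automorphism of G fixing ι(S) elementwise is conjugation by ι(z) for some z in the centre of S. -/
theorem result {Ω : Type*} [Group Ω] {S : Subgroup Ω} [Finite S] (p : ℕ) [Fact p.Prime] (hS : IsPGroup p S) (F : Cfsg.FusionSystem S) (hF : F.IsConstrained p) {G : Type*} [Group G] (ι : S →* G) (hG : F.IsModel p G ι) (ψ : G ≃* G) (hψ : ∀ x : S, ψ (ι x) = ι x) : ∃ z : S, z ∈ Subgroup.center S ∧ ∀ g : G, ψ g = ι z * g * (ι z)⁻¹ := by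
  obtain ⟨_, k⟩ := isModel_iff.1 hG
  obtain ⟨z, hz, e⟩ := aux k.syl k.chp ψ fun t ht => by
    obtain ⟨x, hx, rfl⟩ := (k.mem_img le_rfl).1 ht
    rw [fn_mem _ hx]; exact hψ _
  obtain ⟨x, hx, rfl⟩ := (k.mem_img le_rfl).1 hz
  rw [fn_mem _ hx] at e
  refine ⟨_, mem_center_iff.2 fun s => hG.2.1.1 ?_, e⟩
  rw [map_mul, map_mul, ← mul_inv_eq_iff_eq_mul.1 ((e _).symm.trans (hψ s))]

end Cfsg.Agent.S5105
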