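import Cfsg.Statements.S5107
import Cfsg.Agent.H2.FS10

set_option autoImplicit false
open Cfsg

namespace Cfsg.Agent.S5107

open Subgroup H2 Cfsg.FusionSystem


/-- If a Sylow p-subgroup S of a finite group G has nilpotency class at most two and its centre is strongly closed in S with respect to G, then every map of the fusion system of G on S is conjugation by an element of N_G(S), and S is the largest subgroup normal in that fusion system. -/
theorem result {G : Type*} [Group G] [Finite G] (p : ℕ) [Fact p.Prime] (S : Sylow p G) (hcl : ⁅(S : Subgroup G), (S : Subgroup G)⁆ ≤ (S : Subgroup G) ⊓ Subgroup.centralizer ((S : Subgroup G) : Set G)) (hZ : Cfsg.IsStronglyClosed ((S : Subgroup G) ⊓ Subgroup.centralizer ((S : Subgroup G) : Set G)) (S : Subgroup G)) : (∀ (P : Subgroup G) (φ : P →* G), φ ∈ (Cfsg.groupFusionSystem (S : Subgroup G)).Hom P → ∃ g ∈ Subgroup.normalizer ((S : Subgroup G) : Set G), ∀ x : P, φ x = g * (x : G) * g⁻¹) ∧ (Cfsg.groupFusionSystem (S : Subgroup G)).core = S := by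
  have h := isGF_group (S : Subgroup G)
  have hn : (groupFusionSystem (S : Subgroup G)).IsNormal S := by
    refine normal_of_sc_chain S.isPGroup' (group_saturated S) (C := fun i => if i ≤ 1 then
      ucs S i else S) (monotone_nat_of_le_succ fun i => ?_) (by simp [ucs_zero]) (n := 2) rfl
      (fun i hi => ?_) fun i hi => ?_
    · split_ifs
      exacts [ucs_mono _ i.le_succ, ucs_le _ _, by omega, le_rfl]
    · interval_cases i
      · simpa [ucs_zero] using sc_bot _
      · simpa [ucs_one] using sc_group_iff.2 hZ
      · exact sc_top _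
    · interval_cases i
      · exact commutator_ucs_le _ 0
      · simpa [ucs_one] using hcl
  refine ⟨fun P φ hφ => ?_, le_antisymm (core_le _) (le_core hn)⟩
  obtain ⟨g, hg, e⟩ := h.normal_controls hn (mor_fn hφ)
  exact ⟨g, hg.2, fun x => (fn_coe φ x).symm.trans (e x x.2)⟩

end Cfsg.Agent.S5107
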