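import Cfsg.Statements.S5112
import Cfsg.Agent.H1.Two4
import Cfsg.Agent.H2.FS3

set_option autoImplicit false
open Cfsg

namespace Cfsg.Agent.S5112

open H7 H1B Subgroup

/-- If S is a dihedral or generalized quaternion 2-group of order at least 16, then in every saturated fusion system over S (at the prime 2) the automorphism group Aut_F(S) consists of the inner automorphisms of S. -/
theorem result {Ω : Type*} [Group Ω] {S : Subgroup Ω} [Finite S] (n : ℕ) (hn : 4 ≤ n) (hshape : Nonempty (S ≃* DihedralGroup (2 ^ (n - 1))) ∨ Nonempty (S ≃* QuaternionGroup (2 ^ (n - 2)))) (F : Cfsg.FusionSystem S) (hF : F.IsSaturated 2) : F.autGroup S = Cfsg.Inn S := by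
  obtain ⟨m, rfl⟩ := Nat.exists_eq_add_of_le' hn
  obtain ⟨a, h⟩ : ∃ a, MX (⊤ : Subgroup S) a 1 (m + 1) := by
    rcases hshape with ⟨⟨e⟩⟩ | ⟨⟨e⟩⟩
    exacts [let ⟨a, h, _⟩ := mx_of_dih (n := m + 1) (topEquiv.trans e); ⟨a, h⟩,
      let ⟨a, h, _⟩ := mx_of_quat (n := m + 1) (topEquiv.trans e); ⟨a, h⟩]
  have hA : IsPGroup 2 (MulAut S) := by
    by_contra h'; exact (Nat.succ_ne_zero _ (h.aut_q8 h').1)
  have s := H2.sat_sylow_top (h.pgroup.of_equiv topEquiv) hF
  exact s.eq_of_le (hA.to_subgroup _) s.le le_rfl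

end Cfsg.Agent.S5112
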