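import Cfsg.Statements.S5115
import Cfsg.Agent.H2.CP2

set_option autoImplicit false
open Cfsg

namespace Cfsg.Agent.S5115

open Subgroup H2 Cfsg.FusionSystem

theorem aux {G : Type*} [Group G] [Finite G] {p : ℕ} [Fact p.Prime] (S : Sylow p G)
    (hF : (groupFusionSystem (S : Subgroup G)).IsConstrained p) (H : Subgroup G)
    (hH : H.IsSubnormal) : H2.IsSylowIn p ((S : Subgroup G) ⊓ H) H ∧
      (fusionSystemOfSubgroup H ((S : Subgroup G) ⊓ H) inf_le_right).IsConstrained p := by
  induction hH with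
  | top =>
    refine ⟨H2.sylow_inf_normal S ⊤, (H2.fsi_of_sub ?_ ?_).constrained S.isPGroup' hF⟩
    · exact H2.IsGF.sub (H2.isGF_group _) (H2.isGF_sub _) inf_le_left le_rfl
    · exact H2.IsGF.sub (H2.isGF_sub _) (H2.isGF_group _) (le_inf le_rfl le_top) le_rfl
  | step H K h1 _ h2 ih =>
    have n : K ≤ Subgroup.normalizer (H : Set G) := (Subgroup.normal_subgroupOf_iff_le_normalizer h1).1 h2
    have e : (S : Subgroup G) ⊓ H = (S : Subgroup G) ⊓ K ⊓ H := by
      rw [inf_assoc, inf_eq_right.2 h1]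
    have k := (H2.isGF_sub inf_le_right).nrm (H2.isGF_sub (inf_le_right : (S : Subgroup G) ⊓ H ≤ H))
      ih.1 h1 n e
    refine ⟨?_, k.inv.constrained ih.1.isPGroup ih.2 k.satE⟩
    have := ih.1.inf_normal n
    rwa [← e, inf_eq_right.2 h1] at this

/-- If the 2-fusion system of a finite group G on a Sylow 2-subgroup S is constrained, then for every subnormal subgroup H of G the 2-fusion system of H on S ∩ H is constrained. -/
theorem result {G : Type*} [Group G] [Finite G] (S : Sylow 2 G) (hF : (Cfsg.groupFusionSystem (S : Subgroup G)).IsConstrained 2) (H : Subgroup G) (hH : H.IsSubnormal) : (Cfsg.groupFusionSystem ((S : Subgroup G).subgroupOf H)).IsConstrained 2 := by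
  obtain ⟨h1, h2⟩ := aux S hF H hH
  obtain ⟨θ, j, -⟩ := (isGF_sub (inf_le_right : (S : Subgroup G) ⊓ H ≤ H)).exists_fsi_subgroupOf
  have := j.constrained h1.isPGroup h2
  rwa [inf_subgroupOf_right] at this

end Cfsg.Agent.S5115
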