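import Cfsg.Statements.S5122
import Cfsg.Agent.H2.FS10

set_option autoImplicit false
open Cfsg

namespace Cfsg.Agent.S5122

open Subgroup H2 Cfsg.FusionSystem


/-- Let G be a finite group with Sylow p-subgroup S. Every subgroup P of S has a G-conjugate Q ≤ S such that N_S(Q) is a Sylow p-subgroup of N_G(Q); and for any Q ≤ S with that property, C_S(Q) is a Sylow p-subgroup of C_G(Q) and the automorphisms of Q induced by N_S(Q) form a Sylow p-subgroup of those induced by N_G(Q). -/
theorem result {G : Type*} [Group G] [Finite G] (p : ℕ) [Fact p.Prime] (S : Sylow p G) : (∀ P : Subgroup G, P ≤ S → ∃ g : G, P.map (MulAut.conj g).toMonoidHom ≤ S ∧ (∃ R : Sylow p ↥(Subgroup.normalizer ((P.map (MulAut.conj g).toMonoidHom : Subgroup G) : Set G)), (R : Subgroup ↥(Subgroup.normalizer ((P.map (MulAut.conj g).toMonoidHom : Subgroup G) : Set G))) = (Cfsg.FusionSystem.normalizerIn (S : Subgroup G) (P.map (MulAut.conj g).toMonoidHom)).subgroupOf (Subgroup.normalizer ((P.map (MulAut.conj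 g).toMonoidHom : Subgroup G) : Set G)))) ∧ ∀ Q : Subgroup G, Q ≤ S → (∃ R : Sylow p ↥(Subgroup.normalizer (Q : Set G)), (R : Subgroup ↥(Subgroup.normalizer (Q : Set G))) = (Cfsg.FusionSystem.normalizerIn (S : Subgroup G) Q).subgroupOf (Subgroup.normalizer (Q : Set G))) → (∃ R : Sylow p ↥(Subgroup.centralizer (Q : Set G)), (R : Subgroup ↥(Subgroup.centralizer (Q : Set G))) = (Cfsg.FusionSystem.centralizerIn (S : Subgroup G) Q).subgroupOf (Subgroup.centralizer (Q : Set G))) ∧ (∃ R : Sylow p ↥(Cfsg.autInducedBy ⊤ Q), (R : Subgroup ↥(Cfsg.autInducedBy ⊤ Q)) = (Cfsg.autInducedBy (S : Subgroup G) Q).subgroupOf (Cfsg.autInducedBy ⊤ Q)) := by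
  have h := isGF_group (S : Subgroup G)
  have hS := sylow_isSylowIn_top S
  refine ⟨fun P hP => ?_, fun Q hQ hN => ?_⟩
  · obtain ⟨g, -, h1, h2⟩ := hS.exists_cj_normalizerIn (S.isPGroup'.to_le hP) le_top
    rw [normalizerIn_top] at h2
    exact ⟨g, h1, (isSylowIn_iff_exists_sylow inf_le_right).1 h2⟩
  · have h1 : IsSylowIn p (normalizerIn (S : Subgroup G) Q) (normalizerIn ⊤ Q) := by
      rw [normalizerIn_top]; exact (isSylowIn_iff_exists_sylow inf_le_right).2 hN
    have h2 := (h.fullyCentralized_iff hS hQ).1 (sat_fullyCentralized S.isPGroup'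
      (group_saturated S) ((h.fullyNormalized_iff hS hQ).2 h1))
    rw [centralizerIn_top] at h2
    haveI := finite_mulAut hQ
    exact ⟨(isSylowIn_iff_exists_sylow inf_le_right).1 h2,
      (isSylowIn_iff_exists_sylow h1.autInd.le).1 h1.autInd⟩

end Cfsg.Agent.S5122
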