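import Cfsg.Statements.S5130
import Cfsg.Agent.H2.CP3

set_option autoImplicit false
open Cfsg

namespace Cfsg.Agent.S5130

open Subgroup H2 Cfsg.FusionSystem

theorem full_sat {Ω : Type*} [Group Ω] {S S₁ S₂ : Subgroup Ω} [Finite S] {p : ℕ} [Fact p.Prime]
    {F : FusionSystem S} {R : FusionSystem S₁} (hS : IsPGroup p S) (hF : F.IsSaturated p)
    (h₁ : F.StronglyClosed S₁) (hc : S₂ ≤ Subgroup.centralizer S₁) (hs : S ≤ S₁ ⊔ S₂)
    (hR : ∀ P f, H2.Mor R P f ↔ P ≤ S₁ ∧ H2.Mor F P f) : R.IsSaturated p := by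
  open Subgroup H2 in
  intro P hP
  obtain ⟨Q, q1, q2⟩ := exists_fullyNormalized F (hP.trans h₁.1)
  have lQ := sc_isConj_le h₁ hP q1
  obtain ⟨f, f1, f2⟩ := isConj_iff.1 q1
  haveI : Finite S₁ := H2.finite_of_le h₁.1
  have dec : ∀ s ∈ S, ∃ t ∈ S₁, ∀ x ∈ S₁, s * x * s⁻¹ = t * x * t⁻¹ := fun s h => by
    obtain ⟨a, ha, b, hb, rfl⟩ := (mem_sup_of_cen (fun x hx y hy => (hc hy x hx).symm) le_rfl
      le_rfl).1 (hs h)
    refine ⟨a, ha, fun x hx => ?_⟩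
    have := hc hb x hx
    calc a * b * x * (a * b)⁻¹ = a * (b * x) * b⁻¹ * a⁻¹ := by group
      _ = _ := by rw [← this]; group
  refine ⟨Q, isConj_iff.2 ⟨f, (hR _ _).2 ⟨hP, f1⟩, f2⟩, fullyAutomized_iff.2 ⟨lQ, ?_⟩,
    receptive_iff.2 ⟨lQ, fun U g g1 g2 => ?_⟩⟩
  · have e1 : R.autGroup Q = F.autGroup Q := by
      ext α
      rw [mem_autGroup lQ, mem_autGroup (lQ.trans h₁.1), hR, and_iff_right lQ]
    have e2 : autInducedBy S₁ Q = autInducedBy S Q := by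
      refine le_antisymm (autInducedBy_mono h₁.1 _) fun α hα => ?_
      obtain ⟨s, s1, s2⟩ := mem_autInducedBy.1 hα
      obtain ⟨t, t1, t2⟩ := dec s s1
      exact mem_autInducedBy.2 ⟨t, t1, fun x hx => (s2 x hx).trans (t2 x (lQ hx))⟩
    rw [e1, e2]
    exact sat_sylow hS hF q2
  · obtain ⟨k, k1, k2⟩ := (receptive_iff.1 (sat_receptive hS hF q2)).2 U g ((hR _ _).1 g1).2 g2
    refine ⟨k, (hR _ _).2 ⟨extd_le_normalizerIn.trans normalizerIn_le, k1.mono fun s h => ?_⟩, k2⟩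
    obtain ⟨s1, s2, t, t1, t2⟩ := mem_extd.1 h
    exact mem_extd.2 ⟨h₁.1 s1, s2, t, h₁.1 t1, t2⟩

/-- Let F be a saturated fusion system over a finite p-group S that is the direct product of two subgroups S₁ and S₂, each strongly closed in F. Let R be the full subsystem of F over S₁ (all maps of F between subgroups of S₁) and R′ the subsystem over S₁ of those maps that extend to the subgroup generated with S₂ fixing S₂ elementwise. Then R and R′ are saturated, R′ is normal in F and in R, and R is weakly normal in F. -/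
theorem result {Ω : Type*} [Group Ω] {S : Subgroup Ω} [Finite S] (p : ℕ) [Fact p.Prime] (hS : IsPGroup p S) (F : Cfsg.FusionSystem S) (hF : F.IsSaturated p) (S₁ S₂ : Subgroup Ω) (hprod : Cfsg.IsInternalDirectProduct S₁ S₂ S) (h₁ : F.StronglyClosed S₁) (h₂ : F.StronglyClosed S₂) (R R' : Cfsg.FusionSystem S₁) (hR : ∀ P : Subgroup Ω, P ≤ S₁ → R.Hom P = F.Hom P) (hR' : ∀ P : Subgroup Ω, P ≤ S₁ → R'.Hom P = F.centralizerHom S₂ P) : R.IsSaturated p ∧ R'.IsSaturated p ∧ R'.IsNormalIn F p ∧ R'.IsNormalIn R p ∧ R.IsWeaklyNormalIn F p := by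
  obtain ⟨l1, l2, cm, hi, hs⟩ := hprod
  haveI : Finite S₁ := H2.finite_of_le l1
  haveI : Finite S₂ := H2.finite_of_le l2
  have c1 : S₁ ≤ centralizer S₂ := fun x hx y hy => (cm x hx y hy).symm
  have c2 : S₂ ≤ centralizer S₁ := fun x hx y hy => cm y hy x hx
  have lc : S₁ ≤ centralizerIn S S₂ := fun x hx => mem_centralizerIn.2 ⟨l1 hx, c1 hx⟩
  have mR : ∀ P f, Mor R P f ↔ P ≤ S₁ ∧ Mor F P f := fun P f =>
    ⟨fun h => ⟨h.le, (hom_eq_iff_mor.1 (hR P h.le) f).1 h⟩,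
      fun h => (hom_eq_iff_mor.1 (hR P h.1) f).2 h.2⟩
  have mR' : ∀ P f, Mor R' P f ↔ P ≤ S₁ ∧ NKMor F S₂ ⊥ P f := fun P f => by
    have := fun h => (hom_eq_iff_of_congr (fun φ => mem_centralizerHom) (fun _ _ h e => h.congr e)
      fun _ h => h.mor.homOn).1 (hR' P h) f
    exact ⟨fun h => ⟨h.le, (this h.le).1 h⟩, fun h => (this h.1).2 h.2⟩
  have K : ∀ P ≤ S₁, ∀ f, Mor F P f →
      ∃ g, Mor F (P ⊔ S₂) g ∧ (∀ x ∈ P, g x = f x) ∧ img g S₂ = S₂ := fun P hP f hf => by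
    obtain ⟨g, g1, g2⟩ := factor_lemma hS hF h₂ hf
    refine ⟨g, g1, fun x hx => inv_mul_eq_one.1 (mem_bot.1 (hi.le ⟨S₁.mul_mem (S₁.inv_mem
      (sc_mem h₁ g1 (mem_sup_left hx) (hP hx))) (sc_mem h₁ hf hx (hP hx)), g2 x hx⟩)),
      sc_img h₂ g1 le_sup_right⟩
  have sR := full_sat hS hF h₁ c2 hs.ge mR
  obtain ⟨C, hC⟩ := exists_cen F l2
  have sC := hC.saturated hS hF (fullyK_bot_iff.2 (sat_fullyCentralized hS hF
    (sc_fullyNormalized h₂)))
  have sR' : R'.IsSaturated p := full_sat (hS.to_le centralizerIn_le) sC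
    (sc_sub hC.sub h₁ lc) c2 (centralizerIn_le.trans hs.ge) fun P f => by rw [mR', hC.mor]
  have sub' : R'.IsSubsystemOf F := sub_iff_mor.2 fun P f h => ((mR' _ _).1 h).2.mor
  have si : SInv R' F := cen_sInv (Q := S₂) (fun P f => by
    rw [mR', nkMor_bot_iff]
    exact and_congr_right fun h => and_iff_right (h.trans lc)) h₁ K
  have sub : R.IsSubsystemOf F := sub_iff_mor.2 fun P f h => ((mR _ _).1 h).2
  refine ⟨sR, sR', normalIn_iff.2 ⟨sR', hF, inv_of_strong hS hF sub' h₁ si, fun a ha => ?_⟩,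
    normalIn_iff.2 (nrm_of_top sR' sR (inv_of_strong (hS.to_le l1) sR (sub_iff_mor.2 fun P f h =>
      (mR _ _).2 ⟨h.le, h.sub sub'⟩) (sc_top R) (si.mono sub))),
    weaklyNormalIn_iff.2 ⟨sR, hF, inv_of_strong hS hF sub h₁ fun P Q f ψ g k1 k2 k3 k4 k5 k6 => ?_⟩⟩
  · obtain ⟨-, g, g1, g2, g3⟩ := nkMor_bot_iff.1 ((mR' _ _).1 ha).2
    refine ⟨g, g1.mono ((sup_le l1 centralizerIn_le).trans hs.ge), g2, fun c hc => ?_⟩
    exact g1.homOn.dev_sup (hs.le.trans (sc_le_normalizer h₁))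
      (fun x hx => S₁.mul_mem (S₁.inv_mem hx) (sc_mem h₁ g1 (mem_sup_left hx) hx))
      (fun x hx => by rw [g3 x hx, inv_mul_cancel]; exact one_mem _) c
      (hs.ge (centralizerIn_le hc))
  · obtain ⟨ψ', j⟩ := (k5.mono k1).exists_iso
    refine (mR _ _).2 ⟨sc_isConj_le h₁ (k1.trans k2) j.isConj,
      (k5.comp ((k3.sub sub).comp j.mg j.gQ) fun y hy => k4 _ (j.gQ y hy)).congr fun y hy => ?_⟩
    rw [← k6 _ (j.gQ y hy), j.fg y hy]

end Cfsg.Agent.S5130
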