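import Cfsg.Statements.S5139
import Cfsg.Agent.H2.OP

set_option autoImplicit false
open Cfsg

namespace Cfsg.Agent.S5139

open Subgroup H2 Cfsg.FusionSystem


/-- Let G be a finite group with Sylow p-subgroup S and O^p(G) the subgroup generated by the elements of order prime to p. Then the p-residual subsystem of the fusion system of G on S — the saturated subsystem of p-power index over the hyperfocal subgroup — is the fusion system of O^p(G) on S ∩ O^p(G): its maps are exactly the conjugation maps by elements of O^p(G) between subgroups of S ∩ O^p(G). -/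
theorem result {G : Type*} [Group G] [Finite G] (p : ℕ) [Fact p.Prime] (S : Sylow p G) (E : Cfsg.FusionSystem ((Cfsg.groupFusionSystem (S : Subgroup G)).hyperfocalSubgroup p)) (hE : (Cfsg.groupFusionSystem (S : Subgroup G)).IsPResidual p E) : ∃ h : (S : Subgroup G) ⊓ Cfsg.pResidual p G ≤ Cfsg.pResidual p G, ∀ P : Subgroup G, E.Hom P = (Cfsg.fusionSystemOfSubgroup (Cfsg.pResidual p G) ((S : Subgroup G) ⊓ Cfsg.pResidual p G) h).Hom P := by
  rw [pres_iff] at hE
  have hS := sylow_isSylowIn_top S
  have e := (isGF_group (S : Subgroup G)).hyp_eq hS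
  rw [pRes_top] at e
  refine ⟨inf_le_right, hom_eq_of_sub ?_ ?_⟩
  · exact ((isGF_group _).pi hS (isGF_sub inf_le_right) pRes_top.le le_top le_rfl inf_le_left).ge
      S.isPGroup' hE.1 hE.2.sub e.le
  · exact hE.2.ge S.isPGroup' ((isGF_sub inf_le_right).saturated (sylow_inf_normal S _))
      ((isGF_group _).sub (isGF_sub _) inf_le_left le_top) e.ge

end Cfsg.Agent.S5139
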