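import Cfsg.Statements.S5143
import Cfsg.Agent.H2.ES4

set_option autoImplicit false
open Cfsg

namespace Cfsg.Agent.S5143

open Subgroup H2 Cfsg.FusionSystem


/-- Let F be a saturated fusion system over a finite p-group S, E a normal subsystem over T, and R a subgroup with T ≤ R ≤ S. Then there is exactly one saturated subsystem D of F over R (exactly one family of map sets) whose p-residual subsystem is that of E: the hyperfocal subgroups of D and E coincide and the p-residual subsystems of D and of E have the same maps. -/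
theorem result {Ω : Type*} [Group Ω] {S : Subgroup Ω} [Finite S] (p : ℕ) [Fact p.Prime] (hS : IsPGroup p S) (F : Cfsg.FusionSystem S) (hF : F.IsSaturated p) {T : Subgroup Ω} (E : Cfsg.FusionSystem T) (hE : E.IsNormalIn F p) (R : Subgroup Ω) (hTR : T ≤ R) (hRS : R ≤ S) : ∃ D : Cfsg.FusionSystem R, (D.IsSaturated p ∧ D.IsSubsystemOf F ∧ D.hyperfocalSubgroup p = E.hyperfocalSubgroup p ∧ ∀ (D₁ : Cfsg.FusionSystem (D.hyperfocalSubgroup p)) (E₁ : Cfsg.FusionSystem (E.hyperfocalSubgroup p)), D.IsPResidual p D₁ → E.IsPResidual p E₁ → ∀ P : Subgroup Ω, D₁.Hom P = E₁.Hom P) ∧ ∀ D' : Cfsg.FusionSystem R, D'.IsSaturated p → D'.IsSubsystemOf F → D'.hyperfocalSubgroup p = E.hyperfocalSubgroup p → (∀ (D₁ : Cfsg.FusionSystem (D'.hyperfocalSubgroup p)) (E₁ : Cfsg.FusionSystem (E.hyperfocalSubgroup p)), D'.IsPResidual p D₁ → E.IsPResidual p E₁ → ∀ P : Subgroup Ω, D₁.Hom P = E₁.Hom P) → ∀ P : Subgroup Ω, D'.Hom P = D.Hom P := by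
  have n := normalIn_iff.1 hE
  haveI := finite_of_le n.le
  haveI := finite_of_le hRS
  have pT := hS.to_le n.le
  have pR := hS.to_le hRS
  obtain ⟨O, o1, o2⟩ := n.exists_pres hS
  have l := (hyp_le E p).trans hTR
  obtain ⟨D, d1, d2, d3, d4⟩ := o2.exists_er hS l hRS
  have e := (d3.hyp_eq pR d1).symm.trans (o1.hyp_eq pT n.satE)
  refine ⟨D, ⟨d1, d2, e, fun D₁ E₁ h1 h2 P => ?_⟩, fun D' c1 c2 c3 c4 => ?_⟩
  · obtain ⟨a1, a2⟩ := pres_iff.1 h1
    obtain ⟨b1, b2⟩ := pres_iff.1 h2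
    rw [hom_eq_of_sub (d3.ge pR a1 a2.sub e.le) (a2.ge pR o2.satE d3.sub e.ge),
      hom_eq_of_sub (o1.ge pT b1 b2.sub le_rfl) (b2.ge pT o2.satE o1.sub le_rfl)]
  · obtain ⟨D₁, a1, a2⟩ := exists_pi pR c1 (hyp_le D' p) le_rfl
    have k := c4 D₁ O (pres_iff.2 ⟨a1, a2⟩) (pres_iff.2 ⟨o2.satE, o1⟩)
    have s1 : O.IsSubsystemOf D₁ := sub_iff_mor.2 fun P f => (hom_eq_iff_mor.1 (k P) f).2
    have s2 : D₁.IsSubsystemOf O := sub_iff_mor.2 fun P f => (hom_eq_iff_mor.1 (k P) f).1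
    have b : PI O D' p := ⟨sub_trans s1 a2.sub, c3.le, fun P hP =>
      (a2.aut P (hP.trans c3.ge)).trans (autGroup_mono s2 P)⟩
    have s3 := d4 R D' c1 c2 b le_rfl
    exact hom_eq_of_sub s3 (d3.le_of_le pR d1 (b.nrm pR c1 o2.satE
      (hRS.trans (sc_le_normalizer o2.inv.sc))) s3)

end Cfsg.Agent.S5143
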