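import Cfsg.Statements.S5147
import Cfsg.Agent.H2.CP2
import Cfsg.Agent.S5115

set_option autoImplicit false
open Cfsg

namespace Cfsg.Agent.S5147

open Subgroup H2 Cfsg.FusionSystem


/-- Let G be a finite group with Sylow 2-subgroup S whose 2-fusion system on S is constrained, and L a component of G (a subnormal quasisimple subgroup). Then the 2-fusion system of L/Z(L) on the image of S ∩ L is constrained. -/
theorem result {G : Type*} [Group G] [Finite G] (S : Sylow 2 G) (hF : (Cfsg.groupFusionSystem (S : Subgroup G)).IsConstrained 2) (L : Subgroup G) (hL : Cfsg.IsComponent L) : (Cfsg.groupFusionSystem (((S : Subgroup G).subgroupOf L).map (QuotientGroup.mk' (Subgroup.center L)))).IsConstrained 2 := by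
  have h1 := Cfsg.Agent.S5115.result S hF L hL.1
  have s := (Cfsg.Agent.S5115.aux S hF L hL.1).1.subgroupOf le_rfl
  rw [inf_subgroupOf_right, subgroupOf_self] at s
  have g := isGF_group (((S : Subgroup G).subgroupOf L).map (QuotientGroup.mk' (center L)))
  have m := (isGF_group _).smor s (homOn_hom (QuotientGroup.mk' (center L)) ⊤) (by
    rwa [img_hom, ← MonoidHom.range_eq_map, QuotientGroup.range_mk']) (img_hom _ _)
  refine m.constrained s.isPGroup ((isGF_group _).central prim_le fun g _ x hx => ?_) h1
  exact (mem_center_iff.1 ((QuotientGroup.eq_one_iff x).1 (m.hom.mem_ker.1 hx).2) g).symm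

end Cfsg.Agent.S5147
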