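import Cfsg.Statements.S5159
import Cfsg.Agent.H2.FS20

set_option autoImplicit false
open Cfsg

namespace Cfsg.Agent.S5159

open Subgroup H2 Cfsg.FusionSystem


/-- Let F be a saturated fusion system over a finite p-group S, E a normal subsystem over T, and D the factor system of F modulo T (read through any homomorphism on S with kernel T). Then F is solvable if and only if E and D are solvable (solvable, for a system over a subgroup S: for every subgroup R other than S that is strongly closed in F, the factor system of F modulo R has a nontrivial subgroup normal in it). -/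
theorem result {Ω : Type*} [Group Ω] {S : Subgroup Ω} [Finite S] (p : ℕ) [Fact p.Prime] (hS : IsPGroup p S) (F : Cfsg.FusionSystem S) (hF : F.IsSaturated p) {T : Subgroup Ω} (E : Cfsg.FusionSystem T) (hE : E.IsNormalIn F p) {Ω' : Type*} [Group Ω'] {S' : Subgroup Ω'} (θ : S →* Ω') (D : Cfsg.FusionSystem S') (hD : F.IsFactorSystem T θ D) : F.IsSolvableSystem ↔ (E.IsSolvableSystem ∧ D.IsSolvableSystem) := by
  have hn := normalIn_iff.1 hE
  obtain ⟨e1, e2⟩ := isFactorSystem_iff.1 hD
  have hm := e2.smor hS hF (e1 ▸ hn.inv.sc)
  have := finite_of_le hn.le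
  have := e2.finite
  rw [solvable_iff hS hF, solvable_iff (hS.to_le hn.le) hn.satE,
    solvable_iff (e2.isPGroup hS) (hm.saturated hS hF)]
  refine ⟨fun h => ⟨?_, ?_⟩, fun h => (hn.inv.sChain hS hF hn.satE h.1).trans ?_⟩
  · simpa [inf_eq_right.2 hn.le] using h.sub hn.inv.sub
  · have := h.img e2
    rwa [img_bot e2.hom.one, e2.onto] at this
  · have := h.2.prim hm.toFMor
    rwa [← e1, e2.prim_top] at this

end Cfsg.Agent.S5159
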