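import Cfsg.Statements.S5160
import Cfsg.Agent.H2.OQ

set_option autoImplicit false
open Cfsg

namespace Cfsg.Agent.S5160

open Subgroup H2 Cfsg.FusionSystem


/-- Let G be a finite group with nontrivial Sylow p-subgroup S and F its fusion system on S. Suppose (a) no nontrivial proper subgroup of S is strongly closed in F, and (b) the automorphisms of S induced by G are generated by those induced, for R running over the fully normalized radical centric subgroups of F, by the subgroup of N_G(R) generated by its elements of p-power order. Then F is simple. -/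
theorem result {G : Type*} [Group G] [Finite G] (p : ℕ) [Fact p.Prime] (S : Sylow p G) (hS1 : (S : Subgroup G) ≠ ⊥) (ha : ∀ T : Subgroup G, (Cfsg.groupFusionSystem (S : Subgroup G)).StronglyClosed T → T = ⊥ ∨ T = (S : Subgroup G)) (hb : Cfsg.autInducedBy ⊤ (S : Subgroup G) = ⨆ (R : Subgroup G) (_ : (Cfsg.groupFusionSystem (S : Subgroup G)).IsFullyNormalized R ∧ (Cfsg.groupFusionSystem (S : Subgroup G)).IsRadical p R ∧ (Cfsg.groupFusionSystem (S : Subgroup G)).IsCentric R), Cfsg.autInducedBy (Subgroup.closure {g : G | g ∈ Subgroup.normalizer (R : Set G) ∧ ∃ k : ℕ, orderOf g = p ^ k}) (S : Subgroup G)) : (Cfsg.groupFusionSystem (S : Subgroup G)).IsSimple p := by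
  have hF := group_saturated S
  have hG := isGF_group (S : Subgroup G)
  refine simple_of hF hS1 ha fun E hE a h => ?_
  obtain ⟨α, hα, e⟩ := h.exists_aut fun _ => h.mem
  rw [hG.autGroup le_rfl, hb] at hα
  refine ((mem_autGroup le_rfl).1 ((iSup₂_le fun R hR β hβ => ?_ : _ ≤ E.autGroup S) hα)).congr e
  obtain ⟨g, hg, eg⟩ := mem_autInducedBy.1 hβ
  have h1 := hR.1.1
  have hg' : g ∈ NK ⊤ R (E.autGroup R) := by
    refine (closure_le (NK ⊤ R (E.autGroup R))).2 ?_ hg
    rintro x ⟨hx, k, ek⟩
    refine mem_NK_iff_cAut.2 ⟨trivial, hx, (hE.inv.qi S.isPGroup' hF).aut R h1 (mem_pGen (k := k)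
      (hG.autGroup h1 ▸ cAut_mem hx trivial) ?_)⟩
    have : cAut R x hx = R.normalizerMonoidHom ⟨x, hx⟩ := rfl
    rw [this, ← map_pow, ← ek, ← Subgroup.orderOf_mk x hx, pow_orderOf_eq_one, map_one]
  obtain ⟨-, γ, h2, h3⟩ := mem_NK.1 hg'
  exact (mem_autGroup le_rfl).2 (mor_of_restrict_centric S.isPGroup' hF hE.satE hE.inv.sub hR.2.2 h1
    ((mem_autGroup le_rfl).1 (hG.autGroup le_rfl ▸ mem_autInducedBy.2 ⟨g, trivial, eg⟩))
    (((mem_autGroup h1).1 h2).congr fun x hx => (h3 x hx).trans (eg x (h1 hx)).symm))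

end Cfsg.Agent.S5160
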