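import Cfsg.Statements.S5311
import Cfsg.Agent.H2.CP1

set_option autoImplicit false
open Cfsg

namespace Cfsg.Agent.S5311

open Subgroup H2 Cfsg.FusionSystem

theorem aux {Ω : Type*} [Group Ω] {S T : Subgroup Ω} [Finite S] {p : ℕ} [Fact p.Prime]
    (hS : IsPGroup p S) {F : FusionSystem S} {a a' : Ω → Ω} (h : H2.FSI F F a a')
    {E : FusionSystem T} (hE : E.IsLayerOf F p) :
    ∃ E' : FusionSystem (H2.img a T), H2.FSI E E' a a' ∧ E.IsSubsystemOf E' := by
  open H2 in
  have n := normalIn_iff.1 hE.1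
  obtain ⟨E', e1, -⟩ := h.exists_push n.inv.sub rfl
  refine ⟨E', e1, hE.2.2 _ E' (H2.normalIn_iff.2 (h.nrm e1 hS n)) fun U C hC => ?_⟩
  have s := H2.subnormal_sub hC.1
  haveI := H2.finite_of_le (H2.sub_le s)
  obtain ⟨C', c1, -⟩ := h.symm.exists_push s rfl
  exact c1.symm.sub_of e1 (hE.2.1 _ C' ⟨H2.FSI.subnormal hC.1 hS h.symm c1,
    c1.quasisimple (hS.to_le (H2.sub_le s)) hC.2⟩)

/-- The layer of a saturated fusion system F over a finite p-group S is characteristic in F: for every automorphism α of S that is an automorphism of F (α and its inverse are morphisms from F to F) and every layer E of F over T, α carries T onto T and, for every map φ of E with source P, the map induced by α on α(P) (that is, α ∘ φ ∘ α⁻¹) is a map of E. -/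
theorem result {Ω : Type*} [Group Ω] {S : Subgroup Ω} [Finite S] (p : ℕ) [Fact p.Prime] (hS : IsPGroup p S) (F : Cfsg.FusionSystem S) (hF : F.IsSaturated p)
    (α : ↥S ≃* ↥S) (hα : F.IsMorphism F (S.subtype.comp α.toMonoidHom))
    (hα' : F.IsMorphism F (S.subtype.comp α.symm.toMonoidHom))
    {T : Subgroup Ω} (E : Cfsg.FusionSystem T) (hE : E.IsLayerOf F p) :
    Cfsg.FusionSystem.imageAlong (S.subtype.comp α.toMonoidHom) T = T ∧
      ∀ (P : Subgroup Ω) (φ : ↥P →* Ω), φ ∈ E.Hom P →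
        ∀ φ' : ↥(Cfsg.FusionSystem.imageAlong (S.subtype.comp α.toMonoidHom) P) →* Ω,
          Cfsg.FusionSystem.InducedAlong (S.subtype.comp α.toMonoidHom) φ φ' →
            φ' ∈ E.Hom (Cfsg.FusionSystem.imageAlong (S.subtype.comp α.toMonoidHom) P) := by
  have j : FSI F F (fn (S.subtype.comp α.toMonoidHom)) (fn (S.subtype.comp α.symm.toMonoidHom)) := by
    refine ⟨isMorphism_iff.1 hα, isMorphism_iff.1 hα', fun x hx => ?_, fun x hx => ?_⟩
    · rw [fn_mem _ hx]; simp
    · rw [fn_mem _ hx]; simp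
  have l := (normalIn_iff.1 hE.1).le
  haveI := finite_of_le l
  obtain ⟨E₁, e1, e2⟩ := aux hS j hE
  obtain ⟨E₂, f1, f2⟩ := aux hS j.symm hE
  haveI := e1.finite
  refine ⟨?_, fun P φ hφ φ' h => ?_⟩
  · rw [imageAlong_eq _ l]
    exact (eq_of_le_of_card_le (sub_le e2) (j.card l).le).symm
  · have m := mor_fn hφ
    obtain ⟨h1, -, -, h4⟩ := inducedAlong_iff.1 h
    have := f1.m'.mor_of (m.sub f2) h4
    rw [← imageAlong_eq _ h1] at this
    exact mem_hom_iff.2 this

end Cfsg.Agent.S5311
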