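import Cfsg.Statements.S5344
import Mathlib
import Cfsg.Agent.H8.Tr3
import Cfsg.Agent.H4.Tri

set_option autoImplicit false
open Cfsg

namespace Cfsg.Agent.S5344

open H8

/-- In a set of 3-transpositions, let a, b, c be members with a and c different and commuting, while neither a nor c commutes with b (a 3-string). Then there is an injective homomorphism from the symmetric group of degree 4 into the ambient group sending the transpositions (0 1), (1 2), (2 3) to a, b, c; so a, b, c generate a copy of the symmetric group of degree 4 in which they are transpositions. -/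
theorem result {G : Type*} [Group G] {D : Set G} (hD : Cfsg.IsThreeTranspositionSet D) {a b c : G} (ha : a ∈ D) (hb : b ∈ D) (hc : c ∈ D) (hac : a ≠ c) (hac' : Commute a c) (hab : ¬ Commute a b) (hbc : ¬ Commute b c) : ∃ φ : Equiv.Perm (Fin 4) →* G, Function.Injective φ ∧ φ (Equiv.swap 0 1) = a ∧ φ (Equiv.swap 1 2) = b ∧ φ (Equiv.swap 2 3) = c := by
  have sa := t3_sq hD ha
  have sb := t3_sq hD hb
  have sc := t3_sq hD hc
  have h1 := t3_braid hD ha hb hab
  have h2 := t3_braid hD hb hc hbc
  obtain ⟨φ, hφ, e1, e2⟩ := H4.exists_hom_s4 sa (t3_cube hD hb hc hbc)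
    (cox_four sa sb sc hac' h1 h2) (by
      rw [cox_sq sb hac' h1 h2]
      intro e
      have : a * c = 1 := by
        calc a * c = b * (b * (a * c) * b) * b := by simp [mul_assoc, ll1 sb, sb]
          _ = 1 := by rw [e, mul_one, sb]
      exact hac (by rw [eq_inv_of_mul_eq_one_left this, inv1 sc]))
  have e3 : φ (Equiv.swap 1 2) = b := by
    rw [show Equiv.swap 1 2 = (H4.s4a * H4.s4b) * H4.s4a * (H4.s4a * H4.s4b)⁻¹ by decide,
      map_mul, map_inv, map_mul, map_mul, e1, e2]
    calc a * (b * c) * a * (a * (b * c))⁻¹ = a * b * (c * a * c⁻¹) * b⁻¹ * a⁻¹ := by group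
      _ = (a * b * a) * b⁻¹ * a⁻¹ := by rw [← hac'.eq, mul_inv_cancel_right]
      _ = b := by rw [h1]; group
  refine ⟨φ, hφ, e1, e3, ?_⟩
  rw [show Equiv.swap 2 3 = (Equiv.swap 1 2)⁻¹ * H4.s4b by decide, map_mul, map_inv, e3, e2]
  group

end Cfsg.Agent.S5344
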