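import Cfsg.Statements.S5345
import Mathlib
import Cfsg.Agent.H8.Tr3

set_option autoImplicit false
open Cfsg

namespace Cfsg.Agent.S5345

open H8 Subgroup

/-- Let D be a conjugation-invariant generating set of 3-transpositions of a finite group G and T a Sylow 2-subgroup of G. Then the members of D lying in T generate an abelian subgroup, and their number is the width of D (the largest number of pairwise commuting members of D). -/
theorem result {G : Type*} [Group G] [Finite G] {D : Set G} (hD : Cfsg.IsThreeTranspositionGroup D) (T : Sylow 2 G) : IsMulCommutative (Subgroup.closure {d : G | d ∈ D ∧ d ∈ T}) ∧ {d : G | d ∈ D ∧ d ∈ T}.ncard = Cfsg.commutingWidth D := by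
  haveI : Fact (Nat.Prime 2) := ⟨Nat.prime_two⟩
  have hc : ∀ a ∈ {d : G | d ∈ D ∧ d ∈ T}, ∀ b ∈ {d : G | d ∈ D ∧ d ∈ T}, Commute a b := by
    intro a ha b hb
    by_contra hn
    obtain ⟨k, hk⟩ := T.isPGroup' ⟨a * b, (T : Subgroup G).mul_mem ha.2 hb.2⟩
    have h1 := Nat.eq_one_of_dvd_coprimes (Nat.Coprime.pow_right k (by norm_num : Nat.Coprime 3 2))
      (orderOf_dvd_of_pow_eq_one (t3_cube hD.1 ha.1 hb.1 hn))
      (orderOf_dvd_of_pow_eq_one (congrArg Subtype.val hk))
    exact hn (by
      rw [eq_inv_of_mul_eq_one_left (orderOf_eq_one_iff.1 h1)]; exact (Commute.refl b).inv_left)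
  refine ⟨isMulCommutative_closure hc, Eq.symm (IsGreatest.csSup_eq ⟨⟨_, fun x hx => hx.1,
    Set.toFinite _, hc, rfl⟩, ?_⟩)⟩
  rintro _ ⟨E, h1, -, h2, rfl⟩
  haveI := isMulCommutative_closure h2
  have h3 : IsPGroup 2 (closure E) := fun x => ⟨1, Subtype.ext (by
    obtain ⟨x, hx⟩ := x
    show x ^ 2 ^ 1 = 1
    rw [pow_one]
    induction hx using closure_induction with
    | mem x hx => rw [pow_two, t3_sq hD.1 (h1 hx)]
    | one => exact one_pow 2
    | mul x y hx hy a b => rw [(show Commute x y from setLike_mul_comm hx hy).mul_pow, a, b, one_mul]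
    | inv x _ a => rw [inv_pow, a, inv_one])⟩
  obtain ⟨Q, hQ⟩ := h3.exists_le_sylow
  obtain ⟨g, rfl⟩ := MulAction.exists_smul_eq G Q T
  refine Set.ncard_le_ncard_of_injOn (fun x => g * x * g⁻¹) (fun x hx => ⟨hD.2.1 g x (h1 hx), ?_⟩)
    fun x _ y _ e => by simpa using e
  exact Subgroup.smul_mem_pointwise_smul x (MulAut.conj g) _ (hQ (subset_closure hx))

end Cfsg.Agent.S5345
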