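import Cfsg.Statements.S5346
import Cfsg.Agent.H6.G3a

set_option autoImplicit false
open Cfsg

namespace Cfsg.Agent.S5346
set_option maxRecDepth 100000

/-- Let D be a conjugation-invariant generating set of 3-transpositions of a finite group G and d a member of D. Then D has width 1 (no two different members of D commute) if and only if G is the product of the subgroup generated by d with the largest normal 3-subgroup of G. -/
theorem result {G : Type*} [Group G] [Finite G] {D : Set G} (hD : Cfsg.IsThreeTranspositionGroup D) {d : G} (hd : d ∈ D) : Cfsg.commutingWidth D = 1 ↔ Subgroup.zpowers d ⊔ Cfsg.pCore 3 G = ⊤ := by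
  exact (H6.TG.of hD).w1 hD.2.2 hd

end Cfsg.Agent.S5346
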