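import Cfsg.Statements.S5347
import Mathlib
import Cfsg.Agent.H8.Tr3

set_option autoImplicit false
open Cfsg

namespace Cfsg.Agent.S5347

open H8 Subgroup

/-- Let D be a conjugation-invariant generating set of 3-transpositions of a finite group G, p a prime bigger than 3, and P a p-subgroup of G. If a member d of D normalizes P then d centralizes P. -/
theorem result {G : Type*} [Group G] [Finite G] {D : Set G} (hD : Cfsg.IsThreeTranspositionGroup D) {p : ℕ} (hp : p.Prime) (hp3 : 3 < p) (P : Subgroup G) (hP : IsPGroup p P) {d : G} (hd : d ∈ D) (hnorm : d ∈ Subgroup.normalizer (P : Set G)) : ∀ x ∈ P, Commute d x := by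
  intro x hx
  haveI := Fact.mk hp
  have sd := t3_sq hD.1 hd
  have h1 : d * (x * d * x⁻¹) ∈ P := by
    have := P.mul_mem ((mem_normalizer_iff.1 hnorm x).1 hx) (P.inv_mem hx)
    rwa [inv1 sd, mul_assoc, mul_assoc, ← mul_assoc x] at this
  obtain ⟨k, hk⟩ := hP ⟨_, h1⟩
  have hk' : orderOf (d * (x * d * x⁻¹)) ∣ p ^ k := orderOf_dvd_of_pow_eq_one (congrArg Subtype.val hk)
  have h2 : orderOf (d * (x * d * x⁻¹)) = 1 := by
    rcases hD.1.2 d hd _ (hD.2.1 x d hd) with h | h
    · exact Nat.eq_one_of_dvd_coprimes (Nat.Coprime.pow_right k ((Nat.coprime_primes Nat.prime_two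
        hp).2 (by omega))) (orderOf_dvd_of_pow_eq_one h) hk'
    · exact Nat.eq_one_of_dvd_coprimes (Nat.Coprime.pow_right k ((Nat.coprime_primes Nat.prime_three
        hp).2 (by omega))) (orderOf_dvd_of_pow_eq_one h) hk'
  have h3 := eq_inv_of_mul_eq_one_right (orderOf_eq_one_iff.1 h2)
  rw [inv1 sd, mul_inv_eq_iff_eq_mul] at h3
  exact h3.symm

end Cfsg.Agent.S5347
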