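import Cfsg.Statements.S5349
import Cfsg.Agent.H6.G3a

set_option autoImplicit false
open Cfsg

namespace Cfsg.Agent.S5349
set_option maxRecDepth 100000

/-- Let D be a conjugacy class of 3-transpositions generating the finite group G, with at least two members, and d a member of D. Then the set of members of D commuting with exactly the same members of D as d coincides with the set of members of D lying in the coset of d modulo the largest normal 2-subgroup of G, and also with the orbit of d under conjugation by that normal 2-subgroup. -/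
theorem result {G : Type*} [Group G] [Finite G] {D : Set G} (hD : Cfsg.IsThreeTranspositionClass D) (hD2 : ∃ a ∈ D, ∃ b ∈ D, a ≠ b) {d : G} (hd : d ∈ D) : {v : G | v ∈ D ∧ ∀ e ∈ D, Commute v e ↔ Commute d e} = {v : G | v ∈ D ∧ d⁻¹ * v ∈ Cfsg.pCore 2 G} ∧ {v : G | v ∈ D ∧ ∀ e ∈ D, Commute v e ↔ Commute d e} = {v : G | ∃ g ∈ Cfsg.pCore 2 G, v = g * d * g⁻¹} := by
  open H6 in
  have h := TC.of hD
  refine ⟨Set.ext fun v => ?_, Set.ext fun v => ?_⟩
  · simpa [rV, hd, h.inv hd] using h.rV_iff (v := v) hd
  · simpa [rV, hd] using h.rV_orb (v := v) hd (h.nocen hD2)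

end Cfsg.Agent.S5349
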