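import Cfsg.Statements.S5351
import Cfsg.Agent.H6.G3b

set_option autoImplicit false
open Cfsg

namespace Cfsg.Agent.S5351
set_option maxRecDepth 100000

/-- Let D be a conjugacy class of 3-transpositions generating the finite group G, with at least two members. Then for every prime p > 3 the largest normal p-subgroup of G is central, and exactly one of the following holds: the largest normal 2-subgroup of G is not central; the largest normal 3-subgroup of G is not central; the layer of G (the product of its components) is non-trivial. -/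
theorem result {G : Type*} [Group G] [Finite G] {D : Set G} (hD : Cfsg.IsThreeTranspositionClass D) (hD2 : ∃ a ∈ D, ∃ b ∈ D, a ≠ b) : (∀ p : ℕ, p.Prime → 3 < p → Cfsg.pCore p G ≤ Subgroup.center G) ∧ ((¬ Cfsg.pCore 2 G ≤ Subgroup.center G ∧ Cfsg.pCore 3 G ≤ Subgroup.center G ∧ Cfsg.layer G = ⊥) ∨ (Cfsg.pCore 2 G ≤ Subgroup.center G ∧ ¬ Cfsg.pCore 3 G ≤ Subgroup.center G ∧ Cfsg.layer G = ⊥) ∨ (Cfsg.pCore 2 G ≤ Subgroup.center G ∧ Cfsg.pCore 3 G ≤ Subgroup.center G ∧ Cfsg.layer G ≠ ⊥)) := by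
  open H6 Subgroup in
  have h := TC.of hD
  have := Fact.mk Nat.prime_three
  obtain ⟨d, hd, -⟩ := id hD2
  have n : (layer G).Normal := normalizer_eq_top_iff.1 (eq_top_iff.2 (H7.layer_eq (G := G) ▸ H7.le_nrm_Lay ⊤))
  have q : ⁅layer G, layer G⁆ = layer G := H7.layer_eq (G := G) ▸ H7.Lay_perfect ⊤
  have c : ∀ p [Fact p.Prime], pCore p G ≤ centralizer (layer G : Set G) := fun p _ =>
    le_centralizer_iff.1 (H7.layer_eq (G := G) ▸ H7.pCore_eq (G := G) p ▸ H7.Lay_le_cen_Op p ⊤)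
  refine ⟨fun p => h.opc, ?_⟩
  by_cases h2 : pCore 2 G ≤ center G
  · by_cases h3 : pCore 3 G ≤ center G
    · exact .inr (.inr ⟨h2, h3, h.layne (h.nocen hD2) h2 h3 hd⟩)
    · exact .inr (.inl ⟨h2, h3, h.lay3 q (c 3) h3 hd⟩)
  · exact .inl ⟨h2, h.not23 h2 hd, h.lay2 q (c 2) h2 hd⟩

end Cfsg.Agent.S5351
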