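import Cfsg.Statements.S5358
import Cfsg.Agent.H4.MatBridge

set_option autoImplicit false
open scoped MatrixGroups
open Cfsg

namespace Cfsg.Agent.S5358

open Matrix

/-- Let Q be a non-degenerate quadratic form on the n-dimensional coordinate space over the field with three elements and u, v vectors of the same non-zero norm Q(u) = Q(v) spanning different lines (v ≠ u and v ≠ −u). Then the reflection matrices of u and v commute if and only if u and v are orthogonal for the polar form of Q. -/
theorem result (n : ℕ) (Q : QuadraticForm (ZMod 3) (Fin n → ZMod 3)) (hQ : (QuadraticMap.polarBilin Q).Nondegenerate) (u v : Fin n → ZMod 3) (hu : Q u ≠ 0) (huv : Q u = Q v) (h1 : v ≠ u) (h2 : v ≠ -u) : Commute (Cfsg.reflectionMatrix (⇑Q) u) (Cfsg.reflectionMatrix (⇑Q) v) ↔ QuadraticMap.polar (⇑Q) u v = 0 := by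
  set_option maxSynthPendingDepth 3 in
  classical
  have r := H4.reflectionMatrix_mulVec (H4.quadForm Q)
  have s := H4.quad_symm (H4.quadForm Q) v u
  have b := H4.quad_B_self (H4.quadForm Q)
  change _ ↔ (H4.quadForm Q).B u v = 0
  change (H4.quadForm Q).Q u ≠ 0 at hu
  change (H4.quadForm Q).Q u = (H4.quadForm Q).Q v at huv
  change Commute (reflectionMatrix (H4.quadForm Q).Q u) (reflectionMatrix (H4.quadForm Q).Q v) ↔ _
  generalize H4.quadForm Q = f at *
  refine ⟨fun h => by_contra fun n => ?_, fun h => mulVec_injective (funext fun x => ?_)⟩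
  · have := congrArg (· *ᵥ u) h
    simp only [← mulVec_mulVec, r, map_sub, map_smul, smul_eq_mul, b, s, ← huv] at this
    have e : v = ((f.Q u)⁻¹ * f.B u v / 2) • u := by
      have h2 : (2 : ZMod 3) ≠ 0 := by decide
      ext i
      have := congrFun this i
      simp only [Pi.sub_apply, Pi.smul_apply, smul_eq_mul] at this ⊢
      field_simp at this ⊢
      exact mul_left_cancel₀ n (by linear_combination (-1) * this)
    have : ∀ c : ZMod 3, c = 0 ∨ c = 1 ∨ c = -1 := by decide
    rcases this ((f.Q u)⁻¹ * f.B u v / 2) with z | z | z <;> rw [z] at e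
    · simp [e] at n
    · exact h1 (by simpa using e)
    · exact h2 (by simpa using e)
  · simp only [← mulVec_mulVec, r, map_sub, map_smul, smul_eq_mul, s, h]
    module

end Cfsg.Agent.S5358
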