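import Cfsg.Statements.S5361
import Cfsg.Agent.H6.G3c

set_option autoImplicit false
open Cfsg

namespace Cfsg.Agent.S5361
set_option maxRecDepth 100000

/-- Let D be a conjugacy class of 3-transpositions generating the finite group G, and suppose the centre of G is trivial and some two different members of D commute. Then the following are equivalent: (1) the commutator subgroup of G is simple (possibly of prime order); (2) G acts primitively on D by conjugation; (3) the largest normal 2-subgroup and the largest normal 3-subgroup of G are trivial and the commuting graph of D is connected. -/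
theorem result {G : Type*} [Group G] [Finite G] {D : Set G} (hD : Cfsg.IsThreeTranspositionClass D) (hZ : Subgroup.center G = ⊥) (hw : ∃ a ∈ D, ∃ b ∈ D, a ≠ b ∧ Commute a b) : (IsSimpleGroup (commutator G) ↔ Cfsg.IsPrimitiveUnderConj D) ∧ (Cfsg.IsPrimitiveUnderConj D ↔ (Cfsg.pCore 2 G = ⊥ ∧ Cfsg.pCore 3 G = ⊥ ∧ (Cfsg.commutingGraph D).Connected)) := by
  open H6 Subgroup in
  have h := TC.of hD
  have w : W2 D := hw
  obtain ⟨d, hd, -⟩ := hw
  have a := h.prim_simple w.two
  have b : IsPrimitiveUnderConj D → pCore 2 G = ⊥ ∧ pCore 3 G = ⊥ ∧ (commutingGraph D).Connected := fun p =>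
    ⟨eq_bot_iff.2 (hZ ▸ h.p2 (prim_of p) w), eq_bot_iff.2 (hZ ▸ h.p3 (prim_of p) w), (conn_iff ⟨d, hd⟩).2 (h.conn (prim_of p) w)⟩
  have c : pCore 2 G = ⊥ ∧ pCore 3 G = ⊥ ∧ (commutingGraph D).Connected → IsSimpleGroup (commutator G) := fun ⟨h2, h3, c⟩ => by
    obtain ⟨L, n, hL, hF⟩ := h.gfit (h.nocen w.two) (h2.trans_le bot_le) (h3.trans_le bot_le) hd
    obtain rfl : commutator G = L := le_antisymm (h.cml hd (h.idxc hL ((conn_iff ⟨d, hd⟩).1 c) hd)) (hL.perfect.ge.trans (commutator_mono le_top le_top))
    have := (nontrivial_iff_ne_bot _).2 hL.ne_bot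
    refine ⟨fun N hN => (hL.normal (N.map (commutator G).subtype) (map_subtype_le N) (fun g hg => mem_normalizer_fintype fun _ ⟨x, hx, e⟩ => ⟨_, hN.conj_mem x hx ⟨g, hg⟩, e ▸ rfl⟩)).imp (fun k => ?_) fun k => ?_⟩
    · have := H1.isNilpotent_of_commutator_commutator (D := commutator G ⊓ centralizer (commutator G : Set G))
        (H7.comm_eq_bot.2 ((commutator_le_self _).trans (inf_le_right.trans (centralizer_le inf_le_left))))
      have := H1.le_fitting (N := commutator G ⊓ centralizer (commutator G : Set G))
      rw [h.fit (h2.trans_le bot_le) (h3.trans_le bot_le), hZ] at this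
      exact map_subtype_inj.1 (by simpa using (le_inf (map_subtype_le N) k).trans this)
    · exact map_subtype_inj.1 (k.trans (by simp [← MonoidHom.range_eq_map]))
  exact ⟨⟨a, fun p => c (b p)⟩, b, fun p => a (c p)⟩

end Cfsg.Agent.S5361
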