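import Cfsg.Statements.S5363
import Mathlib
import Cfsg.Agent.H8.Tr3

set_option autoImplicit false
open Cfsg

namespace Cfsg.Agent.S5363

open H8
theorem aux {G : Type*} [Group G] {a b : G} (ha : a * a = 1) (hb : b * b = 1) (m : ℕ) :
    a * (a * b) ^ m = ((a * b) ^ m)⁻¹ * a := by
  have : a * (a * b) * a⁻¹ = (a * b)⁻¹ := by simp [inv1 ha, inv1 hb, ll1 ha]
  rw [← inv_pow, ← this, conj_pow]; group

theorem aux' {G : Type*} [Group G] {a b : G} (ha : a * a = 1) (hb : b * b = 1) (m : ℕ) :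
    b * (a * b) ^ m = ((a * b) ^ m)⁻¹ * b := by
  have : b * (a * b) * b⁻¹ = (a * b)⁻¹ := by simp [inv1 ha, inv1 hb, mul_assoc, hb]
  rw [← inv_pow, ← this, conj_pow]; group

theorem aux2 {G : Type*} [Group G] {D : Set G} (hinv : ∀ d ∈ D, orderOf d = 2)
    (h : ∀ a ∈ D, ∀ b ∈ D, Odd (orderOf (a * b)) ∨ orderOf (a * b) = 2) {a b y : G} (ha : a ∈ D)
    (hb : b ∈ D) (hy : y ∈ D) (hne : b ≠ a) (hc : Commute a b) (h1 : Commute (a * b) y) :
    Commute a y := by
  haveI : Fact (Nat.Prime 2) := ⟨Nat.prime_two⟩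
  have sa := sq1 (hinv a ha)
  have sb := sq1 (hinv b hb)
  have sy := sq1 (hinv y hy)
  rcases h y hy a ha with k | k
  swap
  · exact (comm_of_sq1 sy sa (k ▸ pow_orderOf_eq_one _)).symm
  have h2 : y * b = (y * a) * (a * b) := by rw [mul_assoc, ll1 sa]
  have h3 : Commute (y * a) (a * b) := h1.symm.mul_left ((Commute.refl a).mul_right hc)
  have h4 : orderOf (a * b) = 2 := orderOf_eq_prime (by rw [hc.mul_pow]; simp [pow_two, sa, sb])
    fun e => hne (by rw [eq_inv_of_mul_eq_one_left e, inv1 sb])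
  have h5 := h3.orderOf_mul_eq_mul_orderOf_of_coprime (h4 ▸ k.coprime_two_right)
  rw [← h2, h4] at h5
  rcases h y hy b hb with l | l <;> rw [h5] at l
  · exact absurd l (by simp)
  · rw [eq_inv_of_mul_eq_one_left (orderOf_eq_one_iff.1 (show orderOf (y * a) = 1 by omega))]
    exact (Commute.refl a).inv_right

/-- Let D be a conjugation-invariant set of involutions of a finite group G. Then every product of two members of D has odd order or order 2 if and only if, for every a in D and every b in D different from a and commuting with a, the members of D commuting with a b are exactly those commuting with both a and b. -/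
theorem result {G : Type*} [Group G] [Finite G] {D : Set G} (hinv : ∀ d ∈ D, orderOf d = 2) (hconj : ∀ g : G, ∀ d ∈ D, g * d * g⁻¹ ∈ D) : (∀ a ∈ D, ∀ b ∈ D, Odd (orderOf (a * b)) ∨ orderOf (a * b) = 2) ↔ ∀ a ∈ D, ∀ b ∈ D, b ≠ a → Commute a b → {y : G | y ∈ D ∧ Commute (a * b) y} = {y : G | y ∈ D ∧ Commute a y} ∩ {y : G | y ∈ D ∧ Commute b y} := by
  constructor
  · intro h a ha b hb hne hc
    ext y
    exact ⟨fun ⟨h1, h2⟩ => ⟨⟨h1, aux2 hinv h ha hb h1 hne hc h2⟩,
      ⟨h1, aux2 hinv h hb ha h1 hne.symm hc.symm (hc.eq ▸ h2)⟩⟩,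
        fun ⟨h1, h2⟩ => ⟨h1.1, h1.2.mul_left h2.2⟩⟩
  intro h a ha b hb
  have sa := sq1 (hinv a ha)
  have sb := sq1 (hinv b hb)
  rcases Nat.even_or_odd (orderOf (a * b)) with ⟨m, hm⟩ | ho
  swap
  · exact Or.inl ho
  have h0 := orderOf_pos (a * b)
  have h1 : (a * b) ^ m * (a * b) ^ m = 1 := by rw [← pow_add, ← hm, pow_orderOf_eq_one]
  have h2 : a * (a * b) ^ m ∈ D := by
    rcases Nat.even_or_odd' m with ⟨k, rfl | rfl⟩
    · have := hconj ((a * b) ^ k)⁻¹ a ha
      rwa [← aux sa sb, inv_inv, mul_assoc, ← pow_add, ← two_mul] at this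
    · have := hconj ((a * b) ^ k)⁻¹ b hb
      rw [← aux' sa sb, inv_inv, mul_assoc, ← pow_add, ← two_mul] at this
      rwa [pow_succ', ← mul_assoc, ll1 sa]
  have h3 : Commute a ((a * b) ^ m) := by
    show _ = _; rw [aux sa sb, inv1 h1]
  have h4 : Commute ((a * b) ^ m) b := by
    show _ = _; rw [aux' sa sb, inv1 h1]
  have h5 := (h a ha _ h2 (fun e => pow_ne_one_of_lt_orderOf (x := a * b) (n := m) (by omega)
    (by omega) (by simpa using e)) ((Commute.refl a).mul_right h3)).le ⟨hb, by rwa [ll1 sa]⟩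
  have h6 : orderOf (a * b) ∣ 2 := orderOf_dvd_of_pow_eq_one (by
    rw [h5.1.2.mul_pow]; simp [pow_two, sa, sb])
  have := Nat.le_of_dvd two_pos h6
  omega

end Cfsg.Agent.S5363
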