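import Cfsg.Statements.S5364
import Mathlib
import Cfsg.Agent.H8.Tr3

set_option autoImplicit false
open Cfsg

namespace Cfsg.Agent.S5364

open H8 Subgroup

/-- Let D be a conjugation-invariant set of involutions of a finite group G and t an involution in the centre of G such that d t does not lie in D for any d in D. If the images of the members of D in G modulo the subgroup generated by t satisfy the 3-transposition order conditions (each has order 2 and any two have product of order at most 3), then so do the members of D. -/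
theorem result {G : Type*} [Group G] [Finite G] {D : Set G} (hinv : ∀ d ∈ D, orderOf d = 2) (hconj : ∀ g : G, ∀ d ∈ D, g * d * g⁻¹ ∈ D) (t : G) (ht : orderOf t = 2) (htZ : t ∈ Subgroup.center G) (hDt : ∀ d ∈ D, d * t ∉ D) [(Subgroup.zpowers t).Normal] (himg : Cfsg.IsThreeTranspositionSet ((QuotientGroup.mk : G → G ⧸ Subgroup.zpowers t) '' D)) : Cfsg.IsThreeTranspositionSet D := by
  refine ⟨hinv, fun d hd e he => ?_⟩
  have sd := sq1 (hinv d hd)
  have se := sq1 (hinv e he)
  have key : ∀ x : G, (x : G ⧸ zpowers t) = 1 → x = 1 ∨ x = t := fun x hx => by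
    obtain ⟨k, rfl⟩ := (QuotientGroup.eq_one_iff x).1 hx
    rcases Int.even_or_odd' k with ⟨m, rfl | rfl⟩
    · left; simp [zpow_mul, pow_two, sq1 ht]
    · right; simp [zpow_add, zpow_mul, pow_two, sq1 ht]
  rcases himg.2 _ ⟨d, hd, rfl⟩ _ ⟨e, he, rfl⟩ with h | h
  · refine Or.inl ((key _ (by simpa using h)).resolve_right fun k => hDt e he ?_)
    have := hconj d e he
    rwa [show d * e * d⁻¹ = e * t by
      rw [mem_center_iff.1 htZ e, ← k, inv1 sd]; simp [pow_two, mul_assoc, se]] at this
  · refine Or.inr ((key _ (by simpa using h)).resolve_right fun k => hDt _ (hconj e d hd) ?_)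
    have := hconj d e he
    rwa [show d * e * d⁻¹ = e * d * e⁻¹ * t by
      rw [mem_center_iff.1 htZ, ← k, inv1 sd, inv1 se]
      simp [pow_succ, mul_assoc, ll1 se, ll1 sd, se]] at this

end Cfsg.Agent.S5364
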