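import Cfsg.Statements.S5392
import Cfsg.Agent.H0.LeeX


set_option autoImplicit false
open Cfsg

namespace Cfsg.Agent.S5392

open H0 H6 Finset MulAction
open scoped Pointwise
set_option maxRecDepth 100000

/-- The Leech lattice modulo twice itself is a faithful irreducible module for the first Conway group: an automorphism of the rank-24 lattice built from the length-24 code that moves every lattice vector only by twice a lattice vector lies in the centre of the automorphism group (the centre consists of ±1, which act trivially there, so the kernel is exactly the centre), and an additive subgroup lying between twice the lattice and the lattice that is invariant under all lattice automorphisms is one of the two. -/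
theorem result : (∀ g : ↥Cfsg.Co0, (∀ v : ↥Cfsg.leechLattice, ∃ w : ↥Cfsg.leechLattice, ((g • v : ↥Cfsg.leechLattice) : Cfsg.GolayPt → ℤ) - (v : Cfsg.GolayPt → ℤ) = 2 • (w : Cfsg.GolayPt → ℤ)) → g ∈ Subgroup.center ↥Cfsg.Co0) ∧ ∀ M : AddSubgroup (Cfsg.GolayPt → ℤ), (∀ v ∈ Cfsg.leechLattice, (2 : ℤ) • v ∈ M) → M ≤ Cfsg.leechLattice → (∀ g : ↥Cfsg.Co0, ∀ v : ↥Cfsg.leechLattice, (v : Cfsg.GolayPt → ℤ) ∈ M → ((g • v : ↥Cfsg.leechLattice) : Cfsg.GolayPt → ℤ) ∈ M) → (∀ x ∈ M, ∃ w ∈ Cfsg.leechLattice, x = (2 : ℤ) • w) ∨ M = Cfsg.leechLattice := by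
  refine ⟨fun g hg => ?_, fun M h2 hle hinv => or_iff_not_imp_left.2 fun h => ?_⟩
  · rw [← ker_mC]
    refine mC.mem_ker.2 fun j _ => ld0_r.2 (kap_eq.2 ?_)
    obtain ⟨w, hw⟩ := hg (ptv _ _ j)
    exact ⟨w, Subtype.ext (hw.trans (two_smul _ _))⟩
  · push Not at h
    obtain ⟨x, hx, hn⟩ := h
    have tw : ∀ z : LL, ((z + z : LL) : Vec) ∈ M := fun z => by rw [AddSubgroup.coe_add, ← two_zsmul]; exact h2 _ z.2
    obtain ⟨y, z, e, h⟩ := short_rep ⟨x, hle hx⟩
    have hy : (y : Vec) ∈ M := by
      have := M.sub_mem hx (tw z)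
      rwa [show x = _ from congrArg Subtype.val e, AddSubgroup.coe_add, add_sub_cancel_right] at this
    have s34 : _ = (32 : ℤ) := bb_add (i := 3) (j := 4) (z := -16) (by decide +kernel) (by decide) (by decide)
    have k : ∀ u : LL, ((bb 3 + u : LL) : Vec) ∈ M → ((bb 4 + u : LL) : Vec) ∈ M → ((bb 3 + bb 4 : LL) : Vec) ∈ M := fun u a b => by
      convert M.sub_mem (M.add_mem a b) (tw u) using 1
      simp only [AddSubgroup.coe_add]; abel
    have m34 : ((bb 3 + bb 4 : LL) : Vec) ∈ M := by
      rcases h with rfl | h | h | h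
      · exact (hn z z.2 ((congrArg Subtype.val e).trans (by rw [zero_add, AddSubgroup.coe_add, two_zsmul]))).elim
      · obtain ⟨g, e⟩ := trans_32 h s34; exact e ▸ hinv g y hy
      · have t : ∀ w : LL, Cfsg.sqNorm (w : Vec) = 48 → (w : Vec) ∈ M := fun w hw => by obtain ⟨g, e⟩ := trans_48 h hw; exact e ▸ hinv g y hy
        exact k (bb 15) (t _ (bb_add (z := -8) (by decide +kernel) (by decide) (by decide))) (t _ (bb_add (z := -8) (by decide +kernel) (by decide) (by decide)))
      · have t : ∀ w : LL, Cfsg.sqNorm (w : Vec) = 64 → (w : Vec) ∈ M := fun w hw => by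
          obtain ⟨g, z, rfl⟩ := trans_64' h hw; exact M.add_mem (hinv g y hy) (tw z)
        exact k (bb 0) (t _ (bb_add (z := 0) (by decide +kernel) (by decide) (by decide))) (t _ (bb_add (z := 0) (by decide +kernel) (by decide) (by decide)))
    have t : ∀ w : LL, Cfsg.sqNorm (w : Vec) = 32 → (w : Vec) ∈ M := fun w hw => by obtain ⟨g, e⟩ := trans_32 s34 hw; exact e ▸ hinv g _ m34
    have hb : ∀ p, (bv p : Vec) ∈ M := forall_pt fun j hj => by
      by_cases c : j = 1
      · have := M.sub_mem (t _ UV_min) (t _ sq_U)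
        rwa [AddSubgroup.coe_add, add_sub_cancel_left, lV, ← bv1, ← c] at this
      · exact t _ (bb_sq hj c)
    refine le_antisymm hle fun v hv => ?_
    rw [show v = _ from congrArg Subtype.val (expand ⟨v, hv⟩), AddSubgroup.val_finsetSum]
    exact sum_mem fun p _ => M.zsmul_mem (hb p) _

end Cfsg.Agent.S5392
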