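import Cfsg.Statements.S5394
import Cfsg.Agent.H6.More


set_option autoImplicit false
open Cfsg

namespace Cfsg.Agent.S5394

open H6 Finset MulAction
open scoped Pointwise
set_option maxRecDepth 100000

/-- The automorphism group of the length-24 code built from the squares modulo 23 has exactly two conjugacy classes of involutions: an involution either fixes exactly the eight points of an octad or has no fixed points, both kinds occur, and any two involutions of the same kind are conjugate in the group. -/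
theorem result : (∀ g ∈ Cfsg.M24, orderOf g = 2 → (Finset.univ.filter fun p => g p = p) ∈ Cfsg.octads ∨ ∀ p, g p ≠ p) ∧ (∃ g ∈ Cfsg.M24, orderOf g = 2 ∧ (Finset.univ.filter fun p => g p = p) ∈ Cfsg.octads) ∧ (∃ g ∈ Cfsg.M24, orderOf g = 2 ∧ ∀ p, g p ≠ p) ∧ ∀ g ∈ Cfsg.M24, ∀ h ∈ Cfsg.M24, orderOf g = 2 → orderOf h = 2 → ((∀ p, g p ≠ p) ↔ (∀ p, h p ≠ p)) → ∃ k ∈ Cfsg.M24, k * g * k⁻¹ = h := by
  have fA := gd_zA.fix_iff (m := 0x149f) (by decide +kernel)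
  have nz : ∀ x : Cfsg.M24, nf x = 0 ↔ ∀ p, x.1 p ≠ p := fun x => ⟨fun h p e => filter_eq_empty_iff.1 (card_eq_zero.1 h) (mem_univ p) e, nf_eq_zero⟩
  have o2 : ∀ t, Gd t → (Nat.beq (mulT t t) idT && !eqT t idT) = true → orderOf ((E t : Cfsg.M24) : Equiv.Perm Cfsg.GolayPt) = 2 := fun t h h1 => by
    simp only [Bool.and_eq_true, Bool.not_eq_true'] at h1
    rw [Subgroup.orderOf_coe]
    exact orderOf_eq_prime (by rw [pow_two]; exact (h.mul_eq_one_iff h).2 h1.1) (h.ne_one_iff.2 h1.2)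
  have k1 : ∀ k : Cfsg.M24, (univ.filter fun p => ((k * E zA * k⁻¹ : Cfsg.M24) : Equiv.Perm Cfsg.GolayPt) p = p) ∈ Cfsg.octads := fun k => by
    convert (smul_mem_octads k _).2 O0_mem
    ext p
    rw [mem_filter, ← inv_smul_mem_iff, O0, fA, ← smul_pt_def, mul_smul, mul_smul, smul_eq_iff_eq_inv_smul]; simp
  refine ⟨fun g hg h => ?_, ⟨E zA, (E zA).2, o2 _ gd_zA (by decide +kernel), by simpa using k1 1⟩,
    ⟨E zB, (E zB).2, o2 _ gd_zB (by decide +kernel), (nz _).1 nf_zB⟩, fun g hg h hh h1 h2 e => ?_⟩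
  · by_cases c : nf ⟨g, hg⟩ = 0
    · exact Or.inr ((nz _).1 c)
    · obtain ⟨k, hk⟩ := invol_A (x := ⟨g, hg⟩) (by rw [Subgroup.orderOf_mk]; exact h) c
      obtain rfl : g = _ := congrArg Subtype.val hk
      exact Or.inl (k1 k)
  · have key : ∀ z : Cfsg.M24, (∃ k, (⟨g, hg⟩ : Cfsg.M24) = k * z * k⁻¹) → (∃ k, (⟨h, hh⟩ : Cfsg.M24) = k * z * k⁻¹) → ∃ k ∈ Cfsg.M24, k * g * k⁻¹ = h := by
      rintro z ⟨a, ha⟩ ⟨b, hb⟩
      refine ⟨(b * a⁻¹ : Cfsg.M24), (b * a⁻¹).2, congrArg Subtype.val (show b * a⁻¹ * ⟨g, hg⟩ * (b * a⁻¹)⁻¹ = (⟨h, hh⟩ : Cfsg.M24) from ?_)⟩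
      rw [ha, hb]; group
    have g2 : orderOf (⟨g, hg⟩ : Cfsg.M24) = 2 := by rw [Subgroup.orderOf_mk]; exact h1
    have h2' : orderOf (⟨h, hh⟩ : Cfsg.M24) = 2 := by rw [Subgroup.orderOf_mk]; exact h2
    by_cases c : nf ⟨g, hg⟩ = 0
    · have c' : nf ⟨h, hh⟩ = 0 := (nz _).2 (e.1 ((nz _).1 c))
      exact key _ (invol_B g2 (by omega)) (invol_B h2' (by omega))
    · exact key _ (invol_A g2 c) (invol_A h2' fun c' => c ((nz _).2 (e.2 ((nz _).1 c'))))

end Cfsg.Agent.S5394
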