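import Cfsg.Statements.S5395
import Cfsg.Agent.H2.LX1

set_option autoImplicit false
open Cfsg

namespace Cfsg.Agent.S5395

open Subgroup hiding upperCentralSeries
open H2 Cfsg.FusionSystem

open Subgroup H2 H7 H1B
open scoped commutatorElement

/-- For a finite extraspecial 2-group E, an automorphism of E that induces the identity on E modulo its centre is inner (so these automorphisms form exactly the inner automorphism group, an elementary abelian 2-group of order |E|/2). -/
theorem result {E : Type*} [Group E] [Finite E] (hE : Cfsg.IsExtraspecial 2 E) (φ : E ≃* E) (hφ : ∀ x : E, φ x * x⁻¹ ∈ Subgroup.center E) : ∃ g : E, ∀ x : E, φ x = g * x * g⁻¹ := by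
  obtain ⟨z, s, nc⟩ := xs_top hE
  have c : ∀ x, φ x * x⁻¹ ∈ zpowers z := fun x => s.ctr.le ⟨trivial, cen_top (G := E) ▸ hφ x⟩
  let f : E →* E := MonoidHom.mk' (fun x => φ x * x⁻¹) fun a b => by
    calc _ = φ a * (φ b * b⁻¹) * a⁻¹ := by rw [map_mul]; group
      _ = _ := by rw [mul_assoc, ← mem_center_iff.1 (hφ b) a⁻¹, mul_assoc (φ a)]
  have zk : z ∈ f.ker := ((mem_zp_two s.oz).1 (c z)).resolve_right fun e => s.z1
    (φ.injective (by rw [mul_inv_eq_iff_eq_mul.1 e, s.z2, map_one]))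
  by_cases k : f.ker = ⊤
  · exact ⟨1, fun x => by simpa [mul_inv_eq_one] using mul_inv_eq_one.1 (k.ge (mem_top x))⟩
  have d := xs_dperp s le_top zk
  obtain ⟨g, hg, hg'⟩ := SetLike.not_le_iff_exists.1 fun l : ⊤ ⊓ cen f.ker ≤ cen ⊤ =>
    k (top_le_iff.1 (d ▸ le_inf le_rfl (le_cen_symm l)))
  refine ⟨g, fun x => mul_right_cancel (b := x⁻¹) ?_⟩
  by_cases hx : x ∈ f.ker
  · exact hx.trans (by rw [conj_eq_of_mem_cen hg.2 hx, mul_inv_cancel])
  rw [((mem_zp_two s.oz).1 (c x)).resolve_left hx]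
  refine (((mem_zp_two s.oz).1 (s.comm g trivial x trivial)).resolve_left fun e => hg' ?_).symm
  refine mem_cen.2 fun y _ => ?_
  have e := commutatorElement_eq_one_iff_mul_comm.1 e
  by_cases hy : y ∈ f.ker
  · exact mem_cen.1 hg.2 y hy
  have : y * x ∈ f.ker := by
    rw [MonoidHom.mem_ker, map_mul]
    exact (congrArg₂ _ (((mem_zp_two s.oz).1 (c y)).resolve_left hy)
      (((mem_zp_two s.oz).1 (c x)).resolve_left hx)).trans s.z2
  have := mem_cen.1 hg.2 _ this
  rwa [mul_assoc, ← e, ← mul_assoc, ← mul_assoc, mul_left_inj] at this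

end Cfsg.Agent.S5395
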