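import Cfsg.Statements.S5396
import Cfsg.Agent.H1.XS
import Cfsg.Agent.H1.Two6

set_option autoImplicit false
open Cfsg

namespace Cfsg.Agent.S5396

open H7 H1B Subgroup

/-- For every n ≥ 1 there exist finite extraspecial 2-groups of order 2^(2n+1) whose 2-rank (the largest rank of an elementary abelian subgroup) is n, and ones whose 2-rank is n + 1 (so for each such order there are two non-isomorphic extraspecial 2-groups, told apart by their 2-rank). -/
theorem result (n : ℕ) (hn : 1 ≤ n) : ∀ r ∈ ({n, n + 1} : Set ℕ), ∃ (E : Type) (_ : Group E) (_ : Finite E), Cfsg.IsExtraspecial 2 E ∧ Nat.card E = 2 ^ (2 * n + 1) ∧ sSup {k : ℕ | ∃ A : Subgroup E, Cfsg.IsElementaryAbelian 2 A ∧ Nat.card A = 2 ^ k} = r := by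
  obtain ⟨C, D, h1, h2, c1, c2, e1, e2⟩ := (Hs.xs (n := n + 1) (p := 2)).both (card_top.trans Hs.card) hn
  have key : ∀ (C : Subgroup (Hs (n + 1) (ZMod 2))) z r, XS 2 C z → ord C = 2 ^ (2 * n + 1) → Rk 2 r C →
      (∃ A ≤ C, EA 2 A ∧ ord A = 2 ^ r) → ∃ (E : Type) (_ : Group E) (_ : Finite E), IsExtraspecial 2 E ∧
      Nat.card E = 2 ^ (2 * n + 1) ∧
      sSup {k : ℕ | ∃ A : Subgroup E, IsElementaryAbelian 2 A ∧ Nat.card A = 2 ^ k} = r :=
    fun C z r h c rk ⟨A, l, hA, e⟩ => ⟨C, inferInstance, inferInstance, h.es (mt (h.comm_iff c).1 (by omega)), c,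
      IsGreatest.csSup_eq ⟨⟨A.subgroupOf C, ea_map_iff (subtype_injective C) |>.1 (by rwa [map_subgroupOf_eq_of_le l]),
        (Nat.card_congr (subgroupOfEquivOfLe l).toEquiv).trans e⟩, fun k ⟨B, hB, e⟩ =>
        (Nat.pow_le_pow_iff_right one_lt_two).1 (e ▸ rk_subtype rk B le_top hB)⟩⟩
  rintro r (rfl | rfl)
  · obtain ⟨A, l, hA, k⟩ := h2.exists_ea c2
    refine key D _ _ h2 c2 ((h2.rk c2).2 e2) ⟨A, l, hA, (k.resolve_left fun k => ?_).2⟩
    have := (h2.rk c2).2 e2 A l hA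
    rw [k, Nat.pow_le_pow_iff_right one_lt_two] at this
    omega
  · obtain ⟨A, l, hA, k⟩ := h1.exists_ea c1
    exact key C _ _ h1 c1 (h1.rk c1).1 ⟨A, l, hA, k.resolve_right fun k => k.1 e1⟩

end Cfsg.Agent.S5396
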