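import Cfsg.Statements.S5425
import Cfsg.Agent.H6.LXa

set_option autoImplicit false
open Cfsg

namespace Cfsg.Agent.S5425
open H6 Finset MulAction
open scoped Pointwise
set_option maxRecDepth 100000
theorem ckC : Ck (fxC inM zA) (Subgroup.centralizer {E zA}) := (ck_top.fxC gd_zA).mono inf_le_right
noncomputable def Q0 : Subgroup M24 := Subgroup.centralizer {E zA} ⊓ stabilizer M24 (decF 2 0x1488000017) ⊓
  stabilizer M24 (decF 2 0x1086000419) ⊓ stabilizer M24 (decF 2 0x141400008b)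
noncomputable def cQ0 : ℕ → Bool := fxF (fxF (fxF (fxC inM zA) 2 0x1488000017) 2 0x1086000419) 2 0x141400008b
theorem ckQ : Ck cQ0 Q0 := ((ckC.fxF _ _).fxF _ _).fxF _ _
def trQ0 : List (ℕ × List ℕ) := [(0, [0xbdab49ca307b9ac5a928398a418820, 0x5c6f3339b5b25e381d125168160082, 0xabef3a21abb262780dd2614c050444, 0x5bee5a3ad56a6218011214cc321d8a, 0x836b42a6377baca5b24819a6239001, 0x859749a6377a1a4a8a4e018ac0a867, 0xbb5742ca307a2c2a912e09a6a030e3, 0xac6e5322cb6a5e0805d224e8710d4c]), (5, [0xbdab49ca307b9ac5a928398a418820, 0xa20b75c6464b5cc9a9f63c2a418820, 0x4950f6c0d2a2e6c72af53c6c418820, 0x5c613a22d56a5ecba9d2394c418820, 0x451368ae6e2c0cc92ab73b5e418820, 0x7d6c971a11bcd6c6aa853c90418820, 0x9c8cbbd90573d2ca29b13d60418820, 0xb5de894d6da9a0c8a8b43b92418820, 0x71a4d7d4a89de8c4a9703da2418820, 0xabee5339abb4a2c829093ce8418820, 0x94dd1b5e89354ac42a0b3bda418820, 0x6c22e496b65d2ec7aa663a24418820, 0x2a695835d34464c32acf3aee418820, 0x8adb2452ef816acb28d33a5c418820,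 0x835662a5f78a2ccaaa4e3d26418820, 0x33a70abd349590c2aa2d3dd6418820])]
theorem tQ : tcnt trQ0 cQ0 = 128 := by decide +kernel
theorem cQle : Nat.card Q0 ≤ 128 := by
  have h1 := card_le_of_orb (a := decF 2 0x1488000017) (d := 7) (e := 3072) card_cent_zA.le (le_trans (by decide +kernel)
    (ckC.orbF_le (gs := [0xb216fbd0ad9c9caa9cc92460008983]) (by decide +kernel) (fun m => Nat.mul m m) 1009 127 9
    (card_decF (by decide +kernel)))) le_rfl (by norm_num)
  have h2 := card_le_of_orb (a := decF 2 0x1086000419) (d := 6) (e := 512) h1 (le_trans (by decide +kernel)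
    ((ckC.fxF _ _).orbF_le (gs := [0xac50d2ca8b341e27013725a6a09c6c, 0x6c12f452762aee3930d53c5c450402]) (by decide +kernel)
    (fun m => Nat.mul m m) 1009 127 9 (card_decF (by decide +kernel)))) le_rfl (by norm_num)
  exact card_le_of_orb (d := 4) h2 (le_trans (by decide +kernel)
    (((ckC.fxF _ _).fxF _ _).orbF_le (gs := [0x33a6f6c13492d02282f50c6c3230ea, 0x2a4d16c11375647a0eeb63ec450820]) (by decide +kernel)
    (fun m => Nat.mul m m) 1009 127 9 (card_decF (by decide +kernel)))) le_rfl (by norm_num)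
noncomputable def K0 : Subgroup M24 := Subgroup.centralizer {E zA} ⊓ stabilizer M24 (pt 6) ⊓ stabilizer M24 (dec 0xf6840)
noncomputable def cK0 : ℕ → Bool := fxS (fxP (fxC inM zA) 6) 0xf6840
theorem ckK : Ck cK0 K0 := (ckC.fxP _).fxS _
def trK0 : List (ℕ × List ℕ) := [(0, [0xbdab49ca307b9ac5a928398a418820, 0x2d514945b3b4161711f73992c50c02, 0x4a2f48b572acdc0832c5399e122843, 0x43d349c1aeb2e23912f5118a13b00a, 0xb3eb493a0dbce215a905119271900c, 0x4d4b4742327b56099ef61190150d84, 0x4dcb472db2b460c992af5190310407, 0xad9148c26b2c9a0712e9199e753041]), (1, [0xbdab49ca307b9ac5a928398a418820, 0xba6d472e702c6426aaaf2190160ce0, 0xad9f474e0bbc9a189ca91190462860, 0xbd5348b5d044d6392ac5099e713080, 0xa96d4945cb4426a69df7219230b040, 0xb24b48ba0dbae4799115199e112980, 0x2bd3474173ab62490ef60990261d40]), (2, [0xbdab49ca307b9ac5a928398a418820, 0x2ddf46c9d342e0788d3511aca23020, 0xb15148496dac6627112f61ae351c20])]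
theorem tK : tcnt trK0 cK0 = 168 := by decide +kernel
theorem cKle : Nat.card K0 ≤ 168 := by
  have h1 := card_le_of_orb (a := pt 6) (d := 16) (e := 1344) card_cent_zA.le (le_trans (by decide +kernel)
    (ckC.orbP_le (gs := [0x8ca962d60fbb921311683b66050983, 0x999aeadde58a680b32123a16122843]) (by decide +kernel)
    (by norm_num))) le_rfl (by norm_num)
  exact card_le_of_orb (d := 8) h1 (le_trans (by decide +kernel)
    ((ckC.fxP _).orbS_le (gs := [0x4b5d42c2327d6c440aeb39a6c1a820, 0x5b8b4ba5b5b45039864f01a0c39142]) (by decide +kernel)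
    hC 512 10 (by norm_num))) le_rfl (by norm_num)
theorem cK : Nat.card K0 = 168 := le_antisymm cKle (tK ▸ ckK.tcnt_le trK0)
noncomputable def W : Subgroup (M24 × SL32) :=
  trW.comap ((MonoidHom.id M24).prodMap (MonoidHom.prod Matrix.SpecialLinearGroup.toGL 1))
theorem W_of {t : ℕ} (ht : Gd t) (A : SL32) (h1 : ∀ v, (subF 6 (imgF 6 t (sxN v)) (sxN (A.val.mulVec v)) &&
      subF 6 (sxN (A.val.mulVec v)) (imgF 6 t (sxN v))) = true) (h2 : ∀ i, img t (ocN i) = ocN i) : E t ∈ W.map (.fst _ _) :=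
  ⟨(E t, A), ⟨fun v => by
    have := h1 v
    rw [Bool.and_eq_true] at this
    exact (ht.smul_decF _ _).trans ((subF_spec this.1).antisymm (subF_spec this.2)), fun i =>
    (ht.smul_dec (lane_lt _ _ _)).trans (congrArg dec (h2 i))⟩, rfl⟩
theorem nQ {t : ℕ} (ht : Gd t) (h : (okInv t && allProd (fun x => cQ0 (cjT t x)) trQ0 idT) = true) :
    E t ∈ Subgroup.normalizer (Q0 : Set M24) := Subgroup.mem_normalizer_fintype fun q hq => by
  rw [Bool.and_eq_true] at h
  obtain ⟨x, hx, rfl, a⟩ := ckQ.forall_mem trQ0 (tQ ▸ cQle) _ h.2 q hq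
  exact (ht.cjT h.1 hx).2 ▸ (ckQ _ a).2
theorem Kle : K0 ≤ W.map (.fst _ _) ⊓ Subgroup.normalizer (Q0 : Set M24) :=
  le_of_chain (l := [0xadd346c5cb44e01909e519ac4500ec, 0xaa2d49426b2c5c3686ef0192a38984]) (by
      have h := ckK.all (l := [0xadd346c5cb44e01909e519ac4500ec, 0xaa2d49426b2c5c3686ef0192a38984]) (by decide +kernel)
      simp only [List.forall_mem_cons, List.not_mem_nil, false_imp_iff, implies_true, and_true] at h ⊢
      exact ⟨⟨h.1.1, h.1.2, W_of h.1.1 ⟨!![0, 0, 1; 1, 0, 1; 0, 1, 0], by decide +kernel⟩ (by decide +kernel) (by decide +kernel),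
          nQ h.1.1 (by decide +kernel)⟩,
        h.2.1, h.2.2, W_of h.2.1 ⟨!![0, 0, 1; 1, 0, 0; 1, 1, 0], by decide +kernel⟩ (by decide +kernel) (by decide +kernel),
          nQ h.2.1 (by decide +kernel)⟩)
    [(1, 0), (0, 1), (0, 2), (4, 4), (0, 5), (0, 5)]
    [(0, [0xaa2d49426b2c5c3686ef0192a38984, 0xadd346c5cb44e01909e519ac4500ec]), (1, [0x2ddf46c9d342e0788d3511aca23020, 0x7a2d49c2514adc768af5218ac18540]), (2, [0x2ddf46c9d342e0788d3511aca23020])]
    (cKle.trans (by decide +kernel))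
theorem isoK : Nonempty (K0 ≃* SL32) := by
  obtain ⟨π, hπ⟩ := hom_of_rel2 W (fun σ h => Subtype.ext (Matrix.toLin'.injective (LinearMap.ext fun v => by
      have := sx_inj _ _ ((one_smul _ _).symm.trans (h.1 v))
      simpa using this.symm))) K0 (Kle.trans inf_le_left)
  have h1 : Function.Injective π := (injective_iff_map_eq_one _).2 fun g hg => by
    have h := (hπ g 1).2 hg
    have h1 : ∀ v, g.1 • decF 6 (sxN v) = decF 6 (sxN v) := fun v => (h.1 v).trans (by simp)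
    obtain ⟨t, ht, e, a⟩ := ckK.forall_mem trK0 (tK ▸ cKle) (fun t => Nat.beq (fixF 6 t (sxN ![1, 0, 0])) 0 ||
      Nat.beq (fixF 6 t (sxN ![0, 1, 0])) 0 || Nat.beq (fixF 6 t (sxN ![0, 0, 1])) 0 || eqT t idT) (by decide +kernel) g.1 g.2
    simp only [fixF_eq ht, e, h1, if_true] at a
    exact Subtype.ext (e.symm.trans (((ht.E_eq_iff gd_idT).2 a).trans E_idT))
  have h2 := Nat.card_le_card_of_injective _ (Matrix.SpecialLinearGroup.toGL_injective (n := Fin 3) (R := ZMod 2))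
  rw [Matrix.card_GL_field] at h2
  exact ⟨MulEquiv.ofBijective π ((Nat.bijective_iff_injective_and_card π).2 ⟨h1, le_antisymm
    (Nat.card_le_card_of_injective _ h1) (h2.trans (by rw [cK]; decide))⟩)⟩
theorem orb1 {c : ℕ → Bool} {K : Subgroup M24} (hc : Ck c K) (gs : List ℕ) (x n : ℕ)
    (h : (allL (fun t => c t && okInv t) gs && allL (fun x => inM x && Nat.ble x (Nat.pred (Nat.pow 2 120))) [x] &&
      Nat.ble n (orbC 1009 127 gs 20 [x])) = true) : n ≤ (orb K (cn (E x))).ncard := by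
  simp only [Bool.and_eq_true, Nat.ble_eq] at h
  simpa using h.2.trans (hc.orbC_le h.1.1 _ _ _ h.1.2)
theorem cenE (x : M24) (h : ∀ e ∈ fixingSubgroup M24 (O0 : Set GolayPt), x * e = e * x) :
    x ∈ fixingSubgroup M24 (O0 : Set GolayPt) := by
  have a := (ckA 0x149f).all (l := gE16) (by decide +kernel)
  simp only [gE16, List.forall_mem_cons, List.not_mem_nil, false_imp_iff, implies_true, and_true] at a
  have h1 := card_le_of_orb (d := 14) (e := 1536) card_cent_zA.le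
    (orb1 ckC [0xa99d36a62b7c28740a57196c022981, 0x8d685b410f7256a30ef264da438022] 0x8adb2452ef816acb28d33a5c418820 _
    (by decide +kernel)) le_rfl (by norm_num)
  rw [stab_cn] at h1
  have h2 := card_le_of_orb (d := 12) (e := 128) h1
    (orb1 (ckC.fxC a.2.1.1) [0x8c8c85ceef83521a10b63baa353040, 0x5a685bbad56be4a3091104e0c39061]
    0x2a695835d34464c32acf3aee418820 _ (by decide +kernel)) le_rfl (by norm_num)
  rw [stab_cn] at h2
  have h3 := card_le_of_orb (d := 8) (e := 16) h2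
    (orb1 ((ckC.fxC a.2.1.1).fxC a.2.2.1.1) [0x6950f4c2b65d260706e61c6423914c, 0xb3a7093d6da990429e3455d2c08062, 0x6dde84ceb65d201880a613a4321d8a]
    0xb5de894d6da9a0c8a8b43b92418820 _ (by decide +kernel)) le_rfl (by norm_num)
  rw [stab_cn] at h3
  refine (eq_of_le_of_card_le (fun g hg => ?_) (h3.trans (card_fix_octad O0_mem).ge)).ge
    ⟨⟨⟨Subgroup.mem_centralizer_singleton_iff.2 (h _ zA_mem), Subgroup.mem_centralizer_singleton_iff.2 (h _ a.2.1.2)⟩,
      Subgroup.mem_centralizer_singleton_iff.2 (h _ a.2.2.1.2)⟩, Subgroup.mem_centralizer_singleton_iff.2 (h _ a.2.2.2.2)⟩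
  obtain ⟨t, ht, gt, rfl⟩ := mem_E16 hg
  exact ((((ckC.fxC a.2.1.1).fxC a.2.2.1.1).fxC a.2.2.2.1) t (allL_iff.1 (by decide +kernel) t ht)).2
theorem dat : Dat (E zA) Q0 K0 (fixingSubgroup M24 (O0 : Set GolayPt)) := by
  refine ⟨orderOf_eq_prime (gd_zA.pow_eq_one (by decide +kernel)) (gd_zA.ne_one_iff.2 (by decide +kernel)), card_cent_zA,
    le_antisymm cQle (tQ ▸ ckQ.tcnt_le trQ0), card_fix_octad O0_mem, cK, isoK, zA_mem,
    fun q hq => ⟨Subgroup.mem_centralizer_singleton_iff.1 hq.1.1.1, ?_⟩,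
    fun k hk => ⟨Subgroup.mem_centralizer_singleton_iff.1 hk.1.1, fun q hq => ((Kle hk).2 q).1 hq⟩, fun x hx n => ?_,
    fun e he => ?_, fun e he a => ?_, fun e he n x a f hf => ?_, cenE⟩
  · obtain ⟨t, ht, rfl, a⟩ := ckQ.forall_mem trQ0 (tQ ▸ cQle) (fun t => eqT (mulT t t) idT || eqT (mulT t t) zA)
      (by decide +kernel) q hq
    rw [Bool.or_eq_true, ← (ht.mul ht).E_eq_iff gd_idT, ← (ht.mul ht).E_eq_iff gd_zA, ht.E_mul ht, E_idT] at a
    exact a
  · obtain ⟨t, ht, rfl, a⟩ := ckK.forall_mem trK0 (tK ▸ cKle) (fun t => eqT t idT || anyL (fun g => cK0 g && okInv g &&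
      sq (mulT t (cjT g t)) (Nat.beq (powT (mulT t (cjT g t)) 21) idT && !(eqT (mulT t (cjT g t)) idT)))
      [0x2bef45c9d3436228013639aa450583, 0x7d4b46c2514b9639aae861ac438041, 0xba1348cd70ab5c7908b6019e351181, 0xbbcb45b5d044a279b2c911aa30a804])
      (by decide +kernel) x hx
    rw [ht.ne_one_iff.1 n, Bool.false_or] at a
    obtain ⟨g, -, a⟩ := anyL_iff.1 a
    simp only [sq_eq, Bool.and_eq_true, Nat.beq_eq, Bool.not_eq_true'] at a
    have b := ckK g a.1.1
    have c := b.1.cjT a.1.2 ht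
    refine ⟨_, b.2, ?_⟩
    rw [← c.2, ← ht.E_mul c.1]
    exact ⟨(ht.mul c.1).pow_eq_one a.2.1, (ht.mul c.1).ne_one_iff.2 a.2.2⟩
  · obtain ⟨t, ht, gt, rfl⟩ := mem_E16 he
    have a := allL_iff.1 (by decide +kernel : allL (fun t => cQ0 t && Nat.beq (mulT t t) idT &&
      allL (fun s => Nat.beq (mulT t s) (mulT s t)) (prods trE idT [])) (prods trE idT []) = true) t ht
    simp only [Bool.and_eq_true] at a
    refine ⟨(ckQ t a.1.1).2, (gt.mul_eq_one_iff gt).2 a.1.2, fun f hf => ?_⟩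
    obtain ⟨s, hs, gs, rfl⟩ := mem_E16 hf
    exact (gt.mul_eq_iff gs gs gt).2 (allL_iff.1 a.2 s hs)
  · obtain ⟨t, ht, gt, rfl⟩ := mem_E16 he
    have b := allL_iff.1 (by decide +kernel : allL (fun t => eqT t idT || eqT t zA || anyL (fun s => cQ0 s &&
      !(Nat.beq (mulT t s) (mulT s t))) [0x6de2891576ad20478a660392c0a867, 0x9ca8b835c543d2331ed1556e160082,
      0x6ddee916b659a02892740a12a030e3]) (prods trE idT []) = true) t ht
    rw [Bool.or_eq_true, Bool.or_eq_true, ← gt.E_eq_iff gd_idT, ← gt.E_eq_iff gd_zA, E_idT] at b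
    refine b.resolve_right fun b => ?_
    obtain ⟨s, -, b⟩ := anyL_iff.1 b
    rw [Bool.and_eq_true] at b
    have c := ckQ s b.1
    rw [(gt.mul_eq_iff c.1 c.1 gt).1 (a _ c.2)] at b
    exact absurd b.2 (by decide)
  · have b : x • O0 = O0 := cent_le_stab_fix (x := e) (fun p => ⟨(mem_fixingSubgroup_iff M24).1 he p, fun h => by_contra
      fun c => n ((fix_octad_pt O0_mem c).le ⟨he, h⟩)⟩) (Subgroup.mem_centralizer_singleton_iff.2 a)
    have := (Cj.fixing x O0 (x * f * x⁻¹)).2 (by simpa [mul_assoc] using hf)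
    rwa [b] at this

/-- In the Mathieu group of degree 24 (the automorphism group of the length-24 binary Golay code, acting on the 24 coordinates), let z be an involution whose fixed points form an octad (the support of a code word of weight 8), and let Q be the largest normal 2-subgroup of the centralizer C of z. Then Q is extraspecial of order 2^7 with an elementary abelian subgroup of order 16 (plus type), Q is a large extraspecial 2-subgroup, and C is the split extension of Q by the special linear group of degree 3 over the field with two elements. -/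
theorem result (z : ↥Cfsg.M24) (hz : orderOf z = 2) (hfix : (Finset.univ.filter fun p : Cfsg.GolayPt => (z : Equiv.Perm Cfsg.GolayPt) p = p) ∈ Cfsg.octads) (Q : Subgroup ↥Cfsg.M24) (hQ : Q = (Cfsg.pCore 2 ↥(Subgroup.centralizer ({z} : Set ↥Cfsg.M24))).map (Subgroup.centralizer ({z} : Set ↥Cfsg.M24)).subtype) : Cfsg.IsExtraspecial 2 ↥Q ∧ Nat.card ↥Q = 2 ^ 7 ∧ (∃ E : Subgroup ↥Cfsg.M24, E ≤ Q ∧ Cfsg.IsElementaryAbelian 2 E ∧ Nat.card ↥E = 2 ^ 4) ∧ Cfsg.IsLargeExtraspecial Q ∧ ∃ K : Subgroup ↥Cfsg.M24, K ≤ Subgroup.centralizer ({z} : Set ↥Cfsg.M24) ∧ Q ⊓ K = ⊥ ∧ Q ⊔ K = Subgroup.centralizer ({z} : Set ↥Cfsg.M24) ∧ Nonempty (↥K ≃* Matrix.SpecialLinearGroup (Fin 3) (ZMod 2)) := by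
  obtain ⟨g, rfl⟩ := invol_A hz (by
    have : nf z = 8 := hfix.2
    omega)
  have d := Dat.comap (z := g * E zA * g⁻¹) (MulAut.conj g⁻¹) (by simpa [mul_assoc] using dat)
  rw [hQ, d.core]
  exact ⟨d.es, d.cQ, ⟨_, fun e he => (d.e1 e he).1, ⟨⟨⟨fun a b => Subtype.ext ((d.e1 _ a.2).2.2 _ b.2)⟩⟩,
    fun a ha => (pow_two a).trans (d.e1 a ha).2.1⟩, d.cE⟩, d.large, _, d.KC, d.QK, d.sup, d.iso⟩

end Cfsg.Agent.S5425
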