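import Cfsg.Statements.S5426
import Cfsg.Agent.H2.LX3

set_option autoImplicit false
open Cfsg

namespace Cfsg.Agent.S5426

open Subgroup hiding upperCentralSeries
open H2 Cfsg.FusionSystem

open Subgroup H2 H7 H1B
open scoped commutatorElement

/-- Let Q be a large extraspecial 2-subgroup of the finite group G (extraspecial; centralizer equal to its centre; normal in the centralizer of its centre; normalizing no non-trivial subgroup of odd order) with centre generated by z, and let M be the normal closure of z in G. Then one of the following holds: Q is normal in G; or M is abelian and the generalized Fitting subgroup of G is its largest normal 2-subgroup; or M is the generalized Fitting subgroup of G and is a non-abelian simple group; or M is the generalized Fitting subgroup of G and is the direct product of a non-abelian simple subgroup L and its conjugate u L u⁻¹ by some u in Q (the two meet trivially and commute elementwise), with z = z₁ (u z₁ u⁻¹) for some z₁ in L whose centralizer in L is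 a Sylow 2-subgroup of L with Frattini subgroup inside the subgroup generated by z₁, and Q is not the largest normal 2-subgroup of the centralizer of z. -/
theorem result {G : Type*} [Group G] [Finite G] (Q : Subgroup G) (hQ : Cfsg.IsLargeExtraspecial Q) (z : G) (hz : ((Subgroup.center ↥Q).map Q.subtype) = Subgroup.zpowers z) (M : Subgroup G) (hM : M = Subgroup.normalClosure ({z} : Set G)) : Q.Normal ∨ (IsMulCommutative ↥M ∧ Cfsg.generalizedFittingSubgroup G = Cfsg.pCore 2 G) ∨ (M = Cfsg.generalizedFittingSubgroup G ∧ IsSimpleGroup ↥M ∧ ¬ IsMulCommutative ↥M) ∨ (M = Cfsg.generalizedFittingSubgroup G ∧ ∃ (L : Subgroup G) (u : G), u ∈ Q ∧ IsSimpleGroup ↥L ∧ ¬ IsMulCommutative ↥L ∧ L ⊓ (L).map (MulAut.conj u).toMonoidHom = ⊥ ∧ (∀ x ∈ L, ∀ y ∈ (L).map (MulAut.conj u).toMonoidHom, x * y = y * x) ∧ L ⊔ (L).map (MulAut.conj u).toMonoidHom = M ∧ ∃ z₁ ∈ L, z = z₁ * (u * z₁ * u⁻¹) ∧ (∃ R : Sylow 2 ↥L, (R : Subgroup ↥L) = (Subgroup.centralizer ({z₁} : Set G)).subgroupOf L ∧ (frattini ↥(R : Subgroup ↥L)).map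 ((L.subtype).comp (R : Subgroup ↥L).subtype) ≤ Subgroup.zpowers z₁) ∧ Q ≠ (Cfsg.pCore 2 ↥(Subgroup.centralizer ({z} : Set G))).map (Subgroup.centralizer ({z} : Set G)).subtype) := by
  have s := lg_of' hQ hz
  refine Or.inr ((s.struct hQ hM).imp (fun h => ⟨isComm_iff.2 h.1, gfit_eq_pCore_iff_top.2 h.2⟩)
    (Or.imp (fun h => ⟨h.1.trans gfit_eq.symm, h.2.1.simple h.2.2, h.2.1.not_comm⟩) ?_))
  rintro ⟨e, L, u, hu, q, c, c', eL, y, hy, ez, t, sq, ne⟩
  refine ⟨e.trans gfit_eq.symm, L, u, hu, q.simple c, q.not_comm, le_bot_iff.1 (c ▸ inf_le_inf_left L c'),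
    fun a ha b hb => mem_cen.1 (c' hb) a ha, eL, y, hy, ez, ⟨t.toSylow, inf_subgroupOf_left _ _, ?_⟩,
    pCore_map 2 (cen1 z) ▸ ne⟩
  have k : ∀ a ∈ (t.toSylow : Subgroup L), a ^ 2 ∈ (zpowers y).subgroupOf L := fun a ha => sq a ha
  rw [← map_map, map_le_iff_le_comap]
  refine Phi_le_of_elem Nat.prime_two (commutator_le.2 fun a ha b hb => ?_) k
  rw [show ⁅a, b⁆ = a ^ 2 * (a⁻¹ * b) ^ 2 * (b ^ 2)⁻¹ by simp only [pow_two, commutatorElement_def]; group]
  exact mul_mem (mul_mem (k a ha) (k _ (mul_mem (inv_mem ha) hb))) (inv_mem (k b hb))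

end Cfsg.Agent.S5426
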