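import Cfsg.Statements.S5427
import Cfsg.Agent.H2.LX3

set_option autoImplicit false
open Cfsg

namespace Cfsg.Agent.S5427

open Subgroup hiding upperCentralSeries
open H2 Cfsg.FusionSystem

open Subgroup H2 H7 H1B
open scoped commutatorElement

/-- Let z be an involution of the finite group G whose centralizer C has generalized Fitting subgroup Q, an extraspecial 2-group of width at least 2 (order 2^(2w+1), w ≥ 2). Let K be a subgroup of G such that the subgroup U generated by the K-conjugates of z is abelian and C is generated by the C-conjugates of U. Suppose that either some K-conjugate of z other than z lies in Q, or some element u of U ∩ Q outside the subgroup generated by z has z in the largest normal 2-subgroup of its centralizer. Then G is simple and Q is a large extraspecial 2-subgroup of G. -/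
theorem result {G : Type*} [Group G] [Finite G] (z : G) (hz : orderOf z = 2) (Q : Subgroup G) (hQC : Q ≤ Subgroup.centralizer ({z} : Set G)) (hF : (Cfsg.generalizedFittingSubgroup ↥(Subgroup.centralizer ({z} : Set G))).map (Subgroup.centralizer ({z} : Set G)).subtype = Q) (hQ : Cfsg.IsExtraspecial 2 ↥Q) (w : ℕ) (hw : 2 ≤ w) (hcard : Nat.card ↥Q = 2 ^ (2 * w + 1)) (K U : Subgroup G) (hU : U = Subgroup.closure {x : G | ∃ k ∈ K, x = k * z * k⁻¹}) (hUab : IsMulCommutative ↥U) (hgen : Subgroup.closure {x : G | ∃ c ∈ Subgroup.centralizer ({z} : Set G), ∃ u ∈ U, x = c * u * c⁻¹} = Subgroup.centralizer ({z} : Set G)) (h3 : (∃ k ∈ K, k * z * k⁻¹ ∈ Q ∧ k * z * k⁻¹ ≠ z) ∨ ∃ u ∈ U ⊓ Q, u ∉ Subgroup.zpowers z ∧ (∃ hz' : z ∈ Subgroup.centralizer ({u} : Set G), (⟨z, hz'⟩ : ↥(Subgroup.centralizer ({u} : Set G))) ∈ Cfsg.pCore 2 ↥(Subgroup.centralizer ({u} : Set G)))) : IsSimpleGroup G ∧ Cfsg.IsLargeExtraspecial Q := by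
  rw [gfit_map] at hF
  have s := lx_of_Fst hQ hz hF
  have l : IsLargeExtraspecial Q := by
    rcases h3 with ⟨k, -, h, ne⟩ | ⟨u, hu, n, m, h⟩
    · exact (s.pr hw hcard h ne).large
    refine s.large_of hu.2 n ?_ (pCore_map 2 (cen1 u) ▸ mem_map_of_mem _ h)
    have c := isComm_iff.1 hUab
    have : U ≤ Om 2 U := by
      nth_rw 1 [hU]
      refine (Subgroup.closure_le _).2 ?_
      rintro _ ⟨k, hk, rfl⟩
      exact mem_Om (hU ▸ Subgroup.subset_closure ⟨k, hk, rfl⟩) (by rw [conj_pow, ← hz, pow_orderOf_eq_one]; simp)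
    exact pow_two u ▸ (ea_Om hUab).pow (this hu.1)
  refine ⟨s.simple l (hF.symm.trans (Fst_eq_Op_iff'.2 (hF ▸ s.pgroup))) ?_, l⟩
  have m : U ≤ normalClosure {z} := hU ▸ (Subgroup.closure_le _).2 (by
    rintro _ ⟨k, -, rfl⟩
    exact normalClosure_normal.conj_mem z (subset_normalClosure (Set.mem_singleton z)) k)
  refine hgen.ge.trans ((Subgroup.closure_le _).2 ?_)
  rintro _ ⟨c, -, u, hu, rfl⟩
  exact normalClosure_normal.conj_mem u (m hu) c

end Cfsg.Agent.S5427
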