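import Cfsg.Statements.S5428
import Cfsg.Agent.H2.LX3

set_option autoImplicit false
open Cfsg

namespace Cfsg.Agent.S5428

open Subgroup hiding upperCentralSeries
open H2 Cfsg.FusionSystem

open Subgroup H2 H7 H1B
open scoped commutatorElement

/-- Let z be an involution of the finite group G whose centralizer C has generalized Fitting subgroup Q extraspecial (as a 2-group), let A be a subgroup of C of odd order, and let R be the centralizer of A in Q; suppose R has order at least 32, the largest normal subgroup of odd order of the centralizer of the subgroup generated by A and R lies in A, the order of that centralizer is not divisible by 4, and g is an element of G with g z g⁻¹ in R but outside the centre Z of Q. Let M be the subgroup generated by A and the centralizer of A (A is normal in it). Then: the centralizer in M of the subgroup generated by R and A, joined with A, equals the subgroup generated by A and Z; the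 image of R in M/A is a large extraspecial 2-subgroup of M/A; and g z g⁻¹ is conjugate to z inside the subgroup generated by R and the centralizer of A in g Q g⁻¹. -/
theorem result {G : Type*} [Group G] [Finite G] (z : G) (hz : orderOf z = 2) (Q : Subgroup G) (hQC : Q ≤ Subgroup.centralizer ({z} : Set G)) (hF : (Cfsg.generalizedFittingSubgroup ↥(Subgroup.centralizer ({z} : Set G))).map (Subgroup.centralizer ({z} : Set G)).subtype = Q) (hQ : Cfsg.IsExtraspecial 2 ↥Q) (A : Subgroup G) (hA : A ≤ Subgroup.centralizer ({z} : Set G)) (hAodd : Odd (Nat.card ↥A)) (R : Subgroup G) (hR : R = Q ⊓ Subgroup.centralizer (A : Set G)) (hR32 : 32 ≤ Nat.card ↥R) (hO : (Cfsg.oddCore ↥(Subgroup.centralizer ((A ⊔ R : Subgroup G) : Set G))).map (Subgroup.centralizer ((A ⊔ R : Subgroup G) : Set G)).subtype ≤ A) (h4 : ¬ 4 ∣ Nat.card ↥(Subgroup.centralizer ((A ⊔ R : Subgroup G) : Set G))) (g : G) (hgR : g * z * g⁻¹ ∈ R) (hgZ : g * z * g⁻¹ ∉ ((Subgroup.center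 ↥Q).map Q.subtype)) (M : Subgroup G) (hM : M = Subgroup.centralizer (A : Set G) ⊔ A) [hn : (A.subgroupOf M).Normal] : (M ⊓ Subgroup.centralizer ((R ⊔ A : Subgroup G) : Set G)) ⊔ A = A ⊔ ((Subgroup.center ↥Q).map Q.subtype) ∧ Cfsg.IsLargeExtraspecial ((R.subgroupOf M).map (QuotientGroup.mk' (A.subgroupOf M))) ∧ ∃ x ∈ R ⊔ ((Q).map (MulAut.conj g).toMonoidHom ⊓ Subgroup.centralizer (A : Set G)), x * (g * z * g⁻¹) * x⁻¹ = z := by
  rw [gfit_map] at hF
  rw [pPrimeCore_map] at hO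
  have s := lx_of_Fst hQ hz hF
  rw [center_map_subtype, s.ctr] at hgZ ⊢
  obtain ⟨w, hw⟩ := s.width
  subst hR hM
  have w2 : 2 ≤ w := by
    have := hR32.trans (hw ▸ card_le_of_le (inf_le_left : Q ⊓ cen A ≤ Q))
    have := (Nat.pow_le_pow_iff_right one_lt_two).1 (show 2 ^ 5 ≤ _ from this)
    omega
  have h := s.pr w2 hw hgR.1 fun e => hgZ (by rw [e]; exact mem_zpowers z)
  have s' := h.symm.s
  have hA' := le_cen1_iff.2 hgR.2
  have r := xs_cen_odd s.toXS (hA.trans s.nQ) hA hAodd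
  have r' := xs_cen_odd s'.toXS (hA'.trans s'.nQ) hA' hAodd
  have zD : z ∈ cen (A ⊔ Q ⊓ cen A) := cen_sup A _ ▸ ⟨r.zm.2, r.zc⟩
  have t : IsSylowIn 2 (zpowers z) (cen (A ⊔ Q ⊓ cen A)) := ⟨zpowers_le.2 zD,
    s.pgroup.to_le (zpowers_le.2 s.zm), fun k => h4 (by
      rw [← relIndex_mul_card' (zpowers_le.2 zD), xs_ord s.toXS]; exact Nat.mul_dvd_mul_right k 2)⟩
  have D : cen (A ⊔ Q ⊓ cen A) ≤ A ⊔ zpowers z := ((H7.npc_burnside t (inf_le_right.trans
    ((nrm_zp_two hz).trans (cen_zpowers z).ge))).sup t).ge.trans (sup_le_sup_right hO _)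
  have i : ∀ y ∈ Q, y ∈ A → y = 1 := fun y a b =>
    mem_bot.1 ((inf_eq_bot_of_isPGroup s.pgroup hAodd.coprime_two_right).le ⟨a, b⟩)
  refine ⟨le_antisymm (sup_le (inf_le_right.trans (sup_comm A _ ▸ D)) le_sup_left)
    (sup_le le_sup_right (zpowers_le.2 (mem_sup_left ⟨mem_sup_left r.zm.2, sup_comm A _ ▸ zD⟩))), ?_,
    sq_conj' r.toSQ r'.toSQ hgR ⟨h.hz, r.zm.2⟩ (fun k => hgZ (r.ctr.le ⟨hgR, k⟩))
      fun k => h.symm.nz (r'.ctr.le ⟨⟨h.hz, r.zm.2⟩, k⟩)⟩
  have e := (kr_mk'_subgroupOf A (cen A ⊔ A)).trans (inf_eq_left.2 le_sup_right)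
  have key : ∀ d ∈ cen A ⊔ A, ∃ c ∈ cen A, ev (QuotientGroup.mk' (A.subgroupOf (cen A ⊔ A))) c =
      ev (QuotientGroup.mk' (A.subgroupOf (cen A ⊔ A))) d ∧ (∀ y ∈ cen A, ⁅d, y⁆ = ⁅c, y⁆) ∧
      ∀ y ∈ cen A, y * y = 1 → ⁅c, y⁆ ∈ A → c ∈ cen1 y := fun d hd => by
    obtain ⟨c, hc, a, ha, rfl⟩ := (mem_sup_nrm (cen_le_nrm A)).1 hd
    refine ⟨c, hc, (ev_eq_iff (mem_sup_left hc) hd).2 (by rw [e, inv_mul_cancel_left]; exact ha),
      fun y hy => ?_, fun y hy y2 m => ?_⟩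
    · rw [commutatorElement_def, mul_assoc c, mem_cen.1 hy a ha]; group
    refine mem_cen1.2 (commutatorElement_eq_one_iff_mul_comm.1 (orderOf_eq_one_iff.1
      (Nat.eq_one_of_dvd_coprimes hAodd.coprime_two_left (orderOf_dvd_of_pow_eq_one ?_)
        (orderOf_dvd_natCard A m))))
    calc _ = ⁅c, y⁆ * (⁅c, y⁆ * y) * y⁻¹ := by rw [pow_two]; group
      _ = c * (y * y) * c⁻¹ * (y * y)⁻¹ := by rw [mem_cen.1 hy _ m]; group
      _ = 1 := by rw [y2]; group
  refine large_im (QuotientGroup.mk'_surjective _) (inf_le_right.trans le_sup_left)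
    (inf_le_right.trans le_sup_left) r.toSQ r'.toSQ hgR ⟨h.hz, r.zm.2⟩ (fun k => ?_)
    (fun k => s.z1 (i z s.zm (e.le k))) (fun d hd k => ?_) (fun d hd k => ?_) fun d hd k => ?_
  · rw [e] at k
    obtain ⟨a, ha, b, hb, e'⟩ := (mem_sup_nrm (zpowers_le.2 (cen_le_nrm A r.zm.2))).1 k
    rw [i b ((Q.mul_mem_cancel_left (zpowers_le.2 s.zm ha)).1 (e' ▸ hgR.1)) hb, mul_one] at e'
    exact hgZ (e' ▸ ha)
  · obtain ⟨c, hc, e1, e2, e3⟩ := key d hd
    exact ⟨c, nrm_inf (zpowers_le.2 (s.nQ (e3 z r.zm.2 s.z2 (e2 z r.zm.2 ▸ e.le k))))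
      (zpowers_le.2 (le_nrm_self _ hc)) (mem_zpowers c), mem_sup_left hc, e1⟩
  · obtain ⟨c, hc, e1, e2, e3⟩ := key d hd
    exact ⟨c, nrm_inf (zpowers_le.2 (s'.nQ (e3 _ hgR.2 s'.z2 (e2 _ hgR.2 ▸ e.le k))))
      (zpowers_le.2 (le_nrm_self _ hc)) (mem_zpowers c), mem_sup_left hc, e1⟩
  obtain ⟨c, hc, e1, e2, e3⟩ := key d hd
  rw [← ev_mem_zp (mem_sup_left r.zm.2) hd, ← e1, ev_mem_zp (mem_sup_left r.zm.2) (mem_sup_left hc), e,
    sup_comm]
  rw [e] at k
  have n := s.nQ (e3 z r.zm.2 s.z2 (e2 z r.zm.2 ▸ k z r.zm))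
  refine D (cen_sup A _ ▸ ⟨hc, mem_cen.2 fun y hy => (commutatorElement_eq_one_iff_mul_comm.1
    (i _ ?_ (e2 y hy.2 ▸ k y hy))).symm⟩)
  exact comm_le_right (zpowers_le.2 n) (commutator_mem_commutator (mem_zpowers c) hy.1)

end Cfsg.Agent.S5428
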