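import Cfsg.Statements.S5429
import Cfsg.Agent.H2.LX3

set_option autoImplicit false
open Cfsg

namespace Cfsg.Agent.S5429

open Subgroup hiding upperCentralSeries
open H2 Cfsg.FusionSystem

open Subgroup H2 H7 H1B
open scoped commutatorElement

/-- Let z be an involution of the finite group G with centralizer C whose generalized Fitting subgroup Q is extraspecial of width at least 3 (order 2^(2w+1), w ≥ 3); let g be an element of G with g z g⁻¹ in Q but outside the centre Z of Q, and t an involution lying in both Q and g Q g⁻¹ that is not conjugate to z; write P for the centralizer of t in Q and suppose that the elements of C acting trivially by conjugation on P modulo the subgroup generated by t and z are exactly the elements of Q. Then the image of P in the centralizer of t modulo the subgroup generated by t is a large extraspecial 2-subgroup there, and g z g⁻¹ is conjugate to z inside the subgroup generated by P and the centralizer of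 t in g Q g⁻¹. -/
theorem result {G : Type*} [Group G] [Finite G] (z : G) (hz : orderOf z = 2) (Q : Subgroup G) (hQC : Q ≤ Subgroup.centralizer ({z} : Set G)) (hF : (Cfsg.generalizedFittingSubgroup ↥(Subgroup.centralizer ({z} : Set G))).map (Subgroup.centralizer ({z} : Set G)).subtype = Q) (hQ : Cfsg.IsExtraspecial 2 ↥Q) (w : ℕ) (hw : 3 ≤ w) (hcard : Nat.card ↥Q = 2 ^ (2 * w + 1)) (g : G) (hgQ : g * z * g⁻¹ ∈ Q) (hgZ : g * z * g⁻¹ ∉ ((Subgroup.center ↥Q).map Q.subtype)) (t : G) (ht : orderOf t = 2) (htQ : t ∈ Q ⊓ (Q).map (MulAut.conj g).toMonoidHom) (htz : ¬ IsConj z t) (P : Subgroup G) (hP : P = Q ⊓ Subgroup.centralizer ({t} : Set G)) (hCP : ∀ c ∈ Subgroup.centralizer ({z} : Set G), (∀ x ∈ P, ∃ y ∈ Subgroup.closure ({t, z} : Set G), c * x * c⁻¹ = x * y) ↔ c ∈ Q) [hn : ((Subgroup.zpowers t).subgroupOf (Subgroup.centralizer ({t} : Set G))).Normal] : Cfsg.IsLargeExtraspecial ((P.subgroupOf (Subgroup.centralizer ({t} : Set G))).map (QuotientGroup.mk'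 ((Subgroup.zpowers t).subgroupOf (Subgroup.centralizer ({t} : Set G))))) ∧ ∃ x ∈ P ⊔ ((Q).map (MulAut.conj g).toMonoidHom ⊓ Subgroup.centralizer ({t} : Set G)), x * (g * z * g⁻¹) * x⁻¹ = z := by
  rw [gfit_map] at hF
  have s := lx_of_Fst hQ hz hF
  rw [center_map_subtype, s.ctr] at hgZ
  have h := s.pr (by omega : 2 ≤ w) hcard hgQ fun e => hgZ (by rw [e]; exact mem_zpowers z)
  have s' := h.symm.s
  have c : IsConj z (g * z * g⁻¹) := _root_.isConj_iff.2 ⟨g, rfl⟩
  obtain ⟨a1, a2, a3⟩ := s.quot_t htQ.1 ht htz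
  obtain ⟨b1, b2, b3⟩ := s'.quot_t htQ.2 ht fun k => htz (c.trans k)
  have t2 := (ord2.1 ht).1
  have sy : ∀ {y}, t ∈ cen1 y → y ∈ cen1 t := fun k => mem_cen1.2 (mem_cen1.1 k).symm
  have zP : z ∈ Q ⊓ cen1 t := ⟨s.zm, sy (s.le htQ.1)⟩
  have xP : g * z * g⁻¹ ∈ cj g Q ⊓ cen1 t := ⟨s'.zm, sy (s'.le htQ.2)⟩
  subst hP
  refine ⟨?_, sq_conj' (s.sub inf_le_left zP) (s'.sub inf_le_left xP) ⟨hgQ, xP.2⟩ ⟨h.hz, zP.2⟩
    (fun k => a3 _ c h.ne (s.mem_of_cen htQ.1 a2 t2 (s.le hgQ) k))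
    fun k => b3 _ c.symm h.ne.symm (s'.mem_of_cen htQ.2 b2 t2 (s'.le h.hz) k)⟩
  have e := (kr_mk'_subgroupOf (zpowers t) (cen1 t)).trans (inf_eq_left.2 (zpowers_le.2 (self_mem_cen1 t)))
  refine large_im (QuotientGroup.mk'_surjective _) inf_le_right inf_le_right (s.sub inf_le_left zP)
    (s'.sub inf_le_left xP) ⟨hgQ, xP.2⟩ ⟨h.hz, zP.2⟩ (by rw [e]; exact a3 _ c h.ne) (fun k => ?_)
    (fun d hd k => ⟨d, nrm_inf (zpowers_le.2 (s.nQ (a1 d (e.le k)))) (zpowers_le.2 (le_nrm_self _ hd))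
      (mem_zpowers d), hd, rfl⟩)
    (fun d hd k => ⟨d, nrm_inf (zpowers_le.2 (s'.nQ (b1 d (e.le k)))) (zpowers_le.2 (le_nrm_self _ hd))
      (mem_zpowers d), hd, rfl⟩) fun d hd k => ?_
  · exact ((mem_zp_two ht).1 (e.le k)).elim s.z1 fun e => htz (e ▸ IsConj.refl _)
  rw [e] at k ⊢
  have dz := a1 d (k z zP)
  have dQ := (hCP d dz).1 fun x hx => ⟨⁅d, x⁻¹⁆⁻¹, by
    rw [closure_two]; exact mem_sup_left (inv_mem (k _ (inv_mem hx))), by group⟩
  refine s.mem_of_cen htQ.1 a2 t2 dz (mem_cen.2 fun r hr => (commutatorElement_eq_one_iff_mul_comm.1 ?_).symm)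
  rcases (mem_zp_two ht).1 (k r hr) with e' | e'
  exacts [e', absurd (e' ▸ s.comm d dQ r hr.1) a2]

end Cfsg.Agent.S5429
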