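import Cfsg.Statements.S5433
import Cfsg.Agent.H2.LX1

set_option autoImplicit false
open Cfsg

namespace Cfsg.Agent.S5433

open Subgroup hiding upperCentralSeries
open H2 Cfsg.FusionSystem

open Subgroup H2 H7 H1B

/-- Let Q be a large extraspecial 2-subgroup of the finite group G (extraspecial; centralizer equal to its centre; normal in the centralizer of its centre; normalizing no non-trivial subgroup of odd order), and L a normal subgroup of G containing Q. Then G is the product of L and the normalizer of Q. -/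
theorem result {G : Type*} [Group G] [Finite G] (Q : Subgroup G) (hQ : Cfsg.IsLargeExtraspecial Q) (L : Subgroup G) [L.Normal] (hQL : Q ≤ L) : L ⊔ Subgroup.normalizer (Q : Set G) = ⊤ := by
  obtain ⟨z, s, -⟩ := lg_of hQ
  obtain ⟨T, hT⟩ := exists_isSylowIn 2 (cen1 z)
  obtain ⟨l, -, t⟩ := s.syl hT
  have t' := t.inf_normal (le_nrm_of_normal ⊤ L)
  rw [top_inf_eq] at t'
  have c : cen (T ⊓ L) = zpowers z := le_antisymm (s.cen_eq ▸ cen_anti (le_inf l hQL))
    (zpowers_le.2 (le_cen1_iff.1 (inf_le_left.trans hT.le)))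
  refine top_le_iff.1 fun g _ => ?_
  obtain ⟨n, hn, k⟩ := t'.frattini (le_nrm_of_normal ⊤ L (mem_top g))
  exact (mul_mem_cancel_left (mem_sup_left hn)).1 (mem_sup_right (s.nQ (nrm_zp_two s.oz
    (c ▸ nrm_cen le_rfl k))))

end Cfsg.Agent.S5433
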