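import Cfsg.Statements.S5434
import Cfsg.Agent.H2.LX1

set_option autoImplicit false
open Cfsg

namespace Cfsg.Agent.S5434

open Subgroup hiding upperCentralSeries
open H2 Cfsg.FusionSystem

open Subgroup H2 H7 H1B
open scoped commutatorElement

/-- Let Q be a large extraspecial 2-subgroup of the finite group G (extraspecial; centralizer equal to its centre; normal in the centralizer of its centre; normalizing no non-trivial subgroup of odd order), and A a non-trivial subgroup of odd order of the normalizer of Q. Then Q is the central product of the centralizer of A in Q and the commutator subgroup [Q, A] (they generate Q and commute elementwise), [Q, A] is extraspecial, and the centralizer of A in Q is either the centre of Q or extraspecial. -/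
theorem result {G : Type*} [Group G] [Finite G] (Q : Subgroup G) (hQ : Cfsg.IsLargeExtraspecial Q) (A : Subgroup G) (hA : A ≤ Subgroup.normalizer (Q : Set G)) (hAodd : Odd (Nat.card ↥A)) (hA1 : A ≠ ⊥) : (Q ⊓ Subgroup.centralizer (A : Set G)) ⊔ ⁅Q, A⁆ = Q ∧ (∀ x ∈ Q ⊓ Subgroup.centralizer (A : Set G), ∀ y ∈ ⁅Q, A⁆, x * y = y * x) ∧ Cfsg.IsExtraspecial 2 ↥⁅Q, A⁆ ∧ (Q ⊓ Subgroup.centralizer (A : Set G) = ((Subgroup.center ↥Q).map Q.subtype) ∨ Cfsg.IsExtraspecial 2 ↥(Q ⊓ Subgroup.centralizer (A : Set G))) := by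
  obtain ⟨z, s, e⟩ := lg_of hQ
  have c : Cop A Q := ⟨hA, coprime_of_isPGroup s.pgroup hAodd.coprime_two_right,
    Or.inr (haveI := s.pgroup.isNilpotent; inferInstance)⟩
  have hz := hA.trans s.nrm_le
  have l := comm_le_left hA
  have k : Q ⊓ cen A ≤ cen ⁅Q, A⁆ := (xs_perp_comm s.toXS hA hz inf_le_left).2
    ((comm_eq_bot'.2 inf_le_right).le.trans bot_le)
  have ne : ⁅Q, A⁆ ≠ ⊥ := fun h => hA1 (eq_bot_of_isPGroup_of_coprime
    (s.pgroup.to_le ((comm_eq_bot'.1 h).trans s.cQ)) hAodd.coprime_two_right)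
  have s1 := xs_sub s.toXS l (xs_mem s.toXS l (normalizer_commutator_ge_left _ _) ne)
    (le_trans (le_cen_sup inf_le_right (inf_le_left.trans (le_cen_symm k))) (cen_anti c.comm_sup_cen.ge))
  have s2 := xs_sub s.toXS inf_le_left ⟨s.zm, le_cen1_iff.1 hz⟩
    (le_trans (le_cen_sup (inf_le_left.trans k) inf_le_right) (cen_anti c.comm_sup_cen.ge))
  refine ⟨(sup_comm _ _).trans c.comm_sup_cen, le_cen_iff.1 k, s1.es fun h => ne ?_, ?_⟩
  · rw [← c.comm_comm, s1.eq_zp h, comm_eq_bot', cen_zpowers]; exact hz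
  · by_cases h : Q ⊓ cen A ≤ cen (Q ⊓ cen A)
    exacts [Or.inl (e ▸ s2.eq_zp h), Or.inr (s2.es h)]

end Cfsg.Agent.S5434
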