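import Cfsg.Statements.S5436
import Cfsg.Agent.H2.LX3

set_option autoImplicit false
open Cfsg

namespace Cfsg.Agent.S5436

open Subgroup hiding upperCentralSeries
open H2 Cfsg.FusionSystem

open Subgroup H2 H7 H1B
open scoped commutatorElement

/-- Let z be an involution of the finite group G with centralizer H whose generalized Fitting subgroup Q is extraspecial of width at least 2 (order 2^(2w+1), w ≥ 2); suppose some conjugate of z other than z lies in Q, H/Q is a non-abelian simple group, H acts irreducibly by conjugation on Q modulo the subgroup generated by z (the only H-invariant subgroups of Q containing z are that subgroup and Q), and Q is not the subgroup generated by the conjugates of z lying in H. Then G is simple. -/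
theorem result {G : Type*} [Group G] [Finite G] (z : G) (hz : orderOf z = 2) (Q : Subgroup (Subgroup.centralizer ({z} : Set G))) [Q.Normal] (hF : Cfsg.generalizedFittingSubgroup ↥(Subgroup.centralizer ({z} : Set G)) = Q) (hQ : Cfsg.IsExtraspecial 2 ↥Q) (w : ℕ) (hw : 2 ≤ w) (hcard : Nat.card ↥Q = 2 ^ (2 * w + 1)) (hnwc : ∃ g : G, (∃ hq : g * z * g⁻¹ ∈ Subgroup.centralizer ({z} : Set G), (⟨g * z * g⁻¹, hq⟩ : Subgroup.centralizer ({z} : Set G)) ∈ Q) ∧ g * z * g⁻¹ ≠ z) (hsimp : IsSimpleGroup (↥(Subgroup.centralizer ({z} : Set G)) ⧸ Q)) (hna : ¬ IsMulCommutative (↥(Subgroup.centralizer ({z} : Set G)) ⧸ Q)) (hirr : ∀ W : Subgroup (Subgroup.centralizer ({z} : Set G)), W.Normal → W ≤ Q → (W = Q ∨ ∀ x ∈ W, (x : G) ∈ Subgroup.zpowers z)) (hwcl : Subgroup.closure {x : Subgroup.centralizer ({z} : Set G) | IsConj z (x : G)} ≠ Q) : IsSimpleGroup G := by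
  have eF : Fst (cen1 z) = Q.map (cen1 z).subtype := by rw [← gfit_map, hF]
  have s := lx_of_Fst (es_map hQ (cen1 z).subtype_injective) hz eF
  obtain ⟨g, ⟨hq, hg⟩, ne⟩ := hnwc
  have h := s.pr hw ((card_map_of_injective (cen1 z).subtype_injective).trans hcard)
    (mem_map_of_mem _ hg) ne
  refine s.simple h.large (eF.symm.trans (Fst_eq_Op_iff'.2 (eF ▸ s.pgroup))) ?_
  set W := Subgroup.closure {x : cen1 z | IsConj z (x : G)}
  haveI n : W.Normal := ⟨fun x hx c => by
    refine closure_induction (fun x hx => Subgroup.subset_closure (hx.trans (_root_.isConj_iff.2 ⟨c, rfl⟩)))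
      (by simp) (fun x y _ _ a b => by rw [← conj_mul]; exact mul_mem a b)
      (fun x _ a => by rw [← conj_inv]; exact inv_mem a) hx⟩
  have l : Q ≤ W := ((hirr (W ⊓ Q) inferInstance inf_le_right).resolve_right fun k => h.nz
    (k ⟨_, hq⟩ ⟨Subgroup.subset_closure (_root_.isConj_iff.2 ⟨g, rfl⟩), hg⟩)).ge.trans inf_le_left
  have e : W = ⊤ := by
    rcases (n.map (QuotientGroup.mk' Q) (QuotientGroup.mk'_surjective Q)).eq_bot_or_eq_top with e | e
    · exact absurd (le_antisymm (by rwa [Subgroup.map_eq_bot_iff, QuotientGroup.ker_mk'] at e) l) hwcl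
    · rw [← comap_map_eq_self (f := QuotientGroup.mk' Q) (H := W) (by rwa [QuotientGroup.ker_mk']), e,
        comap_top]
  have : W ≤ (normalClosure {z}).comap (cen1 z).subtype := (Subgroup.closure_le _).2 fun x hx => by
    obtain ⟨c, k⟩ := _root_.isConj_iff.1 hx
    exact (show (x : G) ∈ normalClosure {z} from k ▸ normalClosure_normal.conj_mem z (subset_normalClosure (Set.mem_singleton z)) c)
  exact fun y hy => this (e.ge (mem_top ⟨y, hy⟩))

end Cfsg.Agent.S5436
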