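import Cfsg.Statements.S5437
import Mathlib

set_option autoImplicit false
open Cfsg

namespace Cfsg.Agent.S5437

open Subgroup

/-- Let I be a set of involutions of the finite group G closed under conjugation, and H a subgroup of G. The following are equivalent: (1) for every member x of I lying in H, the conjugates of x lying in H form a single H-class and the centralizer of x lies in H; (2) for every g outside H, no member of I lies in both H and g H g⁻¹; (3) every member of I lying in H fixes exactly one coset in the action of G on the cosets of H. -/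
theorem result {G : Type*} [Group G] [Finite G] (I : Set G) (hI : ∀ x ∈ I, orderOf x = 2) (hIc : ∀ g : G, ∀ x ∈ I, g * x * g⁻¹ ∈ I) (H : Subgroup G) : ((∀ x ∈ I, x ∈ H → (∀ g : G, g * x * g⁻¹ ∈ H → ∃ h ∈ H, h * x * h⁻¹ = g * x * g⁻¹) ∧ Subgroup.centralizer ({x} : Set G) ≤ H) ↔ (∀ g : G, g ∉ H → ∀ x ∈ I, ¬ (x ∈ H ∧ x ∈ (H : Subgroup G).map (MulAut.conj g).toMonoidHom))) ∧ ((∀ g : G, g ∉ H → ∀ x ∈ I, ¬ (x ∈ H ∧ x ∈ (H : Subgroup G).map (MulAut.conj g).toMonoidHom)) ↔ ∀ x ∈ I, x ∈ H → ∃! c : G ⧸ H, x • c = c) := by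
  have key : ∀ g x : G, x ∈ H.map (MulAut.conj g).toMonoidHom ↔ g⁻¹ * x * g ∈ H := fun g x => by
    rw [mem_map_equiv]; rfl
  have fx : ∀ g x : G, x • (g : G ⧸ H) = g ↔ g⁻¹ * x * g ∈ H := fun g x => by
    rw [MulAction.Quotient.smul_coe, eq_comm, QuotientGroup.eq, smul_eq_mul, mul_assoc]
  simp only [key]
  refine ⟨⟨fun h g hg x hx ⟨h1, h2⟩ => ?_, fun h x hx hH => ⟨fun g hg => ⟨g, ?_, rfl⟩,
    fun g hg => ?_⟩⟩, fun h x hx hH => ⟨(1 : G), (fx 1 x).2 (by simpa using hH), fun c hc => ?_⟩,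
      fun h g hg x hx ⟨h1, h2⟩ => ?_⟩
  · obtain ⟨k, hk, e⟩ := (h x hx h1).1 g⁻¹ (by simpa using h2)
    refine hg ((H.mul_mem_cancel_right hk).1 ((h x hx h1).2 (mem_centralizer_singleton_iff.2 ?_)))
    calc g * k * x = g * (k * x * k⁻¹) * k := by group
      _ = _ := by rw [e]; group
  · by_contra hc
    exact h g hc _ (hIc g x hx) ⟨hg, by simpa [mul_assoc] using hH⟩
  · by_contra hc
    exact h g hc x hx ⟨hH, by rwa [mul_assoc, ← mem_centralizer_singleton_iff.1 hg,
      inv_mul_cancel_left]⟩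
  · obtain ⟨g, rfl⟩ := QuotientGroup.mk_surjective c
    by_contra hn
    exact h g (fun hg => hn (QuotientGroup.eq.2 (by simpa using hg))) x hx ⟨hH, (fx g x).1 hc⟩
  · have := (h x hx h1).unique ((fx g x).2 h2) ((fx 1 x).2 (by simpa using h1))
    exact hg (by simpa using QuotientGroup.eq.1 this)

end Cfsg.Agent.S5437
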