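import Cfsg.Statements.S5438
import Mathlib

set_option autoImplicit false
open Cfsg

namespace Cfsg.Agent.S5438

open Subgroup MulAction

/-- Let z be a 2-central involution of the finite group G (an involution central in some Sylow 2-subgroup) and H a subgroup containing z such that the coset H is the only coset of H fixed by z (in the action of G on the cosets of H). Then H has odd index in G, and for every 2-element x of H the conjugates of x lying in H form a single H-class. -/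
theorem result {G : Type*} [Group G] [Finite G] (z : G) (hz : Cfsg.IsTwoCentralInvolution z) (H : Subgroup G) (hzH : z ∈ H) (hfix : ∀ g : G, g⁻¹ * z * g ∈ H → g ∈ H) : Odd H.index ∧ ∀ x ∈ H, (∃ k : ℕ, orderOf x = 2 ^ k) → ∀ g : G, g * x * g⁻¹ ∈ H → ∃ h ∈ H, h * x * h⁻¹ = g * x * g⁻¹ := by
  haveI : Fact (Nat.Prime 2) := ⟨Nat.prime_two⟩
  obtain ⟨oz, P, hzP, hP⟩ := hz
  have fx : ∀ g x : G, x • (g : G ⧸ H) = g ↔ g⁻¹ * x * g ∈ H := fun g x => by
    rw [MulAction.Quotient.smul_coe, eq_comm, QuotientGroup.eq, smul_eq_mul, mul_assoc]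
  have hPH : (P : Subgroup G) ≤ H := fun x hx => hfix x (by
    rwa [mul_assoc, ← hP x hx, inv_mul_cancel_left])
  have hodd : ¬ 2 ∣ H.index := fun h => P.not_dvd_index (h.trans (index_dvd_of_le hPH))
  refine ⟨Nat.odd_iff.2 (by omega), fun x hx ⟨k, hk⟩ g hg => ?_⟩
  -- for each 2-element of `H`, a conjugate of `z` in its centraliser fixing only `H`
  have key : ∀ y ∈ H, orderOf y = 2 ^ k → ∃ w, w * y = y * w ∧ w * w = 1 ∧
      ∀ c : G, w • (c : G ⧸ H) = c ↔ c ∈ H := fun y hy ho => by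
    have h1 : IsPGroup 2 (zpowers (⟨y, hy⟩ : H)) :=
      IsPGroup.of_card (n := k) (by rw [Nat.card_zpowers, orderOf_mk, ho])
    obtain ⟨Q, hQ⟩ := h1.exists_le_sylow
    obtain ⟨h, rfl⟩ := exists_smul_eq H (P.subtype hPH) Q
    have h2 : (h : G)⁻¹ * y * h ∈ (P : Subgroup G) := by
      have := hQ (mem_zpowers _)
      rw [Sylow.coe_subgroup_smul, mem_pointwise_smul_iff_inv_smul_mem] at this
      exact this
    refine ⟨h * z * (h : G)⁻¹, ?_, ?_, fun c => ?_⟩
    · calc (h : G) * z * (h : G)⁻¹ * y = h * (z * ((h : G)⁻¹ * y * h)) * (h : G)⁻¹ := by group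
        _ = _ := by rw [← hP _ h2]; group
    · rw [conj_mul, ← pow_two, ← oz, pow_orderOf_eq_one]; group
    · rw [fx]
      constructor
      · intro e
        exact (H.mul_mem_cancel_left (H.inv_mem h.2)).1 (hfix _ (by simpa [mul_assoc] using e))
      · intro e
        exact H.mul_mem (H.mul_mem (H.inv_mem e) (H.mul_mem (H.mul_mem h.2 hzH) (H.inv_mem h.2))) e
  obtain ⟨w, w1, w2, w3⟩ := key x hx hk
  obtain ⟨v, v1, v2, v3⟩ := key _ hg (by rw [← hk]; exact (MulAut.conj g).orderOf_eq x)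
  let C := centralizer ({x} : Set G)
  have pg : ∀ u : C, (u : G) * u = 1 → IsPGroup 2 (zpowers u) := fun u hu => by
    rintro ⟨_, n, rfl⟩
    refine ⟨1, Subtype.ext ?_⟩
    show (u ^ n) ^ 2 ^ 1 = 1
    rw [pow_one, ← zpow_natCast, ← zpow_mul, mul_comm, zpow_mul, zpow_natCast,
      show u ^ 2 = 1 from Subtype.ext (by rwa [pow_two]), one_zpow]
  have hv : g⁻¹ * v * g ∈ C := mem_centralizer_singleton_iff.2 (by
    calc g⁻¹ * v * g * x = g⁻¹ * (v * (g * x * g⁻¹)) * g := by group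
      _ = _ := by rw [v1]; group)
  have v4 : ∀ c : G ⧸ H, (g⁻¹ * v * g) • c = c ↔ c = (g⁻¹ : G) := fun c => by
    obtain ⟨c, rfl⟩ := QuotientGroup.mk_surjective c
    rw [fx, eq_comm (a := (c : G ⧸ H)), QuotientGroup.eq, inv_inv, ← v3 (g * c), fx]
    simp [mul_assoc]
  have h3 : ¬ 2 ∣ Nat.card (orbit C ((g⁻¹ : G) : G ⧸ H)) := fun hd => by
    obtain ⟨b, hb, hne⟩ := (pg ⟨_, hv⟩ (by simp [mul_assoc, ← mul_assoc v, v2])
      ).exists_fixed_point_of_prime_dvd_card_of_fixed_point (orbit C ((g⁻¹ : G) : G ⧸ H)) hd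
      (a := ⟨_, mem_orbit_self _⟩) (by
        rw [mem_fixedPoints]
        rintro ⟨_, n, rfl⟩
        exact Subtype.ext (zpow_mem (show (⟨_, hv⟩ : C) ∈ stabilizer C ((g⁻¹ : G) : G ⧸ H) from
          (v4 _).2 rfl) n))
    exact hne (Subtype.ext ((v4 _).1 (congrArg Subtype.val (hb ⟨_, mem_zpowers _⟩))).symm)
  obtain ⟨⟨_, c, rfl⟩, hb⟩ := (pg ⟨w, mem_centralizer_singleton_iff.2 w1⟩ w2
    ).nonempty_fixed_point_of_prime_not_dvd_card _ h3
  have h4 := (w3 (c * g⁻¹)).1 (congrArg Subtype.val (hb ⟨_, mem_zpowers _⟩))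
  refine ⟨_, H.inv_mem h4, ?_⟩
  calc ((c : G) * g⁻¹)⁻¹ * x * ((c : G) * g⁻¹)⁻¹⁻¹ = g * ((c : G)⁻¹ * (x * c)) * g⁻¹ := by group
    _ = _ := by rw [← mem_centralizer_singleton_iff.1 c.2]; group

end Cfsg.Agent.S5438
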