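import Cfsg.Statements.S5439
import Mathlib
import Cfsg.Agent.H8.Tr3
import Cfsg.Agent.H8.Dihedral

set_option autoImplicit false
open Cfsg

namespace Cfsg.Agent.S5439

open H8 Subgroup
theorem aux {G : Type*} [Group G] {a b : G} (ha : a * a = 1) (hb : b * b = 1) (m : ℕ) :
    a * (a * b) ^ m = ((a * b) ^ m)⁻¹ * a := by
  have : a * (a * b) * a⁻¹ = (a * b)⁻¹ := by simp [inv1 ha, inv1 hb, ll1 ha]
  rw [← inv_pow, ← this, conj_pow]; group

theorem aux' {G : Type*} [Group G] {a b : G} (ha : a * a = 1) (hb : b * b = 1) (m : ℕ) :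
    b * (a * b) ^ m = ((a * b) ^ m)⁻¹ * b := by
  have : b * (a * b) * b⁻¹ = (a * b)⁻¹ := by simp [inv1 ha, inv1 hb, mul_assoc, hb]
  rw [← inv_pow, ← this, conj_pow]; group

/-- Let I and J be two different conjugacy classes of involutions of the finite group G and H a subgroup such that every member of I ∪ J fixes exactly one coset in the action on the cosets of H, and such that for every a in I ∩ H and every b in (I ∪ J) ∩ H different from a and commuting with it, the centralizer of a b lies in H. Then H = G. -/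
theorem result {G : Type*} [Group G] [Finite G] (I J : Set G) (a₀ b₀ : G) (ha₀ : orderOf a₀ = 2) (hb₀ : orderOf b₀ = 2) (hI : I = {x | IsConj a₀ x}) (hJ : J = {x | IsConj b₀ x}) (hIJ : I ≠ J) (H : Subgroup G) (hfix : ∀ x ∈ I ∪ J, ∃! c : G ⧸ H, x • c = c) (hcent : ∀ a ∈ I, a ∈ H → ∀ b ∈ I ∪ J, b ∈ H → a ≠ b → a * b = b * a → Subgroup.centralizer ({a * b} : Set G) ≤ H) : H = ⊤ := by
  have fx : ∀ g x : G, x • (g : G ⧸ H) = g ↔ g⁻¹ * x * g ∈ H := fun g x => by
    rw [MulAction.Quotient.smul_coe, eq_comm, QuotientGroup.eq, smul_eq_mul, mul_assoc]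
  have un : ∀ x ∈ I ∪ J, x ∈ H → ∀ g, g⁻¹ * x * g ∈ H → g ∈ H := fun x hx h1 g h2 => by
    simpa using QuotientGroup.eq.1 ((hfix x hx).unique ((fx 1 x).2 (by simpa using h1))
      ((fx g x).2 h2))
  have cI : ∀ g, ∀ x ∈ I, g * x * g⁻¹ ∈ I := fun g x hx => by
    rw [hI] at hx ⊢; exact IsConj.trans hx (isConj_iff.2 ⟨g, rfl⟩)
  have cJ : ∀ g, ∀ x ∈ J, g * x * g⁻¹ ∈ J := fun g x hx => by
    rw [hJ] at hx ⊢; exact IsConj.trans hx (isConj_iff.2 ⟨g, rfl⟩)
  have sq : ∀ {x y : G}, orderOf x = 2 → IsConj x y → y * y = 1 := fun h1 h2 => by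
    obtain ⟨g, rfl⟩ := isConj_iff.1 h2
    simp [mul_assoc, ll1 (sq1 h1)]
  obtain ⟨a, ha, haH⟩ : ∃ a ∈ I, a ∈ H := by
    have h0 : a₀ ∈ I := hI ▸ IsConj.refl a₀
    obtain ⟨c, hc, -⟩ := hfix a₀ (Or.inl h0)
    obtain ⟨g, rfl⟩ := QuotientGroup.mk_surjective c
    exact ⟨_, by simpa using cI g⁻¹ a₀ h0, (fx g a₀).1 hc⟩
  have sa : a * a = 1 := sq ha₀ (by rwa [hI] at ha)
  have hJH : ∀ b ∈ J, b ∈ H := fun b hb => by
    have sb : b * b = 1 := sq hb₀ (by rwa [hJ] at hb)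
    rcases Nat.even_or_odd (orderOf (a * b)) with ⟨m, hm⟩ | ho
    swap
    · obtain ⟨k, -, hk⟩ := exists_invol_conj_of_odd sa sb ho
      have h1 := cI (a * (a * b) ^ k) a ha
      rw [hk, hI] at h1
      rw [hJ] at hb
      refine absurd ?_ hIJ
      rw [hI, hJ]
      ext y
      exact ⟨fun h => hb.trans (h1.symm.trans h), fun h => h1.trans (hb.symm.trans h)⟩
    have h0 := orderOf_pos (a * b)
    have h1 : (a * b) ^ m * (a * b) ^ m = 1 := by rw [← pow_add, ← hm, pow_orderOf_eq_one]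
    have h2 : a * (a * b) ^ m ∈ I ∪ J := by
      rcases Nat.even_or_odd' m with ⟨k, rfl | rfl⟩
      · have := cI ((a * b) ^ k)⁻¹ a ha
        rw [← aux sa sb, inv_inv, mul_assoc, ← pow_add, ← two_mul] at this
        exact Or.inl this
      · have := cJ ((a * b) ^ k)⁻¹ b hb
        rw [← aux' sa sb, inv_inv, mul_assoc, ← pow_add, ← two_mul] at this
        rw [pow_succ', ← mul_assoc, ll1 sa]
        exact Or.inr this
    have h3 : Commute a ((a * b) ^ m) := by
      show _ = _; rw [aux sa sb, inv1 h1]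
    have h4 : b * (a * b) ^ m = (a * b) ^ m * b := by rw [aux' sa sb, inv1 h1]
    have h5 := ((Commute.refl a).mul_right h3).eq
    refine hcent a ha haH _ h2 (un a (Or.inl ha) haH _ ?_) (fun e => pow_ne_one_of_lt_orderOf
      (x := a * b) (n := m) (by omega) (by omega) (by simpa using e)) h5
        (mem_centralizer_singleton_iff.2 (by rwa [ll1 sa]))
    rwa [mul_assoc, h5, inv_mul_cancel_left]
  have h0 : b₀ ∈ J := hJ ▸ IsConj.refl b₀
  exact eq_top_iff.2 fun g _ => un b₀ (Or.inr h0) (hJH _ h0) g (hJH _ (by simpa using cJ g⁻¹ _ h0))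

end Cfsg.Agent.S5439
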