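import Cfsg.Statements.S5459


set_option autoImplicit false
open Cfsg

namespace Cfsg.Agent.S5459

/-- Let G be a finite group with a quasisimple normal subgroup L and an involution d such that G is generated by L and d, the centre of L has odd order, and d inverts every element of the centre of L. If the commuting graph on the conjugacy class of the image of d in G modulo the centre of L is connected, then the commuting graph on the conjugacy class of d is connected. -/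
theorem result {G : Type*} [Group G] [Finite G] (L : Subgroup G) [L.Normal] (hL : Cfsg.IsQuasisimple ↥L) (d : G) (hd : orderOf d = 2) (hgen : L ⊔ Subgroup.zpowers d = ⊤) (hodd : Odd (Nat.card ↥(Subgroup.center ↥L))) (hinv : ∀ c ∈ (Subgroup.center ↥L).map L.subtype, d * c * d⁻¹ = c⁻¹) [hn : ((Subgroup.center ↥L).map L.subtype).Normal] (hconn : (Cfsg.commutingGraph (conjugatesOf (QuotientGroup.mk d : G ⧸ (Subgroup.center ↥L).map L.subtype))).Connected) : (Cfsg.commutingGraph (conjugatesOf d)).Connected := by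
  set Z := (Subgroup.center ↥L).map L.subtype with hZ
  have cZ : ∀ z ∈ Z, ∀ l ∈ L, l * z = z * l := by
    rintro _ ⟨z, hz, rfl⟩ l hl
    exact congrArg Subtype.val (Subgroup.mem_center_iff.1 hz ⟨l, hl⟩)
  have ZL : Z ≤ L := Subgroup.map_subtype_le _
  have rt : ∀ z ∈ Z, ∃ w ∈ Z, w ^ 4 = z := by
    rintro _ ⟨z, hz, rfl⟩
    obtain ⟨w, hw⟩ := (powCoprime (G := Subgroup.center L) (n := 2 ^ 2) (hodd.coprime_two_right.pow_right 2)).surjective ⟨z, hz⟩
    exact ⟨_, ⟨w.1, w.2, rfl⟩, congrArg (fun x => x.1.1) hw⟩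
  have iv : ∀ e ∈ conjugatesOf d, ∀ c ∈ Z, e * c = c⁻¹ * e := fun e he c hc => by
    obtain ⟨g, rfl⟩ := isConj_iff.1 he
    have := hinv _ (hn.conj_mem' c hc g)
    calc _ = g * (d * (g⁻¹ * c * g) * d⁻¹) * d * g⁻¹ := by group
      _ = _ := by rw [this]; group
  have cj : ∀ (g : G), ∀ e ∈ conjugatesOf d, g * e * g⁻¹ ∈ conjugatesOf d := fun g e he =>
    IsConj.trans he (isConj_iff.2 ⟨g, rfl⟩)
  let c (g : G) (e : conjugatesOf d) : conjugatesOf d := ⟨_, cj g _ e.2⟩
  let Γ := Cfsg.commutingGraph (conjugatesOf d)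
  have r1 : ∀ a b : conjugatesOf d, Commute a.1 b.1 → Γ.Reachable a b := fun a b h => by
    by_cases e : a = b
    exacts [e ▸ .refl _, SimpleGraph.Adj.reachable ⟨e, .inl h⟩]
  have r2 : ∀ g a b, Γ.Reachable a b → Γ.Reachable (c g a) (c g b) := fun g a b h => by
    rw [SimpleGraph.reachable_iff_reflTransGen] at h
    induction h with
    | refl => rfl
    | tail _ h ih => exact ih.trans (r1 _ _ ((h.2.elim id .symm).conj g))
  let d' : conjugatesOf d := ⟨d, IsConj.refl d⟩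
  let H : Subgroup G :=
    { carrier := {g | Γ.Reachable d' (c g d')}
      one_mem' := r1 _ _ (by simp [c, d'])
      mul_mem' := fun {g h} a b => a.trans (by convert r2 g _ _ b using 1; exact Subtype.ext (by simp [c, mul_assoc]))
      inv_mem' := fun {g} a => by
        show Γ.Reachable _ _
        convert (r2 g⁻¹ _ _ a).symm using 1; exact Subtype.ext (by simp [c, mul_assoc]) }
  have key : ∀ g : G, ∃ w ∈ Z, w * g ∈ H := fun g => by
    have l : ∀ x, (Cfsg.commutingGraph (conjugatesOf (d : G ⧸ Z))).Reachable ⟨d, IsConj.refl _⟩ x →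
        ∃ e : conjugatesOf d, (e.1 : G ⧸ Z) = x ∧ Γ.Reachable d' e := fun x h => by
      rw [SimpleGraph.reachable_iff_reflTransGen] at h
      induction h with
      | refl => exact ⟨d', rfl, .refl _⟩
      | @tail y x _ h ih =>
        obtain ⟨e, he, r⟩ := ih
        obtain ⟨x, hx⟩ := x
        obtain ⟨⟨k⟩, rfl⟩ := isConj_iff.1 hx
        have h : Commute (e.1 : G ⧸ Z) (c k d').1 := he ▸ h.2.elim id .symm
        set f := c k d'
        obtain ⟨w, hw, h4⟩ := rt (f.1⁻¹ * (e.1 * f.1 * e.1⁻¹)) (QuotientGroup.eq.1 (by simp [h.eq]))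
        have i1 := iv _ e.2 w hw
        have i2 := iv _ f.2 w hw
        have i3 := iv _ f.2 _ (inv_mem hw)
        refine ⟨c w⁻¹ f, ?_, r.trans (r1 _ _ ?_)⟩
        · simp [c, (QuotientGroup.eq_one_iff w).2 hw]; rfl
        have i4 := iv _ e.2 _ (inv_mem hw)
        have h5 : e.1 * f.1 = f.1 * w ^ 4 * e.1 := by rw [h4]; group
        show e.1 * (w⁻¹ * f.1 * w⁻¹⁻¹) = (w⁻¹ * f.1 * w⁻¹⁻¹) * e.1
        rw [inv_inv] at *
        calc _ = (e.1 * w⁻¹) * f.1 * w := by group
          _ = w * f.1 * w ^ 4 * (e.1 * w) := by rw [i4, mul_assoc w, h5]; group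
          _ = (f.1 * w) * w * e.1 := by rw [← i3, i1]; simp [pow_succ, mul_assoc]
          _ = _ := by rw [i2]
    obtain ⟨e, he, r⟩ := l ⟨_, isConj_iff.2 ⟨g, rfl⟩⟩ (hconn _ _)
    obtain ⟨w, hw, h4⟩ := rt ((c g d').1⁻¹ * e.1) (QuotientGroup.eq.1 he.symm)
    refine ⟨(w ^ 2)⁻¹, inv_mem (pow_mem hw 2), ?_⟩
    show Γ.Reachable _ _
    convert r using 1
    refine Subtype.ext (?_ : (w ^ 2)⁻¹ * g * d * ((w ^ 2)⁻¹ * g)⁻¹ = _)
    calc _ = (w ^ 2)⁻¹ * (c g d').1 * w ^ 2 := by simp only [c, d']; group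
      _ = _ := by rw [← iv _ (c g d').2 _ (pow_mem hw 2), mul_assoc, ← pow_add, h4, mul_inv_cancel_left]
  have LH : L ≤ H := by
    rw [← Subgroup.subgroupOf_eq_top, eq_top_iff, ← hL.1.commutator_eq_top]
    refine Subgroup.commutator_le.2 fun x _ y _ => ?_
    obtain ⟨v, hv, a⟩ := key x
    obtain ⟨w, hw, b⟩ := key y
    have := mul_mem (mul_mem (mul_mem a b) (inv_mem a)) (inv_mem b)
    have m := fun z : L => z.2
    show x.1 * y.1 * x.1⁻¹ * y.1⁻¹ ∈ H
    convert this using 1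
    symm
    calc _ = v * (x * w * y * x.1⁻¹) * v⁻¹ * (w * y)⁻¹ := by group
      _ = w * (x * y * x.1⁻¹ * y.1⁻¹) * w⁻¹ := by
        rw [← cZ v hv (x * w * y * x.1⁻¹) (m (x * ⟨w, ZL hw⟩ * y * x⁻¹)), mul_inv_cancel_right, cZ w hw _ x.2]; group
      _ = _ := by rw [← cZ w hw (x * y * x.1⁻¹ * y.1⁻¹) (m (x * y * x⁻¹ * y⁻¹)), mul_inv_cancel_right]
  have : H = ⊤ := eq_top_iff.2 (hgen ▸ sup_le LH (Subgroup.zpowers_le_of_mem (r1 _ _ (by simp [c, d']))))
  have a : ∀ e, Γ.Reachable d' e := fun e => by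
    obtain ⟨e, he⟩ := e
    obtain ⟨g, rfl⟩ := isConj_iff.1 he
    exact (this ▸ Subgroup.mem_top g : g ∈ H)
  haveI : Nonempty (conjugatesOf d) := ⟨d'⟩
  exact ⟨fun x y => (a x).symm.trans (a y)⟩

end Cfsg.Agent.S5459
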