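import Cfsg.Statements.S5471
import Cfsg.Agent.H6.F22c

set_option autoImplicit false
open Cfsg

namespace Cfsg.Agent.S5471
open H6 Finset MulAction
open scoped Pointwise
set_option maxRecDepth 100000

/-- Let G be a finite group with trivial centre generated by a conjugation-invariant set D of 3-transpositions on which it acts primitively, such that for some d in D the subgroup generated by the members of D other than d commuting with d has central largest normal 2- and 3-subgroups, and suppose G with D is of type M(23). Let d₁, d₂, d₃ be distinct pairwise commuting members of D and j their product. Then the joint centralizer of d₁, d₂, d₃ is normal in the centralizer of j with quotient isomorphic to the symmetric group of degree 3. -/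
theorem result {G : Type*} [Group G] [Finite G] {D : Set G} (hD : Cfsg.IsThreeTranspositionGroup D) (hprim : Cfsg.IsPrimitiveUnderConj D) (d₀ : G) (hd₀ : d₀ ∈ D) (h3 : Cfsg.pCore 3 ↥(Subgroup.closure {y : G | y ∈ D ∧ y ≠ d₀ ∧ Commute d₀ y}) ≤ Subgroup.center ↥(Subgroup.closure {y : G | y ∈ D ∧ y ≠ d₀ ∧ Commute d₀ y})) (h2 : Cfsg.pCore 2 ↥(Subgroup.closure {y : G | y ∈ D ∧ y ≠ d₀ ∧ Commute d₀ y}) ≤ Subgroup.center ↥(Subgroup.closure {y : G | y ∈ D ∧ y ≠ d₀ ∧ Commute d₀ y})) (h23 : Cfsg.IsOfTypeM23 G D) (d₁ d₂ d₃ : G) (h₁ : d₁ ∈ D) (h₂ : d₂ ∈ D) (h₃ : d₃ ∈ D) (h12 : d₁ ≠ d₂) (h13 : d₁ ≠ d₃) (h23 : d₂ ≠ d₃) (c12 : Commute d₁ d₂) (c13 : Commute d₁ d₃) (c23 : Commute d₂ d₃) (K C : Subgroup G) (hK : K = Subgroup.centralizer ({d₁, d₂, d₃} : Set G)) (hC : C = Subgroup.centralizer ({d₁ * d₂ * d₃} : Set G)) : K ≤ C ∧ ∃ _ : (K.subgroupOf C).Normal, Nonempty (↥C ⧸ K.subgroupOf C ≃* Equiv.Perm (Fin 3)) := by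
  have hE := T3.of_group hD
  have l := lu23 hE hD.2.2 subset_rfl (fun _ => .inl) ‹IsOfTypeM23 G D›
  have f : Fac D 3 (d₁ * d₂ * d₃) _ :=
    fac3.2 ⟨_, h₁, _, ⟨h₂, h12.symm, c12⟩, _, ⟨⟨h₃, h13.symm, c13⟩, h23.symm, c23⟩, (mul_assoc _ _ _).symm, rfl⟩
  obtain ⟨h1, π, h2, h3⟩ := f.quot hE hD.2.2 (l.on hE).le fun _ f' => (l.nc hE).1.perm hE le_rfl f f'
  have e : {x | x ∈ [d₁, d₂, d₃]} = ({d₁, d₂, d₃} : Set G) := by ext; simp
  rw [e] at h1 h3
  subst hK hC
  have hn : ((Subgroup.centralizer ({d₁, d₂, d₃} : Set G)).subgroupOf (Subgroup.centralizer {d₁ * d₂ * d₃})).Normal :=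
    h3 ▸ π.normal_ker
  refine ⟨h1, hn, ⟨(QuotientGroup.quotientMulEquivOfEq h3.symm).trans
    (QuotientGroup.quotientKerEquivOfSurjective π h2)⟩⟩

end Cfsg.Agent.S5471
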