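import Cfsg.Statements.S5474
import Cfsg.Agent.H6.F24b

set_option autoImplicit false
open Cfsg

namespace Cfsg.Agent.S5474
open H6 Finset MulAction
open scoped Pointwise
set_option maxRecDepth 100000

/-- Let G be a finite group with trivial centre generated by a conjugation-invariant set D of 3-transpositions on which it acts primitively, such that for some d in D the subgroup generated by the members of D other than d commuting with d has central largest normal 2- and 3-subgroups, and suppose G with D is of type M(24). Then D is the only conjugacy class of 3-transpositions generating G. -/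
theorem result {G : Type*} [Group G] [Finite G] {D : Set G} (hD : Cfsg.IsThreeTranspositionGroup D) (hprim : Cfsg.IsPrimitiveUnderConj D) (d₀ : G) (hd₀ : d₀ ∈ D) (h3 : Cfsg.pCore 3 ↥(Subgroup.closure {y : G | y ∈ D ∧ y ≠ d₀ ∧ Commute d₀ y}) ≤ Subgroup.center ↥(Subgroup.closure {y : G | y ∈ D ∧ y ≠ d₀ ∧ Commute d₀ y})) (h2 : Cfsg.pCore 2 ↥(Subgroup.closure {y : G | y ∈ D ∧ y ≠ d₀ ∧ Commute d₀ y}) ≤ Subgroup.center ↥(Subgroup.closure {y : G | y ∈ D ∧ y ≠ d₀ ∧ Commute d₀ y})) (h24 : Cfsg.IsOfTypeM24 G D) (D' : Set G) (hD' : Cfsg.IsThreeTranspositionClass D') : D' = D := by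
  obtain ⟨m, φ, h⟩ := c24 hD hprim h24
  have g := cls_group hD'
  have t := T3.of_group g
  refine cls_eq hD h.lu.1 hD' fun x hx => ?_
  obtain ⟨k, hk, l, f⟩ := h.inv x (t.sq x hx)
  rcases (show k ≤ 3 ∨ k = 4 by omega) with hk | rfl
  · exact h.lu.uniq h.t3 t g.2.1 hx hk f
  · have e : x ∈ commutator G := f.2.2.2.2 ▸ (h.par f.2.2.1).2 (by rw [f.2.1]; decide)
    obtain ⟨-, ⟨d, -, rfl⟩, k⟩ := hD'
    refine (h.odd (k.ge.trans ((Subgroup.closure_le _).2 fun y hy => ?_) (Subgroup.mem_top _))).elim
    obtain ⟨c, rfl⟩ := isConj_iff.1 (hx.symm.trans hy)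
    exact (inferInstance : (commutator G).Normal).conj_mem _ e c

end Cfsg.Agent.S5474
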