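import Cfsg.Statements.S5514
import Cfsg.Agent.H0.IO73
import Cfsg.Agent.H0.EO73C.Main
import Cfsg.Agent.H0.MO73x.Main


set_option autoImplicit false
open Cfsg

namespace Cfsg.Agent.S5514

/-- The commutator subgroup of the isometry group of a non-degenerate 7-dimensional quadratic form over the field with three elements, modulo its (trivial) centre — the simple group Ω(7, 3) — has exactly seven conjugacy classes of subgroups of order 3. -/
theorem result : ∃ Y : Fin 7 → Subgroup (Cfsg.POmega (ZMod 3) (Cfsg.quadFormOdd 3 (ZMod 3))), (∀ i, Nat.card (Y i) = 3) ∧ (∀ i j, (∃ g : Cfsg.POmega (ZMod 3) (Cfsg.quadFormOdd 3 (ZMod 3)), (Y i).map (MulAut.conj g).toMonoidHom = Y j) → i = j) ∧ (∀ X : Subgroup (Cfsg.POmega (ZMod 3) (Cfsg.quadFormOdd 3 (ZMod 3))), Nat.card X = 3 → ∃ i, ∃ g : Cfsg.POmega (ZMod 3) (Cfsg.quadFormOdd 3 (ZMod 3)), X.map (MulAut.conj g).toMonoidHom = Y i) := by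
  obtain ⟨e⟩ := H0.IO73.iso
  let P := (H0.Pres.pg _ _).congr e
  have := H0.MO73.fin P
  have e1 : ∀ i : Fin 7, H0.ev (H0.MO73.m P).g (H0.EO73C.W.getD i []) = H0.ev (H0.MO73x.m P).g (H0.EO73C.W.getD i []) := fun i =>
    H0.ev_congr (k := 16) (fun x h => (H0.MO73x.g_eq P h).trans (H0.MO73.g_eq P h).symm) (by revert i; decide)
  refine H0.sub_cls Nat.prime_three (fun i => H0.ev (H0.MO73.m P).g (H0.EO73C.W.getD i [])) (fun i => ⟨?_, e1 i ▸ H0.MO73x.ord P i⟩) (H0.MO73x.m P).fs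
    ((H0.MO73x.m P).fs_map ((H0.MO73x.m P).bdd_of_top (H0.MO73x.top P))) (fun i j h => ?_) (H0.EO73C.cls (H0.MO73.m P) (H0.MO73.mR P) (H0.MO73.base P) (H0.MO73.card P))
  · rw [← H0.ev_wpow]
    exact (H0.MO73.m P).ev_one (H0.MO73.inj P) (ws := (List.finRange 7).map fun i : Fin 7 => H0.wpow (H0.EO73C.W.getD i []) 3)
      (H0.Model.via _ (H0.MO73.mR P) (fun R => H0.BN.relsW R 0 R.lg _) (by decide +kernel)) _ (List.mem_map_of_mem (List.mem_finRange i))
  · simp only [e1, H0.MO73x.cnt] at h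
    revert i j; decide

end Cfsg.Agent.S5514
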