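import Cfsg.Statements.S5541
import Mathlib

set_option autoImplicit false
open Cfsg

namespace Cfsg.Agent.S5541

/-- Let ρ be a representation of a group H on a finite-dimensional real vector space U whose only ρ-invariant subspaces are the zero subspace and U, and suppose U carries a non-zero ρ-invariant symmetric bilinear form. Then the following are equivalent: (1) there is a non-zero ρ-equivariant commutative bilinear product on U of which every ρ-equivariant bilinear product is a scalar multiple; (2) there is a non-zero ρ-invariant trilinear form on U that is symmetric under all permutations of its arguments and of which every ρ-invariant trilinear form is a scalar multiple. -/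
theorem result {H : Type*} [Group H] {U : Type*} [AddCommGroup U] [Module ℝ U] [FiniteDimensional ℝ U] (ρ : Representation ℝ H U) (hirr : ∀ W : Submodule ℝ U, (∀ g : H, W.map (ρ g) ≤ W) → W = ⊥ ∨ W = ⊤) (B : LinearMap.BilinForm ℝ U) (hB0 : B ≠ 0) (hBs : ∀ u v, B u v = B v u) (hBi : ∀ (g : H) (u v : U), B (ρ g u) (ρ g v) = B u v) : (∃ m : U →ₗ[ℝ] U →ₗ[ℝ] U, m ≠ 0 ∧ (∀ u v, m u v = m v u) ∧ (∀ (g : H) (u v : U), m (ρ g u) (ρ g v) = ρ g (m u v)) ∧ ∀ m' : U →ₗ[ℝ] U →ₗ[ℝ] U, (∀ (g : H) (u v : U), m' (ρ g u) (ρ g v) = ρ g (m' u v)) → ∃ c : ℝ, m' = c • m) ↔ (∃ t : U →ₗ[ℝ] U →ₗ[ℝ] U →ₗ[ℝ] ℝ, t ≠ 0 ∧ (∀ u v w, t u v w = t v u w ∧ t u v w = t u w v) ∧ (∀ (g : H) (u v w : U), t (ρ g u) (ρ g v) (ρ g w) = t u v w) ∧ ∀ t' : U →ₗ[ℝ] U →ₗ[ℝ] U →ₗ[ℝ] ℝ, (∀ (g : H) (u v w : U), t' (ρ g u) (ρ g v) (ρ g w) = t' u v w) → ∃ c : ℝ, t' = c • t) := by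
  set_option maxSynthPendingDepth 3 in
  have nd : B.Nondegenerate := by
    have : ∀ u, (∀ v, B u v = 0) → u = 0 := fun u h => by
      refine ((hirr (LinearMap.ker B) fun g => ?_).resolve_right fun z => hB0 (LinearMap.ker_eq_top.1 z)).le
        (LinearMap.ext h : B u = 0)
      rintro _ ⟨w, k, rfl⟩
      refine LinearMap.ext fun v => ?_
      rw [← ρ.self_inv_apply g v, hBi, show B w = 0 from k]; rfl
    exact ⟨this, fun u h => this u fun v => (hBs u v).trans (h v)⟩
  let e := B.toDual nd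
  let T : (U →ₗ[ℝ] U →ₗ[ℝ] U) ≃ₗ[ℝ] (U →ₗ[ℝ] U →ₗ[ℝ] U →ₗ[ℝ] ℝ) := (e.congrRight).congrRight
  have t : ∀ m u v w, T m u v w = B (m u v) w := fun _ _ _ _ => rfl
  have i : ∀ m, (∀ (g : H) (u v : U), m (ρ g u) (ρ g v) = ρ g (m u v)) ↔
      ∀ (g : H) (u v w : U), T m (ρ g u) (ρ g v) (ρ g w) = T m u v w := fun m =>
    ⟨fun h g u v w => by rw [t, t, h, hBi], fun h g u v => e.injective (LinearMap.ext fun w => by
      rw [← ρ.self_inv_apply g w]; exact (h g u v _).trans (hBi g _ _).symm)⟩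
  refine ⟨fun ⟨m, m0, c, a, un⟩ => ?_, fun ⟨s, s0, c, a, un⟩ => ?_⟩
  · have u' : ∀ t', (∀ (g : H) (u v w : U), t' (ρ g u) (ρ g v) (ρ g w) = t' u v w) → ∃ c : ℝ, t' = c • T m :=
      fun t' h => by
        obtain ⟨m', rfl⟩ := T.surjective t'
        exact (un m' ((i m').2 h)).imp fun c e => by rw [e, map_smul]
    refine ⟨T m, T.map_ne_zero_iff.2 m0, fun u v w => ⟨by rw [t, t, c], ?_⟩, (i m).1 a, u'⟩
    obtain ⟨d, h⟩ := u' ((LinearMap.lflip (R := ℝ)).toLinearMap.comp (T m)) fun g u v w => (i m).1 a g u w v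
    have k : ∀ u v w, T m u w v = d * T m u v w := fun u v w => congrArg (fun s => s u v w) h
    have c' : ∀ u v w, T m u v w = T m v u w := fun u v w => by rw [t, t, c]
    have h1 := k u v w
    have h2 := k u w v
    have h3 := k w v u
    have h4 := k v u w
    rw [c' w u v, c' w v u] at h3
    rw [c' v u w] at h4
    linear_combination h2 + d * h1 - h3 - d * h4
  · obtain ⟨m, rfl⟩ := T.surjective s
    refine ⟨m, T.map_ne_zero_iff.1 s0, fun u v => e.injective (LinearMap.ext fun w => (c u v w).1), (i m).2 a,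
      fun m' h => (un _ ((i m').1 h)).imp fun c e => T.injective (by rw [e, map_smul])⟩

end Cfsg.Agent.S5541
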