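import Cfsg.Statements.S5543
import Mathlib

set_option autoImplicit false
open Cfsg

namespace Cfsg.Agent.S5543

open Cfsg.Axial

/-- Let V be a finite-dimensional real vector space with a commutative bilinear product and a positive-definite symmetric bilinear form that associates with the product and satisfies the Norton inequality (the Majorana setting of the definitions). Let X be a group of linear automorphisms of V in which every element squares to the identity, and suppose every non-identity element x of X is a Majorana involution with an axial vector a(x) of squared length 1, such that for any two distinct non-identity x, y the product a(x) ∘ a(y) equals (1/8)(a(x) + a(y) − a(xy)) (the dihedral subalgebra of type 2A whose third axis belongs to the involution xy). Then X has order at most 4. -/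
theorem result {V : Type*} [AddCommGroup V] [Module ℝ V] [FiniteDimensional ℝ V] (mul : V →ₗ[ℝ] V →ₗ[ℝ] V) (B : LinearMap.BilinForm ℝ V) (hV : Cfsg.Axial.IsMajoranaAmbient mul B) (X : Subgroup (V ≃ₗ[ℝ] V)) (hX : ∀ x ∈ X, x * x = 1) (ax : (V ≃ₗ[ℝ] V) → V) (hax : ∀ x ∈ X, x ≠ 1 → Cfsg.Axial.IsMajoranaPair mul B x (ax x)) (h1 : ∀ x ∈ X, x ≠ 1 → B (ax x) (ax x) = 1) (h2A : ∀ x ∈ X, ∀ y ∈ X, x ≠ 1 → y ≠ 1 → x ≠ y → mul (ax x) (ax y) = (1 / 8 : ℝ) • (ax x + ax y - ax (x * y))) : Nat.card ↥X ≤ 4 := by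
  set_option maxSynthPendingDepth 3 in
  classical
  obtain ⟨cm, bs, -, ba, -⟩ := hV
  have cX : ∀ x ∈ X, ∀ y ∈ X, x * y = y * x := fun x a y b => by
    rw [← inv_inv (x * y), inv_eq_of_mul_eq_one_right (hX _ (X.mul_mem a b)), mul_inv_rev,
      inv_eq_of_mul_eq_one_right (hX _ a), inv_eq_of_mul_eq_one_right (hX _ b)]
  have ne : ∀ x ∈ X, ∀ y, x ≠ y → x * y ≠ 1 := fun x a y n e => n (mul_left_cancel ((hX x a).trans e.symm))
  have as : ∀ x ∈ X, ∀ y, x * (x * y) = y := fun x a y => by rw [← mul_assoc, hX x a, one_mul]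
  have id : ∀ x ∈ X, x ≠ 1 → mul (ax x) (ax x) = ax x := fun x a n => (hax x a n).2.2.1.1.2.1
  have b7 : ∀ x ∈ X, ∀ y ∈ X, x ≠ 1 → y ≠ 1 → x ≠ y → 7 * B (ax x) (ax y) = 1 - B (ax x) (ax (x * y)) :=
    fun x a y b n m l => by
      have := ba (ax x) (ax x) (ax y)
      rw [id x a n, h2A x a y b n m l] at this
      simp only [map_smul, map_sub, map_add, h1 x a n, smul_eq_mul] at this
      linarith
  have ev : ∀ x ∈ X, ∀ y ∈ X, x ≠ 1 → y ≠ 1 → x ≠ y → ax y - ax (x * y) ∈ eigen mul (ax x) (1 / 4) :=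
    fun x a y b n m l => Module.End.mem_eigenspace_iff.2 (by
      rw [map_sub, h2A x a y b n m l, h2A x a _ (X.mul_mem a b) n (ne x a y l) (by simpa using m), as x a]
      module)
  by_contra! c
  haveI : Finite X := Nat.finite_of_card_ne_zero (by omega)
  have ex : ∀ S : Finset (V ≃ₗ[ℝ] V), S.card ≤ 4 → ∃ x ∈ X, x ∉ S := fun S h => by
    by_contra! k
    have := Set.ncard_le_ncard (s := (X : Set (V ≃ₗ[ℝ] V))) (t := S) k S.finite_toSet
    rw [Set.ncard_coe_finset] at this
    exact (c.trans_le (this.trans h)).false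
  obtain ⟨x, a, n⟩ := ex {1} (by simp)
  obtain ⟨y, b, m⟩ := ex {1, x} (Finset.card_le_two.trans (by omega))
  obtain ⟨z, d, l⟩ := ex {1, x, y, x * y} Finset.card_le_four
  simp only [Finset.mem_insert, Finset.mem_singleton, not_or] at n m l
  have xy := X.mul_mem a b
  have xz := X.mul_mem a d
  have yz := X.mul_mem b d
  have n1 := ne x a y (Ne.symm m.2)
  have n2 := ne x a z (Ne.symm l.2.1)
  have n3 := ne y b z (Ne.symm l.2.2.1)
  have n4 : x ≠ y * z := fun e => l.2.2.2 (by rw [cX x a y b, e, as y b])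
  have k := (hax x a n).2.2.1.1.2.2.2 (1 / 4) (by simp [majoranaSpectrum]) (1 / 4) (by simp [majoranaSpectrum]) _
    (ev x a y b n m.1 (Ne.symm m.2)) _ (ev x a z d n l.1 (Ne.symm l.2.1))
  have e1 : y * (x * z) = x * (y * z) := by rw [← mul_assoc, cX y b x a, mul_assoc]
  have e2 : x * y * (x * z) = y * z := by rw [mul_assoc, e1, as x a]
  have pr : mul (ax y - ax (x * y)) (ax z - ax (x * z)) = (-1 / 4 : ℝ) • (ax (y * z) - ax (x * (y * z))) := by
    simp only [map_sub, LinearMap.sub_apply]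
    rw [h2A y b z d m.1 l.1 (Ne.symm l.2.2.1), h2A y b _ xz m.1 n2 (fun e => l.2.2.2 (by rw [e, as x a])),
      h2A _ xy z d n1 l.1 (Ne.symm l.2.2.2), h2A _ xy _ xz n1 n2 (by simpa using Ne.symm l.2.2.1), e1, e2, mul_assoc]
    module
  rw [pr, show monsterLaw (1 / 4 : ℝ) (1 / 32) (1 / 4) (1 / 4) = {1, 0} by norm_num [monsterLaw]] at k
  have z0 := Submodule.disjoint_def.1 ((Module.End.eigenspaces_iSupIndep (mul (ax x)) (1 / 4)).mono_right
    (iSup₂_le fun c h => le_iSup₂_of_le c (by rcases h with rfl | rfl <;> norm_num) le_rfl)) _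
    (Submodule.smul_mem _ _ (ev x a _ yz n n3 n4)) k
  have z1 : ax (y * z) = ax (x * (y * z)) := sub_eq_zero.1 ((smul_eq_zero.1 z0).resolve_left (by norm_num))
  have w := X.mul_mem a yz
  have t1 := b7 _ yz _ w n3 (ne x a _ n4) (by simpa using n)
  have t2 := b7 _ yz x a n3 n n4.symm
  rw [cX _ yz _ w, mul_assoc, hX _ yz, mul_one] at t1
  rw [cX _ yz x a] at t2
  rw [← z1, h1 _ yz n3] at t1 t2
  linarith

end Cfsg.Agent.S5543
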