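import Cfsg.Statements.S5545
import Cfsg.Agent.H2.Maj1

set_option autoImplicit false
open Cfsg

namespace Cfsg.Agent.S5545



/-- Let V be a finite-dimensional real vector space with a commutative bilinear product and a positive-definite symmetric bilinear form that associates with the product and satisfies the Norton inequality (the Majorana setting of the definitions). Let μ₀, μ₁ be commuting Majorana involutions with distinct axial vectors a₀ ≠ a₁ of squared length 1, each involution having no other axial vector. Then either a₀ and a₁ are orthogonal with a₀ ∘ a₁ = 0 (type 2B), or their inner product is 1/8 and, with a₂ = a₀ + a₁ − 8 a₀ ∘ a₁, the vector a₂ is an idempotent and a₀ ∘ a₂ = (1/8)(a₀ + a₂ − a₁), a₁ ∘ a₂ = (1/8)(a₁ + a₂ − a₀) (type 2A: the three idempotents span a subalgebra with aᵢ ∘ aⱼ = (1/8)(aᵢ + aⱼ − aₖ)). -/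
theorem result {V : Type*} [AddCommGroup V] [Module ℝ V] [FiniteDimensional ℝ V] (mul : V →ₗ[ℝ] V →ₗ[ℝ] V) (B : LinearMap.BilinForm ℝ V) (hV : Cfsg.Axial.IsMajoranaAmbient mul B) (μ₀ μ₁ : V ≃ₗ[ℝ] V) (a₀ a₁ : V) (h₀ : Cfsg.Axial.IsMajoranaPair mul B μ₀ a₀) (h₁ : Cfsg.Axial.IsMajoranaPair mul B μ₁ a₁) (hu₀ : ∀ a : V, Cfsg.Axial.IsMajoranaPair mul B μ₀ a → a = a₀) (hu₁ : ∀ a : V, Cfsg.Axial.IsMajoranaPair mul B μ₁ a → a = a₁) (hn₀ : B a₀ a₀ = 1) (hn₁ : B a₁ a₁ = 1) (hc : μ₀ * μ₁ = μ₁ * μ₀) (hne : a₀ ≠ a₁) : (B a₀ a₁ = 0 ∧ mul a₀ a₁ = 0) ∨ (B a₀ a₁ = 1 / 8 ∧ mul (a₀ + a₁ - (8 : ℝ) • mul a₀ a₁) (a₀ + a₁ - (8 : ℝ) • mul a₀ a₁) = a₀ + a₁ - (8 : ℝ) • mul a₀ a₁ ∧ mul a₀ (a₀ + a₁ - (8 : ℝ) • mul a₀ a₁) = (1 / 8 : ℝ) • (a₀ + (a₀ + a₁ - (8 : ℝ) • mul a₀ a₁) - a₁) ∧ mul a₁ (a₀ + a₁ - (8 : ℝ) • mul a₀ a₁) = (1 / 8 : ℝ) • (a₁ + (a₀ + a₁ - (8 : ℝ) • mul a₀ a₁) - a₀))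 := by
  have A0 := H2.MAx.of_pair hV h₀ hn₀
  have A1 := H2.MAx.of_pair hV h₁ hn₁
  obtain ⟨cm, bs, pd, ba, -⟩ := hV
  have hc' : ∀ v, μ₀ (μ₁ v) = μ₁ (μ₀ v) := fun v => LinearEquiv.congr_fun hc v
  have f1 : μ₀ a₁ = a₁ := hu₁ _ (H2.maj_conj μ₀ h₀.1 (fun v => (hc' v).symm) h₁)
  have f0 : μ₁ a₀ = a₀ := hu₀ _ (H2.maj_conj μ₁ h₁.1 hc' h₀)
  obtain ⟨p0, x, y, rfl, rfl, q0⟩ := A0.fixed cm A1.idem f1
  obtain ⟨p1, x, y, rfl, rfl, q1⟩ := A1.fixed cm A0.idem f0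
  rw [bs a₁ a₀, cm a₁ a₀] at p1 q1
  have i0 := A0.idem
  have i1 := A1.idem
  have hB : B a₀ (mul a₀ a₁) = B a₀ a₁ := by rw [ba, i0]
  have hss : B (mul a₀ a₁) (mul a₀ a₁) = B a₀ (mul a₁ (mul a₀ a₁)) := (ba _ _ _).symm
  obtain ⟨s, hs⟩ : ∃ s, s = mul a₀ a₁ := ⟨_, rfl⟩
  obtain ⟨l, hl⟩ : ∃ l, l = B a₀ a₁ := ⟨_, rfl⟩
  have hs' : mul a₁ a₀ = s := by rw [cm, hs]
  rw [← hs] at p0 q0 p1 q1 hB hss ⊢
  rw [← hl] at p0 q0 p1 q1 hB ⊢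
  simp only [map_add, map_sub, map_smul, LinearMap.add_apply, LinearMap.sub_apply,
    LinearMap.smul_apply, i0, i1, ← hs, hs', cm s a₀, cm s a₁, p0, p1] at q0 q1 ⊢
  have key : (8 * l ^ 2 - l) • (a₀ - a₁) = 0 := by
    linear_combination (norm := module) q0 - q1
  have hl2 : l = 0 ∨ l = 1 / 8 := by
    have := (smul_eq_zero.1 key).resolve_right (sub_ne_zero.2 hne)
    have h3 : l * (8 * l - 1) = 0 := by linarith
    rcases mul_eq_zero.1 h3 with h | h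
    · exact Or.inl h
    · right; linarith
  rcases hl2 with h | h
  · left
    refine ⟨h, ?_⟩
    by_contra h0
    have := pd s h0
    rw [hss, p1, h] at this
    simp only [map_add, map_smul, smul_eq_mul, hB, h] at this
    norm_num at this
  · right
    subst h
    refine ⟨rfl, ?_, ?_, ?_⟩
    · linear_combination (norm := module) (-4 : ℝ) • q0
    · module
    · module

end Cfsg.Agent.S5545
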