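import Cfsg.Statements.S5546
import Cfsg.Agent.H6.CoSub


set_option autoImplicit false
open Cfsg

namespace Cfsg.Agent.S5546

open H6 Finset MulAction
open scoped Pointwise
set_option maxRecDepth 100000
noncomputable def ρ : stabilizer Cfsg.Co0 lU →* Matrix (Fin 23) (Fin 23) (ZMod 13) where
  toFun g := Matrix.of fun i j => ((co ((g.1 • bv (pt (j + 1)) : LL) : Vec) (pt (i + 1)) : ℤ) : ZMod 13)
  map_one' := by
    ext i j
    rw [Matrix.of_apply, OneMemClass.coe_one, one_smul, co_bv, Matrix.one_apply]
    by_cases h : i = j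
    · simp [h]
    · rw [if_neg h, if_neg fun e => h (Fin.ext (by have := pt_inj (by omega) (by omega) e; omega))]; rfl
  map_mul' g h := by
    ext i j
    rw [Matrix.of_apply, Subgroup.coe_mul, mul_smul, smul_expand, co_lin, sum_pt, sum_range_succ', show g.1 • bv (pt 0) = bv (pt 0) from bv0 ▸ g.2, co_bv,
      if_neg fun e => by have := pt_inj (by omega) (by omega) e; omega, mul_zero, add_zero, Matrix.mul_apply, Int.cast_sum, sum_range]
    exact sum_congr rfl fun k _ => by rw [Int.cast_mul, mul_comm]; rfl

/-- The second Conway group (the stabilizer in the Leech lattice automorphism group of the short vector fixed in the definitions) is isomorphic to a subgroup of the general linear group of degree 23 over the field with 13 elements: there is an injective homomorphism into it. -/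
theorem result : ∃ f : ↥Cfsg.Spor.Co2 →* GL (Fin 23) (ZMod 13), Function.Injective f := by
  obtain ⟨g, h1, h2⟩ := trans_pair2 (v := lU) (w := lU) (x := bv (pt 13)) (y := bv (pt 14)) sq_U sq_U
    (sq_of (s := row bT 13) (by decide +kernel) rfl) (sq_of (s := row bT 14) (by decide +kernel) rfl) (s := 8) (by decide)
    (dot_of (s := tU) (t := row bT 13) (by decide +kernel) leechU_eq rfl) (dot_of (s := tU) (t := row bT 14) (by decide +kernel) leechU_eq rfl)
  refine ⟨ρ.toHomUnits.comp isoCo2.symm.toMonoidHom, Function.Injective.comp (g := ρ.toHomUnits) ?_ isoCo2.symm.injective⟩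
  have hs : IsSimpleGroup (stabilizer Cfsg.Co0 lU) := by have := simple_Co2; exact isoCo2.isSimpleGroup
  rcases hs.eq_bot_or_eq_top_of_normal ρ.toHomUnits.ker inferInstance with h | h
  · exact (MonoidHom.ker_eq_bot_iff _).1 h
  · have h3 : ρ.toHomUnits ⟨g, h1⟩ = 1 := by rw [← MonoidHom.mem_ker, h]; trivial
    have h4 : ρ ⟨g, h1⟩ = 1 := congrArg Units.val h3
    have h5 := congrFun (congrFun h4 (13 - 1 : Fin 23)) (13 - 1 : Fin 23)
    have h6 : ((co ((g • bv (pt 13) : LL) : Vec) (pt 13) : ℤ) : ZMod 13) = 1 := h5.trans (Matrix.one_apply_eq _)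
    rw [h2, co_bv, if_neg (by decide)] at h6
    exact absurd h6 (by decide)

end Cfsg.Agent.S5546
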