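import Cfsg.Statements.S5548
import Cfsg.Agent.H0.GolX


set_option autoImplicit false
open Cfsg

namespace Cfsg.Agent.S5548

open H0 H6 Finset MulAction
open scoped Pointwise
set_option maxRecDepth 100000

/-- For the automorphism group of the length-24 binary Golay code of the definitions (the Mathieu group of degree 24) acting on binary words of length 24 by permuting coordinates, the only invariant subspaces of the space of all words are: zero, the span of the all-ones word, the code itself, the even-weight words, and the whole space. (So the permutation module has a unique composition series.) -/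
theorem result (W : Submodule (ZMod 2) (Cfsg.GolayPt → ZMod 2)) (hW : ∀ σ ∈ Cfsg.M24, ∀ w ∈ W, (fun p => w (σ.symm p)) ∈ W) : W = ⊥ ∨ W = Submodule.span (ZMod 2) {fun _ => (1 : ZMod 2)} ∨ W = Cfsg.golayCode ∨ (W : Set (Cfsg.GolayPt → ZMod 2)) = {w | ∑ p, w p = 0} ∨ W = ⊤ := by
  by_cases h : W ≤ Cfsg.golayCode
  · rcases sub_code hW h with h | h | h
    exacts [Or.inl h, Or.inr (Or.inl h), Or.inr (Or.inr (Or.inl h))]
  obtain ⟨w, hw, hc⟩ := SetLike.not_le_iff_exists.1 h
  have ev := even_le hW hw hc
  refine Or.inr (Or.inr (Or.inr (or_iff_not_imp_left.2 fun h => eq_top_iff.2 fun v _ => ?_)))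
  obtain ⟨u, hu, h1⟩ := Set.not_subset.1 fun h' => h (Set.Subset.antisymm h' ev)
  have h1 := (zmod2_cases _).resolve_left h1
  rcases zmod2_cases (∑ p, v p) with e | e
  · exact ev v e
  · simpa using W.add_mem (ev (v - u) (by simp [sum_sub_distrib, e, h1])) hu

end Cfsg.Agent.S5548
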