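import Cfsg.Statements.S5549
import Cfsg.Agent.H6.Octad

set_option autoImplicit false
open Cfsg

namespace Cfsg.Agent.S5549
open H6 Finset MulAction
open scoped Pointwise
set_option maxRecDepth 100000
theorem cover (n : ℕ) : ∀ t : Finset GolayPt, t.card = n → ∃ s : Finset GolayPt, s.card ≤ 4 ∧ symmDiff s t ∈ CC := by
  induction n using Nat.strong_induction_on with
  | _ n ih =>
    intro t ht
    by_cases h : n ≤ 4
    · exact ⟨t, ht ▸ h, by rw [symmDiff_self]; exact CC_empty⟩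
    obtain ⟨u, hu, h5⟩ := exists_subset_card_eq (show 5 ≤ t.card by omega)
    obtain ⟨o, ho, h6⟩ := exists_octad h5.le
    have h7 := card_symmDiff_eq t o
    have h8 := card_le_card (subset_inter hu h6)
    have h9 := ho.2
    obtain ⟨s, h1, h2⟩ := ih _ (by omega) (symmDiff t o) rfl
    exact ⟨s, h1, by simpa [symmDiff_assoc] using CC_symmDiff h2 ho.1⟩
theorem sum_sd (s t : Finset GolayPt) (c : GolayPt → ZMod 2) : ∑ i ∈ symmDiff s t, c i = ∑ i ∈ s, c i + ∑ i ∈ t, c i := by
  rw [← sum_ite_mem_eq, ← sum_ite_mem_eq s, ← sum_ite_mem_eq t, ← sum_add_distrib]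
  refine sum_congr rfl fun i _ => ?_
  by_cases a : i ∈ s <;> by_cases b : i ∈ t <;> simp [mem_symmDiff, a, b, CharTwo.add_self_eq_zero]
theorem sum_par (s : Finset GolayPt) (c : GolayPt → ZMod 2) : ∑ i ∈ s, c i = ((s ∩ support₂ c).card : ℕ) := by
  rw [card_eq_sum_ones, Nat.cast_sum, ← sum_ite_mem]
  refine sum_congr rfl fun i _ => ?_
  rcases zmod2_cases (c i) with h | h <;> simp [support₂, h]
def W (S : Finset GolayPt) : Prop := S.card = 8 ∨ S.card = 16
noncomputable def N (ψ : golayCode → ZMod 2) : ℕ := {c : golayCode | W (support₂ c.1) ∧ ψ c = 1}.ncard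
noncomputable def cnt (s : Finset GolayPt) : ℕ := {S | S ∈ CC ∧ W S ∧ (s ∩ S).card % 2 = 1}.ncard
theorem N_eq (s : Finset GolayPt) : N (fun c => ∑ i ∈ s, c.1 i) = cnt s := by
  have e : ∀ c : GolayPt → ZMod 2, ∑ i ∈ s, c i = 1 ↔ (s ∩ support₂ c).card % 2 = 1 := fun c => by
    rw [sum_par, ZMod.natCast_eq_one_iff_odd, Nat.odd_iff]
  refine Set.ncard_congr (fun c _ => support₂ c.1) (fun c hc => ⟨⟨_, c.2, rfl⟩, hc.1, (e _).1 hc.2⟩)
    (fun a b _ _ h => Subtype.ext (support₂_inj h)) ?_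
  rintro _ ⟨⟨c, hc, rfl⟩, h1, h2⟩
  exact ⟨⟨c, hc⟩, ⟨h1, (e _).2 h2⟩, rfl⟩
theorem cnt_smul (g : M24) (s : Finset GolayPt) : cnt (g • s) = cnt s :=
  ncard_transport g fun S => by simp only [Set.mem_ofPred_eq, smul_mem_CC', W, card_smul_finset, H6.card_smul_inter]
theorem cnt_dec (m : ℕ) : cnt (dec m) = cntLt 4096 fun n => (Nat.beq (pc (cw n)) 8 || Nat.beq (pc (cw n)) 16) &&
    Nat.beq (pc (Nat.land m (cw n)) % 2) 1 :=
  ncard_CC _ (fun k => (Nat.beq (pc k) 8 || Nat.beq (pc k) 16) && Nat.beq (pc (Nat.land m k) % 2) 1) fun S => by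
    simp only [Set.mem_ofPred_eq, W, card_dec_inter, Bool.and_eq_true, Bool.or_eq_true, Nat.beq_eq, ← card_eq_pc]
theorem cnt2 {s : Finset GolayPt} (h : s.card = 2) : cnt s = 704 := by
  obtain ⟨g, rfl⟩ := tr_set (s := dec 3) (t := s) (h.trans (by decide +kernel)) (by decide +kernel)
  rw [cnt_smul, cnt_dec]; decide +kernel
theorem cnt4 {s : Finset GolayPt} (h : s.card = 4) : cnt s = 768 := by
  obtain ⟨g, rfl⟩ := tr_set (s := dec 15) (t := s) (h.trans (by decide +kernel)) (by decide +kernel)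
  rw [cnt_smul, cnt_dec]; decide +kernel
theorem cnt0 {s : Finset GolayPt} (h : s.card = 0) : cnt s = 0 := by
  rw [card_eq_zero.1 h]; simp [cnt]
theorem one_mem' : (fun _ => 1 : GolayPt → ZMod 2) ∈ golayCode := Submodule.subset_span (Or.inr rfl)
theorem duad (ψ : golayCode →ₗ[ZMod 2] ZMod 2) (h : N ψ = 704) (h1 : ψ ⟨_, one_mem'⟩ = 0) :
    ∃ s : Finset GolayPt, s.card = 2 ∧ ∀ c, ψ c = ∑ i ∈ s, c.1 i := by
  obtain ⟨f, rfl⟩ := ψ.exists_extend
  obtain ⟨s, h2, h3⟩ := cover _ (univ.filter fun i => f (fun j => if i = j then 1 else 0) = 1) rfl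
  have h4 : ∀ c : golayCode, (f.comp golayCode.subtype) c = ∑ i ∈ s, c.1 i := fun c => by
    have e := sum_sd s (univ.filter fun i => f (fun j => if i = j then 1 else 0) = 1) c.1
    rw [sum_par, (ZMod.natCast_eq_zero_iff _ 2).2 (Nat.dvd_of_mod_eq_zero (CC_inter_even h3 ⟨_, c.2, rfl⟩)), eq_comm,
      CharTwo.add_eq_zero] at e
    rw [e, sum_filter]
    refine (f.pi_apply_eq_sum_univ c.1).trans (sum_congr rfl fun i _ => ?_)
    rcases zmod2_cases (f fun j => if i = j then 1 else 0) with h | h <;> simp [h]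
  refine ⟨s, ?_, h4⟩
  rw [show ⇑(f.comp golayCode.subtype) = _ from funext h4, N_eq] at h
  rw [h4, sum_const, nsmul_eq_mul, mul_one, ZMod.natCast_eq_zero_iff] at h1
  have := @cnt0 s
  have := @cnt4 s
  omega
theorem star {A B C : Finset GolayPt} (a : A.card = 2) (b : B.card = 2) (c : C.card = 2) (h1 : (A ∩ B).card = 1)
    (h2 : (A ∩ C).card = 1) (h3 : (B ∩ C).card = 1) (h : (symmDiff (symmDiff A B) C).card ≠ 0) {p : GolayPt} (hp : A ∩ B = {p}) :
    p ∈ C := by
  by_contra n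
  have e1 := card_symmDiff_eq A B
  have e2 := card_symmDiff_eq (A ∩ C) (B ∩ C)
  have e3 := card_symmDiff_eq (symmDiff A B) C
  rw [show symmDiff A B ∩ C = symmDiff (A ∩ C) (B ∩ C) from inf_symmDiff_distrib_right A B C] at e3
  rw [inter_inter_inter_comm, inter_self, hp, singleton_inter_of_notMem n, card_empty] at e2
  omega

/-- Let X be a group of linear automorphisms of the length-24 binary Golay code of the definitions that fix the all-ones word, containing the coordinate-permutation action of every element of the code's automorphism group (the Mathieu group of degree 24), and such that every element of X sends each codeword into its orbit under that Mathieu group up to adding the all-ones word (X has the same orbits as the Mathieu group on the code modulo the all-ones word). Then every element of X agrees, modulo the all-ones word, with the action of a single element of the Mathieu group: X induces exactly the Mathieu group on the code modulo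 the all-ones word. -/
theorem result (X : Subgroup (↥Cfsg.golayCode ≃ₗ[ZMod 2] ↥Cfsg.golayCode)) (h1 : ∀ x ∈ X, ∀ e : ↥Cfsg.golayCode, (e : (Cfsg.GolayPt → ZMod 2)) = (fun _ => (1 : ZMod 2)) → x e = e) (hM : ∀ σ ∈ Cfsg.M24, ∃ x ∈ X, ∀ c : ↥Cfsg.golayCode, ((x c : ↥Cfsg.golayCode) : (Cfsg.GolayPt → ZMod 2)) = fun p => (c : (Cfsg.GolayPt → ZMod 2)) (σ.symm p)) (horb : ∀ x ∈ X, ∀ c : ↥Cfsg.golayCode, ∃ σ ∈ Cfsg.M24, ((x c : ↥Cfsg.golayCode) : (Cfsg.GolayPt → ZMod 2)) = (fun p => (c : (Cfsg.GolayPt → ZMod 2)) (σ.symm p)) ∨ ((x c : ↥Cfsg.golayCode) : (Cfsg.GolayPt → ZMod 2)) = (fun p => (c : (Cfsg.GolayPt → ZMod 2)) (σ.symm p)) + fun _ => (1 : ZMod 2)) (x : ↥Cfsg.golayCode ≃ₗ[ZMod 2] ↥Cfsg.golayCode) (hx : x ∈ X) : ∃ σ ∈ Cfsg.M24, ∀ c : ↥Cfsg.golayCode, ((x c : ↥Cfsg.golayCode) : (Cfsg.GolayPt → ZMod 2)) = (fun p => (c : (Cfsg.GolayPt → ZMod 2)) (σ.symm p)) ∨ ((x c : ↥Cfsg.golayCode) : (Cfsg.GolayPt → ZMod 2)) = (fun p => (c : (Cfsg.GolayPt → ZMod 2)) (σ.symm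 p)) + fun _ => (1 : ZMod 2) := by
  have hW : ∀ c, W (support₂ (x c).1) ↔ W (support₂ c.1) := fun c => by
    obtain ⟨σ, -, h⟩ := horb x hx c
    have e : (support₂ fun p => c.1 (σ.symm p)).card = (support₂ c.1).card :=
      card_equiv σ.symm fun i => by simp [support₂]
    have := card_le_univ (support₂ c.1)
    rcases h with h | h
    · rw [h, W, W, e]
    · have e2 : support₂ (x c).1 = (support₂ fun p => c.1 (σ.symm p))ᶜ := by
        ext p; rw [h]; rcases zmod2_cases (c.1 (σ.symm p)) with a | a <;> simp [support₂, a]; rfl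
      rw [card_pt] at this
      rw [W, W, e2, card_compl, e, card_pt]; omega
  have hN : ∀ s : Finset GolayPt, N (fun c => ∑ i ∈ s, (x c).1 i) = cnt s := fun s => by
    rw [← N_eq]
    exact Set.ncard_congr (fun c _ => x c) (fun c hc => ⟨(hW c).2 hc.1, hc.2⟩) (fun a b _ _ h => x.injective h)
      fun c hc => ⟨x.symm c, ⟨(hW _).1 (by rw [x.apply_symm_apply]; exact hc.1), by
        show ∑ i ∈ s, (x (x.symm c)).1 i = 1
        rw [x.apply_symm_apply]; exact hc.2⟩, x.apply_symm_apply c⟩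
  have H : ∀ b : GolayPt, ∃ s : Finset GolayPt, b ≠ none → s.card = 2 ∧ ∀ c, ∑ i ∈ {none, b}, (x c).1 i = ∑ i ∈ s, c.1 i := by
    intro b
    by_cases hb : b = none
    · exact ⟨∅, fun h => absurd hb h⟩
    obtain ⟨s, h2, h3⟩ := duad ⟨⟨fun c => ∑ i ∈ {none, b}, (x c).1 i, fun c d => by simp [sum_add_distrib]⟩,
      fun a c => by simp [mul_sum]⟩ ((hN _).trans (cnt2 (card_pair (Ne.symm hb)))) (by
      show ∑ i ∈ {none, b}, (x _).1 i = 0
      rw [h1 x hx _ rfl, sum_pair (Ne.symm hb)]; rfl)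
    exact ⟨s, fun _ => ⟨h2, h3⟩⟩
  choose u hu using H
  have tr : ∀ s t : Finset GolayPt, (∀ c, ∑ i ∈ s, (x c).1 i = ∑ i ∈ t, c.1 i) → cnt t = cnt s := fun s t h => by
    rw [← hN s, ← N_eq t, funext h]
  have m1 : ∀ a b, a ≠ none → b ≠ none → a ≠ b → (u a ∩ u b).card = 1 := fun a b ha hb h => by
    have e := tr (symmDiff {none, a} {none, b}) (symmDiff (u a) (u b)) fun c => by rw [sum_sd, sum_sd, (hu a ha).2, (hu b hb).2]
    rw [cnt2 ((by decide +kernel : ∀ a b : GolayPt, a ≠ none → b ≠ none → a ≠ b →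
      (symmDiff {none, a} {none, b} : Finset GolayPt).card = 2) a b ha hb h)] at e
    have := card_symmDiff_eq (u a) (u b)
    have := (hu a ha).1
    have := (hu b hb).1
    have := @cnt0 (symmDiff (u a) (u b))
    have := @cnt4 (symmDiff (u a) (u b))
    omega
  have n0 : pt 0 ≠ none := by decide
  have n1 : pt 1 ≠ none := by decide
  have n01 : pt 0 ≠ pt 1 := by decide
  obtain ⟨p, hp⟩ := card_eq_one.1 (m1 _ _ n0 n1 n01)
  have m2 : ∀ b, ∃ r, (b = none → r = p) ∧ (b ≠ none → p ≠ r ∧ u b = {p, r}) := fun b => by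
    by_cases hb : b = none
    · exact ⟨p, fun _ => rfl, fun h => absurd hb h⟩
    have : p ∈ u b := by
      by_cases a0 : pt 0 = b
      · exact a0 ▸ (mem_inter.1 (hp.ge (mem_singleton_self p))).1
      by_cases a1 : pt 1 = b
      · exact a1 ▸ (mem_inter.1 (hp.ge (mem_singleton_self p))).2
      refine star (hu _ n0).1 (hu _ n1).1 (hu b hb).1 (m1 _ _ n0 n1 n01) (m1 _ _ n0 hb a0) (m1 _ _ n1 hb a1) (fun h => ?_) hp
      have e := tr (symmDiff (symmDiff {none, pt 0} {none, pt 1}) {none, b}) (symmDiff (symmDiff (u (pt 0)) (u (pt 1))) (u b))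
        fun c => by rw [sum_sd, sum_sd, sum_sd, sum_sd, (hu _ n0).2, (hu _ n1).2, (hu b hb).2]
      rw [cnt0 h, cnt4 ((by decide +kernel : ∀ b : GolayPt, b ≠ none → pt 0 ≠ b → pt 1 ≠ b →
        (symmDiff (symmDiff {none, pt 0} {none, pt 1}) {none, b} : Finset GolayPt).card = 4) b hb a0 a1)] at e
      omega
    obtain ⟨r, hr⟩ := card_eq_one.1 ((card_erase_of_mem this).trans (by rw [(hu b hb).1]))
    exact ⟨r, fun h => absurd h hb, fun _ => ⟨(ne_of_mem_erase (hr.ge (mem_singleton_self r))).symm,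
      by rw [← insert_erase this, hr]⟩⟩
  choose τ t1 t2 using m2
  have inj : Function.Injective τ := fun a b h => by
    by_contra n
    by_cases ha : a = none <;> by_cases hb : b = none
    · exact n (ha.trans hb.symm)
    · exact (t2 b hb).1 ((t1 a ha).symm.trans h)
    · exact (t2 a ha).1 ((t1 b hb).symm.trans h.symm)
    · have := m1 a b ha hb n
      rw [(t2 a ha).2, h, ← (t2 b hb).2, inter_self, (hu b hb).1] at this
      omega
  have key : ∀ c, (x c).1 = (fun q => c.1 (τ q)) ∨ (x c).1 = (fun q => c.1 (τ q)) + fun _ => 1 := fun c => by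
    have e : ∀ q, (x c).1 q = c.1 (τ q) + ((x c).1 none + c.1 p) := fun q => by
      by_cases hq : q = none
      · rw [t1 q hq, hq, add_left_comm, CharTwo.add_self_eq_zero, add_zero]
      · have := (hu q hq).2 c
        rw [(t2 q hq).2, sum_pair (Ne.symm hq), sum_pair (t2 q hq).1] at this
        rw [← add_left_comm, add_comm (c.1 (τ q)), ← this, ← add_assoc, CharTwo.add_self_eq_zero, zero_add]
    rcases zmod2_cases ((x c).1 none + c.1 p) with h | h
    · exact Or.inl (funext fun q => by rw [e, h, add_zero])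
    · exact Or.inr (funext fun q => by rw [e, h]; rfl)
  refine ⟨(Equiv.ofBijective τ (Finite.injective_iff_bijective.1 inj)).symm, mem_M24_of_maps ?_, key⟩
  rintro _ ⟨c, hc, rfl⟩
  refine ⟨fun q => c (τ q), ?_, ?_⟩
  · rcases key ⟨c, hc⟩ with h | h
    · exact h ▸ (x _).2
    · exact (eq_sub_of_add_eq h.symm :) ▸ sub_mem (x _).2 one_mem'
  · ext q
    rw [← inv_smul_mem_iff]
    simp only [support₂, mem_filter, mem_univ, true_and]
    rfl

end Cfsg.Agent.S5549
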