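import Cfsg.Statements.S5550
import Cfsg.Agent.H0.GolX


set_option autoImplicit false
open Cfsg

namespace Cfsg.Agent.S5550

open H0 H6 Finset MulAction
open scoped Pointwise
set_option maxRecDepth 100000

/-- Let u be a word of the length-24 binary Golay code of the definitions (possibly zero or all-ones) and w any binary word of length 24 outside the code. Then some automorphism of the code (a coordinate permutation preserving it) fixes u but moves w to a word not congruent to w modulo the code: the stabilizer of a codeword fixes no non-zero element of the quotient of the space of all words by the code. -/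
theorem result (u : (Cfsg.GolayPt → ZMod 2)) (hu : u ∈ Cfsg.golayCode) (w : (Cfsg.GolayPt → ZMod 2)) (hw : w ∉ Cfsg.golayCode) : ∃ σ ∈ Cfsg.M24, (fun p => u (σ.symm p)) = u ∧ (fun p => w (σ.symm p)) - w ∉ Cfsg.golayCode := by
  have key : ∀ m gs, m < 2 ^ 24 → allL (fxS inM m) gs = true →
      allLt 4096 (fun s => Nat.beq s 0 || anyL (fun t => !isCw (Nat.xor (img t (Nat.mul s 4096)) (Nat.mul s 4096))) gs) = true →
      ∀ k : Cfsg.M24, ∃ g : Cfsg.M24, g • k • dec m = k • dec m ∧ act g w - w ∉ Cfsg.golayCode := fun m gs hm h1 h2 k => by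
    obtain ⟨t, ht, a⟩ := nofix (allL_iff.2 fun t ht => (Bool.and_eq_true_iff.1 (allL_iff.1 h1 t ht)).1) h2 (S := k⁻¹ • Cfsg.support₂ w)
      (by rwa [smul_mem_CC', ← mem_code_iff_support])
    refine ⟨k * E t * k⁻¹, by rw [mul_smul, inv_smul_smul, mul_smul, show E t • dec m = dec m from (ckS m t (allL_iff.1 h1 t ht)).2], fun b => a ?_⟩
    rw [mem_code_iff_support, St.supp_sub, supp_act, ← smul_mem_CC' k⁻¹, smul_set_def, smul_symmDiff, ← smul_set_def, ← smul_set_def, mul_smul, mul_smul, inv_smul_smul] at b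
    exact b
  have kO := key _ gO (by decide) gO_ok (by decide +kernel)
  have fin : ∀ g : Cfsg.M24, g • Cfsg.support₂ u = Cfsg.support₂ u → act g w - w ∉ Cfsg.golayCode →
      ∃ σ ∈ Cfsg.M24, (fun p => u (σ.symm p)) = u ∧ (fun p => w (σ.symm p)) - w ∉ Cfsg.golayCode :=
    fun g h1 h2 => ⟨g, g.2, support₂_inj ((supp_act g u).trans h1), h2⟩
  have hc := mem_code_iff_support.1 hu
  rcases CC_card hc with e | e | e | e | e
  · obtain ⟨g, -, h⟩ := kO 1
    exact fin g (by rw [card_eq_zero.1 e, smul_finset_empty]) h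
  · obtain ⟨k, hk⟩ := tr_octad O0_mem (mem_octads.2 ⟨hc, e⟩)
    obtain ⟨g, h1, h⟩ := kO k
    exact fin g (hk ▸ h1) h
  · obtain ⟨k, hk⟩ := tr_dodecad D0_mem (mem_dodecads.2 ⟨hc, e⟩)
    obtain ⟨g, h1, h⟩ := key _ gD (by decide) gD_ok (by decide +kernel) k
    exact fin g (hk ▸ h1) h
  · obtain ⟨k, hk⟩ := tr_octad O0_mem (mem_octads.2 ⟨CC_compl hc, by rw [card_compl, card_pt, e]⟩)
    obtain ⟨g, h1, h⟩ := kO k
    exact fin g (compl_injective (by rw [← smul_compl, ← hk]; exact h1)) h
  · obtain ⟨g, -, h⟩ := kO 1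
    exact fin g (by rw [(card_eq_iff_eq_univ _).1 (e.trans card_pt.symm), smul_finset_univ]) h

end Cfsg.Agent.S5550
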