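import Cfsg.Statements.S5552
import Cfsg.Agent.H0.LeeX


set_option autoImplicit false
open Cfsg

namespace Cfsg.Agent.S5552

open H0 H6 Finset MulAction
open scoped Pointwise
set_option maxRecDepth 100000

/-- On the Leech lattice of the definitions, let Q be a function to the field with two elements that is constant on cosets of twice the lattice, is a quadratic form there (Q(u+v+w) + Q(u) + Q(v) + Q(w) = Q(u+v) + Q(u+w) + Q(v+w) for all u, v, w), is invariant under every lattice automorphism, and is not identically zero. Then Q(v) is the squared length of v divided by 16, reduced modulo 2, for every lattice vector v (squared lengths of lattice vectors are multiples of 16). -/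
theorem result (Q : ↥Cfsg.leechLattice → ZMod 2) (hcoset : ∀ v w : ↥Cfsg.leechLattice, Q (v + (w + w)) = Q v) (hquad : ∀ u v w : ↥Cfsg.leechLattice, Q (u + v + w) + Q u + Q v + Q w = Q (u + v) + Q (u + w) + Q (v + w)) (hinv : ∀ (g : ↥Cfsg.Co0) (v : ↥Cfsg.leechLattice), Q (g • v) = Q v) (hne : ∃ v : ↥Cfsg.leechLattice, Q v ≠ 0) (v : ↥Cfsg.leechLattice) : Q v = ((Cfsg.sqNorm (v : Cfsg.GolayPt → ℤ) / 16 : ℤ) : ZMod 2) := by
  have h0 : Q 0 = 0 := by
    have := hquad 0 0 0
    simp only [add_zero] at this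
    linear_combination this
  have h32 : ∀ {u w : LL}, Cfsg.sqNorm (u : Vec) = 32 → Cfsg.sqNorm (w : Vec) = 32 → Q w = Q u := fun hu hw => by
    obtain ⟨g, rfl⟩ := trans_32 hu hw; exact hinv ..
  have h48 : ∀ {u w : LL}, Cfsg.sqNorm (u : Vec) = 48 → Cfsg.sqNorm (w : Vec) = 48 → Q w = Q u := fun hu hw => by
    obtain ⟨g, rfl⟩ := trans_48 hu hw; exact hinv ..
  have h64 : ∀ {u w : LL}, Cfsg.sqNorm (u : Vec) = 64 → Cfsg.sqNorm (w : Vec) = 64 → Q w = Q u := fun hu hw => by
    obtain ⟨g, z, rfl⟩ := trans_64' hu hw; rw [hcoset, hinv]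
  have s3 := bb_sq (i := 3) (by decide) (by decide)
  have s4 := bb_sq (i := 4) (by decide) (by decide)
  have s15 := bb_sq (i := 15) (by decide) (by decide)
  have s22 := bb_sq (i := 22) (by decide) (by decide)
  have s34 : _ = (32 : ℤ) := bb_add (i := 3) (j := 4) (z := -16) (by decide +kernel) (by decide) (by decide)
  have t1 : Cfsg.sqNorm ((bb 3 + bb 4 + bb 15 : LL) : Vec) = 32 := by
    rw [AddSubgroup.coe_add, sq_add, s34, s15, AddSubgroup.coe_add, dot_add, bb_dot (z := -8) (by decide +kernel), bb_dot (z := -8) (by decide +kernel)]; rfl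
  have t2 : Cfsg.sqNorm ((bb 3 + bb 4 + bb 22 : LL) : Vec) = 32 := by
    rw [AddSubgroup.coe_add, sq_add, s34, s22, AddSubgroup.coe_add, dot_add, bb_dot (z := -16) (by decide +kernel), bb_dot (z := 0) (by decide +kernel)]; rfl
  have two : (2 : ZMod 2) = 0 := rfl
  have a2 : Q (bb 3) = 0 := by
    have := hquad (bb 3) (bb 4) (bb 15)
    rw [h32 s3 t1, h32 s3 s4, h32 s3 s15, h32 s3 s34, h48 sq_V (bb_add (z := -8) (by decide +kernel) (by decide) (by decide)),
      h48 sq_V (bb_add (z := -8) (by decide +kernel) (by decide) (by decide))] at this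
    linear_combination this + (Q lV - Q (bb 3)) * two
  have s64 : _ = (64 : ℤ) := bb_add (i := 4) (j := 22) (z := 0) (by decide +kernel) (by decide) (by decide)
  have a4 : Q (bb 4 + bb 22) = 0 := by
    have := hquad (bb 3) (bb 4) (bb 22)
    rw [h32 s3 t2, h32 s3 s4, h32 s3 s22, h32 s3 s34, h32 s3 (bb_add (z := -16) (by decide +kernel) (by decide) (by decide)), a2] at this
    linear_combination -this
  have a3 : Q lV = 1 := by
    obtain ⟨x, hx⟩ := hne
    obtain ⟨y, z, rfl, h⟩ := short_rep x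
    rw [hcoset] at hx
    rcases h with rfl | h | h | h
    exacts [(hx h0).elim, (hx ((h32 s3 h).trans a2)).elim, (zmod2_cases _).resolve_left (h48 sq_V h ▸ hx), (hx ((h64 s64 h).trans a4)).elim]
  obtain ⟨y, z, rfl, h⟩ := short_rep v
  have e : ((Cfsg.sqNorm ((y + (z + z) : LL) : Vec) / 16 : ℤ) : ZMod 2) = (Cfsg.sqNorm (y : Vec) / 16 : ℤ) := by
    have := sq_dvd y.2
    have := sq_dvd z.2
    have := dot_dvd y.2 z.2
    rw [zmod2_eq_iff, AddSubgroup.coe_add, AddSubgroup.coe_add, sq_add, sq_add, dot_add', dot_self]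
    omega
  rw [hcoset, e]
  rcases h with rfl | h | h | h
  · rw [h0, ZeroMemClass.coe_zero, sq_zero]; rfl
  · rw [h32 s3 h, a2, h]; rfl
  · rw [h48 sq_V h, a3, h]; rfl
  · rw [h64 s64 h, a4, h]; rfl

end Cfsg.Agent.S5552
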