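import Cfsg.Statements.S5553
import Cfsg.Agent.H6.LBasis
import Cfsg.Agent.H6.Octad

set_option autoImplicit false
open Cfsg

namespace Cfsg.Agent.S5553
open H6 Finset MulAction
open scoped Pointwise
set_option maxRecDepth 100000
def F (x : Vec) (j : Fin 12) : ZMod 2 := if j = 0 then (x (pt 0) : ℤ) else ((x (pt j) - x (pt 0)) / 2 : ℤ)

/-- The Leech lattice of the definitions has an additive subgroup A containing twice the lattice, of index 2^12 in the lattice, all of whose vectors have squared length divisible by 32: the invariant quadratic form 'squared length over 16 modulo 2' on the lattice modulo twice the lattice (a 24-dimensional space over the field with two elements) vanishes on a 12-dimensional subspace, so it is of plus type. -/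
theorem result : ∃ A : AddSubgroup (Cfsg.GolayPt → ℤ), A ≤ Cfsg.leechLattice ∧ (∀ v ∈ Cfsg.leechLattice, (2 : ℤ) • v ∈ A) ∧ (A.addSubgroupOf Cfsg.leechLattice).index = 2 ^ 12 ∧ ∀ v ∈ A, (32 : ℤ) ∣ Cfsg.sqNorm v := by
  have ev : ∀ (x : LL) i j, (2 : ℤ) ∣ (x : Vec) i - (x : Vec) j := fun x i j => by
    obtain ⟨m, c, y, -, -, hx, -⟩ := exists_repL x.2
    rw [hx, hx]; omega
  let ψ : LL →+ (Fin 12 → ZMod 2) := AddMonoidHom.mk' (fun x => F x) fun x y => by
      funext j
      simp only [Pi.add_apply, AddSubgroup.coe_add, F]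
      split_ifs
      · push_cast; rfl
      · rw [← Int.cast_add]; congr 1
        have := ev x (pt j) (pt 0)
        have := ev y (pt j) (pt 0)
        omega
  have sj : ψ.range = ⊤ := by
    have h1 : ∀ k : Fin 12, Pi.single k 1 ∈ ψ.range := fun k => by
      by_cases h : k = 0
      · refine ⟨Spor.leechV, ?_⟩
        subst h
        show F Spor.leechV = _
        rw [leechV_eq]; decide +kernel
      · refine ⟨⟨_, two_ind_mem (dec_mem_CC (m := bas k) (by revert k; decide +kernel))⟩, ?_⟩
        show F (fun i => 2 * ind (dec (bas k)) i) = _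
        revert k; decide +kernel
    rw [eq_top_iff]
    intro f _
    rw [← univ_sum_single f]
    refine sum_mem fun k _ => ?_
    rcases zmod2_cases (f k) with h | h <;> rw [h]
    · rw [Pi.single_zero]; exact zero_mem _
    · exact h1 k
  refine ⟨ψ.ker.map leechLattice.subtype, AddSubgroup.map_subtype_le _, fun v hv => ⟨(2 : ℤ) • ⟨v, hv⟩, ?_, rfl⟩, ?_, ?_⟩
  · show ψ _ = 0
    rw [map_zsmul]; funext j
    rw [Pi.smul_apply, zsmul_eq_mul]; exact mul_eq_zero_of_left rfl _
  · rw [AddSubgroup.addSubgroupOf, AddSubgroup.comap_map_eq_self_of_injective (AddSubgroup.subtype_injective _),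
      AddSubgroup.index_ker, sj, AddSubgroup.card_top]
    simp
  · rintro _ ⟨x, hx, rfl⟩
    obtain ⟨m, c, y, hm, hc, h1, h2⟩ := exists_repL x.2
    have h3 := (ZMod.intCast_zmod_eq_zero_iff_dvd _ 2).1 (congrFun hx 0)
    have h4 : ∀ j < 12, (pt j ∈ c ↔ pt 0 ∈ c) := fun j hj => by
      by_cases h : j = 0
      · rw [h]
      have h5 := congrFun hx ⟨j, hj⟩
      have h6 := (ZMod.intCast_zmod_eq_zero_iff_dvd _ 2).1 ((if_neg fun e => h (congrArg Fin.val e)).symm.trans h5)
      rw [h1, h1] at h6
      unfold ind at h6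
      split_ifs at h6 with a b b <;> simp only [a, b] <;> omega
    obtain rfl : m = 0 := by rw [h1] at h3; omega
    have h5 : c = ∅ ∨ c = univ := forall_CC (P := fun S => (∀ j < 12, (pt j ∈ S ↔ pt 0 ∈ S)) → S = ∅ ∨ S = univ)
      (fun m => !(allLt 12 fun j => tb m j == tb m 0) || Nat.beq m 0 || Nat.beq m 16777215) (by decide +kernel)
      (fun S h a => by
        rw [allLt_iff.2 fun j hj => by
          rw [beq_iff_eq, Bool.eq_iff_iff, ← pt_mem_iff (by omega), ← pt_mem_iff (by omega)]; exact a j hj] at h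
        simp only [Bool.not_true, Bool.false_or, Bool.or_eq_true, Nat.beq_eq] at h
        exact h.imp (fun h => enc_inj h) fun h => enc_inj (h.trans enc_univ.symm)) c hc h4
    obtain ⟨a, ha⟩ : ∃ a : ℤ, ∀ i, ind c i = a := by
      rcases h5 with rfl | rfl
      exacts [⟨0, fun i => by simp [ind]⟩, ⟨1, fun i => by simp [ind]⟩]
    have e : ∀ i, (x : Vec) i ^ 2 = 4 * a ^ 2 + 16 * (a + 1) * y i + 32 * (y i * (y i - 1) / 2) := fun i => by
      have := Int.mul_ediv_cancel' (Int.even_mul_pred_self (y i)).two_dvd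
      rw [h1, ha]; linear_combination (-16) * this
    show (32 : ℤ) ∣ ∑ i, (x : Vec) i ^ 2
    rw [sum_congr rfl fun i _ => e i, sum_add_distrib, sum_add_distrib, ← mul_sum, ← mul_sum, sum_const, card_univ, card_pt]
    obtain ⟨k, hk⟩ := h2
    rw [sub_zero] at hk
    rw [hk]
    refine dvd_add ⟨3 * a ^ 2 + (a + 1) * k, by rw [nsmul_eq_mul, Nat.cast_ofNat]; ring⟩ ?_
    first | exact Dvd.intro _ rfl | exact dvd_sum fun _ _ => Dvd.intro _ rfl

end Cfsg.Agent.S5553
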