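import Cfsg.Statements.S5592
import Cfsg.Agent.H6.LFrame

set_option autoImplicit false
open Cfsg

namespace Cfsg.Agent.S5592
open H6 Finset MulAction
open scoped Pointwise
set_option maxRecDepth 100000

/-- In the Leech lattice (integer coordinates, sum of squares equal to 8 times the customary norm, so the shortest non-zero vectors have sum of squares 32): if two distinct vectors of sum of squares at most 64 are congruent modulo twice the lattice, then either they are negatives of each other, or both have sum of squares 64 and they are orthogonal. -/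
theorem result (x y : Cfsg.GolayPt → ℤ) (hx : x ∈ Cfsg.leechLattice) (hy : y ∈ Cfsg.leechLattice) (hxy : x ≠ y) (hxn : Cfsg.sqNorm x ≤ 64) (hyn : Cfsg.sqNorm y ≤ 64) (hc : (∃ z ∈ Cfsg.leechLattice, x - y = 2 • z)) :
    x = -y ∨ (Cfsg.sqNorm x = 64 ∧ Cfsg.sqNorm y = 64 ∧ Cfsg.dotInt x y = 0) := by
  obtain ⟨z, hz, h⟩ := hc
  rcases kap_cong (x := ⟨x, hx⟩) (y := ⟨y, hy⟩) hxn hyn
    (kap_eq.2 ⟨⟨z, hz⟩, Subtype.ext (h.trans (two_smul _ _))⟩) with e | e | e
  · exact absurd (congrArg Subtype.val e).symm hxy
  · obtain rfl : y = -x := congrArg Subtype.val e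
    exact Or.inl (neg_neg _).symm
  · exact Or.inr e

end Cfsg.Agent.S5592
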