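import Cfsg.Statements.S5594
import Cfsg.Agent.H6.StemCo1


set_option autoImplicit false
open Cfsg

namespace Cfsg.Agent.S5594

open H6 Finset MulAction
open scoped Pointwise
set_option maxRecDepth 100000

/-- The automorphism group of the Leech lattice contains the negation map, and the subgroup of order 2 it generates has no complement: the automorphism group is a non-split extension of its quotient by that subgroup (it is not the direct product of a group of order 2 with the first Conway group). -/
theorem result :
    ∃ n : ↥Cfsg.Co0, (∀ v : ↥Cfsg.leechLattice, ((n • v : ↥Cfsg.leechLattice) : Cfsg.GolayPt → ℤ) = -(v : Cfsg.GolayPt → ℤ)) ∧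
    ∀ K : Subgroup ↥Cfsg.Co0, ¬ (Subgroup.zpowers n).IsComplement' K := by
  refine ⟨negC, fun v => congrArg Subtype.val (negC_smul v), fun K h => negC_ne_one ?_⟩
  have h2 : K.index = 2 := by
    rw [h.index_eq_card, Nat.card_zpowers]; exact orderOf_eq_prime (by rw [pow_two, negC_sq]) negC_ne_one
  have : K.Normal := Subgroup.normal_of_index_eq_two h2
  have hc : commutator Cfsg.Co0 ≤ K := by
    rw [commutator, Subgroup.commutator_le]
    intro a _ b _
    rw [commutatorElement_def, Subgroup.mul_mem_iff_of_index_two h2, Subgroup.mul_mem_iff_of_index_two h2, Subgroup.mul_mem_iff_of_index_two h2,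
      inv_mem_iff, inv_mem_iff]
    tauto
  exact Subgroup.disjoint_def.1 h.disjoint (Subgroup.mem_zpowers _) (hc negC_mem_commutator)

end Cfsg.Agent.S5594
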