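import Cfsg.Statements.S5599
import Cfsg.Agent.H0.M24x


set_option autoImplicit false
open scoped Pointwise
open Cfsg

namespace Cfsg.Agent.S5599

open H0 H6 Finset MulAction
open scoped Pointwise
set_option maxRecDepth 100000

/-- In the automorphism group of the length-24 code, the two-point Mathieu group (permutations of the code's group fixing the extra point and the residue 0) has index 2 in the setwise stabiliser of that pair of points, and an element of the code's group interchanging the two points normalises the two-point group and induces on it, by conjugation, an automorphism that is not inner. -/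
theorem result (g : Equiv.Perm Cfsg.GolayPt) (hg : g ∈ Cfsg.M24) (h₁ : g none = some 0) (h₂ : g (some 0) = none) : Cfsg.Spor.M22.relIndex (Cfsg.M24 ⊓ MulAction.stabilizer (Equiv.Perm Cfsg.GolayPt) ({none, some 0} : Finset Cfsg.GolayPt)) = 2 ∧ (∀ x ∈ Cfsg.Spor.M22, g * x * g⁻¹ ∈ Cfsg.Spor.M22) ∧ ¬ ∃ h ∈ Cfsg.Spor.M22, ∀ x ∈ Cfsg.Spor.M22, g * x * g⁻¹ = h * x * h⁻¹ := by
  have mem : ∀ x, x ∈ Cfsg.Spor.M22 ↔ x ∈ Cfsg.M24 ∧ x none = none ∧ x (some 0) = some 0 := fun x => and_assoc
  refine ⟨Subgroup.index_eq_two_iff.2 ⟨⟨g, hg, ?_⟩, fun ⟨x, hx, h⟩ => ?_⟩, fun x hx => ?_, fun ⟨h, hh, e⟩ => ?_⟩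
  · show g • _ = _
    rw [smul_finset_insert, smul_finset_singleton, Equiv.Perm.smul_def, Equiv.Perm.smul_def, h₁, h₂, pair_comm]
  · have h : x • ({none, some 0} : Finset Cfsg.GolayPt) = _ := h
    rw [smul_finset_insert, smul_finset_singleton, Equiv.Perm.smul_def, Equiv.Perm.smul_def] at h
    have a : x none ∈ ({none, some 0} : Finset Cfsg.GolayPt) := h ▸ mem_insert_self _ _
    have b : x (some 0) ∈ ({none, some 0} : Finset Cfsg.GolayPt) := h ▸ mem_insert_of_mem (mem_singleton_self _)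
    have c : x none ≠ x (some 0) := x.injective.ne (by simp)
    simp only [mem_insert, mem_singleton] at a b
    rcases a with a | a <;> rcases b with b | b
    · exact (c (a.trans b.symm)).elim
    · exact Or.inr ⟨(mem x).2 ⟨hx, a, b⟩, fun h => by have := ((mem (x * g)).1 h).2.1; rw [Equiv.Perm.mul_apply, h₁, b] at this; cases this⟩
    · exact Or.inl ⟨(mem (x * g)).2 ⟨mul_mem hx hg, by rw [Equiv.Perm.mul_apply, h₁, b], by rw [Equiv.Perm.mul_apply, h₂, a]⟩,
        fun h => by have := ((mem x).1 h).2.1; rw [a] at this; cases this⟩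
    · exact (c (a.trans b.symm)).elim
  · obtain ⟨h0, h1, h2⟩ := (mem x).1 hx
    refine (mem _).2 ⟨mul_mem (mul_mem hg h0) (inv_mem hg), ?_, ?_⟩
    · rw [Equiv.Perm.mul_apply, Equiv.Perm.mul_apply, Equiv.Perm.inv_eq_iff_eq.2 h₂.symm, h2, h₂]
    · rw [Equiv.Perm.mul_apply, Equiv.Perm.mul_apply, Equiv.Perm.inv_eq_iff_eq.2 h₁.symm, h1, h₁]
  · obtain ⟨h0, h1, h2⟩ := (mem h).1 hh
    let c : Cfsg.M24 := ⟨h⁻¹ * g, mul_mem (inv_mem h0) hg⟩
    have hc : ∀ x ∈ stabilizer Cfsg.M24 (pt 23) ⊓ stabilizer Cfsg.M24 (pt 0), c * x = x * c := fun x hx => Subtype.ext (by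
      have := e x ((mem _).2 ⟨x.2, hx.1, hx.2⟩)
      show h⁻¹ * g * x = x * (h⁻¹ * g)
      rw [show h⁻¹ * g * x = h⁻¹ * (g * x * g⁻¹) * g by group, this]; group)
    have c1 : c • pt 23 = pt 0 := show h⁻¹ (g none) = some 0 by rw [h₁]; exact Equiv.Perm.inv_eq_iff_eq.2 h2.symm
    have c2 : c • pt 0 = pt 23 := show h⁻¹ (g (some 0)) = none by rw [h₂]; exact Equiv.Perm.inv_eq_iff_eq.2 h1.symm
    have ck := (ckP 23).fxP 0
    obtain ⟨gy, hy⟩ := ck 0xbc186ab8895524513511b3d6798c20 (by decide +kernel)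
    have f := gy.fix_iff (m := 0x800003) (by decide +kernel)
    have c3 : c • pt 1 ∈ dec 0x800003 := (f _).2 (by rw [← mul_smul, ← hc _ hy, mul_smul, (f _).1 (by decide +kernel)])
    rw [show dec 0x800003 = {c • pt 23, pt 1, c • pt 0} by rw [c1, c2]; decide +kernel, mem_insert, mem_insert, mem_singleton, smul_left_cancel_iff, smul_left_cancel_iff] at c3
    have := cent_eq_one ck hc (a := 1) (by decide) (c3.elim (fun h => absurd h (by decide)) fun h => h.elim id fun h => absurd h (by decide)) [0xbdab49ca307b9ac5a928398a418820, 0xbb5d4215753054938e167cd1193040, 0xbc6af1419633a923cca14114d5a460, 0xbc42a9c24e3590c388b5a0ded4ac80, 0xb9ace4a14d90e2122e6f132b0a1ca0, 0xbd9055498e7c0f15cd356868410cc0, 0xbaec2834a98d4c17488c9bc68550e0, 0xbc9f60d626a2e034a98229db371100, 0xbd1cf6a8f520e6542ed13082c84920, 0xb92070a4487d68359a4e2cdb68b140, 0xbb2a64da51239f0409430b67439560, 0xb8dcf8d444521a9a18f3858255c980, 0xbb07315a0e24432425557acd429da0, 0xbd5017927664445834e91c94b351c0,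 0xbad83934358a6657409631c48a29e0, 0xba2a6791568b07471da914a6b09600, 0xb950db1d6e54c32a32a479a0348a20, 0xbbea88d0f614c905302d30dc92ae40, 0xb91cd324757a0a258650a28f664660, 0xb89b58388f2b13389c6692ec142a80, 0xbc1ca7d8241898d450b28a4cb99ea0, 0xb8e613552851202a44ee6b1e592ec0] [[0xf08320], [0x149f]] (by decide +kernel)
    rw [this, one_smul] at c1
    exact absurd c1 (by decide)

end Cfsg.Agent.S5599
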