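import Cfsg.Statements.S5600
import Cfsg.Agent.H0.M24x


set_option autoImplicit false
open scoped Pointwise
open Cfsg

namespace Cfsg.Agent.S5600

open H0 H6 Finset MulAction
open scoped Pointwise
set_option maxRecDepth 100000

/-- Although the group of the length-24 code is only 5-transitive on the 24 points, it induces the full symmetric group on every 6-element subset: every permutation of a 6-set E is the restriction of an element of the group mapping E to itself. The pointwise stabiliser of E has order 16 when E lies in an octad and order 3 otherwise; in the latter case the setwise stabiliser of E has order 2160. -/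
theorem result (E : Finset Cfsg.GolayPt) (hE : E.card = 6) : (∀ σ : Equiv.Perm ↥E, ∃ g ∈ Cfsg.M24, ∀ p : ↥E, g p = σ p) ∧ ((∃ o ∈ Cfsg.octads, E ⊆ o) → Nat.card {g : Equiv.Perm Cfsg.GolayPt // g ∈ Cfsg.M24 ∧ ∀ p ∈ E, g p = p} = 16) ∧ ((¬ ∃ o ∈ Cfsg.octads, E ⊆ o) → Nat.card {g : Equiv.Perm Cfsg.GolayPt // g ∈ Cfsg.M24 ∧ ∀ p ∈ E, g p = p} = 3 ∧ Nat.card ↥(MulAction.stabilizer Cfsg.M24 E) = 2160) := by
  have c : Nat.card {g : Equiv.Perm Cfsg.GolayPt // g ∈ Cfsg.M24 ∧ ∀ p ∈ E, g p = p} = Nat.card (fxs E) :=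
    Nat.card_congr ⟨fun c => ⟨⟨c.1, c.2.1⟩, mem_fxs.2 c.2.2⟩, fun c => ⟨c.1.1, c.1.2, mem_fxs.1 c.2⟩, fun _ => rfl, fun _ => rfl⟩
  have i : stabilizer Cfsg.M24 E ⊓ fxs E = fxs E := inf_eq_right.2 fun g hg => smul_eq_of_fix (mem_fxs.1 hg)
  have s : ∀ n, 0 < n → Nat.card (fxs E) = n → 720 * n ≤ Nat.card (stabilizer Cfsg.M24 E) → ∀ σ : Equiv.Perm ↥E, ∃ g ∈ Cfsg.M24, ∀ p : ↥E, g p = σ p := fun n h0 h1 h2 σ => by
    obtain ⟨g, rfl⟩ := resHom_surj (K := stabilizer Cfsg.M24 E) le_rfl (c := n) (by rw [i, h1]) (by rwa [hE]) h0 σ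
    exact ⟨g.1, g.1.2, fun p => rfl⟩
  rw [c]
  rcases six_cases hE with ⟨h1, h2, h3⟩ | ⟨h1, h2, h3⟩
  · exact ⟨s 16 (by decide) h2 h3, fun _ => h2, fun h => (h h1).elim⟩
  · refine ⟨s 3 (by decide) h2 h3, fun h => (h1 h).elim, fun _ => ⟨h2, le_antisymm ?_ h3⟩⟩
    rw [card_range_resHom _ E le_rfl, i, h2]
    refine (Nat.mul_le_mul_right 3 (Subgroup.card_le_card_group _)).trans ?_
    rw [Nat.card_perm, Nat.card_eq_fintype_card, Fintype.card_coe, hE]; rfl

end Cfsg.Agent.S5600
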