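import Cfsg.Statements.S5601
import Cfsg.Agent.H6.More


set_option autoImplicit false
open scoped Pointwise
open Cfsg

namespace Cfsg.Agent.S5601

open H6 Finset MulAction
open scoped Pointwise
set_option maxRecDepth 100000

/-- The group of the length-24 code has exactly two conjugacy classes of subgroups of order 3: a subgroup of order 3 fixes either exactly 6 of the 24 points or none of them, both cases occur, and two subgroups of order 3 with the same number of fixed points are conjugate. -/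
theorem result : (∀ X : Subgroup ↥Cfsg.M24, Nat.card X = 3 → {p : Cfsg.GolayPt | ∀ x ∈ X, ((x : ↥Cfsg.M24) : Equiv.Perm Cfsg.GolayPt) p = p}.ncard = 6 ∨ {p : Cfsg.GolayPt | ∀ x ∈ X, ((x : ↥Cfsg.M24) : Equiv.Perm Cfsg.GolayPt) p = p}.ncard = 0) ∧ (∃ X : Subgroup ↥Cfsg.M24, Nat.card X = 3 ∧ {p : Cfsg.GolayPt | ∀ x ∈ X, ((x : ↥Cfsg.M24) : Equiv.Perm Cfsg.GolayPt) p = p}.ncard = 6) ∧ (∃ X : Subgroup ↥Cfsg.M24, Nat.card X = 3 ∧ {p : Cfsg.GolayPt | ∀ x ∈ X, ((x : ↥Cfsg.M24) : Equiv.Perm Cfsg.GolayPt) p = p}.ncard = 0) ∧ ∀ X Y : Subgroup ↥Cfsg.M24, Nat.card X = 3 → Nat.card Y = 3 → {p : Cfsg.GolayPt | ∀ x ∈ X, ((x : ↥Cfsg.M24) : Equiv.Perm Cfsg.GolayPt) p = p}.ncard = {p : Cfsg.GolayPt | ∀ x ∈ Y, ((x : ↥Cfsg.M24) : Equiv.Perm Cfsg.GolayPt) p = p}.ncard → ∃ k : ↥Cfsg.M24, MulAut.conj k • X = Y := by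
  have hz : ∀ x : Cfsg.M24, {p : Cfsg.GolayPt | ∀ y ∈ Subgroup.zpowers x, ((y : ↥Cfsg.M24) : Equiv.Perm Cfsg.GolayPt) p = p}.ncard = nf x := fun x => by
    rw [nf, ← Set.ncard_coe_finset]
    congr 1; ext p
    simp only [Set.mem_setOf_eq, coe_filter, mem_univ, true_and]
    exact ⟨fun h => h x (Subgroup.mem_zpowers x), fun h y hy => (Subgroup.zpowers_le (H := stabilizer Cfsg.M24 p)).2 h hy⟩
  have ex : ∀ X : Subgroup Cfsg.M24, Nat.card X = 3 → ∃ x, orderOf x = 3 ∧ X = Subgroup.zpowers x := fun X h => by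
    have : Fact (Nat.Prime 3) := ⟨Nat.prime_three⟩
    obtain ⟨x, hx⟩ := (Subgroup.isCyclic_iff_exists_zpowers_eq_top X).1 (isCyclic_of_prime_card h)
    exact ⟨x, by rw [← Nat.card_zpowers, hx, h], hx.symm⟩
  have o3 : ∀ t, Gd t → (Nat.beq (powT t 3) idT && !eqT t idT) = true → Nat.card (Subgroup.zpowers (E t)) = 3 := fun t h h1 => by
    simp only [Bool.and_eq_true, Bool.not_eq_true', Nat.beq_eq] at h1
    have : Fact (Nat.Prime 3) := ⟨Nat.prime_three⟩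
    rw [Nat.card_zpowers]
    exact orderOf_eq_prime (h.pow_eq_one h1.1) (h.ne_one_iff.2 h1.2)
  refine ⟨fun X h => ?_, ⟨_, o3 _ gd_yA (by decide +kernel), (hz _).trans nf_yA⟩, ⟨_, o3 _ gd_yB (by decide +kernel), (hz _).trans nf_yB⟩, fun X Y hX hY e => ?_⟩
  · obtain ⟨x, h3, rfl⟩ := ex X h
    rw [hz]
    by_contra c
    obtain ⟨k, rfl⟩ := ord3_A h3 fun h => c (Or.inr h)
    exact c (Or.inl ((nf_conj _ _).trans nf_yA))
  · obtain ⟨x, h3, rfl⟩ := ex X hX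
    obtain ⟨y, h3', rfl⟩ := ex Y hY
    rw [hz, hz] at e
    have key : ∀ z : Cfsg.M24, (∃ k, x = k * z * k⁻¹) → (∃ k, y = k * z * k⁻¹) → ∃ k : ↥Cfsg.M24, MulAut.conj k • Subgroup.zpowers x = Subgroup.zpowers y := by
      rintro z ⟨a, rfl⟩ ⟨b, rfl⟩
      refine ⟨b * a⁻¹, ?_⟩
      refine (MonoidHom.map_zpowers _ _).trans (congrArg _ ?_)
      show (b * a⁻¹) * _ * (b * a⁻¹)⁻¹ = _
      group
    by_cases c : nf x = 0
    · exact key _ (ord3_B h3 (by omega)) (ord3_B h3' (by omega))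
    · exact key _ (ord3_A h3 c) (ord3_A h3' (by omega))

end Cfsg.Agent.S5601
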