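import Cfsg.Statements.S5602
import Cfsg.Agent.H6.Classes

set_option autoImplicit false
open scoped Pointwise
open Cfsg

namespace Cfsg.Agent.S5602
open H6 Finset MulAction
open scoped Pointwise
set_option maxRecDepth 100000

/-- An element of order 3 of the group of the length-24 code having exactly 6 fixed points maps to themselves exactly 21 octads, exactly 15 trios, exactly 16 sextets and exactly 20 dodecads. -/
theorem result (g : Equiv.Perm Cfsg.GolayPt) (hg : g ∈ Cfsg.M24) (h₃ : orderOf g = 3) (h₆ : (Finset.univ.filter fun p => g p = p).card = 6) : {o : Finset Cfsg.GolayPt | o ∈ Cfsg.octads ∧ g • o = o}.ncard = 21 ∧ {T : Finset (Finset Cfsg.GolayPt) | T ∈ Cfsg.trios ∧ g • T = T}.ncard = 15 ∧ {S : Finset (Finset Cfsg.GolayPt) | S ∈ Cfsg.sextets ∧ g • S = S}.ncard = 16 ∧ {d : Finset Cfsg.GolayPt | d ∈ Cfsg.dodecads ∧ g • d = d}.ncard = 20 := by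
  obtain ⟨k, hk⟩ := ord3_A (x := ⟨g, hg⟩) (by rw [Subgroup.orderOf_mk]; exact h₃)
    (by show (univ.filter fun p => g p = p).card ≠ 0; omega)
  have e : g = ((k * E yA * k⁻¹ : Cfsg.M24) : Equiv.Perm _) := by rw [← hk]
  subst e
  refine ⟨(ncard_fix_conj k _ (smul_mem_octads k)).trans ?_, (ncard_fix_conj k _ (smul_mem_trios k)).trans ?_,
    (ncard_fix_conj k _ (smul_mem_sextets k)).trans ?_, (ncard_fix_conj k _ (smul_mem_dodecads k)).trans ?_⟩
  · rw [ncard_oct _ (fun m => Nat.beq (img yA m) m) fun S => by rw [Set.mem_ofPred_eq, gd_yA.smul_eq_iff]]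
    decide +kernel
  · exact ncard_fix_trios gd_yA (a := 3780) (by decide +kernel) (by norm_num)
  · exact ncard_fix_sextets gd_yA (a := 1755) (by decide +kernel) (by norm_num)
  · rw [ncard_dod _ (fun m => Nat.beq (img yA m) m) fun S => by rw [Set.mem_ofPred_eq, gd_yA.smul_eq_iff]]
    decide +kernel

end Cfsg.Agent.S5602
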