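import Cfsg.Statements.S5604
import Cfsg.Agent.H0.M24x


set_option autoImplicit false
open scoped Pointwise
open Cfsg

namespace Cfsg.Agent.S5604

open H0 H6 Finset MulAction
open scoped Pointwise
set_option maxRecDepth 100000
def y : ℕ := 0x7d2b73461342daa900a963ac219c81
theorem gy : Gd y := gd_of (by decide +kernel)
noncomputable abbrev Z := Subgroup.zpowers (E y)
theorem cZ : Nat.card Z = 7 := by
  have : Fact (Nat.Prime 7) := ⟨by decide⟩
  rw [Nat.card_zpowers]; exact orderOf_eq_prime (gy.pow_eq_one (by decide +kernel)) (gy.ne_one_iff.2 (by decide +kernel))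
theorem nfx {α : Type*} [MulAction Cfsg.M24 α] {a : α} (h : E y • a = a) {n : Cfsg.M24} (hn : n ∈ Subgroup.normalizer (Z : Set Cfsg.M24)) : E y • n • a = n • a :=
  (Cj.stab n a _).2 ((Subgroup.zpowers_le (H := stabilizer _ a)).2 h ((Subgroup.mem_normalizer_iff''.1 hn _).1 (Subgroup.mem_zpowers _)))
theorem ck : Ck (fxS (fxF inM 3 mT0) 0x202008) (stabilizer Cfsg.M24 T0 ⊓ stabilizer Cfsg.M24 (dec 0x202008)) := (ckF 3 mT0).fxS _
theorem le : Subgroup.normalizer (Z : Set Cfsg.M24) ≤ stabilizer Cfsg.M24 T0 ⊓ stabilizer Cfsg.M24 (dec 0x202008) := fun n hn => by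
  have f := gy.fix_iff (m := 0x202008) (by decide +kernel)
  have h : E y • T0 = T0 := (ck y (by decide +kernel)).2.1
  obtain ⟨T, e⟩ := Set.ncard_eq_one.1 (ncard_fix_trios gy (a := 3794) (b := 1) (by decide +kernel) le_rfl)
  refine ⟨(e.le ⟨(smul_mem_trios n _).2 T0_mem, nfx h hn⟩).trans (e.le ⟨T0_mem, h⟩).symm, eq_of_subset_of_card_le (fun p hp => ?_) (card_smul_finset ..).ge⟩
  obtain ⟨q, hq, rfl⟩ := mem_smul_finset.1 hp
  exact (f _).2 (nfx ((f q).1 hq) hn)
theorem cN : Nat.card ↥(stabilizer Cfsg.M24 T0 ⊓ stabilizer Cfsg.M24 (dec 0x202008)) = 126 ∧ Nat.card (Subgroup.normalizer (Z : Set Cfsg.M24)) = 126 := by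
  have a := card_le_of_orb trios_main.2.le (a := dec 0x202008) (d := 512) (e := 126) (le_trans (by decide +kernel)
    ((ckF 3 mT0).orbS_le (gs := [0x6ba53bd1f68d5034b0cb1160400547, 0xb08034dcd1423695d432acf54512f]) (by decide +kernel) H6.hS 512 520 (by decide))) (by decide) (by decide)
  have k : Ck (fun t => inM t && anyLt 7 fun i => Nat.beq (mulT (powT y i) t) (mulT t y)) (Subgroup.normalizer (Z : Set Cfsg.M24)) := fun t h => by
    simp only [Bool.and_eq_true, anyLt_iff, Nat.beq_eq] at h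
    obtain ⟨h, i, -, e⟩ := h
    refine ⟨gd_of h, Subgroup.mem_normalizer_fintype ?_⟩
    rintro _ ⟨j, rfl⟩
    rw [← conj_zpow, gy.conj (gd_of h) (gy.pow i).1 e, (gy.pow i).2]
    exact zpow_mem (pow_mem (Subgroup.mem_zpowers _) _) _
  have b : 126 ≤ _ := le_trans (by decide +kernel) (k.chain_le [(0, [0x74da6508ec584682263278214adec5]), (1, [0xba6b672e33441a2332850c9e71a880]), (5, [0x8adb2452ef816acb28d33a5c418820])])
  have c := Subgroup.card_le_of_le le
  omega

/-- For a subgroup S of order 7 of the group of the length-24 code (a Sylow 7-subgroup): the normaliser of S has order 126, the centraliser of S has order 42 and is non-abelian, and the whole normaliser leaves some trio invariant. (These are the orders of a Frobenius group of order 21 times a symmetric group of degree 3; the isomorphism type itself is not asserted here.) -/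
theorem result (S : Subgroup ↥Cfsg.M24) (hS : Nat.card S = 7) : Nat.card ↥(Subgroup.normalizer (S : Set ↥Cfsg.M24)) = 126 ∧ Nat.card ↥(Subgroup.centralizer (S : Set ↥Cfsg.M24)) = 42 ∧ (∃ x ∈ Subgroup.centralizer (S : Set ↥Cfsg.M24), ∃ y ∈ Subgroup.centralizer (S : Set ↥Cfsg.M24), x * y ≠ y * x) ∧ ∃ T ∈ Cfsg.trios, ∀ n ∈ Subgroup.normalizer (S : Set ↥Cfsg.M24), ((n : ↥Cfsg.M24) : Equiv.Perm Cfsg.GolayPt) • T = T := by
  have : Fact (Nat.Prime 7) := ⟨by decide⟩
  obtain ⟨x, hx⟩ := (Subgroup.isCyclic_iff_exists_zpowers_eq_top S).1 (isCyclic_of_prime_card hS)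
  obtain ⟨k, -, hk⟩ := exists_conj_mem (p := 7) (by decide) (le_top (a := Z)) cZ (b := 34974720) card_top_M24 (by decide) (x := x) trivial
    (by rw [← hS, ← hx, Nat.card_zpowers, pow_orderOf_eq_one])
  have j : Cj k Z S := by
    have : S.map (MulAut.conj k⁻¹).toMonoidHom = Z := Subgroup.eq_of_le_of_card_ge (by
      rw [← hx, MonoidHom.map_zpowers, Subgroup.zpowers_le]; simpa using hk) (by rw [cZ, Subgroup.card_map_of_injective (MulAut.conj k⁻¹).injective, hS])
    intro g; rw [← this, Subgroup.mem_map_equiv]; simp [mul_assoc]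
  have jN : Cj k (Subgroup.normalizer (Z : Set Cfsg.M24)) (Subgroup.normalizer (S : Set Cfsg.M24)) := fun g => by
    rw [j.eq_map, ← Subgroup.map_equiv_normalizer_eq, Subgroup.mem_map_equiv]; rfl
  have jC : Cj k (Subgroup.centralizer {E y}) (Subgroup.centralizer (S : Set Cfsg.M24)) := by
    rw [j.eq_map, MonoidHom.map_zpowers, Subgroup.zpowers_eq_closure, Subgroup.centralizer_closure]; exact Cj.cent _ _
  obtain ⟨gu, -, hu⟩ := ck_top.fxC gy 0x8adb2452ef816acb28d33a5c418820 (by decide +kernel)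
  obtain ⟨gv, -, hv⟩ := ck_top.fxC gy 0x608678b97254da93142044097abe96 (by decide +kernel)
  refine ⟨jN.card.trans cN.2, jC.card.trans (ck.card_cent cN.1 (le_trans (fun g hg => Subgroup.mem_normalizer_fintype fun n hn => ?_) le) [0x61c61a3ec825eae2c04a8a41269a6b, 0x2a6b7600e17a866145169128b6ce0e] 4 20 10 3 42 [(5, [0xa8604dde825ab2a44e2595866ba70]), (0, [0xbdab42280179c6b64928708b369a11])] (by decide +kernel)),
    ⟨jC.equiv ⟨_, hu⟩, Subtype.property _, jC.equiv ⟨_, hv⟩, Subtype.property _, fun e => ?_⟩, k • T0, (smul_mem_trios _ _).2 T0_mem, fun n hn => (Cj.stab k T0 n).2 (le ((jN n).1 hn)).1⟩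
  · obtain ⟨i, rfl⟩ := hn
    rw [(Commute.zpow_right (Subgroup.mem_centralizer_singleton_iff.1 hg) i).eq, mul_inv_cancel_right]; exact ⟨i, rfl⟩
  · have := congrArg Subtype.val (jC.equiv.injective ((map_mul ..).trans ((Subtype.ext e).trans (map_mul ..).symm)))
    exact absurd ((gu.mul_eq_iff gv gv gu).1 this) (by decide +kernel)

end Cfsg.Agent.S5604
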