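import Cfsg.Statements.S5606
import Cfsg.Agent.H6.Classes

set_option autoImplicit false
open scoped Pointwise
open Cfsg

namespace Cfsg.Agent.S5606
open H6 Finset MulAction
open scoped Pointwise
set_option maxRecDepth 100000

/-- A fixed-point-free involution of the group of the length-24 code maps to themselves exactly 15 octads, exactly 75 trios and exactly 51 sextets. -/
theorem result (g : Equiv.Perm Cfsg.GolayPt) (hg : g ∈ Cfsg.M24) (h₂ : orderOf g = 2) (h₀ : ∀ p, g p ≠ p) : {o : Finset Cfsg.GolayPt | o ∈ Cfsg.octads ∧ g • o = o}.ncard = 15 ∧ {T : Finset (Finset Cfsg.GolayPt) | T ∈ Cfsg.trios ∧ g • T = T}.ncard = 75 ∧ {S : Finset (Finset Cfsg.GolayPt) | S ∈ Cfsg.sextets ∧ g • S = S}.ncard = 51 := by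
  obtain ⟨k, hk⟩ := invol_B (x := ⟨g, hg⟩) (by rw [Subgroup.orderOf_mk]; exact h₂)
    (by rw [nf_eq_zero (x := ⟨g, hg⟩) h₀]; omega)
  have e : g = ((k * E zB * k⁻¹ : Cfsg.M24) : Equiv.Perm _) := by rw [← hk]
  subst e
  refine ⟨(ncard_fix_conj k _ (smul_mem_octads k)).trans ?_, (ncard_fix_conj k _ (smul_mem_trios k)).trans ?_,
    (ncard_fix_conj k _ (smul_mem_sextets k)).trans ?_⟩
  · rw [ncard_oct _ (fun m => Nat.beq (img zB m) m) fun S => by rw [Set.mem_ofPred_eq, gd_zB.smul_eq_iff]]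
    decide +kernel
  · exact ncard_fix_trios gd_zB (a := 3720) (by decide +kernel) (by norm_num)
  · exact ncard_fix_sextets gd_zB (a := 1720) (by decide +kernel) (by norm_num)

end Cfsg.Agent.S5606
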