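import Cfsg.Statements.S5607
import Cfsg.Agent.H6.Classes

set_option autoImplicit false
open scoped Pointwise
open Cfsg

namespace Cfsg.Agent.S5607
open H6 Finset MulAction
open scoped Pointwise
set_option maxRecDepth 100000

/-- For a fixed-point-free involution t of the group of the length-24 code: its centraliser in that group has order 7680, is transitive on the 24 points, and is contained, together with t, in the stabiliser of some sextet. -/
theorem result (t : Equiv.Perm Cfsg.GolayPt) (ht : t ∈ Cfsg.M24) (h₂ : orderOf t = 2) (h₀ : ∀ p, t p ≠ p) : Nat.card {c : Equiv.Perm Cfsg.GolayPt // c ∈ Cfsg.M24 ∧ c * t = t * c} = 7680 ∧ (∀ p q : Cfsg.GolayPt, ∃ c ∈ Cfsg.M24, c * t = t * c ∧ c p = q) ∧ ∃ S ∈ Cfsg.sextets, t • S = S ∧ ∀ c ∈ Cfsg.M24, c * t = t * c → c • S = S := by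
  obtain ⟨k, hk⟩ := invol_B (x := ⟨t, ht⟩) (by rw [Subgroup.orderOf_mk]; exact h₂)
    (by rw [nf_eq_zero (x := ⟨t, ht⟩) h₀]; omega)
  have hj := Cj.cent k (E zB)
  rw [← hk] at hj
  have hm : ∀ c (hc : c ∈ Cfsg.M24), c * t = t * c ↔ (⟨c, hc⟩ : Cfsg.M24) ∈ Subgroup.centralizer {(⟨t, ht⟩ : Cfsg.M24)} :=
    fun c hc => by rw [Subgroup.mem_centralizer_singleton_iff, Subtype.ext_iff]; rfl
  refine ⟨?_, fun p q => ?_, k • S0, (smul_mem_sextets _ _).2 S0_mem, ?_⟩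
  · rw [← card_cent_zB, ← hj.card]
    exact Nat.card_congr ⟨fun c => ⟨⟨c.1, c.2.1⟩, (hm _ _).1 c.2.2⟩, fun c => ⟨c.1.1, c.1.2, (hm _ c.1.2).2 c.2⟩,
      fun _ => rfl, fun _ => rfl⟩
  · have h1 := (ck_top.fxC gd_zB).coverP (gs := [0x91af1095a2051c449d6355aac9bd10, 0x1218a59c3648c947d6666c012895d7])
      (by decide +kernel) (A := Set.univ) (fun _ _ _ _ => trivial) (xs := [0]) (by simp)
      (by rw [Set.ncard_univ, Nat.card_eq_fintype_card, card_pt]; decide +kernel)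
    rw [top_inf_eq] at h1
    obtain ⟨c, hc, e⟩ := hj.trans_of (x := p) (y := q) (by
      obtain ⟨_, h2, h3⟩ := h1 (k⁻¹ • p) trivial
      obtain ⟨_, h4, h5⟩ := h1 (k⁻¹ • q) trivial
      rw [List.mem_singleton] at h2 h4
      subst h2 h4
      exact orb_trans h3 h5)
    exact ⟨c, c.2, (hm _ c.2).2 hc, e⟩
  · have h1 : ∀ c ∈ Cfsg.M24, c * t = t * c → c • k • S0 = k • S0 := fun c hc h =>
      (Cj.stab k S0 ⟨c, hc⟩).2 (cent_zB_le ((hj _).1 ((hm c hc).1 h)))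
    exact ⟨h1 t ht rfl, h1⟩

end Cfsg.Agent.S5607
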