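import Cfsg.Statements.S5608
import Cfsg.Agent.H0.M24x


set_option autoImplicit false
open scoped Pointwise
open Cfsg

namespace Cfsg.Agent.S5608

open H0 H6 Finset MulAction
open scoped Pointwise
set_option maxRecDepth 100000

/-- If an element of order 3 and an involution of the group of the length-24 code commute, then either the element of order 3 has exactly 6 fixed points and the involution exactly 8, or both are fixed-point-free. -/
theorem result (x s : Equiv.Perm Cfsg.GolayPt) (hx : x ∈ Cfsg.M24) (hs : s ∈ Cfsg.M24) (h₃ : orderOf x = 3) (h₂ : orderOf s = 2) (hc : Commute x s) : ((Finset.univ.filter fun p => x p = p).card = 6 ∧ (Finset.univ.filter fun p => s p = p).card = 8) ∨ ((Finset.univ.filter fun p => x p = p).card = 0 ∧ (Finset.univ.filter fun p => s p = p).card = 0) := by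
  have key : ∀ z y b n, Gd z → (fxC inM z y && Nat.beq (powT y 3) idT && !eqT y idT && Nat.beq (nfix y) n && Nat.beq (nfix (powT y 2)) n) = true →
      Nat.card (Subgroup.centralizer {E z}) = 3 * b → ¬ 3 ∣ b → (∃ k, (⟨s, hs⟩ : Cfsg.M24) = k * E z * k⁻¹) → nf ⟨x, hx⟩ = n ∧ nf ⟨s, hs⟩ = nf (E z) := by
    rintro z y b n gz h hC hb ⟨k, hk⟩
    simp only [Bool.and_eq_true, Bool.not_eq_true', Nat.beq_eq] at h
    obtain ⟨gy, -, hy⟩ := ck_top.fxC gz y h.1.1.1.1
    have : Fact (Nat.Prime 3) := ⟨Nat.prime_three⟩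
    have o3 : orderOf (E y) = 3 := orderOf_eq_prime (gy.pow_eq_one h.1.1.1.2) (gy.ne_one_iff.2 h.1.1.2)
    have x3 : orderOf (⟨x, hx⟩ : Cfsg.M24) = 3 := by rw [Subgroup.orderOf_mk]; exact h₃
    have hm : k⁻¹ * ⟨x, hx⟩ * k ∈ Subgroup.centralizer {E z} := (Cj.cent k (E z) _).1 (hk ▸ Subgroup.mem_centralizer_singleton_iff.2 (Subtype.ext hc.eq))
    obtain ⟨g, -, hg⟩ := exists_conj_mem Nat.prime_three (Subgroup.zpowers_le.2 hy) (by rw [Nat.card_zpowers, o3]) hC hb hm
      (by rw [show k⁻¹ * ⟨x, hx⟩ * k = k⁻¹ * ⟨x, hx⟩ * k⁻¹⁻¹ by rw [inv_inv], conj_pow, ← x3, pow_orderOf_eq_one]; group)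
    refine ⟨?_, by rw [hk, nf_conj]⟩
    rw [mem_zpowers_iff_mem_range_orderOf, o3, mem_image] at hg
    obtain ⟨i, hi, e⟩ := hg
    have e' : (⟨x, hx⟩ : Cfsg.M24) = (k * g) * E y ^ i * (k * g)⁻¹ := by rw [e]; group
    have hi := mem_range.1 hi
    interval_cases i
    · rw [e'] at x3; simp at x3
    · rw [e', nf_conj, pow_one, gy.nf_eq, h.1.2]
    · rw [e', nf_conj, ← (gy.pow 2).2, (gy.pow 2).1.nf_eq, h.2]
  have s2 : orderOf (⟨s, hs⟩ : Cfsg.M24) = 2 := by rw [Subgroup.orderOf_mk]; exact h₂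
  by_cases c : nf ⟨s, hs⟩ = 0
  · exact Or.inr ⟨(key zB 0x63d7669952a1d2040e75140818b8b7 2560 0 gd_zB (by decide +kernel) card_cent_zB (by decide) (invol_B s2 (by omega))).1, c⟩
  · have := key zA 0x7d5d09ca913596a41d2d65ca119040 7168 6 gd_zA (by decide +kernel) card_cent_zA (by decide) (invol_A s2 c)
    exact Or.inl ⟨this.1, this.2.trans nf_zA⟩

end Cfsg.Agent.S5608
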