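import Cfsg.Statements.S5609
import Cfsg.Agent.H0.M24x


set_option autoImplicit false
open scoped Pointwise
open Cfsg

namespace Cfsg.Agent.S5609

open H0 H6 Finset MulAction
open scoped Pointwise
set_option maxRecDepth 100000

/-- In the graph on the 759 octads of the length-24 code in which two octads are adjacent when they are disjoint, the graph is connected (of diameter 3) and two distinct octads are at distance 1, 2 or 3 exactly when they meet in 0, 4 or 2 points respectively. -/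
theorem result (o o' : Finset Cfsg.GolayPt) (ho : o ∈ Cfsg.octads) (ho' : o' ∈ Cfsg.octads) (hne : o ≠ o') : (Cfsg.blockGraph Cfsg.octads).Connected ∧ ((Cfsg.blockGraph Cfsg.octads).dist ⟨o, ho⟩ ⟨o', ho'⟩ = 1 ↔ (o ∩ o').card = 0) ∧ ((Cfsg.blockGraph Cfsg.octads).dist ⟨o, ho⟩ ⟨o', ho'⟩ = 2 ↔ (o ∩ o').card = 4) ∧ ((Cfsg.blockGraph Cfsg.octads).dist ⟨o, ho⟩ ⟨o', ho'⟩ = 3 ↔ (o ∩ o').card = 2) := by
  have std : ∀ m n k j, (isCw m && Nat.beq (pc m) 8) = true → (isCw n && Nat.beq (pc n) 8) = true → pc (0x149f &&& m) = k → 0x149f &&& n = 0 → pc (n &&& m) = j →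
      ∀ a ∈ Cfsg.octads, ∀ b ∈ Cfsg.octads, (a ∩ b).card = k → ∃ c ∈ Cfsg.octads, (a ∩ c).card = 0 ∧ (c ∩ b).card = j := fun m n k j hm hn h1 h2 h3 a ha b hb h => by
    obtain ⟨g, rfl⟩ := tr_octad O0_mem ha
    obtain ⟨l, hl, rfl⟩ := tr_oct_oct ha ((smul_mem_octads g _).2 (dec_mem_octads hm)) hb (by rw [H6.card_smul_inter, h, O0, ← dec_and, card_dec, h1])
    refine ⟨l • g • dec n, by simpa using dec_mem_octads hn, ?_, by rw [H6.card_smul_inter, H6.card_smul_inter, ← dec_and, card_dec, h3]⟩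
    rw [← show l • g • O0 = g • O0 from hl, H6.card_smul_inter, H6.card_smul_inter, O0, ← dec_and, h2]; rfl
  have s4 := std 0x293e 0xecc040 4 0 (by decide +kernel) (by decide +kernel) (by decide +kernel) (by decide +kernel) (by decide +kernel)
  have s2 := std 0x7b42 0xd16140 2 4 (by decide +kernel) (by decide +kernel) (by decide +kernel) (by decide +kernel) (by decide +kernel)
  have adj : ∀ a b : Cfsg.octads, (Cfsg.blockGraph Cfsg.octads).Adj a b ↔ (a.1 ∩ b.1).card = 0 := fun a b => by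
    rw [Cfsg.blockGraph, SimpleGraph.fromRel_adj, card_eq_zero, ← disjoint_iff_inter_eq_empty]
    refine ⟨fun h => h.2.elim id fun h => h.symm, fun h => ⟨?_, Or.inl h⟩⟩
    rintro rfl
    have := (mem_octads.1 a.2).2
    rw [disjoint_self.1 h] at this; cases this
  have w4 : ∀ a b : Cfsg.octads, (a.1 ∩ b.1).card = 4 → ∃ p : (Cfsg.blockGraph Cfsg.octads).Walk a b, p.length = 2 := fun a b h => by
    obtain ⟨c, hc, h1, h2⟩ := s4 _ a.2 _ b.2 h
    exact ⟨.cons ((adj a ⟨c, hc⟩).2 h1) (.cons ((adj ⟨c, hc⟩ b).2 h2) .nil), rfl⟩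
  have w2 : ∀ a b : Cfsg.octads, (a.1 ∩ b.1).card = 2 → ∃ p : (Cfsg.blockGraph Cfsg.octads).Walk a b, p.length = 3 := fun a b h => by
    obtain ⟨c, hc, h1, h2⟩ := s2 _ a.2 _ b.2 h
    obtain ⟨p, hp⟩ := w4 ⟨c, hc⟩ b h2
    exact ⟨.cons ((adj a ⟨c, hc⟩).2 h1) p, by simp [hp]⟩
  have con : (Cfsg.blockGraph Cfsg.octads).Connected := by
    have : Nonempty Cfsg.octads := ⟨⟨o, ho⟩⟩
    refine ⟨fun a b => ?_⟩
    by_cases e : a = b
    · exact e ▸ .refl _
    rcases octad_inter a.2 b.2 fun h => e (Subtype.ext h) with h | h | h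
    exacts [((adj a b).2 h).reachable, (w2 a b h).elim fun p _ => ⟨p⟩, (w4 a b h).elim fun p _ => ⟨p⟩]
  have d1 := SimpleGraph.dist_eq_one_iff_adj.trans (adj ⟨o, ho⟩ ⟨o', ho'⟩)
  have d0 := con.pos_dist_of_ne (u := ⟨o, ho⟩) (v := ⟨o', ho'⟩) fun h => hne (congrArg Subtype.val h)
  have d4 : (o ∩ o').card = 4 → (Cfsg.blockGraph Cfsg.octads).dist ⟨o, ho⟩ ⟨o', ho'⟩ ≤ 2 := fun h => (w4 ⟨o, ho⟩ ⟨o', ho'⟩ h).elim fun p e => e ▸ SimpleGraph.dist_le p
  have d2 : (o ∩ o').card = 2 → (Cfsg.blockGraph Cfsg.octads).dist ⟨o, ho⟩ ⟨o', ho'⟩ ≤ 3 := fun h => (w2 ⟨o, ho⟩ ⟨o', ho'⟩ h).elim fun p e => e ▸ SimpleGraph.dist_le p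
  have d3 : (o ∩ o').card = 2 → (Cfsg.blockGraph Cfsg.octads).dist ⟨o, ho⟩ ⟨o', ho'⟩ ≠ 2 := fun h e => by
    obtain ⟨p, hp⟩ := con.exists_walk_length_eq_dist ⟨o, ho⟩ ⟨o', ho'⟩
    rw [e] at hp
    match p, hp with
    | .cons (v := c) h1 (.cons h2 .nil), _ =>
      have h1 : (o ∩ c.1).card = 0 := (adj _ _).1 h1
      have h2 : (c.1 ∩ o').card = 0 := (adj _ _).1 h2
      have a := card_symmDiff_eq o o'
      have b := card_symmDiff_eq (symmDiff o o') c.1
      have : symmDiff o o' ∩ c.1 = ∅ := by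
        rw [card_eq_zero] at h1 h2
        exact subset_empty.1 ((inter_subset_inter_right symmDiff_subset_union).trans (by rw [union_inter_distrib_right, h1, inter_comm, h2]; rfl))
      have := CC_card (CC_symmDiff (CC_symmDiff (mem_octads.1 ho).1 (mem_octads.1 ho').1) (mem_octads.1 c.2).1)
      have := (mem_octads.1 ho).2
      have := (mem_octads.1 ho').2
      have := (mem_octads.1 c.2).2
      simp_all
  have := octad_inter ho ho' hne
  dsimp only at d1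
  refine ⟨con, d1, ?_, ?_⟩ <;> omega

end Cfsg.Agent.S5609
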