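import Cfsg.Statements.S5610
import Cfsg.Agent.H6.Enum

set_option autoImplicit false
open scoped Pointwise
open Cfsg

namespace Cfsg.Agent.S5610
open H6 Finset MulAction
open scoped Pointwise
set_option maxRecDepth 100000

/-- The stabiliser of an octad in the group of the length-24 code has exactly three orbits on the 3795 trios, of sizes 15, 420 and 3360, and exactly three orbits on the 1771 sextets, of sizes 35, 840 and 896. -/
theorem result (o : Finset Cfsg.GolayPt) (ho : o ∈ Cfsg.octads) : (∃ X₁ ∈ Cfsg.trios, ∃ X₂ ∈ Cfsg.trios, ∃ X₃ ∈ Cfsg.trios, (MulAction.orbit ↥(MulAction.stabilizer Cfsg.M24 o) X₁).ncard = 15 ∧ (MulAction.orbit ↥(MulAction.stabilizer Cfsg.M24 o) X₂).ncard = 420 ∧ (MulAction.orbit ↥(MulAction.stabilizer Cfsg.M24 o) X₃).ncard = 3360 ∧ Cfsg.trios = MulAction.orbit ↥(MulAction.stabilizer Cfsg.M24 o) X₁ ∪ MulAction.orbit ↥(MulAction.stabilizer Cfsg.M24 o) X₂ ∪ MulAction.orbit ↥(MulAction.stabilizer Cfsg.M24 o) X₃) ∧ (∃ Y₁ ∈ Cfsg.sextets,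 ∃ Y₂ ∈ Cfsg.sextets, ∃ Y₃ ∈ Cfsg.sextets, (MulAction.orbit ↥(MulAction.stabilizer Cfsg.M24 o) Y₁).ncard = 35 ∧ (MulAction.orbit ↥(MulAction.stabilizer Cfsg.M24 o) Y₂).ncard = 840 ∧ (MulAction.orbit ↥(MulAction.stabilizer Cfsg.M24 o) Y₃).ncard = 896 ∧ Cfsg.sextets = MulAction.orbit ↥(MulAction.stabilizer Cfsg.M24 o) Y₁ ∪ MulAction.orbit ↥(MulAction.stabilizer Cfsg.M24 o) Y₂ ∪ MulAction.orbit ↥(MulAction.stabilizer Cfsg.M24 o) Y₃) := by
  obtain ⟨g, rfl⟩ := tr_octad O0_mem ho
  have hc := ckS 0x149f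
  have hj := Cj.stab g O0
  have hK := card_stab_octad O0_mem
  exact ⟨(by
    have hg : allL (fxS inM 0x149f) [0x7ce4d4aef6a94c1712140450750d82, 0x5c4d2b5d15715e2a0613225a302987] = true := by decide +kernel
    have hx : ∀ x ∈ [0x149ff083200f6840, 0x293e131681ecc040, 0x293e0dc601f210c0], decF 3 x ∈ trios := by
      intro x hx
      refine decF_mem_trios ?_
      revert x; decide +kernel
    exact part3 hj (D := decF 3) (smul_mem_trios g) (fun k _ b hb => (smul_mem_trios k b).2 hb) hx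
      (hc.coverF hg H6.hT 16384 2048 3805 3 (fun k _ b hb => (smul_mem_trios k b).2 hb) (fun b hb => hb.1) hx (by rw [trios_main.1]; decide +kernel))
      (hc.orbF_eq hK hg H6.hT 16384 2048 20 (hx _ (by simp)).1 15 21504 [(0, [0x819722d50f9dd23b31b10d1c450807, 0x74e32ad9e582507b8966651aa08c04]), (1, [0x6ba532d5098d1eab08cb65e0139060]), (2, [0x5c8d0a59f76a50428e2e556623b020, 0xadde982e46b466371288534a261c20]), (3, [0x8ba72b25f7854a7428cd6516320820, 0x93a712d2ef322c3aaa0d2256760820]), (5, [0x8adb2452ef816acb28d33a5c418820, 0x835662a5f78a2ccaaa4e3d26418820, 0x5c613a22d56a5ecba9d2394c418820, 0x4950f6c0d2a2e6c72af53c6c418820])] (by decide +kernel))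
      (hc.orbF_eq hK hg H6.hT 16384 2048 425 (hx _ (by simp)).1 420 768 [(0, [0x9bee59556d71a814911115a0c38143, 0xb1a54bba11abcaa4012d64d6219027]), (1, [0xac9e9bba14999a742a2b658a220460]), (2, [0xbceb173e14359672b128549a311020]), (3, [0xb19f1956099dd6a432853b9a320820]), (5, [0x94dd1b5e89354ac42a0b3bda418820, 0x33a70abd349590c2aa2d3dd6418820])] (by decide +kernel))
      (hc.orbF_eq hK hg H6.hT 16384 2048 3365 (hx _ (by simp)).1 3360 96 [(0, [0x9412e89a76bd0aa69eab03d0120c4c]), (1, [0xbc69683eae924a76aa6b6190120c40]), (2, [0xb46864baf29c10c5a9e53d5a311020]), (3, [0xa56d79c0d24b9a75a9e56450320820])] (by decide +kernel))),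
    (by
    have hg : allL (fxS inM 0x149f) [0x8a6d56a0cb748a4b9e931be0c00542, 0x5c26593ac93350778af4646a119140] = true := by decide +kernel
    have hx : ∀ x ∈ [0x149000000f400a40824020098100342000, 0x21001800b0040000630a0900004680d40000, 0xc021082400800002700b040600500110880], decF 6 x ∈ sextets := by
      intro x hx
      refine decF_mem_sextets ?_
      revert x; decide +kernel
    exact part3 hj (D := decF 6) (smul_mem_sextets g) (fun k _ b hb => (smul_mem_sextets k b).2 hb) hx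
      (hc.coverF hg H6.hS 4099 513 1781 6 (fun k _ b hb => (smul_mem_sextets k b).2 hb) (fun b hb => hb.1) hx (by rw [sextets_main.1]; decide +kernel))
      (hc.orbF_eq hK hg H6.hS 4099 513 40 (hx _ (by simp)).1 35 9216 [(0, [0x341b2bd12575aa77b2715216410023, 0x999b4bd60e8a24158ec5025e2610ea]), (1, [0x29a547b63045ea7b313352dc410460]), (4, [0x8c254b55cb315aa99de9222ec10c20]), (2, [0x9adb22d5f77228a4b0d13da0410c20]), (5, [0x2c9f0322295de6aa9e96635c418820, 0x4cead751658da4a79d17640c418820, 0x8adb2452ef816acb28d33a5c418820]), (6, [0x7520f4cee6b450a69e4b654a418820])] (by decide +kernel))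
      (hc.orbF_eq hK hg H6.hS 4099 513 845 (hx _ (by simp)).1 840 384 [(0, [0xbd0d68ca6583ea45b1a8125c008cea, 0xa58b75ca267b9a299d28542a103083]), (2, [0x959349de2e6c1ec40eab214c750820, 0xa49b68dd0faba0399d2b514cc11020]), (3, [0x959349de2e6c1ec40eab214c750820, 0x952168de757a5ac41dcb518a320820]), (5, [0x5c613a22d56a5ecba9d2394c418820])] (by decide +kernel))
      (hc.orbF_eq hK hg H6.hS 4099 513 901 (hx _ (by simp)).1 896 360 [(1, [0xbca7033e2bb390aa11a93d4ac18402]), (3, [0xab5e98dd1285a879b1c622ca350820]), (0, [0xbd90f94dcda46073293562ca418022]), (4, [0x74a685c2f6345eca9289534a718820, 0xb99b28523343aaa4b16f258a718820]), (6, [0x8bcd6925d5a5d674326d540a418820])] (by decide +kernel)))⟩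

end Cfsg.Agent.S5610
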