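import Cfsg.Statements.S5611
import Cfsg.Agent.H6.Enum

set_option autoImplicit false
open scoped Pointwise
open Cfsg

namespace Cfsg.Agent.S5611
open H6 Finset MulAction
open scoped Pointwise
set_option maxRecDepth 100000

/-- The stabiliser of a sextet in the group of the length-24 code has exactly three orbits on the 759 octads, of sizes 15, 360 and 384, and exactly four orbits on the 3795 trios, of sizes 15, 180, 720 and 2880. -/
theorem result (S : Finset (Finset Cfsg.GolayPt)) (hS : S ∈ Cfsg.sextets) : (∃ X₁ ∈ Cfsg.octads, ∃ X₂ ∈ Cfsg.octads, ∃ X₃ ∈ Cfsg.octads, (MulAction.orbit ↥(MulAction.stabilizer Cfsg.M24 S) X₁).ncard = 15 ∧ (MulAction.orbit ↥(MulAction.stabilizer Cfsg.M24 S) X₂).ncard = 360 ∧ (MulAction.orbit ↥(MulAction.stabilizer Cfsg.M24 S) X₃).ncard = 384 ∧ Cfsg.octads = MulAction.orbit ↥(MulAction.stabilizer Cfsg.M24 S) X₁ ∪ MulAction.orbit ↥(MulAction.stabilizer Cfsg.M24 S) X₂ ∪ MulAction.orbit ↥(MulAction.stabilizer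 Cfsg.M24 S) X₃) ∧ (∃ Y₁ ∈ Cfsg.trios, ∃ Y₂ ∈ Cfsg.trios, ∃ Y₃ ∈ Cfsg.trios, ∃ Y₄ ∈ Cfsg.trios, (MulAction.orbit ↥(MulAction.stabilizer Cfsg.M24 S) Y₁).ncard = 15 ∧ (MulAction.orbit ↥(MulAction.stabilizer Cfsg.M24 S) Y₂).ncard = 180 ∧ (MulAction.orbit ↥(MulAction.stabilizer Cfsg.M24 S) Y₃).ncard = 720 ∧ (MulAction.orbit ↥(MulAction.stabilizer Cfsg.M24 S) Y₄).ncard = 2880 ∧ Cfsg.trios = MulAction.orbit ↥(MulAction.stabilizer Cfsg.M24 S) Y₁ ∪ MulAction.orbit ↥(MulAction.stabilizer Cfsg.M24 S) Y₂ ∪ MulAction.orbit ↥(MulAction.stabilizer Cfsg.M24 S) Y₃ ∪ MulAction.orbit ↥(MulAction.stabilizer Cfsg.M24 S) Y₄) := by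
  obtain ⟨g, rfl⟩ := tr_sextet hS
  have hc := ckF 6 mS0
  have hj := Cj.stab g S0
  have hK := sextets_main.2
  exact ⟨(by
    have hg : allL (fxF inM 6 mS0) [0xd668b4066581e56c689bc84e530e4, 0x8a48c9aae8814e0b096f099c36d2b2] = true := by decide +kernel
    have hx : ∀ x ∈ [0x149f, 0x46e3, 0x293e], x < 2 ^ 24 ∧ dec x ∈ octads := by
      have : ∀ x ∈ [0x149f, 0x46e3, 0x293e], x < 2 ^ 24 ∧ (isCw x && Nat.beq (pc x) 8) = true := by decide +kernel
      exact fun x h => ⟨(this x h).1, dec_mem_octads (this x h).2⟩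
    exact part3 hj (D := dec) (smul_mem_octads g) (fun k _ b hb => (smul_mem_octads k b).2 hb) (fun x h => (hx x h).2)
      (hc.coverS hg hC 512 769 (fun k _ b hb => (smul_mem_octads k b).2 hb) hx (by rw [ncard_octads]; decide +kernel))
      (hc.orbS_eq hK hg hC 512 20 15 9216 [(0, [0xadccb4264f9b6c3704b00468261c8a, 0x4a2928b6d72aea278e6e040c1230ea]), (1, [0x846b4349ebb21a7ba9c92166c10460]), (2, [0x7b4b15de09321cca9e9654a6410c20]), (4, [0x9222e3168bb56e499de9541ac18820, 0x345e86cd32a5a07b91d56156a18820]), (5, [0x995b45d609b2247bb226539e418820, 0x2c9f0322295de6aa9e96635c418820, 0x5d5d7994cf45a27a32505352418820]), (6, [0x8bcd6925d5a5d674326d540a418820])] (by decide +kernel)).1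
      (hc.orbS_eq hK hg hC 512 365 360 384 [(0, [0x246b49b5887aa43b84b0038e2b2cc9, 0xb5df3a216daa602881d2094c3230ea]), (4, [0x25e0faa1946aa768a5d2314eb10c20]), (5, [0x5de557b6d341a8c89dd05152410c20]), (2, [0x8da6fac2f2a390c59ccd524a410c20])] (by decide +kernel)).1
      (hc.orbS_eq hK hg hC 512 389 384 360 [(1, [0xbbe9265627539a945a64340ab08c40]), (4, [0xb29d195cd5a24b024d8d79d6818820]), (5, [0x3422ea5ed5924aa4326d3bd6410c20]), (2, [0x8da6fac2f2a390c59ccd524a410c20]), (6, [0x8bcd6925d5a5d674326d540a418820])] (by decide +kernel)).1),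
    (by
    have hg : allL (fxF inM 6 mS0) [0x851c50dde014e3669aa35c90922987, 0xb820f4ccb65c5151b426909d43a984] = true := by decide +kernel
    have hx : ∀ x ∈ [0x149fc24a603da100, 0x149ff083200f6840, 0x1c111c0046e3e3a800, 0x293e0dc601f210c0], decF 3 x ∈ trios := by
      intro x hx
      refine decF_mem_trios ?_
      revert x; decide +kernel
    exact part4 hj (D := decF 3) (smul_mem_trios g) (fun k _ b hb => (smul_mem_trios k b).2 hb) hx
      (hc.coverF hg H6.hT 16384 2048 3805 3 (fun k _ b hb => (smul_mem_trios k b).2 hb) (fun b hb => hb.1) hx (by rw [trios_main.1]; decide +kernel))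
      (hc.orbF_eq hK hg H6.hT 16384 2048 20 (hx _ (by simp)).1 15 9216 [(0, [0x500d67249729d731207178590ad24d, 0x4dcea031611589074e23794c8ac9b4]), (1, [0x9cacb2a5eebc0caa92913b50c10460]), (4, [0x35eb2851289ada78b1cf216ca10c20]), (2, [0x6bcd6baeae2c92c81e715228410c20]), (5, [0x6c22e496b65d2ec7aa663a24418820, 0x451368ae6e2c0cc92ab73b5e418820, 0x835662a5f78a2ccaaa4e3d26418820, 0xabee5339abb4a2c829093ce8418820])] (by decide +kernel))
      (hc.orbF_eq hK hg H6.hT 16384 2048 185 (hx _ (by simp)).1 180 768 [(0, [0xa5d0f5cda6b4a07710a9546ac08043, 0xb15e8940cda2e61882f51b9223918a]), (5, [0x736704bcb65dd0aa92463d22c08c40, 0x8362eb5d095bcaca12463d66a08860]), (1, [0xbd1e85ce264ba0a912b63b4ac08c40]), (2, [0xbd136819d37c56a6b2a83c8a410c20])] (by decide +kernel))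
      (hc.orbF_eq hK hg H6.hT 16384 2048 725 (hx _ (by simp)).1 720 192 [(0, [0x112557b47340291638f02a8375d926, 0xac2254b9abb52e178d0614e4051d84]), (2, [0xb5db49c96f826a48a9c8394cc10c20]), (5, [0xb5de894d6da9a0c8a8b43b92418820, 0x8adb2452ef816acb28d33a5c418820])] (by decide +kernel))
      (hc.orbF_eq hK hg H6.hT 16384 2048 2885 (hx _ (by simp)).1 2880 48 [(1, [0xa5cd612ea30b52c710a03c64a7c268]), (2, [0x354ec7aad09a4976ba488d16510c20]), (4, [0xb5d879a8d07a4952c9c8a456d18820, 0x3d0d69a5907a9716ba48bd48518820])] (by decide +kernel)))⟩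

end Cfsg.Agent.S5611
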