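import Cfsg.Statements.S5612
import Cfsg.Agent.H6.Enum

set_option autoImplicit false
open scoped Pointwise
open Cfsg

namespace Cfsg.Agent.S5612
open H6 Finset MulAction
open scoped Pointwise
set_option maxRecDepth 100000

/-- The stabiliser of a trio in the group of the length-24 code has exactly three orbits on the 759 octads, of sizes 3, 84 and 672, and exactly four orbits on the 1771 sextets, of sizes 7, 84, 336 and 1344. -/
theorem result (T : Finset (Finset Cfsg.GolayPt)) (hT : T ∈ Cfsg.trios) : (∃ X₁ ∈ Cfsg.octads, ∃ X₂ ∈ Cfsg.octads, ∃ X₃ ∈ Cfsg.octads, (MulAction.orbit ↥(MulAction.stabilizer Cfsg.M24 T) X₁).ncard = 3 ∧ (MulAction.orbit ↥(MulAction.stabilizer Cfsg.M24 T) X₂).ncard = 84 ∧ (MulAction.orbit ↥(MulAction.stabilizer Cfsg.M24 T) X₃).ncard = 672 ∧ Cfsg.octads = MulAction.orbit ↥(MulAction.stabilizer Cfsg.M24 T) X₁ ∪ MulAction.orbit ↥(MulAction.stabilizer Cfsg.M24 T) X₂ ∪ MulAction.orbit ↥(MulAction.stabilizer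 Cfsg.M24 T) X₃) ∧ (∃ Y₁ ∈ Cfsg.sextets, ∃ Y₂ ∈ Cfsg.sextets, ∃ Y₃ ∈ Cfsg.sextets, ∃ Y₄ ∈ Cfsg.sextets, (MulAction.orbit ↥(MulAction.stabilizer Cfsg.M24 T) Y₁).ncard = 7 ∧ (MulAction.orbit ↥(MulAction.stabilizer Cfsg.M24 T) Y₂).ncard = 84 ∧ (MulAction.orbit ↥(MulAction.stabilizer Cfsg.M24 T) Y₃).ncard = 336 ∧ (MulAction.orbit ↥(MulAction.stabilizer Cfsg.M24 T) Y₄).ncard = 1344 ∧ Cfsg.sextets = MulAction.orbit ↥(MulAction.stabilizer Cfsg.M24 T) Y₁ ∪ MulAction.orbit ↥(MulAction.stabilizer Cfsg.M24 T) Y₂ ∪ MulAction.orbit ↥(MulAction.stabilizer Cfsg.M24 T) Y₃ ∪ MulAction.orbit ↥(MulAction.stabilizer Cfsg.M24 T) Y₄) := by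
  obtain ⟨g, rfl⟩ := tr_trio hT
  have hc := ckF 3 mT0
  have hj := Cj.stab g T0
  have hK := trios_main.2
  exact ⟨(by
    have hg : allL (fxF inM 3 mT0) [0x3a824748d162db49a062bc0097d6c5, 0xa25150048228d503baf6331f35c9b1] = true := by decide +kernel
    have hx : ∀ x ∈ [0x149f, 0x160ce, 0x293e], x < 2 ^ 24 ∧ dec x ∈ octads := by
      have : ∀ x ∈ [0x149f, 0x160ce, 0x293e], x < 2 ^ 24 ∧ (isCw x && Nat.beq (pc x) 8) = true := by decide +kernel
      exact fun x h => ⟨(this x h).1, dec_mem_octads (this x h).2⟩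
    exact part3 hj (D := dec) (smul_mem_octads g) (fun k _ b hb => (smul_mem_octads k b).2 hb) (fun x h => (hx x h).2)
      (hc.coverS hg hC 512 769 (fun k _ b hb => (smul_mem_octads k b).2 hb) hx (by rw [ncard_octads]; decide +kernel))
      (hc.orbS_eq hK hg hC 512 8 3 21504 [(1, [0xabe975c5b343a4481d36018a21b02a, 0x9196e416956becc4823325e0111d43]), (0, [0x59a32b26a8715e3a320d05e6221c2a]), (2, [0xb20a95ce11ab64a31e8f63ae311020, 0x6cdc6ba6b65bca2412516520351c20]), (3, [0x33570b52ef954a442a2e1a66c38820, 0x84dc6ad2ef8d9072aa4b625a320820]), (5, [0xa20b75c6464b5cc9a9f63c2a418820, 0x2a695835d34464c32acf3aee418820, 0x451368ae6e2c0cc92ab73b5e418820, 0x835662a5f78a2ccaaa4e3d26418820])] (by decide +kernel)).1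
      (hc.orbS_eq hK hg hC 512 89 84 768 [(1, [0xa96cf501874047124e8970aeb33612, 0xa58a892e267c1a09aab73b92c10464]), (0, [0x7a6f59ae26a3600911053bacc10c2a]), (2, [0xb51375ca6eab6048b1e8118aa38c20]), (3, [0x2bef58cd6d440c492ac91ba8c38820]), (5, [0xb5de894d6da9a0c8a8b43b92418820, 0xa20b75c6464b5cc9a9f63c2a418820])] (by decide +kernel)).1
      (hc.orbS_eq hK hg hC 512 677 672 96 [(0, [0x4dab7744d2a4da05b1e55410208c87]), (2, [0x74606a55f79a4a74324b559a220c20]), (3, [0x84dc6ad2ef8d9072aa4b625a320820]), (5, [0x94dd1b5e89354ac42a0b3bda418820, 0x33a70abd349590c2aa2d3dd6418820])] (by decide +kernel)).1),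
    (by
    have hg : allL (fxF inM 3 mT0) [0x20c0a5b8d3141b48d4e14c9882decf, 0x9422d20d4231c0f0d5732b1c8bd934] = true := by decide +kernel
    have hx : ∀ x ∈ [0x1d0a2040508020001482054800a00300, 0x149000000f400a40824020098100342000, 0x310100400c800012560040200ca00982000, 0xc021082400800002700b040600500110880], decF 6 x ∈ sextets := by
      intro x hx
      refine decF_mem_sextets ?_
      revert x; decide +kernel
    exact part4 hj (D := decF 6) (smul_mem_sextets g) (fun k _ b hb => (smul_mem_sextets k b).2 hb) hx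
      (hc.coverF hg H6.hS 4099 513 1781 6 (fun k _ b hb => (smul_mem_sextets k b).2 hb) (fun b hb => hb.1) hx (by rw [sextets_main.1]; decide +kernel))
      (hc.orbF_eq hK hg H6.hS 4099 513 12 (hx _ (by simp)).1 7 9216 [(0, [0x74d71128676848f61650b00c84d697, 0x9460d4bd05352a2b116e1de6c51c01]), (1, [0x84d6d4daf433ea72b1d20a22219140]), (3, [0x6c8d0b95345bea7b3233521c220c20]), (2, [0x5c606496ef6d2acb1e4e5226219020]), (5, [0x5c613a22d56a5ecba9d2394c418820, 0x71a4d7d4a89de8c4a9703da2418820, 0x9c8cbbd90573d2ca29b13d60418820, 0x2a695835d34464c32acf3aee418820])] (by decide +kernel))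
      (hc.orbF_eq hK hg H6.hS 4099 513 89 (hx _ (by simp)).1 84 768 [(0, [0x939664268f856c42aa3365da718402, 0x4553689a0ebcd61902851b5e23918a]), (2, [0x736704bcb65dd0aa92463d22c08c40]), (1, [0xa2136719b12c96c811f73ceaa08860]), (5, [0x71a4d7d4a89de8c4a9703da2418820, 0x9c8cbbd90573d2ca29b13d60418820, 0x5c613a22d56a5ecba9d2394c418820, 0x33a70abd349590c2aa2d3dd6418820])] (by decide +kernel))
      (hc.orbF_eq hK hg H6.hS 4099 513 341 (hx _ (by simp)).1 336 192 [(0, [0xad2f6090e328946035098b1f283a6b, 0x8cdb02002a30d953d24e2897643ee9]), (3, [0xbd6d46c6467ae63729252410760820, 0xa5ab769a114ae64729e81c8ac38820]), (5, [0x7d6c971a11bcd6c6aa853c90418820])] (by decide +kernel))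
      (hc.orbF_eq hK hg H6.hS 4099 513 1349 (hx _ (by simp)).1 1344 48 [(0, [0x60827744d02366959460a49577d516]), (1, [0x7a2a98b9b3a1a0792af622ca360440]), (3, [0x7daa95c0d2bb5c39aa88244a760820, 0x4daaf74646a4d676aae8640a320820])] (by decide +kernel)))⟩

end Cfsg.Agent.S5612
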