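import Cfsg.Statements.S5613
import Cfsg.Agent.H6.Enum

set_option autoImplicit false
open scoped Pointwise
open Cfsg

namespace Cfsg.Agent.S5613
open H6 Finset MulAction
open scoped Pointwise
set_option maxRecDepth 100000

/-- In the group of the length-24 code, the joint stabiliser of two octads has order 10752, 1152 or 720 according as the octads meet in 0, 4 or 2 points. -/
theorem result (o o' : Finset Cfsg.GolayPt) (ho : o ∈ Cfsg.octads) (ho' : o' ∈ Cfsg.octads) : ((o ∩ o').card = 0 → Nat.card ↥(MulAction.stabilizer Cfsg.M24 o ⊓ MulAction.stabilizer Cfsg.M24 o') = 10752) ∧ ((o ∩ o').card = 4 → Nat.card ↥(MulAction.stabilizer Cfsg.M24 o ⊓ MulAction.stabilizer Cfsg.M24 o') = 1152) ∧ ((o ∩ o').card = 2 → Nat.card ↥(MulAction.stabilizer Cfsg.M24 o ⊓ MulAction.stabilizer Cfsg.M24 o') = 720) := by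
  have key : ∀ m d e ls, (Nat.ble m 16777215 && Nat.ble d (orbS hC 512 gO 500 m) && Nat.ble e (chain ls (fxS (fxS inM 0x149f) m)) &&
      Nat.beq 322560 (Nat.mul d e)) = true → (isCw m && Nat.beq (pc m) 8) = true → (o ∩ o').card = pc (0x149f &&& m) →
      Nat.card ↥(stabilizer M24 o ⊓ stabilizer M24 o') = e := fun m d e ls h1 h2 h3 => by
    obtain ⟨g, rfl⟩ := tr_octad O0_mem ho
    obtain ⟨k, hk, rfl⟩ := tr_oct_oct ho ((smul_mem_octads g _).2 (dec_mem_octads h2)) ho' (by
      rw [H6.card_smul_inter, h3, O0, ← dec_and, card_dec])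
    rw [← ((ckS 0x149f).orbS_eq (card_stab_octad O0_mem) gO_ok hC 512 500 d e ls h1).2]
    exact ((Cj.stab' (g := k * g) (by rw [mul_smul]; exact hk)).inf (Cj.stab' (mul_smul _ _ _))).card
  exact ⟨fun h => key 0xf6840 30 _ [(0, [0xba51472e66aca2a688af1c2c039181, 0x45e8992e06b45aa705f51cca70088c]), (2, [0x45ed583971a3664909e9098a351d80]), (1, [0x4d91432dae7c227906f564ca418940, 0x2beb79c5c64c9a481ec81ae8150980]), (3, [0xb26888b9abac0c7928af64ee320820, 0xa5ab769a114ae64729e81c8ac38820]), (5, [0x451368ae6e2c0cc92ab73b5e418820, 0x7d6c971a11bcd6c6aa853c90418820, 0xabee5339abb4a2c829093ce8418820])] (by decide +kernel) (by decide +kernel) (by rw [h]; decide +kernel),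
    fun h => key 0x293e 280 _ [(1, [0x74af034e34abcac6a92b0590111067]), (0, [0x75df035a899c96a68228654a219027]), (2, [0xb269784e46ac5676b1e55390220c20]), (3, [0xacaf035a3473daa2b1283cd6320820]), (5, [0x9a637a39f2ac0aa59ccd6590418820, 0x94dd1b5e89354ac42a0b3bda418820]), (6, [0x7520f4cee6b450a69e4b654a418820])] (by decide +kernel) (by decide +kernel) (by rw [h]; decide +kernel),
    fun h => key 0x7b42 448 _ [(0, [0x2cdf485eb28a121589a603aca21d83]), (2, [0x816f195ab49b56c311c81a5e251c20]), (3, [0x2ce168be95bb96131d2d2224350980]), (1, [0xadaf48c2727acc171d09534a418980]), (4, [0x7daf1a1672aa1cc3116d5260718820])] (by decide +kernel) (by decide +kernel) (by rw [h]; decide +kernel)⟩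

end Cfsg.Agent.S5613
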