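import Cfsg.Statements.S5614
import Cfsg.Agent.H0.M24x
import Cfsg.Agent.S5613


set_option autoImplicit false
open scoped Pointwise
open Cfsg

namespace Cfsg.Agent.S5614

open H0 H6 Finset MulAction
open scoped Pointwise
set_option maxRecDepth 100000

/-- In the group of the length-24 code, the joint stabiliser of two octads meeting in exactly two points is isomorphic to the symmetric group of degree 6. -/
theorem result (o o' : Finset Cfsg.GolayPt) (ho : o ∈ Cfsg.octads) (ho' : o' ∈ Cfsg.octads) (h₂ : (o ∩ o').card = 2) : Nonempty (↥(MulAction.stabilizer Cfsg.M24 o ⊓ MulAction.stabilizer Cfsg.M24 o') ≃* Equiv.Perm (Fin 6)) := by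
  have h6 : (o \ o').card = 6 := by rw [card_sdiff, (mem_octads.1 ho).2, inter_comm, h₂]
  refine equiv_perm_of_faithful (s := o \ o') (fun g hg => show g • (o \ o') = _ by rw [smul_finset_sdiff, hg.1, hg.2]) (fun g hg h => ?_) h6
    ((Cfsg.Agent.S5613.result o o' ho ho').2.2 h₂).ge
  have h1 : g ∈ fxs o := fxs_octad h6 ho sdiff_subset ▸ mem_fxs.2 h
  obtain ⟨k, rfl⟩ := tr_octad O0_mem ho
  obtain ⟨l, hl, rfl⟩ := tr_oct_oct ho ((smul_mem_octads k _).2 (dec_mem_octads (m := 0x7b42) (by decide +kernel))) ho' (by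
    rw [H6.card_smul_inter, h₂, O0, ← dec_and, card_dec]; decide +kernel)
  have e : (l * k) • O0 = k • O0 := by rw [mul_smul]; exact hl
  obtain ⟨t, ht, h2, h3⟩ := mem_E16 ((Cj.fixing (l * k) O0 g).1 (e ▸ h1))
  have h4 : E t • dec 0x7b42 = dec 0x7b42 := h3 ▸ (Cj.stab' (mul_smul l k _) g).1 hg.2
  rw [h2.smul_eq_iff, enc_dec (by decide)] at h4
  have := allL_iff.1 (by decide +kernel : allL (fun t => !Nat.beq (img t 0x7b42) 0x7b42 || Nat.beq t idT) (prods trE idT []) = true) t ht
  rw [h4, Bool.not_true, Bool.false_or, Nat.beq_eq] at this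
  rw [this, E_idT] at h3
  rw [← mul_inv_cancel_left (l * k) g, ← mul_inv_cancel_right ((l * k)⁻¹ * g) (l * k), ← h3]; group

end Cfsg.Agent.S5614
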