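import Cfsg.Statements.S5615
import Cfsg.Agent.H0.M24x


set_option autoImplicit false
open scoped Pointwise
open Cfsg

namespace Cfsg.Agent.S5615

open H0 H6 Finset MulAction
open scoped Pointwise
set_option maxRecDepth 100000
def A : Set (Finset (Finset Cfsg.GolayPt)) := {T | T ∈ Cfsg.trios ∧ O0 ∈ T}
theorem inv : ∀ g ∈ stabilizer Cfsg.M24 O0, ∀ T ∈ A, g • T ∈ A := fun g hg _ h =>
  ⟨(smul_mem_trios _ _).2 h.1, (show g • O0 = O0 from hg) ▸ smul_mem_smul_finset h.2⟩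
theorem a0 : T0 ∈ A := ⟨T0_mem, by decide +kernel⟩
theorem o1 : orb (stabilizer Cfsg.M24 O0) T0 = A := (orb_subset inv a0).antisymm fun T h => by
  obtain ⟨b, hb, n⟩ := exists_mem_ne (s := T) (by rw [h.1.1]; decide) O0
  obtain ⟨g, h1, h2⟩ := tr_disjoint_octads O0_mem O1_mem O0_mem (h.1.2.1 b hb) (by decide +kernel) (h.1.2.2 _ h.2 _ hb n.symm)
  refine ⟨g, h1, ?_⟩
  rw [trio_eq h.1 h.2 hb n.symm]
  exact trio_eq ((smul_mem_trios g _).2 T0_mem) (inv g h1 _ a0).2 (h2 ▸ smul_mem_smul_finset (by decide +kernel)) n.symm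
theorem c1 : (orb (stabilizer Cfsg.M24 O0) T0).ncard = 15 ∧ Nat.card ↥(stabilizer Cfsg.M24 O0 ⊓ stabilizer Cfsg.M24 T0) = 21504 :=
  ncard_orb_eq (card_stab_octad O0_mem) (le_trans (by decide +kernel) ((ckS 0x149f).orbF_le gO_ok H6.hT 16384 2048 20 (n := 3) (m := mT0) T0_mem.1))
    (le_trans (by decide +kernel) (((ckS 0x149f).fxF 3 mT0).chain_le [(0, [0x3466e2dae86bea049e0b5524c20462, 0xb3d1599a4d4c2237069712cac510e0]), (1, [0x2d537945d07acca69d1414ec360480]), (2, [0x5cdd245a89695eab90d11d60c11c20, 0xa20af8add34c24c30af5236c71a820]), (3, [0x748cda16b69a5e3ba9712220760820, 0xb5128335d3aca24828b71adec38820]), (5, [0x4950f6c0d2a2e6c72af53c6c418820, 0x5c613a22d56a5ecba9d2394c418820, 0x6c22e496b65d2ec7aa663a24418820, 0x2a695835d34464c32acf3aee418820])])) rfl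
theorem am {m : ℕ} (h : m ∈ [0xc24a603da10000149f, 0x8bc120742a4000149f, 0xa54b005aa06000149f]) : decF 3 m ∈ A := ⟨decF_mem_trios (by revert m; decide +kernel), by revert m; decide +kernel⟩
theorem l1 : 14 ≤ (orb (stabilizer Cfsg.M24 O0 ⊓ stabilizer Cfsg.M24 T0) (decF 3 0xc24a603da10000149f)).ncard :=
  le_trans (by decide +kernel) (((ckS 0x149f).fxF 3 mT0).orbF_le (gs := [0xa55f79c0ce44a2058ec52352a60447, 0x699d2b52af85ca449e6b1a22150980]) (by decide +kernel) H6.hT 16384 2048 20 (am (by simp)).1.1)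
theorem two {T T' : Finset (Finset Cfsg.GolayPt)} (h : T ∈ A) (h' : T' ∈ A) (n : T ≠ T') : ∃ g : Cfsg.M24, g • O0 = O0 ∧ g • T0 = T ∧ g • decF 3 0xc24a603da10000149f = T' := by
  obtain ⟨g, hg, rfl⟩ := o1.ge h
  have := orb_eq (K := stabilizer Cfsg.M24 O0 ⊓ stabilizer Cfsg.M24 T0) (A := A \ {T0}) (Set.toFinite _)
    (fun g hg b hb => ⟨inv g hg.1 b hb.1, fun e => hb.2 ((smul_eq_iff_of_stab hg.2).1 e)⟩) ⟨am (by simp), by rw [Set.mem_singleton_iff]; decide +kernel⟩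
    (le_trans (by rw [Set.ncard_diff_singleton_of_mem a0, ← o1, c1.1]) l1)
  obtain ⟨l, hl, e⟩ := this.ge (show g⁻¹ • T' ∈ _ from ⟨inv _ (inv_mem hg) _ h', fun e => n (inv_smul_eq_iff.1 e).symm⟩)
  exact ⟨g * l, mul_mem hg hl.1, by rw [mul_smul, hl.2], by rw [mul_smul, e, smul_inv_smul]⟩
theorem ker (g : Cfsg.M24) (hg : g ∈ stabilizer Cfsg.M24 O0) : (∀ T ∈ A, g ∈ stabilizer Cfsg.M24 T) ↔ g ∈ fxs O0 := by
  have a : ∀ g ∈ fxs O0, ∀ T ∈ A, g ∈ stabilizer Cfsg.M24 T := fun g hg T hT => by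
    obtain ⟨l, hl, rfl⟩ := o1.ge hT
    obtain ⟨t, ht, -, e⟩ := mem_E16 ((Cj.fixing l O0 g).1 ((show l • O0 = O0 from hl).symm ▸ hg))
    exact (Cj.stab l T0 g).2 (e ▸ (ckF 3 mT0 t (allL_iff.1 (by decide +kernel : allL (fxF inM 3 mT0) (prods trE idT []) = true) t ht)).2)
  refine ⟨fun h => ?_, a g⟩
  have k1 := ((ckS 0x149f).fxF 3 mT0).fxF 3 0xc24a603da10000149f
  have c2 := card_le_of_orb c1.2.le l1 (e := 1536) (by decide) (by decide)
  have c3 := card_le_of_orb c2 (d := 12) (e := 128) (le_trans (by decide +kernel) (k1.orbF_le (gs := [0x454a972e06b3620911f73ce8353022, 0x59a12a552f9dd0cb0e2d015ca21c22]) (by decide +kernel) H6.hT 16384 2048 20 (am (m := 0x8bc120742a4000149f) (by simp)).1.1)) (by decide) (by decide)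
  have c4 := card_le_of_orb c3 (d := 8) (e := 16) (le_trans (by decide +kernel) ((k1.fxF 3 0x8bc120742a4000149f).orbF_le (gs := [0xba6b49b5d044641582cf198a23918a, 0x71a4d452ef996a2b0d700262153087, 0x7d53671a712c160906971350321d4c]) (by decide +kernel) H6.hT 16384 2048 20 (am (m := 0xa54b005aa06000149f) (by simp)).1.1)) (by decide) (by decide)
  exact (Subgroup.eq_of_le_of_card_ge (H := fxs O0) (K := stabilizer _ O0 ⊓ _ ⊓ _ ⊓ _ ⊓ _) (fun g hg => ⟨⟨⟨⟨smul_eq_of_fix (mem_fxs.1 hg), a g hg _ a0⟩, a g hg _ (am (by simp))⟩, a g hg _ (am (by simp))⟩, a g hg _ (am (by simp))⟩)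
    (c4.trans (card_fix_octad O0_mem).ge)).ge ⟨⟨⟨⟨hg, h _ a0⟩, h _ (am (by simp))⟩, h _ (am (by simp))⟩, h _ (am (by simp))⟩

/-- An octad of the length-24 code lies in exactly 15 trios; the stabiliser of the octad in the code's group acts doubly transitively on these 15 trios, and the kernel of this action is the pointwise stabiliser of the octad. -/
theorem result (o : Finset Cfsg.GolayPt) (ho : o ∈ Cfsg.octads) : {T : Finset (Finset Cfsg.GolayPt) | T ∈ Cfsg.trios ∧ o ∈ T}.ncard = 15 ∧ (∀ T₁ T₂ T₁' T₂' : Finset (Finset Cfsg.GolayPt), T₁ ∈ Cfsg.trios → T₂ ∈ Cfsg.trios → T₁' ∈ Cfsg.trios → T₂' ∈ Cfsg.trios → o ∈ T₁ → o ∈ T₂ → o ∈ T₁' → o ∈ T₂' → T₁ ≠ T₂ → T₁' ≠ T₂' → ∃ g ∈ Cfsg.M24, g • o = o ∧ g • T₁ = T₁' ∧ g • T₂ = T₂') ∧ ∀ g ∈ Cfsg.M24, g • o = o → ((∀ T ∈ Cfsg.trios, o ∈ T → g • T = T) ↔ ∀ p ∈ o, g p = p) := by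
  obtain ⟨k, rfl⟩ := tr_octad O0_mem ho
  have m : ∀ T : Finset (Finset Cfsg.GolayPt), T ∈ Cfsg.trios → k • O0 ∈ T → k⁻¹ • T ∈ A := fun T h1 h2 => ⟨(smul_mem_trios _ _).2 h1, (mem_inv_smul ..).2 h2⟩
  refine ⟨(ncard_transport k (A := A) fun T => by rw [Set.mem_setOf_eq, smul_mem_trios, smul_mem_smul_finset_iff]; rfl).trans (o1 ▸ c1.1),
    fun T₁ T₂ T₁' T₂' a b c d e f g h n n' => ?_, fun g hg h => ?_⟩
  · obtain ⟨x, h1, h2, h3⟩ := two (m _ a e) (m _ b f) fun e => n (smul_left_cancel _ e)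
    obtain ⟨y, h4, h5, h6⟩ := two (m _ c g) (m _ d h) fun e => n' (smul_left_cancel _ e)
    refine ⟨(k * y * x⁻¹ * k⁻¹ : Cfsg.M24), Subtype.property _, ?_, ?_, ?_⟩
    · rw [← smul_set_def, mul_smul, mul_smul, mul_smul, inv_smul_smul, inv_smul_eq_iff.2 h1.symm, h4]
    · rw [← smul_fam_def, mul_smul, mul_smul, mul_smul, ← h2, inv_smul_smul, h5, smul_inv_smul]
    · rw [← smul_fam_def, mul_smul, mul_smul, mul_smul, ← h3, inv_smul_smul, h6, smul_inv_smul]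
  · have h : (⟨g, hg⟩ : Cfsg.M24) ∈ stabilizer Cfsg.M24 (k • O0) := by rw [mem_stabilizer_iff, smul_set_def]; exact h
    have := ker _ ((Cj.stab k O0 ⟨g, hg⟩).1 h)
    replace this := (this.trans (Cj.fixing k O0 ⟨g, hg⟩).symm).trans mem_fxs
    refine Iff.trans ⟨fun H T hT => (Cj.stab k T ⟨g, hg⟩).1 (H _ ((smul_mem_trios _ _).2 hT.1) (smul_mem_smul_finset hT.2)), fun H T h1 h2 => ?_⟩ this
    have := (Cj.stab k _ ⟨g, hg⟩).2 (H _ (m T h1 h2))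
    rwa [smul_inv_smul] at this

end Cfsg.Agent.S5615
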