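import Cfsg.Statements.S5616
import Cfsg.Agent.H0.M24x
import Cfsg.Agent.H6.AMod


set_option autoImplicit false
open scoped Pointwise
open Cfsg

namespace Cfsg.Agent.S5616

open H0 H6 Finset MulAction
open scoped Pointwise
set_option maxRecDepth 100000
def f (Y : Finset Cfsg.GolayPt) (S : Finset (Finset Cfsg.GolayPt)) : ℕ := (S.filter fun t => (t ∩ Y).Nonempty).card
theorem finv (g : Cfsg.M24) (Y : Finset Cfsg.GolayPt) (S : Finset (Finset Cfsg.GolayPt)) : f (g • Y) (g • S) = f Y S := by
  rw [f, smul_finset_def (s := S), filter_image, card_image_of_injective _ (MulAction.injective g)]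
  simp only [← smul_finset_inter, smul_finset_nonempty, f]

/-- Let Y be a set of 3 of the 24 points. The sextets of the length-24 code whose tetrads meeting Y number 1, 2 or 3 are respectively 21, 630 and 1120 in number, and two sextets with the same number of tetrads meeting Y are conjugate under the setwise stabiliser of Y in the code's group. -/
theorem result (Y : Finset Cfsg.GolayPt) (hY : Y.card = 3) : {S : Finset (Finset Cfsg.GolayPt) | S ∈ Cfsg.sextets ∧ (S.filter fun t => (t ∩ Y).Nonempty).card = 1}.ncard = 21 ∧ {S : Finset (Finset Cfsg.GolayPt) | S ∈ Cfsg.sextets ∧ (S.filter fun t => (t ∩ Y).Nonempty).card = 2}.ncard = 630 ∧ {S : Finset (Finset Cfsg.GolayPt) | S ∈ Cfsg.sextets ∧ (S.filter fun t => (t ∩ Y).Nonempty).card = 3}.ncard = 1120 ∧ ∀ S S' : Finset (Finset Cfsg.GolayPt), S ∈ Cfsg.sextets → S' ∈ Cfsg.sextets → (S.filter fun t => (t ∩ Y).Nonempty).card = (S'.filter fun t => (t ∩ Y).Nonempty).card → ∃ g ∈ Cfsg.M24, g • Y = Y ∧ g • S = S' := by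
  obtain ⟨k, rfl⟩ := tr_set (s := dec 7) (t := Y) (by rw [hY]; decide +kernel) (by decide +kernel)
  have hx : ∀ x ∈ [0x824020400a4034200009810000149000000f, 0x84804068400013020000292000148100001e, 0xa2080041a0001006100850020400490001a4], decF 6 x ∈ Cfsg.sextets := fun x hx => decF_mem_sextets (by revert x; decide +kernel)
  have lo : ∀ x n, decF 6 x ∈ Cfsg.sextets → n ≤ orbF H6.hS 4099 6 513 [0x89cb2712cd5312fac0cb1de8898440, 0x99db270ec6232af824a852e37a0022] 1200 x → k • decF 6 x ∈ Cfsg.sextets ∧ n ≤ (orb (stabilizer Cfsg.M24 (k • dec 7)) (k • decF 6 x)).ncard :=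
    fun x n h1 h2 => ⟨(smul_mem_sextets _ _).2 h1, (h2.trans ((ckS 7).orbF_le (gs := [0x89cb2712cd5312fac0cb1de8898440, 0x99db270ec6232af824a852e37a0022]) (by decide +kernel) _ _ _ _ h1.1)).trans_eq ((Cj.stab k (dec 7)).ncard_orb (decF 6 x)).symm⟩
  have e1 : f (k • dec 7) (k • decF 6 0x824020400a4034200009810000149000000f) = 1 := (finv ..).trans (by decide +kernel)
  have e2 : f (k • dec 7) (k • decF 6 0x84804068400013020000292000148100001e) = 2 := (finv ..).trans (by decide +kernel)
  have e3 : f (k • dec 7) (k • decF 6 0xa2080041a0001006100850020400490001a4) = 3 := (finv ..).trans (by decide +kernel)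
  obtain ⟨h1, h2⟩ := decomp (K := stabilizer Cfsg.M24 (k • dec 7)) (f := f (k • dec 7)) (fun g hg S => by rw [← finv g _ S, show g • k • dec 7 = _ from hg])
    [(k • decF 6 0x824020400a4034200009810000149000000f, 21), (k • decF 6 0x84804068400013020000292000148100001e, 630), (k • decF 6 0xa2080041a0001006100850020400490001a4, 1120)] (A := Cfsg.sextets) (Set.toFinite _) (fun g _ S h => (smul_mem_sextets _ _).2 h)
    (by simp only [List.forall_mem_cons]; exact ⟨lo _ _ (hx _ (by simp)) (by decide +kernel), lo _ _ (hx _ (by simp)) (by decide +kernel), lo _ _ (hx _ (by simp)) (by decide +kernel), by simp⟩)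
    (by simp only [List.map, e1, e2, e3]; decide) sextets_main.1.le
  refine ⟨?_, ?_, ?_, fun S S' hS hS' e => ?_⟩
  · have := h1 _ (.head _); rw [e1] at this; exact this.1 ▸ this.2
  · have := h1 _ (.tail _ (.head _)); rw [e2] at this; exact this.1 ▸ this.2
  · have := h1 _ (.tail _ (.tail _ (.head _))); rw [e3] at this; exact this.1 ▸ this.2
  · obtain ⟨z, hz, e'⟩ := h2 S hS
    obtain ⟨g, hg, e⟩ := orb_trans ((h1 z hz).1.ge ⟨hS, e'⟩) ((h1 z hz).1.ge ⟨hS', e.symm.trans e'⟩)
    exact ⟨g, g.2, hg, e⟩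

end Cfsg.Agent.S5616
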