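import Cfsg.Statements.S5617
import Cfsg.Agent.H6.Enum

set_option autoImplicit false
open scoped Pointwise
open Cfsg

namespace Cfsg.Agent.S5617
open H6 Finset MulAction
open scoped Pointwise
set_option maxRecDepth 100000

/-- The setwise stabiliser, in the group of the length-24 code, of a complementary pair of dodecads has exactly three orbits on the 1771 sextets, of sizes 396, 495 and 880. -/
theorem result (d : Finset Cfsg.GolayPt) (hd : d ∈ Cfsg.dodecads) : ∃ X₁ ∈ Cfsg.sextets, ∃ X₂ ∈ Cfsg.sextets, ∃ X₃ ∈ Cfsg.sextets, (MulAction.orbit ↥(MulAction.stabilizer Cfsg.M24 ({d, Finset.univ \ d} : Finset (Finset Cfsg.GolayPt))) X₁).ncard = 396 ∧ (MulAction.orbit ↥(MulAction.stabilizer Cfsg.M24 ({d, Finset.univ \ d} : Finset (Finset Cfsg.GolayPt))) X₂).ncard = 495 ∧ (MulAction.orbit ↥(MulAction.stabilizer Cfsg.M24 ({d, Finset.univ \ d} : Finset (Finset Cfsg.GolayPt))) X₃).ncard = 880 ∧ Cfsg.sextets = MulAction.orbit ↥(MulAction.stabilizer Cfsg.M24 ({d, Finset.univ \ d} : Finset (Finset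 Cfsg.GolayPt))) X₁ ∪ MulAction.orbit ↥(MulAction.stabilizer Cfsg.M24 ({d, Finset.univ \ d} : Finset (Finset Cfsg.GolayPt))) X₂ ∪ MulAction.orbit ↥(MulAction.stabilizer Cfsg.M24 ({d, Finset.univ \ d} : Finset (Finset Cfsg.GolayPt))) X₃ := by
  obtain ⟨g, rfl⟩ := tr_dodecad D0_mem hd
  have e : decF 2 0xfacca005335f = {D0, D0ᶜ} := by decide +kernel
  have e2 : g • decF 2 0xfacca005335f = {g • D0, univ \ (g • D0)} := by
    rw [e, smul_finset_insert, smul_finset_singleton, smul_compl]; rfl
  have hc := ckF 2 0xfacca005335f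
  have hj := Cj.stab' e2
  have hK : Nat.card (stabilizer M24 (decF 2 0xfacca005335f)) = 190080 := by
    have := (ncard_orb_eq (a := decF 2 0xfacca005335f) (d := 1288) (e := 190080) card_top_M24 (le_trans (by decide +kernel)
      (ck_top.orbF_le gM_ok (fun m => Nat.mul (bit m 0) (hC m)) 4096 512 1300 (card_decF (by decide +kernel))))
      (le_trans (by decide +kernel) ((ck_top.fxF 2 0xfacca005335f).chain_le [(0, [0x620034dcd16c28b905d623c533d4aa, 0x5ded3a81e6a386151e4828a2d61130]), (1, [0x29eea985628d110ad9847a5d268cc0]), (3, [0x3dea5712329d202559ac5a1e930c20, 0x3adc57c146acda3bc589b0a8444820]), (2, [0xa3ceab0a728ad86715a8aa6f019020, 0xa4eeab21e95c5a4755822c8f019820]), (4, [0x2bd47b11c65c5929d209aa2ed18820, 0x89df3ac2eda150655992591c918820])])) rfl).2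
    rwa [top_inf_eq] at this
  exact (by
    have hg : allL (fxF inM 2 0xfacca005335f) [0x2dab798dc653c81a464c3c16d12408, 0xa403828d1222f6649cf12db3a94f4] = true := by decide +kernel
    have hx : ∀ x ∈ [0x8081104820081108040000a3004640261000, 0x149000000f400a40824020098100342000, 0xc021082400800002700b040600500110880], decF 6 x ∈ sextets := by
      intro x hx
      refine decF_mem_sextets ?_
      revert x; decide +kernel
    exact part3 hj (D := decF 6) (smul_mem_sextets g) (fun k _ b hb => (smul_mem_sextets k b).2 hb) hx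
      (hc.coverF hg H6.hS 4099 513 1781 6 (fun k _ b hb => (smul_mem_sextets k b).2 hb) (fun b hb => hb.1) hx (by rw [sextets_main.1]; decide +kernel))
      (hc.orbF_eq hK hg H6.hS 4099 513 401 (hx _ (by simp)).1 396 480 [(0, [0x230239141341aa76a5d712a0f8d974, 0x754b7880e852e417d049b4266611a3]), (2, [0xb29f5722ec9d1248ae03388ad34820]), (3, [0x756eb8a1f055984a4da628ce990820])] (by decide +kernel))
      (hc.orbF_eq hK hg H6.hS 4099 513 500 (hx _ (by simp)).1 495 384 [(0, [0x924d4540f80a8b6255331c762baf1, 0x1c08c92814684f6419f54cc4b2de2e]), (1, [0xbaacb7a4a89c4d23d090ab1cd10460]), (4, [0x2d0eab11c95dd90abe469b62810c20]), (2, [0x8da6fac2f2a390c59ccd524a410c20])] (by decide +kernel))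
      (hc.orbF_eq hK hg H6.hS 4099 513 885 (hx _ (by simp)).1 880 216 [(0, [0x2198081d251c9d71356f0c5149d955, 0x4840c81c8f1c9d168a8535d0b9daaa]), (1, [0x5d9519ca8379cccbd488734a980440]), (3, [0xb2e8e991437d4cdb9e508b0a940820]), (4, [0xbae957b6289ba44b1cd0524ac18820])] (by decide +kernel)))

end Cfsg.Agent.S5617
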