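import Cfsg.Statements.S5618
import Cfsg.Agent.H0.M24x


set_option autoImplicit false
open scoped Pointwise
open Cfsg

namespace Cfsg.Agent.S5618

open H0 H6 Finset MulAction
open scoped Pointwise
set_option maxRecDepth 100000

/-- For a dodecad d of the length-24 code and a hexad C on it (a 6-point intersection of d with an octad): the joint stabiliser of d and C in the code's group is isomorphic to the symmetric group of degree 6, and it acts faithfully both on the six points of C and on the six points of d outside C. -/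
theorem result (d : Finset Cfsg.GolayPt) (hd : d ∈ Cfsg.dodecads) (C : Finset Cfsg.GolayPt) (hC : C ∈ Cfsg.hexadsOn d) : Nonempty (↥(MulAction.stabilizer Cfsg.M24 d ⊓ MulAction.stabilizer Cfsg.M24 C) ≃* Equiv.Perm (Fin 6)) ∧ (∀ g ∈ MulAction.stabilizer Cfsg.M24 d ⊓ MulAction.stabilizer Cfsg.M24 C, (∀ p ∈ C, ((g : ↥Cfsg.M24) : Equiv.Perm Cfsg.GolayPt) p = p) → g = 1) ∧ ∀ g ∈ MulAction.stabilizer Cfsg.M24 d ⊓ MulAction.stabilizer Cfsg.M24 C, (∀ p ∈ d \ C, ((g : ↥Cfsg.M24) : Equiv.Perm Cfsg.GolayPt) p = p) → g = 1 := by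
  obtain ⟨h6, o, ho, rfl⟩ := hC
  have f1 : ∀ g ∈ stabilizer Cfsg.M24 d ⊓ stabilizer Cfsg.M24 (o ∩ d), (∀ p ∈ o ∩ d, g • p = p) → g = 1 :=
    fun g hg h => fix5_dod hd inter_subset_right (by omega) hg.1 h
  refine ⟨equiv_perm_of_faithful inf_le_right f1 h6 ?_, f1, fun g hg h => fix5_dod hd sdiff_subset
    (by rw [card_sdiff_of_subset inter_subset_right, (mem_dodecads.1 hd).2, h6]; decide) hg.1 h⟩
  obtain ⟨k, rfl⟩ := tr_dodecad D0_mem hd
  obtain ⟨s, hs, h5⟩ := exists_subset_card_eq (show 5 ≤ (o ∩ k • D0).card by omega)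
  obtain ⟨l, hl, e⟩ := exists_list_dodecad hd (l := (k • dec 31).toList) (l' := s.toList) (nodup_toList _) (nodup_toList _)
    (by rw [length_toList, length_toList, h5, card_smul_finset]; decide +kernel) (by rw [length_toList, card_smul_finset]; decide +kernel)
    (fun p hp => smul_finset_subset_smul_finset (show dec 31 ⊆ D0 by decide +kernel) (mem_toList.1 hp)) fun p hp => inter_subset_right (hs (mem_toList.1 hp))
  have e := smul_eq_of_map e
  have e1 : (l * k) • D0 = k • D0 := by rw [mul_smul]; exact hl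
  have e2 : (l * k) • O0 = o := octad_eq_of_five ((smul_mem_octads _ _).2 O0_mem) ho (h5 ▸ card_le_card (subset_inter
    (by rw [← e, mul_smul]; exact smul_finset_subset_smul_finset (smul_finset_subset_smul_finset (by decide +kernel))) (hs.trans inter_subset_left)))
  have e3 : (l * k) • dec 0x101f = o ∩ k • D0 := by rw [← e1, ← e2, ← smul_finset_inter]; exact congrArg _ (by decide +kernel)
  rw [((Cj.stab' e1).inf (Cj.stab' e3)).card]
  exact le_trans (by decide +kernel) (((ckS 0x5335f).fxS 0x101f).chain_le [(1, [0xb1693aa1707de4071ccd5262123043]), (0, [0x7b975b4a6da1522ba9063c22061023]), (2, [0x8dcb3a496675523b1e08535ec11020]), (3, [0xb2dd57c2262d124ba90d3ca6360820]), (4, [0xbae957b6289ba44b1cd0524ac18820])])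

end Cfsg.Agent.S5618
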