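import Cfsg.Statements.S5619
import Cfsg.Agent.H0.M24x
import Cfsg.Agent.H4.Dihed


set_option autoImplicit false
open scoped Pointwise
open Cfsg

namespace Cfsg.Agent.S5619

open H0 H6 Finset MulAction
open scoped Pointwise
set_option maxRecDepth 100000
def tr : List (ℕ × List ℕ) := [(3, [0xbdab49ca307b9ac5a928398a418820, 0x796275a286b29b09ba43a92ec48820, 0xb5e9598ce42b9a65a9098b1f090820, 0xb5dd4799509d4895c5833c8ad40820, 0xabaf63b5ec52e12a150399a2920820, 0x9954758e92bc4907d4c8736c960820, 0x9962ab42a959e487b9a3a32e430820, 0x544afab172a4cc43dd23b21d068820, 0x5ddd59a4e87d186b4483534b280820]), (4, [0xbdab49ca307b9ac5a928398a418820, 0x2ccea5b1c9b448d7d506a42f218820, 0x8aa6fa22f2a96093ac8db31c618820, 0xbae957b6289ba44b1cd0524ac18820, 0x752cb3a4a455cd0acdac7ca2818820, 0x75576518ac3dd28a3e449b63018820, 0x2bd47b11c65c5929d209aa2ed18820, 0x89df3ac2eda150655992591c918820])]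
theorem main {K G : Type*} [Group K] [Group G] [Finite K] (e : K ≃* G) (hK : Nat.card K = 72) (h9 : {x : K | x ^ 9 = 1}.ncard ≤ 9) (h3 : ∀ x : K, x ^ 9 = 1 → x ^ 3 = 1)
    (a b : K) (h4 : orderOf a = 4) (h1 : b * b = a * a) (h2 : a * b * a = b) :
    (∀ Q : Sylow 3 G, (Q : Subgroup G).Normal ∧ Nat.card Q = 9 ∧ ∀ x ∈ (Q : Subgroup G), x ^ 3 = 1) ∧ ∀ P : Sylow 2 G, Nonempty (P ≃* QuaternionGroup 2) := by
  have : Finite G := Finite.of_equiv _ e.toEquiv
  have hG : Nat.card G = 72 := (Nat.card_congr e.toEquiv).symm.trans hK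
  have : Fact (Nat.Prime 3) := ⟨Nat.prime_three⟩
  refine ⟨fun Q => ?_, fun P => ?_⟩
  · have c : Nat.card Q = 9 := by rw [Q.card_eq_multiplicity, hG]; decide +kernel
    have s : (Q : Set G) ⊆ {x | x ^ 9 = 1} := fun x hx => (congrArg Subtype.val (c ▸ pow_card_eq_one' (x := (⟨x, hx⟩ : Q)) : (⟨x, hx⟩ : Q) ^ 9 = 1) : x ^ 9 = 1)
    have q : (Q : Set G) = {x | x ^ 9 = 1} := Set.eq_of_subset_of_ncard_le s ((Set.ncard_le_ncard_of_injOn e.symm (t := {x | x ^ 9 = 1})
      (fun x hx => by rw [Set.mem_setOf_eq, ← map_pow, hx, map_one]) e.symm.injective.injOn).trans (h9.trans c.ge))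
    refine ⟨⟨fun x hx g => q.ge ?_⟩, c, fun x hx => e.symm.injective ?_⟩
    · rw [Set.mem_setOf_eq, conj_pow, s hx]; simp
    · rw [map_pow, map_one]; exact h3 _ (by rw [← map_pow, s hx, map_one])
  · have h5 : b * a * b⁻¹ = a⁻¹ := by rw [mul_inv_eq_iff_eq_mul, eq_inv_mul_iff_mul_eq, ← mul_assoc, h2]
    obtain ⟨f⟩ := H4.closure_equiv_quaternion (n := 2) (a := e a) (b := e b) (by rw [e.orderOf_eq, h4]) (by rw [← map_mul, h1, map_mul, pow_two])
      (by rw [← map_inv, ← map_inv, ← map_mul, ← map_mul, h5]) fun ⟨n, hn⟩ => by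
        obtain rfl : a ^ n = b := e.injective ((map_zpow e a n).trans hn)
        rw [← (Commute.self_zpow a n).eq, mul_inv_cancel_right, eq_inv_iff_mul_eq_one, ← pow_two] at h5
        exact absurd (h4 ▸ orderOf_dvd_of_pow_eq_one h5) (by decide)
    exact ⟨(P.equiv (Sylow.ofCard (Subgroup.closure {e a, e b}) (by rw [Nat.card_congr f.toEquiv, hG, Nat.card_eq_fintype_card, QuaternionGroup.card]; decide +kernel))).trans f⟩

/-- In the group of the length-24 code, the subgroup fixing a dodecad setwise and three of its points individually (a group of order 72) has a normal Sylow 3-subgroup that is elementary abelian of order 9, and its Sylow 2-subgroups are quaternion of order 8. -/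
theorem result (d : Finset Cfsg.GolayPt) (hd : d ∈ Cfsg.dodecads) (p q r : Cfsg.GolayPt) (hp : p ∈ d) (hq : q ∈ d) (hr : r ∈ d) (hpq : p ≠ q) (hpr : p ≠ r) (hqr : q ≠ r) : (∀ Q : Sylow 3 ↥(MulAction.stabilizer Cfsg.M24 d ⊓ MulAction.stabilizer Cfsg.M24 p ⊓ MulAction.stabilizer Cfsg.M24 q ⊓ MulAction.stabilizer Cfsg.M24 r), (Q : Subgroup ↥(MulAction.stabilizer Cfsg.M24 d ⊓ MulAction.stabilizer Cfsg.M24 p ⊓ MulAction.stabilizer Cfsg.M24 q ⊓ MulAction.stabilizer Cfsg.M24 r)).Normal ∧ Nat.card ↥Q = 9 ∧ ∀ x ∈ (Q : Subgroup ↥(MulAction.stabilizer Cfsg.M24 d ⊓ MulAction.stabilizer Cfsg.M24 p ⊓ MulAction.stabilizer Cfsg.M24 q ⊓ MulAction.stabilizer Cfsg.M24 r)), x ^ 3 = 1) ∧ ∀ P : Sylow 2 ↥(MulAction.stabilizer Cfsg.M24 d ⊓ MulAction.stabilizer Cfsg.M24 p ⊓ MulAction.stabilizer Cfsg.M24 q ⊓ MulAction.stabilizer Cfsg.M24 r), Nonempty (↥P ≃* QuaternionGroup 2) := by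
  obtain ⟨k, rfl⟩ := tr_dodecad D0_mem hd
  obtain ⟨l, hl, rfl, rfl, rfl⟩ := trD3 hd (a := k • pt 0) (b := k • pt 1) (c := k • pt 2) (a' := p) (b' := q) (c' := r) (by simp; decide) (by simp [hpq, hpr, hqr])
    (by simp only [List.mem_cons, List.not_mem_nil, or_false, forall_eq_or_imp, forall_eq, smul_mem_smul_finset_iff]; decide +kernel) (by simp [hp, hq, hr])
  have e1 : (l * k) • D0 = k • D0 := by rw [mul_smul]; exact hl
  have ck := (((ckS 0x5335f).fxP 0).fxP 1).fxP 2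
  have c72 := (ncard_orb_eq (card_M10 D0_mem (p := pt 0) (q := pt 1) (by decide +kernel) (by decide +kernel) (by decide)) (a := pt 2) (d := 10) (e := 72)
    (le_trans (by decide +kernel) ((((ckS 0x5335f).fxP 0).fxP 1).orbP_le (gs := [0x9bd76b9ab03c44c715b2a114848c20, 0x59de5709529d5a9b4503bc28461820]) (by decide +kernel) (by decide)))
    (le_trans (by decide +kernel) (ck.chain_le [(3, [0x752f68c2683ac8cabe4928d4668820, 0x3aa65aa6c3a3c888ae0db99cc90820]), (4, [0x75576518ac3dd28a3e449b63018820, 0x2bd47b11c65c5929d209aa2ed18820])])) rfl).2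
  obtain ⟨ga, ha⟩ := ck 0x2ccea5b1c9b448d7d506a42f218820 (by decide +kernel)
  obtain ⟨gb, hb⟩ := ck 0x8aa6fa22f2a96093ac8db31c618820 (by decide +kernel)
  refine main ((((Cj.stab' e1).inf (Cj.stab' (mul_smul l k _))).inf (Cj.stab' (mul_smul l k _))).inf (Cj.stab' (mul_smul l k _))).equiv c72
    ((Set.ncard_le_ncard_of_injOn Subtype.val (t := {g | g ∈ _ ∧ g ^ 9 = 1}) (fun x hx => ⟨x.2, congrArg Subtype.val hx⟩) Subtype.val_injective.injOn).trans
      ((ck.ncard_le tr (c72.le.trans (by decide +kernel)) (fun g h => h.1) (fun t => eqT (powT t 9) idT) fun t gt h =>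
        ((gt.pow 9).1.E_eq_iff gd_idT).1 ((gt.pow 9).2.trans (h.2.trans E_idT.symm))).trans (by decide +kernel)))
    (fun x hx => ?_) ⟨_, ha⟩ ⟨_, hb⟩ ?_ (Subtype.ext ((gb.mul_eq_iff gb ga ga).2 (by decide +kernel))) (Subtype.ext ?_)
  · obtain ⟨t, gt, e, h⟩ := ck.forall_mem tr (c72.le.trans (by decide +kernel)) (fun t => !eqT (powT t 9) idT || eqT (powT t 3) idT) (by decide +kernel) x.1 x.2
    rw [((gt.pow 9).1.E_eq_iff gd_idT).1 ((gt.pow 9).2.trans (e ▸ (congrArg Subtype.val hx).trans E_idT.symm)), Bool.not_true, Bool.false_or,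
      ← (gt.pow 3).1.E_eq_iff gd_idT, (gt.pow 3).2, e, E_idT] at h
    exact Subtype.ext h
  · exact (Subgroup.orderOf_coe _).symm.trans (orderOf_eq_prime_pow (p := 2) (n := 1) ((ga.pow 2).2 ▸ (ga.pow 2).1.ne_one_iff.2 (by decide +kernel)) (ga.pow_eq_one (by decide +kernel)))
  · show E _ * E _ * E _ = E _
    rw [← ga.E_mul gb, ← (ga.mul gb).E_mul ga]; exact congrArg _ (by decide +kernel)

end Cfsg.Agent.S5619
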