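import Cfsg.Statements.S5620
import Cfsg.Agent.H6.More

set_option autoImplicit false
open scoped Pointwise
open Cfsg

namespace Cfsg.Agent.S5620
open H6 Finset MulAction
open scoped Pointwise
set_option maxRecDepth 100000

/-- Inside the stabiliser of the dodecad of squares (a Mathieu group of degree 12), the stabiliser of the residue 0 (a point of the dodecad) and the stabiliser of the extra point (a point outside the dodecad) are isomorphic but not conjugate; conjugation by a suitable element of the code's group that maps the dodecad of squares onto its complement carries the first onto the second. -/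
theorem result : Nonempty (↥(Cfsg.Spor.M12 ⊓ MulAction.stabilizer (Equiv.Perm Cfsg.GolayPt) (none : Cfsg.GolayPt)) ≃* ↥Cfsg.Spor.M11) ∧ (¬ ∃ k ∈ Cfsg.Spor.M12, MulAut.conj k • Cfsg.Spor.M11 = Cfsg.Spor.M12 ⊓ MulAction.stabilizer (Equiv.Perm Cfsg.GolayPt) (none : Cfsg.GolayPt)) ∧ ∃ g ∈ Cfsg.M24, g • Cfsg.Spor.squareDodecad = Finset.univ \ Cfsg.Spor.squareDodecad ∧ MulAut.conj g • Cfsg.Spor.M11 = Cfsg.Spor.M12 ⊓ MulAction.stabilizer (Equiv.Perm Cfsg.GolayPt) (none : Cfsg.GolayPt) := by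
  obtain ⟨g, h1, h2⟩ := tr_dodecad_pt (d := D0ᶜ) (p := none) ⟨CC_compl D0_mem.1, by decide +kernel⟩ (by decide +kernel)
  have h3 : MulAut.conj g.1 • Spor.M11 = Spor.M12 ⊓ stabilizer (Equiv.Perm GolayPt) (none : GolayPt) := by
    ext x
    rw [Subgroup.mem_pointwise_smul_iff_inv_smul_mem]
    have e : (MulAut.conj g.1)⁻¹ • x = g.1⁻¹ * x * g.1 := by simp
    have a1 := Cj.stab' (show g.1 • D0 = D0ᶜ from h1) x
    have a2 := Cj.stab' (show g.1 • (some 0 : GolayPt) = none from h2) x
    have a3 := Cj.self (K := M24) g.2 x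
    have a4 : x ∈ stabilizer (Equiv.Perm GolayPt) D0ᶜ ↔ x ∈ stabilizer (Equiv.Perm GolayPt) D0 := by
      rw [mem_stabilizer_iff, mem_stabilizer_iff, smul_compl, compl_inj_iff]
    simp only [e, Spor.M11, Spor.M12, Subgroup.mem_inf, sqD_eq, ← a1, ← a2, ← a3, a4]
  refine ⟨⟨(MulEquiv.subgroupCongr h3.symm).trans (Subgroup.equivSMul _ _).symm⟩, ?_, g.1, g.2, ?_, h3⟩
  · rintro ⟨k, hk, e⟩
    have t := ((ckS 0x5335f).fxP 23) 0xbda7439a242a812abc6c5a1c24860d (by decide +kernel)
    have h4 : (E 0xbda7439a242a812abc6c5a1c24860d).1 ∈ MulAut.conj k • Spor.M11 := by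
      rw [e]; exact ⟨⟨Subtype.prop _, by rw [sqD_eq]; exact t.2.1⟩, t.2.2⟩
    rw [Subgroup.mem_pointwise_smul_iff_inv_smul_mem] at h4
    have h5 : E 0xbda7439a242a812abc6c5a1c24860d • k • (some 0 : GolayPt) = k • (some 0 : GolayPt) := by
      have : (k⁻¹ * (E 0xbda7439a242a812abc6c5a1c24860d).1 * k) • (some 0 : GolayPt) = some 0 := by simpa using h4.2
      rwa [mul_smul, mul_smul, inv_smul_eq_iff] at this
    have h6 : k • (some 0 : GolayPt) ∈ D0 := by
      have := hk.2
      rw [sqD_eq] at this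
      exact (smul_mem_of_stab this).2 (by decide +kernel)
    exact absurd ((t.1.fix_iff (m := 0xd20000) (by decide +kernel) _).2 h5)
      ((by decide +kernel : ∀ p ∈ D0, p ∉ dec 0xd20000) _ h6)
  · rw [sqD_eq, ← compl_eq_univ_sdiff]; exact h1

end Cfsg.Agent.S5620
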