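import Cfsg.Statements.S5621
import Cfsg.Agent.H0.Gol


set_option autoImplicit false
open Cfsg

namespace Cfsg.Agent.S5621

open H6 H0.St Finset MulAction
open scoped Pointwise
set_option maxRecDepth 100000

/-- Let C be a self-dual binary code of length 24 with minimum weight at least 8 (a 12-dimensional subspace of the 24-dimensional space over the field with two elements, any two of whose words have dot product zero, with no non-zero word of weight below 8 — an abstract extended binary Golay code). Then C is doubly even: every word of C has weight divisible by 4. -/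
theorem result (C : Submodule (ZMod 2) (Fin 24 → ZMod 2)) (hdim : Module.finrank (ZMod 2) C = 12) (horth : ∀ v ∈ C, ∀ w ∈ C, ∑ i, v i * w i = 0) (hmin : ∀ w ∈ C, w ≠ 0 → 8 ≤ hammingNorm w) : ∀ w ∈ C, 4 ∣ hammingNorm w := by
  obtain ⟨e, he⟩ := code_iso (Fintype.card_fin 24) (card_of_rank hdim) hmin fun w hw => even_of_orth (horth w hw w hw)
  intro w hw
  have h1 : (fun i => w (e (e.symm i))) = w := by simp
  have h2 := CC_card (mem_code_iff_support.1 ((he fun p => w (e p)).2 (h1.symm ▸ hw)))
  rw [← h1, norm_eq, supp_comp e fun p => w (e p), card_im]
  omega

end Cfsg.Agent.S5621
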