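import Cfsg.Statements.S5624
import Cfsg.Agent.H0.Gol


set_option autoImplicit false
open Cfsg

namespace Cfsg.Agent.S5624

open H6 H0.St Finset MulAction
open scoped Pointwise
set_option maxRecDepth 100000

/-- Let C be a self-dual binary code of length 24 with minimum weight at least 8 (a 12-dimensional subspace of the 24-dimensional space over the field with two elements, any two of whose words have dot product zero, with no non-zero word of weight below 8 — an abstract extended binary Golay code). Then C is spanned, as a vector space over the field with two elements, by its words of weight 8. -/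
theorem result (C : Submodule (ZMod 2) (Fin 24 → ZMod 2)) (hdim : Module.finrank (ZMod 2) C = 12) (horth : ∀ v ∈ C, ∀ w ∈ C, ∑ i, v i * w i = 0) (hmin : ∀ w ∈ C, w ≠ 0 → 8 ≤ hammingNorm w) : Submodule.span (ZMod 2) {w : Fin 24 → ZMod 2 | w ∈ C ∧ hammingNorm w = 8} = C := by
  obtain ⟨e, he⟩ := code_iso (Fintype.card_fin 24) (card_of_rank hdim) hmin fun w hw => even_of_orth (horth w hw w hw)
  refine le_antisymm (Submodule.span_le.2 fun w hw => hw.1) fun w hw => ?_
  have h1 : (fun i => w (e (e.symm i))) = w := by simp
  have h2 := code_ind ((Submodule.span (ZMod 2) {w : Fin 24 → ZMod 2 | w ∈ C ∧ hammingNorm w = 8}).comap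
    (LinearEquiv.funCongrLeft (ZMod 2) (ZMod 2) e.symm).toLinearMap) (fun u hu => Submodule.subset_span
      ⟨(he u).1 (mem_code_iff_support.2 (mem_octads.1 hu).1), ((congrArg card (supp_comp e u)).trans
        (card_im e _)).trans (mem_octads.1 hu).2⟩) ((he fun p => w (e p)).2 (h1.symm ▸ hw))
  exact h1 ▸ h2

end Cfsg.Agent.S5624
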