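import Cfsg.Statements.S5625
import Cfsg.Agent.H0.StA


set_option autoImplicit false
open Cfsg

namespace Cfsg.Agent.S5625

open H6 H0.St Finset MulAction
open scoped Pointwise
set_option maxRecDepth 100000

/-- In any Steiner system S(5, 8, 24) and for any set Y of three points, the blocks meeting Y in exactly 3, 2, 1 and 0 points number 21, 168, 360 and 210 respectively (so there are 759 blocks in all). -/
theorem result (α : Type*) [Fintype α] [DecidableEq α] (hα : Fintype.card α = 24) (B : Set (Finset α)) (hB : Cfsg.IsSteinerSystem 5 8 B) (Y : Finset α) (hY : Y.card = 3) : {b : Finset α | b ∈ B ∧ (b ∩ Y).card = 3}.ncard = 21 ∧ {b : Finset α | b ∈ B ∧ (b ∩ Y).card = 2}.ncard = 168 ∧ {b : Finset α | b ∈ B ∧ (b ∩ Y).card = 1}.ncard = 360 ∧ {b : Finset α | b ∈ B ∧ (b ∩ Y).card = 0}.ncard = 210 := by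
  obtain ⟨e, rfl⟩ := oct_iso hα hB
  obtain ⟨Y, rfl⟩ := exists_im e Y
  rw [card_im] at hY
  obtain ⟨g, rfl⟩ := tr_set (s := dec 7) (t := Y) (hY.trans (by decide +kernel)) (by decide +kernel)
  have : ∀ n, {b | b ∈ (fun b : Finset GolayPt => b.image e) '' octads ∧ (b ∩ (g • dec 7).image e).card = n}.ncard =
      cntLt 4096 fun i => Nat.beq (pc (cw i)) 8 && Nat.beq (pc (Nat.land 7 (cw i))) n := fun n => by
    rw [ncard_im e]
    simp only [im_mem, card_inter_im]
    rw [ncard_transport g (A := {c | c ∈ octads ∧ (c ∩ dec 7).card = n}) fun x => by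
      simp only [Set.mem_setOf_eq, smul_mem_octads, H6.card_smul_inter]]
    exact ncard_oct _ (fun m => Nat.beq (pc (Nat.land 7 m)) n) fun S => by rw [← card_dec_inter_eq, inter_comm]; rfl
  simp only [this]
  decide +kernel

end Cfsg.Agent.S5625
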