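import Cfsg.Statements.S5627
import Cfsg.Agent.H0.Arc21


set_option autoImplicit false
open Cfsg

namespace Cfsg.Agent.S5627

open H6 H0.St Finset MulAction
open scoped Pointwise
set_option maxRecDepth 100000

/-- In a projective plane of order 4 (a Steiner system S(2, 5, 21)), call a set of points independent when no line meets it in more than two points. There are exactly 2520 independent 4-sets and exactly 168 independent 6-sets (hyperovals), and every independent 4-set lies in exactly one hyperoval. -/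
theorem result {α : Type*} [Fintype α] [DecidableEq α] (hα : Fintype.card α = 21) (L : Set (Finset α)) (hL : Cfsg.IsSteinerSystem 2 5 L) : {S : Finset α | (S.card = 4 ∧ ∀ l ∈ L, (l ∩ S).card ≤ 2)}.ncard = 2520 ∧ {H : Finset α | (H.card = 6 ∧ ∀ l ∈ L, (l ∩ H).card ≤ 2)}.ncard = 168 ∧ ∀ S : Finset α, (S.card = 4 ∧ ∀ l ∈ L, (l ∩ S).card ≤ 2) → ∃! H : Finset α, (H.card = 6 ∧ ∀ l ∈ L, (l ∩ H).card ≤ 2) ∧ S ⊆ H := by
  obtain ⟨e, rfl⟩ := H0.St21.uniq hα hL
  have h4 : srt A4 (2 ^ 21) = true := by decide +kernel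
  have h6 : srt A6 (2 ^ 21) = true := by decide +kernel
  refine ⟨?_, ?_, fun S hS => ?_⟩
  · rw [ncard_im e]
    simp only [forall_im, card_inter_im, card_im, arc4]
    simpa using (ncard_fam' h4 (fun _ => True) (fun _ => true) (by simp)).trans (by decide +kernel)
  · rw [ncard_im e]
    simp only [forall_im, card_inter_im, card_im, arc6]
    simpa using (ncard_fam' h6 (fun _ => True) (fun _ => true) (by simp)).trans (by decide +kernel)
  · obtain ⟨S, rfl⟩ := exists_im e S
    simp only [forall_im, card_inter_im, card_im, arc4] at hS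
    obtain ⟨m, hm, rfl⟩ := hS
    have : {H : Finset α | (H.card = 6 ∧ ∀ l ∈ (fun b : Finset (Fin 21) => b.image e) '' fam 21 H0.St21.S,
        (l ∩ H).card ≤ 2) ∧ (dc 21 m).image e ⊆ H}.ncard = 1 := by
      rw [ncard_im e]
      simp only [forall_im, card_inter_im, card_im, arc6, subset_im]
      rw [ncard_fam' h6 _ (fun c => Nat.beq (Nat.land m c) m) fun c _ => subset_dc ((srt_spec h4).1 m hm) c]
      exact Nat.eq_of_beq_eq_true (allL_iff.1 (by decide +kernel :
        allL (fun m => Nat.beq (cnt (fun c => Nat.beq (Nat.land m c) m) A6) 1) A4 = true) m hm)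
    obtain ⟨H, hH⟩ := Set.ncard_eq_one.1 this
    exact ⟨H, hH.ge rfl, fun y hy => hH.le hy⟩

end Cfsg.Agent.S5627
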