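import Cfsg.Statements.S5628
import Cfsg.Agent.H0.StA
import Cfsg.Agent.H6.Iso
import Cfsg.Agent.S5627

set_option autoImplicit false
open Cfsg

namespace Cfsg.Agent.S5628
open H6 Finset MulAction
open scoped Pointwise
set_option maxRecDepth 100000
theorem alt8 {o : Finset GolayPt} (ho : o ∈ octads) {c : GolayPt} (hc : c ∉ o) :
    (resHom (stabilizer M24 o ⊓ stabilizer M24 c) o inf_le_left).range = alternatingGroup o := by
  refine resHom_alt _ (c := 1) (Subgroup.card_eq_one.2 (eq_bot_iff.2 fun g hg => (fix_octad_pt ho hc).le ⟨hg.2, hg.1.2⟩)) ?_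
  rw [card_stab_eq (card_stab_octad ho) (d := 16) (e := 20160) ?_ rfl (by norm_num), ho.2]
  · rfl
  · rw [orb_eq (A := {p | p ∉ o}) (Set.toFinite _) (fun g hg b hb h => hb ((smul_mem_of_stab hg).1 h)) hc
      (Set.ncard_le_ncard ((orb_fix_octad ho hc).ge.trans (orb_mono (fun g hg =>
        smul_eq_of_fix ((mem_fixingSubgroup_iff M24).1 hg)) _))), ncard_compl_pts, ho.2]

/-- In a projective plane of order 4 (a Steiner system S(2, 5, 21)), every permutation of the six points of a hyperoval (a 6-set met by no line in more than two points) is the restriction of exactly one automorphism of the plane. In particular the stabiliser of a hyperoval in the automorphism group is isomorphic to the symmetric group of degree 6 acting faithfully on the hyperoval. -/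
theorem result {α : Type*} [Fintype α] [DecidableEq α] (hα : Fintype.card α = 21) (L : Set (Finset α)) (hL : Cfsg.IsSteinerSystem 2 5 L) (H : Finset α) (hH : (H.card = 6 ∧ ∀ l ∈ L, (l ∩ H).card ≤ 2)) (σ : Equiv.Perm ↥H) : ∃! g : Equiv.Perm α, g ∈ Cfsg.setSystemAut L ∧ ∀ p : ↥H, g p = σ p := by
  obtain ⟨p, pi, pr, hb, ρ, hρ, hr, -⟩ := H0.St.res21 hα hL
  have pT : ∀ x, p x ∉ dec 0xe00000 := fun x => pr.le ⟨x, rfl⟩
  have cp : ∀ (b : Finset α) (s : Finset GolayPt), (∀ x, x ∈ b ↔ p x ∈ s) → b.card + (dec 0xe00000 ∩ s).card = s.card := by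
    intro b s h
    rw [← card_image_of_injective b pi, inter_comm, ← card_sdiff_add_card_inter s (dec 0xe00000)]
    congr 2; ext y
    simp only [mem_image, h, mem_sdiff]
    exact ⟨by rintro ⟨x, a, rfl⟩; exact ⟨a, pT x⟩, fun a => let ⟨x, e⟩ := pr.ge a.2; ⟨x, e ▸ a.1, e⟩⟩
  have cT : (dec 0xe00000).card = 3 := by decide +kernel
  obtain ⟨o, ⟨ho, h2⟩, rfl⟩ : ∃ o, ∃ _ : o ∈ {o | o ∈ octads ∧ (dec 0xe00000 ∩ o).card = 2}, H = univ.filter (p · ∈ o) := by
    refine Set.surj_on_of_inj_on_of_ncard_le (t := {H : Finset α | H.card = 6 ∧ ∀ l ∈ L, (l ∩ H).card ≤ 2})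
      (fun o _ => univ.filter (p · ∈ o)) (fun o ho => ⟨?_, fun l hl => ?_⟩) (fun o o' ho ho' e => ?_) ?_ (Set.toFinite _) H hH
    · have := cp (univ.filter (p · ∈ o)) o (by simp)
      have := ho.1.2
      have := ho.2
      omega
    · obtain ⟨o', a, b, c⟩ := (hb l).1 hl
      rw [H0.St.qq_iff] at b
      have h3 := cp (l ∩ univ.filter (p · ∈ o)) (o' ∩ o) (by simp [c])
      rw [← inter_assoc, eq_of_subset_of_card_le inter_subset_left (cT.trans b.2.symm).le, ho.2] at h3
      have := octad_inter ⟨a, b.1⟩ ho.1 fun e => by have := ho.2; rw [← e] at this; omega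
      omega
    · have h3 := cp (univ.filter (p · ∈ o)) (o ∩ o') fun x => by
        have := Finset.ext_iff.1 e x
        simp only [mem_filter, mem_univ, true_and, mem_inter] at this ⊢
        tauto
      have := cp (univ.filter (p · ∈ o)) o (by simp)
      have := ho.1.2
      have := ho.2
      exact octad_eq_of_five ho.1 ho'.1 (by omega)
    · rw [(S5627.result hα L hL).2.1, ncard_oct _ (fun m => Nat.beq (pc (Nat.land 0xe00000 m)) 2) fun S => by
        rw [Set.mem_ofPred_eq, card_dec_inter_eq]]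
      decide +kernel
  obtain ⟨c, hc⟩ := card_eq_one.1 (show (dec 0xe00000 \ o).card = 1 by
    have := card_sdiff_add_card_inter (dec 0xe00000) o; omega)
  have c1 := mem_sdiff.1 (hc.ge (mem_singleton_self c))
  have mo : ∀ x : ↥(univ.filter (p · ∈ o)), p x ∈ o := fun x => (mem_filter.1 x.2).2
  have uq : ∀ k : stabilizer M24 (dec 0xe00000), (∀ x : ↥(univ.filter (p · ∈ o)), k.1 • p x = p x) → k = 1 := fun k hk => by
    have h3 : ∀ y ∈ o, y ∉ dec 0xe00000 → k.1 • y = y := fun y a b => by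
      obtain ⟨x, rfl⟩ := pr.ge b
      exact hk ⟨x, mem_filter.2 ⟨mem_univ _, a⟩⟩
    have h4 : k.1 • o = o := octad_eq_of_five ((smul_mem_octads _ _).2 ho) ho (by
      have := card_sdiff_add_card_inter o (dec 0xe00000)
      have := card_le_card (show o \ dec 0xe00000 ⊆ k.1 • o ∩ o from fun y hy => mem_inter.2
        ⟨h3 y (mem_sdiff.1 hy).1 (mem_sdiff.1 hy).2 ▸ smul_mem_smul_finset (mem_sdiff.1 hy).1, (mem_sdiff.1 hy).1⟩)
      have := ho.2
      rw [inter_comm] at h2
      omega)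
    have h5 : k.1 • c = c := mem_singleton.1 (hc.le (mem_sdiff.2 ⟨(smul_mem_of_stab k.2).2 c1.1,
      fun h => c1.2 ((smul_mem_of_stab h4).1 h)⟩))
    have h6 := (alt8 ho c1.2).le ⟨⟨k.1, h4, h5⟩, rfl⟩
    have h7 : (resHom (stabilizer M24 o ⊓ stabilizer M24 c) o inf_le_left ⟨k.1, h4, h5⟩).support.card ≤ (dec 0xe00000 ∩ o).card :=
      card_le_card_of_injOn Subtype.val (fun a ha => mem_inter.2 ⟨by_contra fun h =>
        Equiv.Perm.mem_support.1 ha (Subtype.ext (h3 a a.2 h)), a.2⟩) Subtype.val_injective.injOn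
    have h8 : resHom (stabilizer M24 o ⊓ stabilizer M24 c) o inf_le_left ⟨k.1, h4, h5⟩ = 1 := Equiv.Perm.card_support_le_one.1 (by
      by_contra n
      have := (Equiv.Perm.card_support_eq_two.1 (le_antisymm (h7.trans h2.le) (by omega))).sign_eq
      rw [Equiv.Perm.mem_alternatingGroup.1 h6] at this
      exact absurd this (by decide))
    exact Subtype.ext ((fix_octad_pt ho c1.2).le ⟨(mem_fixingSubgroup_iff M24).2
      fun a ha => congrArg Subtype.val (Equiv.congr_fun h8 ⟨a, ha⟩), h5⟩)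
  have mt := alternatingGroup.isMultiplyPretransitive o
  rw [Nat.card_eq_fintype_card, Fintype.card_coe, ho.2] at mt
  let h := (equivFinOfCardEq hH.1).symm
  let ι : ↥(univ.filter (p · ∈ o)) ↪ o := ⟨fun x => ⟨p x, mo x⟩, fun a b e => Subtype.ext (pi (congrArg Subtype.val e))⟩
  obtain ⟨⟨π, hπ⟩, e⟩ := mt.exists_smul_eq (h.toEmbedding.trans ι) ((h.trans σ).toEmbedding.trans ι)
  obtain ⟨g, rfl⟩ := (alt8 ho c1.2).ge hπ
  have e1 : ∀ x : ↥(univ.filter (p · ∈ o)), g.1 • p x = p (σ x) := fun x => by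
    obtain ⟨i, rfl⟩ := h.surjective x
    exact congrArg Subtype.val (DFunLike.congr_fun e i)
  have e2 : g.1 • dec 0xe00000 = dec 0xe00000 := by
    symm
    refine eq_of_subset_of_card_le (fun y hy => inv_smul_mem_iff.1 (by_contra fun n => ?_)) (card_smul_finset _ _).le
    obtain ⟨x, e⟩ := pr.ge n
    by_cases a : y ∈ o
    · have := e1 ⟨x, mem_filter.2 ⟨mem_univ _, e ▸ (smul_mem_of_stab (inv_mem g.2.1)).2 a⟩⟩
      exact pT _ (((smul_inv_smul g.1 y).symm.trans ((congrArg _ e.symm).trans this)) ▸ hy)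
    · rw [mem_singleton.1 (hc.le (mem_sdiff.2 ⟨hy, a⟩)), show g.1⁻¹ • c = c from (stabilizer M24 c).inv_mem g.2.2] at n
      exact n c1.1
  refine ⟨ρ ⟨g.1, e2⟩, ⟨hr.le ⟨_, rfl⟩, fun x => pi ((hρ _ _).trans (e1 x))⟩, ?_⟩
  rintro y ⟨hy, a⟩
  obtain ⟨k, rfl⟩ := hr.ge hy
  rw [inv_mul_eq_one.1 (uq (k⁻¹ * ⟨g.1, e2⟩) fun x => by
    show (k.1⁻¹ * g.1) • _ = _
    rw [mul_smul, e1, inv_smul_eq_iff, ← hρ, a])]

end Cfsg.Agent.S5628
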