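import Cfsg.Statements.S5632
import Cfsg.Agent.H4.Trv

set_option autoImplicit false
open Cfsg

namespace Cfsg.Agent.S5632


/-- For a finite field F and subspaces 0 < W < U of F^n with dim W + dim U = n, the elements of SL_n(F) stabilising both W and U form a subgroup that is not maximal in SL_n(F): some subgroup lies strictly between it and SL_n(F). -/
theorem result {F : Type*} [Field F] [Fintype F] (n : ℕ) (W U : Submodule F (Fin n → F)) (hW0 : W ≠ ⊥) (hWU : W < U) (hdim : Module.finrank F W + Module.finrank F U = n) : ∃ K : Subgroup (Matrix.GeneralLinearGroup (Fin n) F), Cfsg.Geo.subspaceStabilizer W ⊓ Cfsg.Geo.subspaceStabilizer U ⊓ Cfsg.Geo.specialLinear (Fin n) F < K ∧ K < Cfsg.Geo.specialLinear (Fin n) F := by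
  have hU : U ≠ ⊤ := by
    rintro rfl
    have : Module.finrank F W = 0 := by simpa using hdim
    exact hW0 (Submodule.finrank_eq_zero.1 this)
  refine H4.exists_between (S' := Geo.subspaceStabilizer W) (fun g _ hg => hg.1) ?_
    (H4.exists_tv_not_stab hW0 (ne_top_of_lt hWU))
  obtain ⟨u, hu, huW⟩ := SetLike.exists_of_lt hWU
  obtain ⟨v, -, hv⟩ := SetLike.exists_of_lt (lt_top_iff_ne_top.2 hU)
  obtain ⟨φ, e1, e2⟩ := H4.exists_dual_eq (Z := W ⊔ F ∙ v) (x := u) (fun hm => by
    obtain ⟨w, hw, z, hz, e⟩ := Submodule.mem_sup.1 hm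
    obtain ⟨c, rfl⟩ := Submodule.mem_span_singleton.1 hz
    have hc : c ≠ 0 := by rintro rfl; exact huW (by simpa [← e] using hw)
    have := U.sub_mem hu (hWU.le hw)
    rw [← e, add_sub_cancel_left] at this
    exact hv ((U.smul_mem_iff hc).1 this)) 1
  have e3 := e1 v (Submodule.mem_sup_right (Submodule.mem_span_singleton_self v))
  refine ⟨H4.tvGL e3, H4.tvGL_mem e3, H4.mem_stab_of_le fun w hw => ?_, fun hm => hv ?_⟩
  · simpa [H4.tvGL_mulVec, e1 w (Submodule.mem_sup_left hw)] using hw
  · have := U.sub_mem ((H4.mem_subspaceStabilizer.1 hm.2 u).1 hu) hu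
    simpa [H4.tvGL_mulVec, e2] using this

end Cfsg.Agent.S5632
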