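import Cfsg.Statements.S5633
import Cfsg.Agent.H4.Trv

set_option autoImplicit false
open Cfsg

namespace Cfsg.Agent.S5633


/-- For a finite field F and complementary non-zero subspaces W ⊕ U = F^n with dim W < dim U, the elements of SL_n(F) stabilising both W and U form a subgroup that is not maximal in SL_n(F): some subgroup lies strictly between it and SL_n(F). -/
theorem result {F : Type*} [Field F] [Fintype F] (n : ℕ) (W U : Submodule F (Fin n → F)) (hW0 : W ≠ ⊥) (hWU : W ⊓ U = ⊥) (hWU' : W ⊔ U = ⊤) (hdim : Module.finrank F W < Module.finrank F U) : ∃ K : Subgroup (Matrix.GeneralLinearGroup (Fin n) F), Cfsg.Geo.subspaceStabilizer W ⊓ Cfsg.Geo.subspaceStabilizer U ⊓ Cfsg.Geo.specialLinear (Fin n) F < K ∧ K < Cfsg.Geo.specialLinear (Fin n) F := by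
  have hU : U ≠ ⊥ := by
    rintro rfl
    simp at hdim
  refine H4.exists_between (S' := Geo.subspaceStabilizer W) (fun g _ hg => hg.1) ?_
    (H4.exists_tv_not_stab hW0 (by rintro rfl; exact hU (by simpa using hWU)))
  obtain ⟨u, hu, hu0⟩ := Submodule.exists_mem_ne_zero_of_ne_bot hU
  obtain ⟨v, hv, hv0⟩ := Submodule.exists_mem_ne_zero_of_ne_bot hW0
  obtain ⟨φ, e1, e2⟩ := H4.exists_dual_eq (Z := W) (x := u) (fun hm =>
    hu0 ((Submodule.mem_bot F).1 (hWU ▸ (⟨hm, hu⟩ : u ∈ W ⊓ U)))) 1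
  have e3 := e1 v hv
  refine ⟨H4.tvGL e3, H4.tvGL_mem e3, H4.mem_stab_of_le fun w hw => ?_, fun hm => hv0 ?_⟩
  · simpa [H4.tvGL_mulVec, e1 w hw] using hw
  · have := U.sub_mem ((H4.mem_subspaceStabilizer.1 hm.2 u).1 hu) hu
    have h : v ∈ U := by simpa [H4.tvGL_mulVec, e2] using this
    exact (Submodule.mem_bot F).1 (hWU ▸ (⟨hv, h⟩ : v ∈ W ⊓ U))

end Cfsg.Agent.S5633
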