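import Cfsg.Statements.S5643
import Cfsg.Agent.H4.Trv

set_option autoImplicit false
open Cfsg

namespace Cfsg.Agent.S5643


/-- For a finite field F and n ≥ 13, let σ be a field automorphism of F of order two and f a non-degenerate unitary form on F^n with respect to σ. Then the elements of SL_n(F) that are similarities of f form a maximal subgroup of SL_n(F). -/
theorem result {F : Type*} [Field F] [Fintype F] (n : ℕ) (hn : 13 ≤ n) (σ : F ≃+* F) (f : (Fin n → F) → (Fin n → F) → F) (hf : Cfsg.Geo.IsUnitaryForm σ f) : Cfsg.Geo.IsMaximalIn (Cfsg.Geo.specialLinear (Fin n) F) (Cfsg.Geo.similarityGroup f ⊓ Cfsg.Geo.specialLinear (Fin n) F) := by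
  obtain ⟨q, hF, hq⟩ := H4.exists_eq_frobq (σ : F →+* F)
    (fun h => hf.ne_refl (RingEquiv.ext fun x => RingHom.congr_fun h x)) hf.involutive
  have hσ : ∀ x, H4.frobq hF x = σ x := fun x => by rw [← hq]; rfl
  let b : H4.Form (H4.uKind hF) (Fin n → F) :=
    H4.hermForm (H4.frobq hF) (H4.frobq_ne_id hF) (H4.frobq_frobq hF)
      (LinearMap.mk₂'ₛₗ (H4.frobq hF) (RingHom.id F) (fun x y => f y x)
        (fun x y z => by rw [hf.herm, hf.add_left, map_add, ← hf.herm, ← hf.herm])
        (fun c x y => by rw [hf.herm, hf.smul_left, map_mul, ← hf.herm, hσ, smul_eq_mul])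
        (fun x y z => hf.add_left _ _ _) (fun c x y => hf.smul_left _ _ _))
      (fun x y => by rw [hσ]; exact (hf.herm _ _).symm)
  have hb : b.ND := fun x hx => by
    by_contra h0
    obtain ⟨y, hy⟩ := (hf.nondegenerate x h0).1
    exact hy (hx y)
  refine H4.c8_max (H4.u_iso3 b) hb (by simp; omega)
    (fun g => ⟨1, fun u v => ?_⟩) fun g => ⟨fun ⟨c, hc⟩ => ⟨c, fun y z => hc z y⟩, fun ⟨c, hc⟩ =>
      ⟨Units.mk0 c (H4.sim_ne_zero hb (by simp; omega) hc), fun y z => hc z y⟩⟩
  simp only [H4.Form.toGL_mulVec, Units.val_one, one_mul]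
  exact H4.Form.isom_B g v u

end Cfsg.Agent.S5643
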