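import Cfsg.Statements.S5644
import Cfsg.Agent.H4.Trv

set_option autoImplicit false
open Cfsg

namespace Cfsg.Agent.S5644


/-- For a finite field F of odd order and n ≥ 13, let Q be a non-degenerate quadratic form on F^n (its polar form is non-degenerate). Then the elements of SL_n(F) that are similarities of Q (Q(gv) = c Q(v) for a non-zero scalar c depending on g) form a maximal subgroup of SL_n(F). -/
theorem result {F : Type*} [Field F] [Fintype F] (n : ℕ) (hn : 13 ≤ n) (hodd : Odd (Fintype.card F)) (Q : (Fin n → F) → F) (hQ : Cfsg.Geo.IsNondegenerateQuadraticForm Q) : Cfsg.Geo.IsMaximalIn (Cfsg.Geo.specialLinear (Fin n) F) (Cfsg.Geo.quadSimilarityGroup Q ⊓ Cfsg.Geo.specialLinear (Fin n) F) := by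
  have h2 : (2 : F) ≠ 0 := H4.odd_card_iff.1 (by rwa [Nat.card_eq_fintype_card])
  have hf := H4.qForm_ND hQ
  refine H4.c8_max (H4.quad_iso3 _) hf (by simp; omega)
    (fun g => ⟨1, fun u => ?_⟩) fun g => ⟨fun ⟨c, hc⟩ => ⟨c, fun y z => ?_⟩, fun ⟨c, hc⟩ =>
      ⟨Units.mk0 c (H4.sim_ne_zero hf (by simp; omega) hc), fun y => ?_⟩⟩
  · simp only [H4.Form.toGL_mulVec, Units.val_one, one_mul]
    exact H4.Form.isom_Q g u
  · rw [H4.quad_B_eq, H4.quad_B_eq, ← Matrix.mulVec_add, H4.qForm_Q, hc, hc, hc]; ring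
  · have := hc y y
    rw [H4.quad_B_self, H4.quad_B_self, H4.qForm_Q] at this
    exact mul_left_cancel₀ h2 (by rw [this, Units.val_mk0]; ring)

end Cfsg.Agent.S5644
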