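import Cfsg.Statements.S5645
import Cfsg.Agent.H4.MaxB

set_option autoImplicit false
open Cfsg

namespace Cfsg.Agent.S5645


/-- For a finite field F and m ≥ 7, in the symplectic group Sp_2m(F) of the standard alternating form on F^(2m) (as a subgroup of GL_2m(F)), the stabiliser of any non-zero subspace on which the form vanishes identically is a maximal subgroup. -/
theorem result {F : Type*} [Field F] [Fintype F] (m : ℕ) (hm : 7 ≤ m) (W : Submodule F (Fin m ⊕ Fin m → F)) (hW0 : W ≠ ⊥) (hW : Cfsg.Geo.IsTotallySingularFor (Cfsg.sympForm m F) W) : Cfsg.Geo.IsMaximalIn (Cfsg.spGL m F) (Cfsg.Geo.subspaceStabilizer W ⊓ Cfsg.spGL m F) := by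
  have hT : (H4.spForm m F).TS W := H4.alt_TS fun x hx y hy => by rw [H4.spForm_B]; exact hW x hx y hy
  rw [H4.spGL_eq_E]
  refine H4.isMaximalIn_map H4.Form.toGL_injective ?_ fun N hN g hg _ hg' => ?_
  · simpa only [H4.Form.toGL_mem_stab] using
      H4.Form.exists_E_not_stab_TS (H4.spForm_ND m F) H4.alt_rich.wrich hT hW0
  · simp only [H4.Form.toGL_mem_stab] at hN hg'
    exact H4.parab_of_T (H4.spForm_ND m F) H4.alt_exists_T hT hN hg hg'

end Cfsg.Agent.S5645
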