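import Cfsg.Statements.S5649
import Cfsg.Agent.H4.MaxC

set_option autoImplicit false
open Cfsg

namespace Cfsg.Agent.S5649


/-- For a finite field F of odd order and m ≥ 7, let D be a decomposition of F^(2m) into two complementary subspaces of dimension m on each of which the standard alternating form vanishes identically. Then the elements of Sp_2m(F) preserving or interchanging the two subspaces form a maximal subgroup of Sp_2m(F). -/
theorem result {F : Type*} [Field F] [Fintype F] (m : ℕ) (hm : 7 ≤ m) (hodd : Odd (Fintype.card F)) (D : Fin 2 → Submodule F (Fin m ⊕ Fin m → F)) (hD : Cfsg.Geo.IsMDecomposition m D) (hts : ∀ i, Cfsg.Geo.IsTotallySingularFor (Cfsg.sympForm m F) (D i)) : Cfsg.Geo.IsMaximalIn (Cfsg.spGL m F) (Cfsg.Geo.decompositionStabilizer D ⊓ Cfsg.spGL m F) := by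
  have h2 : (2 : F) ≠ 0 := H4.odd_card_iff.1 (by rwa [Nat.card_eq_fintype_card])
  have hf := H4.spForm_ND m F
  rw [H4.spGL_eq_E]
  refine H4.pair_max hf (H4.alt_iso3 _) (by omega) hD
    (fun i => H4.alt_TS fun x hx y hy => by rw [H4.spForm_B]; exact hts i x hx y hy)
    (fun t _ => ⟨t / 2, by simp; field_simp; ring⟩) fun h => ?_
  obtain ⟨g, hg⟩ := h.exists_swap hf
  exact ⟨g, by rw [H4.alt_E_eq_top hf]; trivial, hg⟩

end Cfsg.Agent.S5649
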