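import Cfsg.Statements.S5652
import Cfsg.Agent.H4.Trv

set_option autoImplicit false
open Cfsg

namespace Cfsg.Agent.S5652


/-- For a finite field F of characteristic two and m ≥ 7, let Q be a non-degenerate quadratic form on F^(2m) whose polar form is the standard alternating form. Then the elements of Sp_2m(F) that are similarities of Q (they are exactly the isometries of Q) form a maximal subgroup of Sp_2m(F). -/
theorem result {F : Type*} [Field F] [Fintype F] (m : ℕ) (hm : 7 ≤ m) (heven : ¬ Odd (Fintype.card F)) (Q : (Fin m ⊕ Fin m → F) → F) (hQ : Cfsg.Geo.IsNondegenerateQuadraticForm Q) (hpol : ∀ u v, QuadraticMap.polar Q u v = Cfsg.sympForm m F u v) : Cfsg.Geo.IsMaximalIn (Cfsg.spGL m F) (Cfsg.Geo.quadSimilarityGroup Q ⊓ Cfsg.spGL m F) := by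
  have h2 : (2 : F) = 0 := by
    by_contra h
    exact heven (Nat.card_eq_fintype_card (α := F) ▸ H4.odd_card_iff.2 h)
  set f := H4.spForm m F with hf
  set fq := H4.qForm hQ with hfq
  have hf0 : f.ND := H4.spForm_ND m F
  have hq0 : fq.ND := H4.qForm_ND hQ
  have hB : ∀ x y, fq.B x y = f.B x y := fun x y => by rw [H4.qForm_B, H4.spForm_B, hpol]
  have hn : Module.finrank F (Fin m ⊕ Fin m → F) = 2 * m := by simp; omega
  have hS : ∀ g : f.Isom, (∀ v, fq.Q (g.1 v) = fq.Q v) → f.toGL g ∈ Geo.quadSimilarityGroup Q :=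
    fun g h => ⟨1, fun v => by
      simp only [H4.Form.toGL_mulVec, Units.val_one, one_mul]; exact h v⟩
  have hneg : ∀ x : F, -x = x := fun x => by linear_combination (-x) * h2
  rw [H4.spGL_eq_E]
  refine H4.isMaximalIn_map H4.Form.toGL_injective ?_ fun N hN g hg _ hg' => ?_
  · obtain ⟨u, w, h⟩ := H4.quad_exists_hyp hq0 (by omega)
    obtain ⟨g, hg⟩ := H4.alt_exists_eich (f := f) (u := u) (v := 0) (by simp) 1
    refine ⟨g, hg.mem_E, fun ⟨c, hc⟩ => ?_⟩
    have := hc w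
    rw [H4.Form.toGL_mulVec, hg.app, ← hB, h.Buw, ← H4.qForm_Q hQ, ← hfq, h.Qw] at this
    simp [H4.quad_Q_add, h.Qw, h.Qu, h.Bwu] at this
  have hN' : ∀ e : fq.Isom, ∃ e' ∈ N, e'.1 = e.1 := fun e =>
    ⟨⟨e.1, (H4.alt_mem_Isom f).2 fun x y => by rw [← hB, ← hB, H4.Form.isom_B]⟩,
      hN _ (by rw [H4.alt_E_eq_top hf0]; trivial) (hS _ (H4.Form.isom_Q e)), rfl⟩
  have hex : ∃ a, fq.Q a = 0 ∧ fq.Q (g⁻¹.1 a) ≠ 0 := by
    by_contra hc
    push Not at hc
    let S : AddSubgroup (Fin m ⊕ Fin m → F) :=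
      { carrier := {y | fq.Q (g⁻¹.1 y) = fq.Q y}
        add_mem' := fun {a b} ha hb => by
          simp only [Set.mem_setOf_eq, map_add, H4.quad_Q_add, hB, H4.Form.isom_B] at *
          rw [ha, hb]
        zero_mem' := by simp
        neg_mem' := fun {a} ha => by simpa [H4.Form.Q_neg] using ha }
    refine hg' (hS g fun v => ?_)
    have : g.1 v ∈ S := (H4.quad_iso3 fq).mem_of_singular (fq.NDOn_top.2 hq0) (by simp; omega) S
      (fun y _ hy => (hc y hy).trans hy.symm) Submodule.mem_top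
    exact this.symm.trans (by rw [H4.Form.isom_inv_apply])
  obtain ⟨a, ha, ha'⟩ := hex
  have ha0 : a ≠ 0 := by rintro rfl; simp [H4.Form.Q_zero] at ha'
  have hT : ∃ x ∈ N, f.IsEich x a 0 (fq.Q (g⁻¹.1 a))⁻¹ := by
    obtain ⟨e, he, ee⟩ := hN' (fq.reflx _ ha')
    refine ⟨g * e * g⁻¹, N.mul_mem (N.mul_mem hg he) (N.inv_mem hg), H4.alt_Q _ _, by simp,
      (H4.alt_Q _ _).symm, fun y => ?_⟩
    rw [H4.Form.isom_mul_apply, H4.Form.isom_mul_apply, ee, H4.Form.reflx_apply, hB,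
      H4.Form.isom_B]
    simp [hneg]
  obtain ⟨x, hx, hxe⟩ := hT
  have hU : H4.Form.UIn N a := by
    refine H4.Form.UIn.of_inN (fun y t hy => ?_) fun v hv => ?_
    · by_cases ht : t = 0
      · rw [ht] at hy
        rw [hy.eq_one]; exact N.one_mem
      obtain ⟨c, hc⟩ := H4.exists_sq_of_two_eq_zero h2 (t * fq.Q (g⁻¹.1 a))
      have hc0 : c ≠ 0 := by rintro rfl; exact mul_ne_zero ht ha' (by simpa using hc.symm)
      obtain ⟨e, he, ee⟩ := H4.Form.witt_one hq0 ha0 (smul_ne_zero hc0 ha0)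
        (by rw [H4.quad_Q_smul, ha, mul_zero])
      obtain ⟨e', he', ee'⟩ := hN' ⟨e, he⟩
      have := hxe.conj e'
      rw [ee', ee, map_zero] at this
      have := this.of_smul (H4.alt_Q _ _) (by simp)
      rw [smul_zero, H4.altKind_σ, ← sq, hc, mul_inv_cancel_right₀ ha'] at this
      rw [hy.ext this]
      exact N.mul_mem (N.mul_mem he' hx) (N.inv_mem he')
    · obtain ⟨e, he⟩ := H4.quad_exists_eich ha (by rwa [hB])
      obtain ⟨e', he', ee'⟩ := hN' e
      refine ⟨e', fq.Q v, ⟨H4.alt_Q _ _, hv, (H4.alt_Q _ _).symm, fun y => ?_⟩, he'⟩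
      rw [ee', he.app]
      simp [hB, hneg, hf]
  obtain ⟨w, hw⟩ := hq0.exists_hyp ha0 ha
  obtain ⟨e, he, ee⟩ := H4.Form.witt_one hq0 ha0 hw.w_ne (ha.trans hw.Qw.symm)
  obtain ⟨e', he', ee'⟩ := hN' ⟨e, he⟩
  exact H4.Form.E_le_of_move hf0 hU (H4.alt_Q _ _) he' (by rw [ee', ee, ← hB, hw.Buw]; simp)

end Cfsg.Agent.S5652
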