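import Cfsg.Statements.S5657
import Cfsg.Agent.H4.MaxC

set_option autoImplicit false
open Cfsg

namespace Cfsg.Agent.S5657


/-- Let F be the field with q² elements and n = 2k ≥ 13. Let D be a decomposition of F^n into two complementary subspaces of dimension k on each of which the standard unitary form vanishes identically. Then the elements of SU_n(q) preserving or interchanging the two subspaces form a maximal subgroup of SU_n(q). -/
theorem result {F : Type*} [Field F] [Fintype F] (n q : ℕ) (hF : Fintype.card F = q ^ 2) (hn : 13 ≤ n) (k : ℕ) (hk : 2 * k = n) (D : Fin 2 → Submodule F (Fin n → F)) (hD : Cfsg.Geo.IsMDecomposition k D) (hts : ∀ i, Cfsg.Geo.IsTotallySingularFor (Cfsg.hermForm n F q) (D i)) : Cfsg.Geo.IsMaximalIn (Cfsg.GU n F q ⊓ Cfsg.Geo.specialLinear (Fin n) F) (Cfsg.Geo.decompositionStabilizer D ⊓ (Cfsg.GU n F q ⊓ Cfsg.Geo.specialLinear (Fin n) F)) := by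
  rw [H4.su_eq_E hF (by omega)]
  exact H4.pair_max (H4.uForm_ND hF n) (H4.u_iso3 _) (by omega) hD
    (fun i => H4.herm_TS fun x hx y hy => hts i y hy x hx) (H4.u_hZ hF)
    fun h => H4.u_exists_swap (H4.uForm_ND hF n) h (by rw [hD.finrank_eq]; omega)

end Cfsg.Agent.S5657
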