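import Cfsg.Statements.S5673
import Cfsg.Agent.H4.AsN

set_option autoImplicit false
open Cfsg

namespace Cfsg.Agent.S5673


/-- Subgroup structure of the odd-dimensional orthogonal groups. Let F be a finite field of odd order and m ≥ 3, let Q be the standard quadratic form x₀² + Σ x_i y_i on F^(2m+1), and let Ω be the commutator subgroup of its isometry group, viewed inside GL_(2m+1)(F). Let H be a subgroup of Ω whose product with the scalar matrices in Ω is not all of Ω. Then either H is contained in a member of one of the geometric classes of subgroups of the isometry group (with the conditions built into InOrthogonalOddClass), or H is in the residual class: modulo scalars it is almost simple, and the perfect preimage of its socle acts absolutely irreducibly, is realisable over no proper subfield, and fixes no non-degenerate unitary form. -/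
theorem result {F : Type*} [Field F] [Fintype F] (hodd : Odd (Fintype.card F)) (m : ℕ) (hm : 3 ≤ m) (H : Subgroup (Matrix.GeneralLinearGroup (Unit ⊕ (Fin m ⊕ Fin m)) F)) (hH : H ≤ Cfsg.Geo.omegaGL (Cfsg.quadFormOdd m F)) (hproper : H ⊔ (Cfsg.Geo.scalars (Unit ⊕ (Fin m ⊕ Fin m)) F ⊓ Cfsg.Geo.omegaGL (Cfsg.quadFormOdd m F)) ≠ Cfsg.Geo.omegaGL (Cfsg.quadFormOdd m F)) : (∃ M : Subgroup (Matrix.GeneralLinearGroup (Unit ⊕ (Fin m ⊕ Fin m)) F), Cfsg.Geo.InOrthogonalOddClass m F M ∧ H ≤ M) ∨ Cfsg.Geo.InOrthogonalResidualClass H := by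
  have h2 := H4.As.odd_iff.1 hodd
  have hn : Fintype.card (Unit ⊕ (Fin m ⊕ Fin m)) = 2 * m + 1 := by simp; omega
  have hI := hH.trans (H4.As.omega_le _)
  rcases H4.As.o_odd (H4.As.isQuad_odd h2 m) h2 (by rw [hn]; exact odd_two_mul_add_one m) (by omega)
    (H4.As.odd_mem m) hI with ⟨W, h1, h3, h⟩ | ⟨W, h1, h3, h4, h⟩ | ⟨t, k, D, h1, h3, h⟩ |
    ⟨r, K, h1, h3, -, h4, h5, h⟩ | ⟨d, k, e, P, f₁, f₂, h1, h3, h4, h5, h6, h⟩ |
    ⟨k, r, P, h1, h3, h4, h⟩ | ⟨k, t, e, P, f₁, h1, h3, h4, h5, h6, h⟩ | h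
  · exact Or.inl ⟨_, Or.inl ⟨W, h1, h3, rfl⟩, le_inf h hI⟩
  · refine Or.inl ⟨_, Or.inr (Or.inl ⟨W, h1, ?_, h3, rfl⟩), le_inf h.le_stab hI⟩
    rintro rfl
    simp at h4
  · rcases (Nat.succ_le_of_lt h3.decomp.decomp.pos).eq_or_lt with rfl | h4
    · exact Or.inl ⟨_, Or.inr (Or.inr (Or.inr (Or.inl ⟨t, D, h1 rfl, h3, rfl⟩))), le_inf h hI⟩
    · exact Or.inl ⟨_, Or.inr (Or.inr (Or.inl ⟨t, k, D, h4, h3, rfl⟩)), le_inf h hI⟩
  · refine Or.inl ⟨_, ?_, le_inf h hI⟩
    iterate 4 right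
    exact Or.inl ⟨r, K, h1, hn ▸ h3, h4, h5, rfl⟩
  · refine Or.inl ⟨_, ?_, le_inf h hI⟩
    iterate 5 right
    exact Or.inl ⟨d, k, e, P, f₁, f₂, h1, h3, h4, h5, h6, rfl⟩
  · refine Or.inl ⟨_, ?_, le_inf h hI⟩
    iterate 6 right
    exact Or.inl ⟨k, r, P, h1, h3, h4, rfl⟩
  · refine Or.inl ⟨_, ?_, le_inf h hI⟩
    iterate 7 right
    exact ⟨k, t, e, P, f₁, h1, h3, h4, h5, h6, rfl⟩
  · exact Or.inr h

end Cfsg.Agent.S5673
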