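import Cfsg.Statements.S5674
import Cfsg.Agent.H4.MaxB

set_option autoImplicit false
open Cfsg

namespace Cfsg.Agent.S5674


/-- Let F be a finite field of odd order, m ≥ 6, Q the standard quadratic form x₀² + Σ x_i y_i on F^(2m+1) and Ω the commutator subgroup of its isometry group inside GL_(2m+1)(F). The elements of Ω stabilising a non-zero subspace on which Q vanishes form a maximal subgroup of Ω. -/
theorem result {F : Type*} [Field F] [Fintype F] (hodd : Odd (Fintype.card F)) (m : ℕ) (hm : 6 ≤ m) (W : Submodule F (Unit ⊕ (Fin m ⊕ Fin m) → F)) (hW0 : W ≠ ⊥) (hW : Cfsg.Geo.IsTotallySingularQuad (Cfsg.quadFormOdd m F) W) : Cfsg.Geo.IsMaximalIn (Cfsg.Geo.omegaGL (Cfsg.quadFormOdd m F)) (Cfsg.Geo.subspaceStabilizer W ⊓ Cfsg.Geo.omegaGL (Cfsg.quadFormOdd m F)) := by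
  have h2 : (2 : F) ≠ 0 := H4.odd_card_iff.1 (by rwa [Nat.card_eq_fintype_card])
  have hf := H4.oddForm_ND F m h2
  have hT : (H4.oddForm F m).TS W := (H4.quad_TS_iff _).2 hW
  rw [← H4.oddForm_Q, H4.omegaGL_eq_E hf (by simp; omega)]
  refine H4.isMaximalIn_map H4.Form.toGL_injective ?_ fun N hN g hg _ hg' => ?_
  · simpa only [H4.Form.toGL_mem_stab] using
      H4.Form.exists_E_not_stab_TS hf (H4.quad_wrich hf (by simp; omega)) hT hW0
  · simp only [H4.Form.toGL_mem_stab] at hN hg'
    exact H4.quad_parab hf hT (fun h => by simp at h; omega) hN hg hg'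

end Cfsg.Agent.S5674
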