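import Cfsg.Statements.S5687
import Cfsg.Agent.H4.MaxB

set_option autoImplicit false
open Cfsg

namespace Cfsg.Agent.S5687


/-- Let F be a finite field with q elements, n ≥ 13 even, Q a non-degenerate quadratic form on F^n of minus type (no subspace of dimension n/2 is totally singular), and Ω the commutator subgroup of the isometry group of Q, viewed inside GL_n(F). The elements of Ω stabilising a non-zero subspace on which Q vanishes form a maximal subgroup of Ω. -/
theorem result {F : Type*} [Field F] [Fintype F] {n : ℕ} (hn : 13 ≤ n) (heven : Even n) (Q : (Fin n → F) → F) (hQ : Cfsg.Geo.IsNondegenerateQuadraticForm Q) (hminus : ¬ Cfsg.Geo.IsPlusTypeOn Q ⊤) (W : Submodule F (Fin n → F)) (hW0 : W ≠ ⊥) (hW : Cfsg.Geo.IsTotallySingularQuad Q W) : Cfsg.Geo.IsMaximalIn (Cfsg.Geo.omegaGL Q) (Cfsg.Geo.subspaceStabilizer W ⊓ Cfsg.Geo.omegaGL Q) := by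
  have hf := H4.qForm_ND hQ
  have hT : (H4.qForm hQ).TS W := (H4.quad_TS_iff _).2 hW
  rw [← H4.qForm_Q hQ, H4.omegaGL_eq_E hf (by simp; omega)]
  refine H4.isMaximalIn_map H4.Form.toGL_injective ?_ fun N hN g hg _ hg' => ?_
  · simpa only [H4.Form.toGL_mem_stab] using
      H4.Form.exists_E_not_stab_TS hf (H4.quad_wrich hf (by simp; omega)) hT hW0
  · simp only [H4.Form.toGL_mem_stab] at hN hg'
    refine H4.quad_parab hf hT (fun h ⟨U, hU, hd⟩ => hminus ?_) hN hg hg'
    exact (H4.plusOn_iff (f := H4.qForm hQ)).2 ⟨U, le_top, hU, by rw [hd, h, finrank_top]⟩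

end Cfsg.Agent.S5687
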