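import Cfsg.Statements.S5689
import Cfsg.Agent.H4.MaxC

set_option autoImplicit false
open Cfsg

namespace Cfsg.Agent.S5689


/-- Let F be a finite field with q elements, n ≥ 13 even, Q a non-degenerate quadratic form on F^n of minus type (no subspace of dimension n/2 is totally singular), and Ω the commutator subgroup of the isometry group of Q, viewed inside GL_n(F). Let W be a non-zero proper subspace on which the polar form of Q is non-degenerate, not of odd dimension n/2. Exclude the case q ≤ 3 in which W, or its orthogonal complement, is a plane containing a line on which Q vanishes. Then the elements of Ω stabilising W form a maximal subgroup of Ω. -/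
theorem result {F : Type*} [Field F] [Fintype F] {n : ℕ} (hn : 13 ≤ n) (heven : Even n) (Q : (Fin n → F) → F) (hQ : Cfsg.Geo.IsNondegenerateQuadraticForm Q) (hminus : ¬ Cfsg.Geo.IsPlusTypeOn Q ⊤) (W : Submodule F (Fin n → F)) (hW0 : W ≠ ⊥) (hW1 : W ≠ ⊤) (hdim : ¬ (2 * Module.finrank F W = n ∧ Odd (Module.finrank F W))) (hW : Cfsg.Geo.IsNondegenerateOn (QuadraticMap.polar Q) W) (hex : ¬ (Fintype.card F ≤ 3 ∧ (∃ U : Submodule F (Fin n → F), Module.finrank F U = 2 ∧ Cfsg.Geo.IsNondegenerateOn (QuadraticMap.polar Q) U ∧ Cfsg.Geo.IsPlusTypeOn Q U ∧ (U = W ∨ (Cfsg.Geo.AreOrthogonalFor (QuadraticMap.polar Q) U W ∧ Module.finrank F U + Module.finrank F W = n))))) : Cfsg.Geo.IsMaximalIn (Cfsg.Geo.omegaGL Q) (Cfsg.Geo.subspaceStabilizer W ⊓ Cfsg.Geo.omegaGL Q) := by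
  have hf := H4.qForm_ND hQ
  have e := hf.finrank_perp W
  simp only [Module.finrank_fintype_fun_eq_card, Fintype.card_fin] at e
  have hW' : (H4.qForm hQ).NDOn W := H4.ndOn_of (H4.qForm_B hQ) hW
  refine H4.quad_nd_max hf (by simp; omega) hW'
    hW0 hW1 (fun h hq hp => hex ⟨by rwa [← Nat.card_eq_fintype_card], W, h, hW, hp, Or.inl rfl⟩)
    (fun h hq hp => hex ⟨by rwa [← Nat.card_eq_fintype_card], _, h,
      H4.isNondegenerateOn_of (hW'.perp hf), hp, Or.inr ⟨fun u hu v hv =>
        H4.Form.refl (hu v hv), by omega⟩⟩) (fun g hg => ?_)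
  have := H4.Form.finrank_map_isom g W
  rw [hg] at this
  obtain ⟨U, hU, hd⟩ := H4.hasTS_of_isometric hW'
    (Nat.not_odd_iff_even.1 fun h => hdim ⟨by omega, h⟩) hg
  exact hminus ((H4.plusOn_iff (f := H4.qForm hQ)).2 ⟨U, le_top, hU, by simp; omega⟩)

end Cfsg.Agent.S5689
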