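import Cfsg.Statements.S5691
import Cfsg.Agent.H4.MaxC

set_option autoImplicit false
open Cfsg

namespace Cfsg.Agent.S5691


/-- Let F be a finite field with q elements, n ≥ 13 even, Q a non-degenerate quadratic form on F^n (of either type), and Ω the commutator subgroup of the isometry group of Q, viewed inside GL_n(F). Suppose q is even and v is a vector with Q(v) ≠ 0. Then the elements of Ω stabilising the line spanned by v form a maximal subgroup of Ω. -/
theorem result {F : Type*} [Field F] [Fintype F] {n : ℕ} (hn : 13 ≤ n) (heven : Even n) (Q : (Fin n → F) → F) (hQ : Cfsg.Geo.IsNondegenerateQuadraticForm Q) (hchar : ¬ Odd (Fintype.card F)) (v : (Fin n → F)) (hv : Q v ≠ 0) : Cfsg.Geo.IsMaximalIn (Cfsg.Geo.omegaGL Q) (Cfsg.Geo.subspaceStabilizer (Submodule.span F {v}) ⊓ Cfsg.Geo.omegaGL Q) := by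
  have hf := H4.qForm_ND hQ
  have h2 : (2 : F) = 0 := by
    by_contra h
    exact hchar (Nat.card_eq_fintype_card (α := F) ▸ H4.odd_card_iff.2 h)
  have hv0 : v ≠ 0 := by rintro rfl; exact hv (H4.qForm hQ).Q_zero
  rw [← H4.qForm_Q hQ, H4.omegaGL_eq_E hf (by simp; omega)]
  refine H4.isMaximalIn_map H4.Form.toGL_injective ?_ fun N hN g hg _ hg' => ?_
  · simpa only [H4.Form.toGL_mem_stab] using
      H4.Form.exists_E_not_stab (H4.quad_iso3 _) hf (by simp; omega) (by simpa using hv0)
        (fun e => by
          have := finrank_span_singleton (K := F) hv0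
          rw [e] at this
          simp at this
          omega)
  · simp only [H4.Form.toGL_mem_stab] at hN hg'
    exact H4.Form.nonsing_pt (H4.quad_iso3 _) hf (by simp; omega) hv
      (by rw [H4.quad_B_self, h2, zero_mul]) hN hg hg'

end Cfsg.Agent.S5691
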