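import Cfsg.Statements.S5699
import Cfsg.Agent.H4.MaxC

set_option autoImplicit false
open Cfsg

namespace Cfsg.Agent.S5699


/-- Let F be a finite field with q elements, n ≥ 13 even, Q a non-degenerate quadratic form on F^n (of either type), and Ω the commutator subgroup of the isometry group of Q, viewed inside GL_n(F). Let D be a decomposition of F^n into two orthogonal subspaces of odd dimension n/2 on which the polar form is non-degenerate and which are not Q-isometric to each other. Then the elements of Ω permuting (necessarily fixing) the two subspaces form a maximal subgroup of Ω. -/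
theorem result {F : Type*} [Field F] [Fintype F] {n : ℕ} (hn : 13 ≤ n) (heven : Even n) (Q : (Fin n → F) → F) (hQ : Cfsg.Geo.IsNondegenerateQuadraticForm Q) (k : ℕ) (hk : 2 * k = n) (hko : Odd k) (D : Fin 2 → Submodule F (Fin n → F)) (hD : Cfsg.Geo.IsNondegenerateMDecomposition (QuadraticMap.polar Q) k D) (hni : ¬ Cfsg.Geo.AreIsometricFor Q (D 0) (D 1)) : Cfsg.Geo.IsMaximalIn (Cfsg.Geo.omegaGL Q) (Cfsg.Geo.decompositionStabilizer D ⊓ Cfsg.Geo.omegaGL Q) := by
  have hf := H4.qForm_ND hQ
  have hc := H4.isCompl_of_dec hD.decomp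
  have d0 := hD.decomp.finrank_eq 0
  have d1 := hD.decomp.finrank_eq 1
  have hW : (H4.qForm hQ).NDOn (D 0) := H4.ndOn_of (H4.qForm_B hQ) (hD.nondegenerate 0)
  have e := hf.finrank_perp (D 0)
  simp only [Module.finrank_fintype_fun_eq_card, Fintype.card_fin] at e
  have hp : D 1 = (H4.qForm hQ).perp (D 0) :=
    Submodule.eq_of_le_of_finrank_eq (fun y hy x hx => hD.orthogonal 0 1 (by decide) x hx y hy)
      (by omega)
  have hs : ∀ g : (H4.qForm hQ).Isom, (D 0).map g.1.toLinearMap ≠ D 1 := fun g hg =>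
    hni ⟨_, (H4.Form.isIso_of_map g hg).2⟩
  have := H4.quad_nd_max hf (by simp; omega) hW (fun h => by rw [h, finrank_bot] at d0; omega)
    (fun h => by rw [h] at d0; simp at d0; omega) (fun h => by omega) (fun h => by omega)
    (hp ▸ hs)
  rw [← H4.qForm_Q hQ]
  convert this using 1
  rw [H4.omegaGL_eq_E hf (by simp; omega)]
  ext g
  rw [Subgroup.mem_inf, Subgroup.mem_inf]
  refine and_congr_left ?_
  rintro ⟨g, -, rfl⟩
  rw [H4.Form.toGL_mem_dec, H4.Form.toGL_mem_stab,
    H4.perm_two_iff (φ := Submodule.map g.1.toLinearMap), H4.Form.mem_stabSub_iff_map]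
  refine ⟨fun h => (h.resolve_right fun h => hs g h.1).1, fun h => Or.inl ⟨h, ?_⟩⟩
  rw [hp, ← H4.Form.perp_map g.2, h]

end Cfsg.Agent.S5699
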