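import Cfsg.Statements.S5790
import Cfsg.Agent.H4.TbD

set_option autoImplicit false
open Cfsg

namespace Cfsg.Agent.S5790


/-- Every maximal subgroup of Sp_4(q), q ≥ 4 even, is of one of the listed geometric types or lies in the residual class. Let F be a finite field of even order q ≥ 4, f the standard alternating form on F^4 (coordinates Fin 2 ⊕ Fin 2), and H a maximal subgroup of Sp_4(F) (inside GL_4(F)). Then H is the intersection with Sp_4(F) of one of: the stabiliser of a non-zero totally isotropic subspace; the stabiliser of a decomposition into two orthogonal non-degenerate 2-spaces; the normaliser of a degree-2 subfield K of the matrix algebra, self-adjoint with f(k v, v) = 0; a subfield group whose F₀-structure carries a non-zero multiple of f, |F| = |F₀|^r with r prime; the similarity group of a non-degenerate quadratic form whose polar form is f — or else H lies in the residual class of the symplectic case.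 -/
theorem result {F : Type*} [Field F] [Fintype F] (heven : ¬ Odd (Fintype.card F)) (h4 : 4 ≤ Fintype.card F) (H : Subgroup (Matrix.GeneralLinearGroup (Fin 2 ⊕ Fin 2) F)) (hH : Cfsg.Geo.IsMaximalIn (Cfsg.spGL 2 F) H) :
    (∃ W : Submodule F (Fin 2 ⊕ Fin 2 → F), W ≠ ⊥ ∧ Cfsg.Geo.IsTotallySingularFor (Cfsg.sympForm 2 F) W ∧ H = Cfsg.Geo.subspaceStabilizer W ⊓ Cfsg.spGL 2 F) ∨
    (∃ D : Fin 2 → Submodule F (Fin 2 ⊕ Fin 2 → F), Cfsg.Geo.IsNondegenerateMDecomposition (Cfsg.sympForm 2 F) 2 D ∧ H = Cfsg.Geo.decompositionStabilizer D ⊓ Cfsg.spGL 2 F) ∨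
    (∃ K : Subalgebra F (Matrix (Fin 2 ⊕ Fin 2) (Fin 2 ⊕ Fin 2) F), Cfsg.Geo.IsFieldSubalgebra 2 K ∧ Cfsg.Geo.IsSelfAdjointFor (Cfsg.sympForm 2 F) K ∧ (∀ k ∈ K, ∀ v : (Fin 2 ⊕ Fin 2 → F), (Cfsg.sympForm 2 F) (Matrix.mulVec k v) v = 0) ∧ H = Cfsg.Geo.subalgebraNormalizer K ⊓ Cfsg.spGL 2 F) ∨
    (∃ (F₀ : Subfield F) (r : ℕ) (P : Matrix.GeneralLinearGroup (Fin 2 ⊕ Fin 2) F) (ζ : F), r.Prime ∧ Fintype.card F = Nat.card F₀ ^ r ∧ ζ ≠ 0 ∧ Cfsg.Geo.IsFormRationalStructure (Cfsg.sympForm 2 F) F₀ ζ P ∧ H = Cfsg.Geo.subfieldSubgroup F₀ P ⊓ Cfsg.spGL 2 F) ∨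
    (∃ Q : (Fin 2 ⊕ Fin 2 → F) → F, Cfsg.Geo.IsNondegenerateQuadraticForm Q ∧ (∀ u v : (Fin 2 ⊕ Fin 2 → F), QuadraticMap.polar Q u v = (Cfsg.sympForm 2 F) u v) ∧ H = Cfsg.Geo.quadSimilarityGroup Q ⊓ Cfsg.spGL 2 F) ∨
    Cfsg.Geo.InSymplecticResidualClass H := by
  have hn : Fintype.card (Fin 2 ⊕ Fin 2) = 4 := by simp
  have hB := H4.As.big_Sp (F := F) (m := 2) (Or.inr (Or.inr ⟨le_rfl,
    H4.exists_mul_self_ne_one (by rwa [Nat.card_eq_fintype_card])⟩))
  rcases H4.As.sp_table hB (by omega) hH with h | ⟨W, h1, h2, h4, h3, h⟩ | ⟨t, m, D, hD, h1, h2, h⟩ |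
    ⟨h0, m, D, hD, h1, h⟩ | ⟨r, K, hr, h1, hK, h2, h3, h⟩ | h | h |
    ⟨R, p, k, hR, ha, hI, hp, ho, hq, hk, hc, hz, hm, h⟩ |
    ⟨h0, hI, d, m, e, P, G₁, G₂, h1, h2, h3, h4, h5, h6, h7, h8, h9, h⟩ |
    ⟨h0, m, t, e, P, f₁, h1, h2, h3, h4, h5, h6, h⟩ | h | h
  · exact Or.inl h
  · obtain ⟨j, hj⟩ := h4
    exact absurd (Submodule.finrank_eq_zero.1 (by omega)) h1
  · have h3 := H4.As.dec_card hD.decomp
    have h4 := hD.decomp.two_le
    rw [hn] at h3
    rw [Nat.even_iff] at h1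
    have h5 : t ≤ 4 := Nat.le_of_dvd (by decide) ⟨m, h3.symm⟩
    rcases (by interval_cases t <;> omega : (t = 2 ∧ m = 2)) with ⟨rfl, rfl⟩
    · repeat (first | exact ⟨D, hD, h⟩ | exact Or.inl ⟨D, hD, h⟩ | right)
  · exact absurd h0 heven
  · rw [hn] at h1
    have h5 : r ≤ 2 := by have := Nat.le_of_dvd (by decide) h1; omega
    have h6 := hr.two_le
    rcases (by interval_cases r <;> first | omega | exact absurd hr (by decide) : r = 2) with rfl
    all_goals repeat (first | exact ⟨K, hK, h2, h3, h⟩ | exact Or.inl ⟨K, hK, h2, h3, h⟩ | right)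
  · exact absurd h.1 heven
  · repeat (first | exact h | exact Or.inl h | right)
  · exact absurd (hq ▸ ho) heven
  · rw [hn] at h4
    rw [Nat.even_iff] at h1
    have h10 : d ≤ 4 := by nlinarith
    exfalso; interval_cases d <;> omega
  · obtain ⟨rfl, rfl⟩ := H4.As.pow_cases2 h1 h2 h3 (by omega)
    omega
  · repeat (first | exact h.2 | exact Or.inl h.2 | right)
  · repeat (first | exact h | exact Or.inl h | right)

end Cfsg.Agent.S5790
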