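import Cfsg.Statements.S5799
import Cfsg.Agent.H4.TbB

set_option autoImplicit false
open Cfsg

namespace Cfsg.Agent.S5799


/-- Every maximal subgroup of SL_6(q) is of one of the listed geometric types or lies in the residual class. Let F be a finite field with q elements (p its characteristic) and H a maximal subgroup of SL_6(F) (inside GL_6(F)). Then H is the intersection with SL_6(F) of one of: the stabiliser of a proper non-zero subspace; for q ≥ 5, the stabiliser of a decomposition into 6 independent 1-spaces; for q ≥ 3, the stabiliser of a decomposition into 3 independent 2-spaces; the stabiliser of a decomposition into 2 independent 3-spaces; the normaliser of a degree-2 subfield of the matrix algebra; the normaliser of a degree-3 subfield of the matrix algebra; for q ≥ 3, the stabiliser of a tensor decomposition F^2 ⊗ F^3; a subfield group for a subfield F₀ with |F| = |F₀|^r, r prime; for q odd, the similarity group of a non-degenerate quadratic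 form; the similarity group of a non-degenerate symplectic form; the similarity group of a non-degenerate unitary form — or else H lies in the residual class of the linear case (modulo scalars H is almost simple, with absolutely irreducible perfect socle preimage realisable over no proper subfield and fixing no non-degenerate quadratic, symplectic or unitary form). -/
theorem result {F : Type*} [Field F] [Fintype F] (H : Subgroup (Matrix.GeneralLinearGroup (Fin 6) F)) (hH : Cfsg.Geo.IsMaximalIn (Cfsg.Geo.specialLinear (Fin 6) F) H) :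
    (∃ W : Submodule F (Fin 6 → F), W ≠ ⊥ ∧ W ≠ ⊤ ∧ H = Cfsg.Geo.subspaceStabilizer W ⊓ Cfsg.Geo.specialLinear (Fin 6) F) ∨
    (5 ≤ Fintype.card F ∧ ∃ D : Fin 6 → Submodule F (Fin 6 → F), Cfsg.Geo.IsMDecomposition 1 D ∧ H = Cfsg.Geo.decompositionStabilizer D ⊓ Cfsg.Geo.specialLinear (Fin 6) F) ∨
    (3 ≤ Fintype.card F ∧ ∃ D : Fin 3 → Submodule F (Fin 6 → F), Cfsg.Geo.IsMDecomposition 2 D ∧ H = Cfsg.Geo.decompositionStabilizer D ⊓ Cfsg.Geo.specialLinear (Fin 6) F) ∨
    (∃ D : Fin 2 → Submodule F (Fin 6 → F), Cfsg.Geo.IsMDecomposition 3 D ∧ H = Cfsg.Geo.decompositionStabilizer D ⊓ Cfsg.Geo.specialLinear (Fin 6) F) ∨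
    (∃ K : Subalgebra F (Matrix (Fin 6) (Fin 6) F), Cfsg.Geo.IsFieldSubalgebra 2 K ∧ H = Cfsg.Geo.subalgebraNormalizer K ⊓ Cfsg.Geo.specialLinear (Fin 6) F) ∨
    (∃ K : Subalgebra F (Matrix (Fin 6) (Fin 6) F), Cfsg.Geo.IsFieldSubalgebra 3 K ∧ H = Cfsg.Geo.subalgebraNormalizer K ⊓ Cfsg.Geo.specialLinear (Fin 6) F) ∨
    (3 ≤ Fintype.card F ∧ ∃ (e : Fin 6 ≃ Fin 2 × Fin 3) (P : Matrix.GeneralLinearGroup (Fin 6) F), H = Cfsg.Geo.tensorProductSubgroup 2 3 e P ⊓ Cfsg.Geo.specialLinear (Fin 6) F) ∨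
    (∃ (F₀ : Subfield F) (r : ℕ) (P : Matrix.GeneralLinearGroup (Fin 6) F), r.Prime ∧ Fintype.card F = Nat.card F₀ ^ r ∧ H = Cfsg.Geo.subfieldSubgroup F₀ P ⊓ Cfsg.Geo.specialLinear (Fin 6) F) ∨
    (Odd (Fintype.card F) ∧ ∃ Q : (Fin 6 → F) → F, Cfsg.Geo.IsNondegenerateQuadraticForm Q ∧ H = Cfsg.Geo.quadSimilarityGroup Q ⊓ Cfsg.Geo.specialLinear (Fin 6) F) ∨
    (∃ f : (Fin 6 → F) → (Fin 6 → F) → F, Cfsg.Geo.IsSymplecticForm f ∧ H = Cfsg.Geo.similarityGroup f ⊓ Cfsg.Geo.specialLinear (Fin 6) F) ∨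
    (∃ (σ : F ≃+* F) (f : (Fin 6 → F) → (Fin 6 → F) → F), Cfsg.Geo.IsUnitaryForm σ f ∧ H = Cfsg.Geo.similarityGroup f ⊓ Cfsg.Geo.specialLinear (Fin 6) F) ∨
    Cfsg.Geo.InLinearResidualClass H := by
  have hn : Fintype.card (Fin 6) = 6 := Fintype.card_fin _
  rcases H4.As.sl_table (by omega) hH with h | ⟨hI, t, m, D, hD, h1, h2, h⟩ | ⟨r, K, hr, h1, hK, h⟩ |
    ⟨d, m, e, P, h1, h2, h3, h4, h⟩ | h | ⟨r, R, hR, ⟨k, hk⟩, h⟩ | ⟨m, t, e, P, h1, h2, h3, h⟩ | h |
    ⟨f, hf, h⟩ | h | h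
  · exact Or.inl h
  · have h3 := H4.As.dec_card hD
    have h4 := hD.two_le
    rw [hn] at h3
    have h5 : t ≤ 6 := Nat.le_of_dvd (by decide) ⟨m, h3.symm⟩
    rcases (by interval_cases t <;> omega : (t = 2 ∧ m = 3) ∨ (t = 3 ∧ m = 2) ∨ (t = 6 ∧ m = 1)) with ⟨rfl, rfl⟩ | ⟨rfl, rfl⟩ | ⟨rfl, rfl⟩
    · repeat (first | exact ⟨D, hD, h⟩ | exact Or.inl ⟨D, hD, h⟩ | right)
    · repeat (first | exact ⟨h2 rfl, D, hD, h⟩ | exact Or.inl ⟨h2 rfl, D, hD, h⟩ | right)
    · repeat (first | exact ⟨h1 rfl, D, hD, h⟩ | exact Or.inl ⟨h1 rfl, D, hD, h⟩ | right)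
  · rw [hn] at h1
    have h5 := Nat.le_of_dvd (by decide) h1
    have h6 := hr.two_le
    rcases (by interval_cases r <;> first | omega | exact absurd hr (by decide) : r = 2 ∨ r = 3) with rfl | rfl
    all_goals repeat (first | exact ⟨K, hK, h⟩ | exact Or.inl ⟨K, hK, h⟩ | right)
  · rw [hn] at h3
    have h5 : d ≤ 3 := by nlinarith
    rcases (by interval_cases d <;> omega : (d = 2 ∧ m = 3)) with ⟨rfl, rfl⟩
    · repeat (first | exact ⟨h4 rfl, e, P, h⟩ | exact Or.inl ⟨h4 rfl, e, P, h⟩ | right)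
  · repeat (first | exact h | exact Or.inl h | right)
  · exact (H4.As.not_prime_pow hR.symplecticType.prime (a := 2) (b := 3) (by decide) (by decide)
      (by decide) (by decide) (by decide) (hn ▸ hk)).elim
  · obtain ⟨rfl, rfl⟩ := H4.As.pow_cases h1 h2 h3 (by omega)
    omega
  · repeat (first | exact h | exact Or.inl h | right)
  · repeat (first | exact ⟨f, hf, h⟩ | exact Or.inl ⟨f, hf, h⟩ | right)
  · repeat (first | exact h | exact Or.inl h | right)
  · repeat (first | exact h | exact Or.inl h | right)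

end Cfsg.Agent.S5799
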