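import Cfsg.Statements.S5805
import Cfsg.Agent.H4.TbD

set_option autoImplicit false
open Cfsg

namespace Cfsg.Agent.S5805


/-- Every maximal subgroup of Sp_6(q) is of one of the listed geometric types or lies in the residual class. Let F be a finite field with q elements, f the standard alternating form on F^6 (coordinates Fin 3 ⊕ Fin 3), and H a maximal subgroup of Sp_6(F) (inside GL_6(F)). Then H is the intersection with Sp_6(F) of one of: the stabiliser of a non-zero totally isotropic subspace; the stabiliser of a non-degenerate 2-space; for q ≥ 3, the stabiliser of a decomposition into three mutually orthogonal non-degenerate 2-spaces; for q odd, of a decomposition into two totally isotropic 3-spaces; the normaliser of a degree-3 subfield K of the matrix algebra, self-adjoint with f(k v, v) = 0; for q odd, the normaliser of a degree-2 subfield closed under adjoints but not self-adjoint; for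 q odd, q ≥ 5, the stabiliser of a tensor decomposition of f into an alternating form on F^2 and a symmetric form on F^3; a subfield group (|F| = |F₀|^r, r prime) whose F₀-structure carries a non-zero multiple of f; for q even, the similarity group of a non-degenerate quadratic form polarising to f — or else H lies in the residual class of the symplectic case. -/
theorem result {F : Type*} [Field F] [Fintype F] (H : Subgroup (Matrix.GeneralLinearGroup (Fin 3 ⊕ Fin 3) F)) (hH : Cfsg.Geo.IsMaximalIn (Cfsg.spGL 3 F) H) :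
    (∃ W : Submodule F (Fin 3 ⊕ Fin 3 → F), W ≠ ⊥ ∧ Cfsg.Geo.IsTotallySingularFor (Cfsg.sympForm 3 F) W ∧ H = Cfsg.Geo.subspaceStabilizer W ⊓ Cfsg.spGL 3 F) ∨
    (∃ W : Submodule F (Fin 3 ⊕ Fin 3 → F), W ≠ ⊥ ∧ Cfsg.Geo.IsNondegenerateOn (Cfsg.sympForm 3 F) W ∧ Module.finrank F W < 3 ∧ H = Cfsg.Geo.subspaceStabilizer W ⊓ Cfsg.spGL 3 F) ∨
    (3 ≤ Fintype.card F ∧ ∃ D : Fin 3 → Submodule F (Fin 3 ⊕ Fin 3 → F), Cfsg.Geo.IsNondegenerateMDecomposition (Cfsg.sympForm 3 F) 2 D ∧ H = Cfsg.Geo.decompositionStabilizer D ⊓ Cfsg.spGL 3 F) ∨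
    (Odd (Fintype.card F) ∧ ∃ D : Fin 2 → Submodule F (Fin 3 ⊕ Fin 3 → F), Cfsg.Geo.IsMDecomposition 3 D ∧ (∀ i, Cfsg.Geo.IsTotallySingularFor (Cfsg.sympForm 3 F) (D i)) ∧ H = Cfsg.Geo.decompositionStabilizer D ⊓ Cfsg.spGL 3 F) ∨
    (∃ K : Subalgebra F (Matrix (Fin 3 ⊕ Fin 3) (Fin 3 ⊕ Fin 3) F), Cfsg.Geo.IsFieldSubalgebra 3 K ∧ Cfsg.Geo.IsSelfAdjointFor (Cfsg.sympForm 3 F) K ∧ (∀ k ∈ K, ∀ v : (Fin 3 ⊕ Fin 3 → F), (Cfsg.sympForm 3 F) (Matrix.mulVec k v) v = 0) ∧ H = Cfsg.Geo.subalgebraNormalizer K ⊓ Cfsg.spGL 3 F) ∨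
    (Odd (Fintype.card F) ∧ ∃ K : Subalgebra F (Matrix (Fin 3 ⊕ Fin 3) (Fin 3 ⊕ Fin 3) F), Cfsg.Geo.IsFieldSubalgebra 2 K ∧ Cfsg.Geo.IsAdjointClosedFor (Cfsg.sympForm 3 F) K ∧ ¬ Cfsg.Geo.IsSelfAdjointFor (Cfsg.sympForm 3 F) K ∧ H = Cfsg.Geo.subalgebraNormalizer K ⊓ Cfsg.spGL 3 F) ∨
    (Odd (Fintype.card F) ∧ 5 ≤ Fintype.card F ∧ ∃ (e : (Fin 3 ⊕ Fin 3) ≃ Fin 2 × Fin 3) (P : Matrix.GeneralLinearGroup (Fin 3 ⊕ Fin 3) F) (f₁ : (Fin 2 → F) → (Fin 2 → F) → F) (f₂ : (Fin 3 → F) → (Fin 3 → F) → F), Cfsg.Geo.IsSymplecticForm f₁ ∧ Cfsg.Geo.IsSymmetricForm f₂ ∧ Cfsg.Geo.IsTensorFormStructure id (Cfsg.sympForm 3 F) f₁ f₂ e P ∧ H = Cfsg.Geo.tensorProductSubgroup 2 3 e P ⊓ Cfsg.spGL 3 F) ∨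
    (∃ (F₀ : Subfield F) (r : ℕ) (P : Matrix.GeneralLinearGroup (Fin 3 ⊕ Fin 3) F) (ζ : F), r.Prime ∧ Fintype.card F = Nat.card F₀ ^ r ∧ ζ ≠ 0 ∧ Cfsg.Geo.IsFormRationalStructure (Cfsg.sympForm 3 F) F₀ ζ P ∧ H = Cfsg.Geo.subfieldSubgroup F₀ P ⊓ Cfsg.spGL 3 F) ∨
    (¬ Odd (Fintype.card F) ∧ ∃ Q : (Fin 3 ⊕ Fin 3 → F) → F, Cfsg.Geo.IsNondegenerateQuadraticForm Q ∧ (∀ u v : (Fin 3 ⊕ Fin 3 → F), QuadraticMap.polar Q u v = (Cfsg.sympForm 3 F) u v) ∧ H = Cfsg.Geo.quadSimilarityGroup Q ⊓ Cfsg.spGL 3 F) ∨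
    Cfsg.Geo.InSymplecticResidualClass H := by
  have hn : Fintype.card (Fin 3 ⊕ Fin 3) = 6 := by simp
  have hB := H4.As.big_Sp (F := F) (m := 3) (Or.inl (by omega))
  rcases H4.As.sp_table hB (by omega) hH with h | ⟨W, h1, h2, h4, h3, h⟩ | ⟨t, m, D, hD, h1, h2, h⟩ |
    ⟨h0, m, D, hD, h1, h⟩ | ⟨r, K, hr, h1, hK, h2, h3, h⟩ | h | h |
    ⟨R, p, k, hR, ha, hI, hp, ho, hq, hk, hc, hz, hm, h⟩ |
    ⟨h0, hI, d, m, e, P, G₁, G₂, h1, h2, h3, h4, h5, h6, h7, h8, h9, h⟩ |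
    ⟨h0, m, t, e, P, f₁, h1, h2, h3, h4, h5, h6, h⟩ | h | h
  · exact Or.inl h
  · exact Or.inr (Or.inl ⟨W, h1, h2, by omega, h⟩)
  · have h3 := H4.As.dec_card hD.decomp
    have h4 := hD.decomp.two_le
    rw [hn] at h3
    rw [Nat.even_iff] at h1
    have h5 : t ≤ 6 := Nat.le_of_dvd (by decide) ⟨m, h3.symm⟩
    rcases (by interval_cases t <;> omega : (t = 3 ∧ m = 2)) with ⟨rfl, rfl⟩
    · repeat (first | exact ⟨h2 rfl, D, hD, h⟩ | exact Or.inl ⟨h2 rfl, D, hD, h⟩ | right)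
  · have h3 := H4.As.dec_card hD
    rw [hn] at h3
    obtain rfl : m = 3 := by omega
    repeat (first | exact ⟨h0, D, hD, h1, h⟩ | exact Or.inl ⟨h0, D, hD, h1, h⟩ | right)
  · rw [hn] at h1
    have h5 : r ≤ 3 := by have := Nat.le_of_dvd (by decide) h1; omega
    have h6 := hr.two_le
    rcases (by interval_cases r <;> first | omega | exact absurd hr (by decide) : r = 3) with rfl
    all_goals repeat (first | exact ⟨K, hK, h2, h3, h⟩ | exact Or.inl ⟨K, hK, h2, h3, h⟩ | right)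
  · repeat (first | exact h | exact Or.inl h | right)
  · repeat (first | exact h | exact Or.inl h | right)
  · exact (H4.As.not_prime_pow Nat.prime_two (a := 2) (b := 3) (by decide) (by decide)
      (by decide) (by decide) (by decide) (hn ▸ hk)).elim
  · rw [hn] at h4
    rw [Nat.even_iff] at h1
    have h10 : d ≤ 4 := by nlinarith
    rcases (by interval_cases d <;> omega : (d = 2 ∧ m = 3)) with ⟨rfl, rfl⟩
    · repeat (first | exact ⟨h0, h5 rfl, e, P, _, _, h9, h7.symm, H4.As.tensorStruct h8, h⟩ | exact Or.inl ⟨h0, h5 rfl, e, P, _, _, h9, h7.symm, H4.As.tensorStruct h8, h⟩ | right)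
  · obtain ⟨rfl, rfl⟩ := H4.As.pow_cases2 h1 h2 h3 (by omega)
    omega
  · repeat (first | exact h | exact Or.inl h | right)
  · repeat (first | exact h | exact Or.inl h | right)

end Cfsg.Agent.S5805
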