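import Cfsg.Statements.S5811
import Cfsg.Agent.H4.TbC

set_option autoImplicit false
open Cfsg

namespace Cfsg.Agent.S5811


/-- Every maximal subgroup of SU_7(q) is of one of the listed geometric types or lies in the residual class. Let F be the field with q² elements (characteristic p), f the standard unitary form Σ u_i v_i^q on F^7, and H a maximal subgroup of SU_7(q) (inside GL_7(F)). Then H is the intersection with SU_7(q) of one of: the stabiliser of a non-zero totally isotropic subspace; the stabiliser of a non-degenerate 1-, 2- or 3-space; the stabiliser of a decomposition into seven mutually orthogonal non-degenerate 1-spaces; the normaliser of an adjoint-closed degree-7 subfield of the matrix algebra; a subfield group of odd prime index whose F₀-structure carries f; for q odd, a subfield group of index 2 whose F₀-structure carries f; for q = p prime with p ≡ 6 mod 7, or q = p³ with p ≡ 3 or 5 mod 7, the normaliser of an absolutely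 irreducible 7-group R of exponent 7, order 343 and centre of order 7, all of whose characteristic abelian subgroups are cyclic, contained in the similarity group of f — or else H lies in the residual class of the unitary case (modulo scalars H is almost simple, with absolutely irreducible perfect socle preimage realisable over no proper subfield and fixing no non-degenerate quadratic or symplectic form). -/
theorem result {F : Type*} [Field F] [Fintype F] (q : ℕ) (hF : Fintype.card F = q ^ 2) (H : Subgroup (Matrix.GeneralLinearGroup (Fin 7) F)) (hH : Cfsg.Geo.IsMaximalIn (Cfsg.GU 7 F q ⊓ Cfsg.Geo.specialLinear (Fin 7) F) H) :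
    (∃ W : Submodule F (Fin 7 → F), W ≠ ⊥ ∧ Cfsg.Geo.IsTotallySingularFor (Cfsg.hermForm 7 F q) W ∧ H = Cfsg.Geo.subspaceStabilizer W ⊓ (Cfsg.GU 7 F q ⊓ Cfsg.Geo.specialLinear (Fin 7) F)) ∨
    (∃ W : Submodule F (Fin 7 → F), W ≠ ⊥ ∧ Cfsg.Geo.IsNondegenerateOn (Cfsg.hermForm 7 F q) W ∧ 2 * Module.finrank F W < 7 ∧ H = Cfsg.Geo.subspaceStabilizer W ⊓ (Cfsg.GU 7 F q ⊓ Cfsg.Geo.specialLinear (Fin 7) F)) ∨
    (∃ D : Fin 7 → Submodule F (Fin 7 → F), Cfsg.Geo.IsNondegenerateMDecomposition (Cfsg.hermForm 7 F q) 1 D ∧ H = Cfsg.Geo.decompositionStabilizer D ⊓ (Cfsg.GU 7 F q ⊓ Cfsg.Geo.specialLinear (Fin 7) F)) ∨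
    (∃ K : Subalgebra F (Matrix (Fin 7) (Fin 7) F), Cfsg.Geo.IsFieldSubalgebra 7 K ∧ Cfsg.Geo.IsAdjointClosedFor (Cfsg.hermForm 7 F q) K ∧ H = Cfsg.Geo.subalgebraNormalizer K ⊓ (Cfsg.GU 7 F q ⊓ Cfsg.Geo.specialLinear (Fin 7) F)) ∨
    (∃ (F₀ : Subfield F) (r : ℕ) (P : Matrix.GeneralLinearGroup (Fin 7) F), r.Prime ∧ Odd r ∧ Fintype.card F = Nat.card F₀ ^ r ∧ Cfsg.Geo.IsFormRationalStructure (Cfsg.hermForm 7 F q) F₀ 1 P ∧ H = Cfsg.Geo.subfieldSubgroup F₀ P ⊓ (Cfsg.GU 7 F q ⊓ Cfsg.Geo.specialLinear (Fin 7) F)) ∨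
    (Odd q ∧ ∃ (F₀ : Subfield F) (P : Matrix.GeneralLinearGroup (Fin 7) F), Fintype.card F = Nat.card F₀ ^ 2 ∧ Cfsg.Geo.IsFormRationalStructure (Cfsg.hermForm 7 F q) F₀ 1 P ∧ H = Cfsg.Geo.subfieldSubgroup F₀ P ⊓ (Cfsg.GU 7 F q ⊓ Cfsg.Geo.specialLinear (Fin 7) F)) ∨
    (∃ (p : ℕ) (R : Subgroup (Matrix.GeneralLinearGroup (Fin 7) F)), p.Prime ∧ CharP F p ∧ ((q = p ∧ p % 7 = 6) ∨ (q = p ^ 3 ∧ (p % 7 = 3 ∨ p % 7 = 5))) ∧ Cfsg.Geo.IsSymplecticTypeGroup 7 R ∧ Cfsg.Geo.ActsAbsolutelyIrreducibly (Cfsg.Geo.matrixSet R) ∧ R ≤ Cfsg.Geo.similarityGroup (Cfsg.hermForm 7 F q) ∧ Nat.card R = 343 ∧ Nat.card (Subgroup.center R) = 7 ∧ H = Cfsg.Geo.subgroupNormalizer R ⊓ (Cfsg.GU 7 F q ⊓ Cfsg.Geo.specialLinear (Fin 7) F)) ∨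
    Cfsg.Geo.InUnitaryResidualClass H := by
  have hn : Fintype.card (Fin 7) = 7 := Fintype.card_fin _
  rcases H4.As.su_table hF (by omega) hH with h | ⟨W, h1, h2, h3, h⟩ | ⟨t, m, D, hD, h2, h⟩ |
    ⟨m, D, hD, h1, h⟩ | ⟨r, K, hr, ho, h1, hK, h2, h⟩ | h | h | ⟨h0, h⟩ |
    ⟨r, R, p, e, k, hR, ha, hI, hk, hp, hc, hq, h1, h⟩ |
    ⟨d, m, e, P, f₁, f₂, h1, h2, h3, h4, h5, h6, h7, h⟩ | ⟨m, t, e, P, f₁, h1, h2, h3, h4, h5, h6, h⟩ | h
  · exact Or.inl h
  · exact Or.inr (Or.inl ⟨W, h1, h2, h3.trans_eq hn, h⟩)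
  · have h3 := H4.As.dec_card hD.decomp
    have h4 := hD.decomp.two_le
    rw [hn] at h3
    have h5 : t ≤ 7 := Nat.le_of_dvd (by decide) ⟨m, h3.symm⟩
    rcases (by interval_cases t <;> omega : (t = 7 ∧ m = 1)) with ⟨rfl, rfl⟩
    · repeat (first | exact ⟨D, hD, h⟩ | exact Or.inl ⟨D, hD, h⟩ | right)
  · have h3 := H4.As.dec_card hD
    rw [hn] at h3
    omega
  · rw [hn] at h1
    have h5 := Nat.le_of_dvd (by decide) h1
    have h6 := hr.two_le
    rw [Nat.odd_iff] at ho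
    obtain rfl : r = 7 := by interval_cases r <;> first | omega | exact absurd hr (by decide)
    repeat (first | exact ⟨K, hK, h2, h⟩ | exact Or.inl ⟨K, hK, h2, h⟩ | right)
  · repeat (first | exact h | exact Or.inl h | right)
  · repeat (first | exact h | exact Or.inl h | right)
  · exact absurd (hn ▸ h0) (by decide)
  · obtain rfl : r = 7 := H4.As.prime_pow_eq hR.prime (by decide) (k := 1)
      (by decide) (hn ▸ hk)
    obtain rfl : 1 = k := Nat.pow_right_injective (by decide : 2 ≤ 7) (hn.symm.trans hk)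
    obtain ⟨h0, hz, hc', h1, h2, h3, h4, h5⟩ | ⟨h0, rfl, h2, hz, hc'⟩ := h1
    · have key : (e = 1 ∧ p % 7 = 6) ∨ (e = 3 ∧ (p % 7 = 3 ∨ p % 7 = 5)) := by
        generalize p % 7 = a at *
        have h6 : e ≤ 3 := by omega
        revert h4 h3
        interval_cases e <;> interval_cases a <;> decide
      have key' := key.imp (fun h => And.intro ((h.1 ▸ hq).trans (pow_one p)) h.2)
        fun h => And.intro (h.1 ▸ hq) h.2
      repeat (first | exact ⟨p, R, hp, hc, key', hR, ha, hI.trans (H4.As.Iso_le_Sim _), hc', hz, h⟩ | exact Or.inl ⟨p, R, hp, hc, key', hR, ha, hI.trans (H4.As.Iso_le_Sim _), hc', hz, h⟩ | right)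
    · exact absurd h0 (by decide)
  · rw [hn] at h3
    have h8 : d ≤ 3 := by nlinarith
    exfalso; interval_cases d <;> omega
  · obtain ⟨rfl, rfl⟩ := H4.As.pow_cases h1 h2 h3 (by omega)
    omega
  · repeat (first | exact h | exact Or.inl h | right)

end Cfsg.Agent.S5811
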