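import Cfsg.Statements.S5817
import Cfsg.Agent.H4.TbB

set_option autoImplicit false
open Cfsg

namespace Cfsg.Agent.S5817


/-- Every maximal subgroup of SL_8(q) is of one of the listed geometric types or lies in the residual class. Let F be a finite field with q elements (p its characteristic) and H a maximal subgroup of SL_8(F) (inside GL_8(F)). Then H is the intersection with SL_8(F) of one of: the stabiliser of a proper non-zero subspace; for q ≥ 5, the stabiliser of a decomposition into 8 independent 1-spaces; for q ≥ 3, the stabiliser of a decomposition into 4 independent 2-spaces; the stabiliser of a decomposition into 2 independent 4-spaces; the normaliser of a degree-2 subfield of the matrix algebra; for q ≥ 3, the stabiliser of a tensor decomposition F^2 ⊗ F^4; a subfield group for a subfield F₀ with |F| = |F₀|^r, r prime; for q = p prime with p ≡ 1 mod 4, the normaliser of an absolutely irreducible 2-subgroup R of exponent 4 and order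 2^(2+2m) with centre of order 4, all of whose characteristic abelian subgroups are cyclic, 4 dividing p − 1 (here |R| = 2^8); for q odd, the similarity group of a non-degenerate quadratic form; the similarity group of a non-degenerate symplectic form; the similarity group of a non-degenerate unitary form — or else H lies in the residual class of the linear case (modulo scalars H is almost simple, with absolutely irreducible perfect socle preimage realisable over no proper subfield and fixing no non-degenerate quadratic, symplectic or unitary form). -/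
theorem result {F : Type*} [Field F] [Fintype F] (H : Subgroup (Matrix.GeneralLinearGroup (Fin 8) F)) (hH : Cfsg.Geo.IsMaximalIn (Cfsg.Geo.specialLinear (Fin 8) F) H) :
    (∃ W : Submodule F (Fin 8 → F), W ≠ ⊥ ∧ W ≠ ⊤ ∧ H = Cfsg.Geo.subspaceStabilizer W ⊓ Cfsg.Geo.specialLinear (Fin 8) F) ∨
    (5 ≤ Fintype.card F ∧ ∃ D : Fin 8 → Submodule F (Fin 8 → F), Cfsg.Geo.IsMDecomposition 1 D ∧ H = Cfsg.Geo.decompositionStabilizer D ⊓ Cfsg.Geo.specialLinear (Fin 8) F) ∨
    (3 ≤ Fintype.card F ∧ ∃ D : Fin 4 → Submodule F (Fin 8 → F), Cfsg.Geo.IsMDecomposition 2 D ∧ H = Cfsg.Geo.decompositionStabilizer D ⊓ Cfsg.Geo.specialLinear (Fin 8) F) ∨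
    (∃ D : Fin 2 → Submodule F (Fin 8 → F), Cfsg.Geo.IsMDecomposition 4 D ∧ H = Cfsg.Geo.decompositionStabilizer D ⊓ Cfsg.Geo.specialLinear (Fin 8) F) ∨
    (∃ K : Subalgebra F (Matrix (Fin 8) (Fin 8) F), Cfsg.Geo.IsFieldSubalgebra 2 K ∧ H = Cfsg.Geo.subalgebraNormalizer K ⊓ Cfsg.Geo.specialLinear (Fin 8) F) ∨
    (3 ≤ Fintype.card F ∧ ∃ (e : Fin 8 ≃ Fin 2 × Fin 4) (P : Matrix.GeneralLinearGroup (Fin 8) F), H = Cfsg.Geo.tensorProductSubgroup 2 4 e P ⊓ Cfsg.Geo.specialLinear (Fin 8) F) ∨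
    (∃ (F₀ : Subfield F) (r : ℕ) (P : Matrix.GeneralLinearGroup (Fin 8) F), r.Prime ∧ Fintype.card F = Nat.card F₀ ^ r ∧ H = Cfsg.Geo.subfieldSubgroup F₀ P ⊓ Cfsg.Geo.specialLinear (Fin 8) F) ∨
    ((∃ p : ℕ, p.Prime ∧ Fintype.card F = p ∧ (p % 4 = 1)) ∧ ∃ R : Subgroup (Matrix.GeneralLinearGroup (Fin 8) F), Cfsg.Geo.IsLinearSymplecticTypeData 2 R ∧ H = Cfsg.Geo.subgroupNormalizer R ⊓ Cfsg.Geo.specialLinear (Fin 8) F) ∨
    (Odd (Fintype.card F) ∧ ∃ Q : (Fin 8 → F) → F, Cfsg.Geo.IsNondegenerateQuadraticForm Q ∧ H = Cfsg.Geo.quadSimilarityGroup Q ⊓ Cfsg.Geo.specialLinear (Fin 8) F) ∨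
    (∃ f : (Fin 8 → F) → (Fin 8 → F) → F, Cfsg.Geo.IsSymplecticForm f ∧ H = Cfsg.Geo.similarityGroup f ⊓ Cfsg.Geo.specialLinear (Fin 8) F) ∨
    (∃ (σ : F ≃+* F) (f : (Fin 8 → F) → (Fin 8 → F) → F), Cfsg.Geo.IsUnitaryForm σ f ∧ H = Cfsg.Geo.similarityGroup f ⊓ Cfsg.Geo.specialLinear (Fin 8) F) ∨
    Cfsg.Geo.InLinearResidualClass H := by
  have hn : Fintype.card (Fin 8) = 8 := Fintype.card_fin _
  rcases H4.As.sl_table (by omega) hH with h | ⟨hI, t, m, D, hD, h1, h2, h⟩ | ⟨r, K, hr, h1, hK, h⟩ |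
    ⟨d, m, e, P, h1, h2, h3, h4, h⟩ | h | ⟨r, R, hR, ⟨k, hk⟩, h⟩ | ⟨m, t, e, P, h1, h2, h3, h⟩ | h |
    ⟨f, hf, h⟩ | h | h
  · exact Or.inl h
  · have h3 := H4.As.dec_card hD
    have h4 := hD.two_le
    rw [hn] at h3
    have h5 : t ≤ 8 := Nat.le_of_dvd (by decide) ⟨m, h3.symm⟩
    rcases (by interval_cases t <;> omega : (t = 2 ∧ m = 4) ∨ (t = 4 ∧ m = 2) ∨ (t = 8 ∧ m = 1)) with ⟨rfl, rfl⟩ | ⟨rfl, rfl⟩ | ⟨rfl, rfl⟩
    · repeat (first | exact ⟨D, hD, h⟩ | exact Or.inl ⟨D, hD, h⟩ | right)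
    · repeat (first | exact ⟨h2 rfl, D, hD, h⟩ | exact Or.inl ⟨h2 rfl, D, hD, h⟩ | right)
    · repeat (first | exact ⟨h1 rfl, D, hD, h⟩ | exact Or.inl ⟨h1 rfl, D, hD, h⟩ | right)
  · rw [hn] at h1
    have h5 := Nat.le_of_dvd (by decide) h1
    have h6 := hr.two_le
    rcases (by interval_cases r <;> first | omega | exact absurd hr (by decide) : r = 2) with rfl
    all_goals repeat (first | exact ⟨K, hK, h⟩ | exact Or.inl ⟨K, hK, h⟩ | right)
  · rw [hn] at h3
    have h5 : d ≤ 3 := by nlinarith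
    rcases (by interval_cases d <;> omega : (d = 2 ∧ m = 4)) with ⟨rfl, rfl⟩
    · repeat (first | exact ⟨h4 rfl, e, P, h⟩ | exact Or.inl ⟨h4 rfl, e, P, h⟩ | right)
  · repeat (first | exact h | exact Or.inl h | right)
  · obtain rfl : r = 2 := H4.As.prime_pow_eq hR.symplecticType.prime (by decide) (k := 3)
      (by decide) (hn ▸ hk)
    obtain ⟨p, e, hp, hc, hq, ⟨h0, rfl, h1⟩ | ⟨h0, h1, h2, h3, h4, h5⟩⟩ := H4.As.lin_ext hR (by omega)
    · repeat (first | exact ⟨⟨p, hp, hq.trans (pow_one p), h1⟩, R, hR, h⟩ | exact Or.inl ⟨⟨p, hp, hq.trans (pow_one p), h1⟩, R, hR, h⟩ | right)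
    · exact absurd rfl h0
  · obtain ⟨rfl, rfl⟩ := H4.As.pow_cases h1 h2 h3 (by omega)
    omega
  · repeat (first | exact h | exact Or.inl h | right)
  · repeat (first | exact ⟨f, hf, h⟩ | exact Or.inl ⟨f, hf, h⟩ | right)
  · repeat (first | exact h | exact Or.inl h | right)
  · repeat (first | exact h | exact Or.inl h | right)

end Cfsg.Agent.S5817
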