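import Cfsg.Statements.S5826
import Cfsg.Agent.H4.TbG

set_option autoImplicit false
open Cfsg

namespace Cfsg.Agent.S5826


/-- Every maximal subgroup of Ω_8^-(q) is of one of the listed geometric types or lies in the residual class. Let F be a finite field with q elements, Q a non-degenerate quadratic form on F^8 of minus type (no totally singular 4-space), Ω the commutator subgroup of its isometry group, and H a maximal subgroup of Ω (inside GL_8(F)). Then H is the intersection with Ω of one of: the stabiliser of a non-zero totally singular subspace; for q odd, the stabiliser of a non-degenerate subspace of odd dimension; the stabiliser of a non-degenerate 2-space of minus type; for q ≥ 4, the stabiliser of a non-degenerate 2-space of plus type; the stabiliser of a non-degenerate 4-space; for q even, the stabiliser of the span of a non-singular vector; the normaliser of a degree-2 subfield of the matrix algebra; a subfield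 group of odd prime index whose F₀-structure carries a non-zero multiple of Q — or else H lies in the residual class of the orthogonal case (modulo scalars H is almost simple, with absolutely irreducible perfect socle preimage realisable over no proper subfield and fixing no non-degenerate unitary form). -/
theorem result {F : Type*} [Field F] [Fintype F] (Q : (Fin 8 → F) → F) (hQ : Cfsg.Geo.IsNondegenerateQuadraticForm Q) (hminus : ¬ Cfsg.Geo.IsPlusTypeOn Q ⊤) (H : Subgroup (Matrix.GeneralLinearGroup (Fin 8) F)) (hH : Cfsg.Geo.IsMaximalIn (Cfsg.Geo.omegaGL Q) H) :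
    (∃ W : Submodule F (Fin 8 → F), W ≠ ⊥ ∧ Cfsg.Geo.IsTotallySingularQuad Q W ∧ H = Cfsg.Geo.subspaceStabilizer W ⊓ Cfsg.Geo.omegaGL Q) ∨
    (Odd (Fintype.card F) ∧ ∃ W : Submodule F (Fin 8 → F), W ≠ ⊥ ∧ W ≠ ⊤ ∧ Odd (Module.finrank F W) ∧ Cfsg.Geo.IsNondegenerateOn (QuadraticMap.polar Q) W ∧ H = Cfsg.Geo.subspaceStabilizer W ⊓ Cfsg.Geo.omegaGL Q) ∨
    (∃ W : Submodule F (Fin 8 → F), Module.finrank F W = 2 ∧ Cfsg.Geo.IsNondegenerateOn (QuadraticMap.polar Q) W ∧ ¬ Cfsg.Geo.IsPlusTypeOn Q W ∧ H = Cfsg.Geo.subspaceStabilizer W ⊓ Cfsg.Geo.omegaGL Q) ∨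
    (4 ≤ Fintype.card F ∧ ∃ W : Submodule F (Fin 8 → F), Module.finrank F W = 2 ∧ Cfsg.Geo.IsNondegenerateOn (QuadraticMap.polar Q) W ∧ Cfsg.Geo.IsPlusTypeOn Q W ∧ H = Cfsg.Geo.subspaceStabilizer W ⊓ Cfsg.Geo.omegaGL Q) ∨
    (∃ W : Submodule F (Fin 8 → F), Module.finrank F W = 4 ∧ Cfsg.Geo.IsNondegenerateOn (QuadraticMap.polar Q) W ∧ H = Cfsg.Geo.subspaceStabilizer W ⊓ Cfsg.Geo.omegaGL Q) ∨
    (¬ Odd (Fintype.card F) ∧ ∃ v : (Fin 8 → F), Q v ≠ 0 ∧ H = Cfsg.Geo.subspaceStabilizer (Submodule.span F {v}) ⊓ Cfsg.Geo.omegaGL Q) ∨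
    (∃ K : Subalgebra F (Matrix (Fin 8) (Fin 8) F), Cfsg.Geo.IsFieldSubalgebra 2 K ∧ H = Cfsg.Geo.subalgebraNormalizer K ⊓ Cfsg.Geo.omegaGL Q) ∨
    (∃ (F₀ : Subfield F) (r : ℕ) (P : Matrix.GeneralLinearGroup (Fin 8) F) (ζ : F), r.Prime ∧ Odd r ∧ Fintype.card F = Nat.card F₀ ^ r ∧ ζ ≠ 0 ∧ Cfsg.Geo.IsQuadFormRationalStructure (fun v : Fin 8 → F => ζ * Q v) F₀ P ∧ H = Cfsg.Geo.subfieldSubgroup F₀ P ⊓ Cfsg.Geo.omegaGL Q) ∨
    Cfsg.Geo.InOrthogonalResidualClass H := by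
  have hn : Fintype.card (Fin 8) = 8 := by simp
  rcases H4.As.o_even_table hQ (n := 4) hn (by decide) hH (by decide) with
    ⟨W, h1, h2, h3, h⟩ | ⟨W, h1, h2, h3, h4, h5, h6, h7, h⟩ | h | ⟨t, m, D, hD, h1, h2, h3, h4, h⟩ |
    ⟨m, D, h1, h2, h3, hD, h4, h⟩ | ⟨m, D, h1, h2, hD, h3, h⟩ | ⟨r, K, hr, h1, h2, h3, hK, h⟩ |
    ⟨K, hK, h1, h2, h⟩ | ⟨K, hK, h1, h2, h3, h4, h⟩ | ⟨k, r, P, ζ, h1, h2, h3, h4, h5, h⟩ | ⟨h1, h2⟩ |
    ⟨h1, h2, e, P, G₁, G₂, h3, h4, h5, h⟩ | ⟨h1, h2, e, P, f₁, f₂, h3, h4, h5, h6, h⟩ | h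
  · exact Or.inl ⟨W, h1, h2, h⟩
  · have h8 := H4.As.pos_of_ne_bot h1
    rcases Nat.even_or_odd (Module.finrank F W) with h9 | h9
    swap
    · exact Or.inr (Or.inl ⟨h6 h9, W, h1, h2, h9, h3, h⟩)
    rcases (by have := Nat.even_iff.1 h9; omega : Module.finrank F W = 2 ∨ Module.finrank F W = 4) with h9 | h9
    · by_cases h10 : Geo.IsPlusTypeOn Q W
      · repeat (first | exact ⟨h7 h9 h10, W, h9, h3, h10, h⟩ | exact Or.inl ⟨h7 h9 h10, W, h9, h3, h10, h⟩ | right)
      · repeat (first | exact ⟨W, h9, h3, h10, h⟩ | exact Or.inl ⟨W, h9, h3, h10, h⟩ | right)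
    · repeat (first | exact ⟨W, h9, h3, h⟩ | exact Or.inl ⟨W, h9, h3, h⟩ | right)
  · repeat (first | exact h | exact Or.inl h | right)
  · have h5 := H4.As.dec_card hD.decomp.decomp
    have h6 := hD.decomp.decomp.two_le
    rw [hn] at h5 h1
    have h7 : t ≤ 8 := Nat.le_of_dvd (by decide) ⟨m, h5.symm⟩
    rcases (by interval_cases t <;> omega : (t = 2 ∧ m = 4) ∨ (t = 4 ∧ m = 2) ∨ (t = 8 ∧ m = 1)) with ⟨rfl, rfl⟩ | ⟨rfl, rfl⟩ | ⟨rfl, rfl⟩
    · have h8 := H4.As.dec_plus_iff hQ hD (by decide)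
      exact (hminus (h8.2 (Or.inl (by decide)))).elim
    · have h8 := H4.As.dec_plus_iff hQ hD (by decide)
      exact (hminus (h8.2 (Or.inl (by decide)))).elim
    · obtain ⟨h8, h9⟩ := h1 (by decide)
      exact (hminus (h9.2 (H4.As.pow_even_mod h8 (by decide)))).elim
  · have h5 := H4.As.dec_card hD.decomp
    obtain rfl : m = 4 := by omega
    exact absurd h1 (by decide)
  · exact (hminus h2).elim
  · rw [hn] at h2 h3
    have h4 := Nat.le_of_dvd (by decide) h2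
    have h5 := Nat.odd_iff.1 h1
    have h6 := hr.two_le
    exfalso; interval_cases r <;> omega
  · repeat (first | exact ⟨K, hK, h⟩ | exact Or.inl ⟨K, hK, h⟩ | right)
  · repeat (first | exact ⟨K, hK, h⟩ | exact Or.inl ⟨K, hK, h⟩ | right)
  · repeat (first | exact ⟨k, r, P, ζ, h1, h2 hminus, h3, h4, h5, h⟩ | exact Or.inl ⟨k, r, P, ζ, h1, h2 hminus, h3, h4, h5, h⟩ | right)
  · exact (hminus h1).elim
  · simpa using Fintype.card_congr e
  · exact (hminus h1).elim
  · repeat (first | exact h | exact Or.inl h | right)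

end Cfsg.Agent.S5826
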