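import Cfsg.Statements.S5832
import Cfsg.Agent.H4.TbC

set_option autoImplicit false
open Cfsg

namespace Cfsg.Agent.S5832


/-- Every maximal subgroup of SU_9(q) is of one of the listed geometric types or lies in the residual class. Let F be the field with q² elements, f the standard unitary form Σ u_i v_i^q on F^9, and H a maximal subgroup of SU_9(q) (inside GL_9(F)). Then H is the intersection with SU_9(q) of one of: the stabiliser of a non-zero totally isotropic subspace; the stabiliser of a non-degenerate 1-, 2-, 3- or 4-space; the stabiliser of a decomposition into nine mutually orthogonal non-degenerate 1-spaces; of a decomposition into three mutually orthogonal non-degenerate 3-spaces; the normaliser of an adjoint-closed degree-3 subfield of the matrix algebra; a subfield group of odd prime index whose F₀-structure carries f; for q odd, a subfield group of index 2 whose F₀-structure carries f; for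 q = p ≡ 2 mod 3 prime, the normaliser of an absolutely irreducible extraspecial group 3_+^(1+4) of exponent 3 inside the similarity group of f; for q ≥ 3, the stabiliser of a tensor decomposition of f as a tensor square of a unitary form on F^3 — or else H lies in the residual class of the unitary case. -/
theorem result {F : Type*} [Field F] [Fintype F] (q : ℕ) (hF : Fintype.card F = q ^ 2) (H : Subgroup (Matrix.GeneralLinearGroup (Fin 9) F)) (hH : Cfsg.Geo.IsMaximalIn (Cfsg.GU 9 F q ⊓ Cfsg.Geo.specialLinear (Fin 9) F) H) :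
    (∃ W : Submodule F (Fin 9 → F), W ≠ ⊥ ∧ Cfsg.Geo.IsTotallySingularFor (Cfsg.hermForm 9 F q) W ∧ H = Cfsg.Geo.subspaceStabilizer W ⊓ (Cfsg.GU 9 F q ⊓ Cfsg.Geo.specialLinear (Fin 9) F)) ∨
    (∃ W : Submodule F (Fin 9 → F), W ≠ ⊥ ∧ Cfsg.Geo.IsNondegenerateOn (Cfsg.hermForm 9 F q) W ∧ 2 * Module.finrank F W < 9 ∧ H = Cfsg.Geo.subspaceStabilizer W ⊓ (Cfsg.GU 9 F q ⊓ Cfsg.Geo.specialLinear (Fin 9) F)) ∨
    (∃ D : Fin 9 → Submodule F (Fin 9 → F), Cfsg.Geo.IsNondegenerateMDecomposition (Cfsg.hermForm 9 F q) 1 D ∧ H = Cfsg.Geo.decompositionStabilizer D ⊓ (Cfsg.GU 9 F q ⊓ Cfsg.Geo.specialLinear (Fin 9) F)) ∨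
    (∃ D : Fin 3 → Submodule F (Fin 9 → F), Cfsg.Geo.IsNondegenerateMDecomposition (Cfsg.hermForm 9 F q) 3 D ∧ H = Cfsg.Geo.decompositionStabilizer D ⊓ (Cfsg.GU 9 F q ⊓ Cfsg.Geo.specialLinear (Fin 9) F)) ∨
    (∃ K : Subalgebra F (Matrix (Fin 9) (Fin 9) F), Cfsg.Geo.IsFieldSubalgebra 3 K ∧ Cfsg.Geo.IsAdjointClosedFor (Cfsg.hermForm 9 F q) K ∧ H = Cfsg.Geo.subalgebraNormalizer K ⊓ (Cfsg.GU 9 F q ⊓ Cfsg.Geo.specialLinear (Fin 9) F)) ∨
    (∃ (F₀ : Subfield F) (r : ℕ) (P : Matrix.GeneralLinearGroup (Fin 9) F), r.Prime ∧ Odd r ∧ Fintype.card F = Nat.card F₀ ^ r ∧ Cfsg.Geo.IsFormRationalStructure (Cfsg.hermForm 9 F q) F₀ 1 P ∧ H = Cfsg.Geo.subfieldSubgroup F₀ P ⊓ (Cfsg.GU 9 F q ⊓ Cfsg.Geo.specialLinear (Fin 9) F)) ∨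
    (Odd q ∧ ∃ (F₀ : Subfield F) (P : Matrix.GeneralLinearGroup (Fin 9) F), Fintype.card F = Nat.card F₀ ^ 2 ∧ Cfsg.Geo.IsFormRationalStructure (Cfsg.hermForm 9 F q) F₀ 1 P ∧ H = Cfsg.Geo.subfieldSubgroup F₀ P ⊓ (Cfsg.GU 9 F q ⊓ Cfsg.Geo.specialLinear (Fin 9) F)) ∨
    (∃ (p : ℕ) (R : Subgroup (Matrix.GeneralLinearGroup (Fin 9) F)), p.Prime ∧ q = p ∧ p % 3 = 2 ∧ Cfsg.Geo.IsSymplecticTypeGroup 3 R ∧ Cfsg.Geo.ActsAbsolutelyIrreducibly (Cfsg.Geo.matrixSet R) ∧ R ≤ Cfsg.Geo.similarityGroup (Cfsg.hermForm 9 F q) ∧ Nat.card R = 243 ∧ Nat.card (Subgroup.center R) = 3 ∧ H = Cfsg.Geo.subgroupNormalizer R ⊓ (Cfsg.GU 9 F q ⊓ Cfsg.Geo.specialLinear (Fin 9) F)) ∨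
    (3 ≤ q ∧ ∃ (e : Fin 9 ≃ (Fin 2 → Fin 3)) (P : Matrix.GeneralLinearGroup (Fin 9) F) (f₁ : (Fin 3 → F) → (Fin 3 → F) → F), Cfsg.Geo.IsUnitaryFormPow q f₁ ∧ Cfsg.Geo.IsTensorPowerFormStructure (fun x : F => x ^ q) (Cfsg.hermForm 9 F q) f₁ e P ∧ H = Cfsg.Geo.tensorWreathSubgroup 3 2 e P ⊓ (Cfsg.GU 9 F q ⊓ Cfsg.Geo.specialLinear (Fin 9) F)) ∨
    Cfsg.Geo.InUnitaryResidualClass H := by
  have hn : Fintype.card (Fin 9) = 9 := Fintype.card_fin _
  rcases H4.As.su_table hF (by omega) hH with h | ⟨W, h1, h2, h3, h⟩ | ⟨t, m, D, hD, h2, h⟩ |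
    ⟨m, D, hD, h1, h⟩ | ⟨r, K, hr, ho, h1, hK, h2, h⟩ | h | h | ⟨h0, h⟩ |
    ⟨r, R, p, e, k, hR, ha, hI, hk, hp, hc, hq, h1, h⟩ |
    ⟨d, m, e, P, f₁, f₂, h1, h2, h3, h4, h5, h6, h7, h⟩ | ⟨m, t, e, P, f₁, h1, h2, h3, h4, h5, h6, h⟩ | h
  · exact Or.inl h
  · exact Or.inr (Or.inl ⟨W, h1, h2, h3.trans_eq hn, h⟩)
  · have h3 := H4.As.dec_card hD.decomp
    have h4 := hD.decomp.two_le
    rw [hn] at h3
    have h5 : t ≤ 9 := Nat.le_of_dvd (by decide) ⟨m, h3.symm⟩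
    rcases (by interval_cases t <;> omega : (t = 3 ∧ m = 3) ∨ (t = 9 ∧ m = 1)) with ⟨rfl, rfl⟩ | ⟨rfl, rfl⟩
    · repeat (first | exact ⟨D, hD, h⟩ | exact Or.inl ⟨D, hD, h⟩ | right)
    · repeat (first | exact ⟨D, hD, h⟩ | exact Or.inl ⟨D, hD, h⟩ | right)
  · have h3 := H4.As.dec_card hD
    rw [hn] at h3
    omega
  · rw [hn] at h1
    have h5 := Nat.le_of_dvd (by decide) h1
    have h6 := hr.two_le
    rw [Nat.odd_iff] at ho
    obtain rfl : r = 3 := by interval_cases r <;> first | omega | exact absurd hr (by decide)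
    repeat (first | exact ⟨K, hK, h2, h⟩ | exact Or.inl ⟨K, hK, h2, h⟩ | right)
  · repeat (first | exact h | exact Or.inl h | right)
  · repeat (first | exact h | exact Or.inl h | right)
  · exact absurd (hn ▸ h0) (by decide)
  · obtain rfl : r = 3 := H4.As.prime_pow_eq hR.prime (by decide) (k := 2)
      (by decide) (hn ▸ hk)
    obtain rfl : 2 = k := Nat.pow_right_injective (by decide : 2 ≤ 3) (hn.symm.trans hk)
    obtain ⟨h0, hz, hc', h1, h2, h3, h4, h5⟩ | ⟨h0, rfl, h2, hz, hc'⟩ := h1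
    · have key : e = 1 ∧ p % 3 = 2 := by
        generalize p % 3 = a at *
        have h6 : e ≤ 1 := by omega
        revert h4 h3
        interval_cases e <;> interval_cases a <;> decide
      obtain ⟨rfl, h6⟩ := key
      repeat (first | exact ⟨p, R, hp, hq.trans (pow_one p), h6, hR, ha, hI.trans (H4.As.Iso_le_Sim _), hc', hz, h⟩ | exact Or.inl ⟨p, R, hp, hq.trans (pow_one p), h6, hR, ha, hI.trans (H4.As.Iso_le_Sim _), hc', hz, h⟩ | right)
    · exact absurd h0 (by decide)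
  · rw [hn] at h3
    have h8 : d ≤ 3 := by nlinarith
    exfalso; interval_cases d <;> omega
  · obtain ⟨rfl, rfl⟩ := H4.As.pow_cases h1 h2 h3 (by omega)
    repeat (first | exact ⟨h4 rfl, e, P, f₁, h5, h6, h⟩ | exact Or.inl ⟨h4 rfl, e, P, f₁, h5, h6, h⟩ | right)
  · repeat (first | exact h | exact Or.inl h | right)

end Cfsg.Agent.S5832
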