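import Cfsg.Statements.S5938
import Cfsg.Agent.H4.Max3

set_option autoImplicit false
open Cfsg

namespace Cfsg.Agent.S5938


/-- Let p be a prime with p ≡ ±1 (mod 8) and F a field with p elements. Then PSL_2(F) has a maximal subgroup isomorphic to the symmetric group S_4. -/
theorem result {F : Type*} [Field F] [Fintype F] (p : ℕ) [Fact p.Prime] (hF : Fintype.card F = p) (hp : p % 8 = 1 ∨ p % 8 = 7) : ∃ H : Subgroup (Matrix.ProjectiveSpecialLinearGroup (Fin 2) F), IsCoatom H ∧ Nonempty (H ≃* Equiv.Perm (Fin 4)) := by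
  rw [← Nat.card_eq_fintype_card] at hF
  have hp' : p.Prime := Fact.out
  have hq : Odd (Nat.card F) := Nat.odd_iff.2 (by omega)
  obtain ⟨φ, hφ⟩ := H4.exists_s4 (H4.two_ne_zero_iff_odd.2 hq)
  have h1 := hp'.two_le
  exact H4.exists_coatom_of_covBy (H4.s4_covBy (hF ▸ hp') (by omega) hφ
    ((H4.s4_le_L_iff hφ).2 ((H4.isSquare_two_iff hq).2 (by omega))))
    ⟨(MonoidHom.ofInjective hφ).symm⟩

end Cfsg.Agent.S5938
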