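import Cfsg.Statements.S5942
import Cfsg.Agent.H4.Max3

set_option autoImplicit false
open Cfsg

namespace Cfsg.Agent.S5942


/-- Let K and F be finite fields of odd characteristic with #F = (#K)^r for an odd prime r. Then PSL_2(F) has a maximal subgroup isomorphic to PSL_2(K). -/
theorem result {F K : Type*} [Field F] [Fintype F] [Field K] [Fintype K] (q r : ℕ) (hK : Fintype.card K = q) (hF : Fintype.card F = q ^ r) (hq : Odd q) (hr : r.Prime) (hr2 : r ≠ 2) : ∃ H : Subgroup (Matrix.ProjectiveSpecialLinearGroup (Fin 2) F), IsCoatom H ∧ Nonempty (H ≃* Matrix.ProjectiveSpecialLinearGroup (Fin 2) K) := by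
  rw [← Nat.card_eq_fintype_card] at hF hK
  subst hK
  obtain ⟨f⟩ := H4.exists_ringHom_of_card_pow hF
  have h := H4.sub_covBy (k := f.fieldRange) hr (by rw [H4.card_fieldRange, hF])
    (by rw [H4.card_fieldRange]; intro e; rw [e] at hq; exact absurd hq (by decide))
  rw [H4.pglSub_fieldRange, H4.pglSub_inf_L f hF (hr.odd_of_ne_two hr2)] at h
  exact H4.exists_coatom_of_covBy h ⟨(H4.pslSubEquiv f).symm⟩

end Cfsg.Agent.S5942
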