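import Cfsg.Statements.S5943
import Cfsg.Agent.H4.Max3

set_option autoImplicit false
open Cfsg

namespace Cfsg.Agent.S5943


/-- Let K and F be finite fields of characteristic 2 with #K = q > 2 and #F = q^r for a prime r. Then PSL_2(F) has a maximal subgroup isomorphic to PSL_2(K) (which equals PGL_2(K) in characteristic 2). -/
theorem result {F K : Type*} [Field F] [Fintype F] [Field K] [Fintype K] (q r : ℕ) (hK : Fintype.card K = q) (hF : Fintype.card F = q ^ r) (hq : Even q) (hq2 : q ≠ 2) (hr : r.Prime) : ∃ H : Subgroup (Matrix.ProjectiveSpecialLinearGroup (Fin 2) F), IsCoatom H ∧ Nonempty (H ≃* Matrix.ProjectiveSpecialLinearGroup (Fin 2) K) := by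
  rw [← Nat.card_eq_fintype_card] at hF hK
  subst hK
  obtain ⟨f⟩ := H4.exists_ringHom_of_card_pow hF
  have h := H4.sub_covBy (k := f.fieldRange) hr (by rw [H4.card_fieldRange, hF])
    (by rw [H4.card_fieldRange]; exact hq2)
  have e : H4.pglSub f ⊓ H4.Lsub F = H4.pslSub f := by
    rw [H4.Lsub_eq_top (by rw [hF]; exact hq.pow_of_ne_zero hr.ne_zero), inf_top_eq,
      ← H4.map_Lsub, H4.Lsub_eq_top hq, ← MonoidHom.range_eq_map]
    rfl
  rw [H4.pglSub_fieldRange, e] at h
  exact H4.exists_coatom_of_covBy h ⟨(H4.pslSubEquiv f).symm⟩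

end Cfsg.Agent.S5943
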