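import Cfsg.Statements.S5952
import Mathlib

set_option autoImplicit false
open Cfsg

namespace Cfsg.Agent.S5952

open Module
theorem sub_dim {F V : Type*} [Field F] [AddCommGroup V] [Module F V] (C : Submodule F V) {m : ℕ} (h : m ≤ finrank F C) :
    ∃ W ≤ C, finrank F W = m := by
  obtain ⟨v, i⟩ := exists_linearIndependent_of_le_finrank h
  exact ⟨_, Submodule.span_le.2 (by rintro _ ⟨i, rfl⟩; exact (v i).2),
    (finrank_span_eq_card (i.map' C.subtype C.ker_subtype)).trans (Fintype.card_fin m)⟩

/-- Which dimensions of invariant subspaces a semisimple linear map has. Let `V` be a finite-dimensional vector space over a field `F` and `f` an invertible semisimple linear map of `V`. Suppose `V` is the internal direct sum of the fixed space `C_V(f)` (the eigenspace for 1) and subspaces `U_1, …, U_s`, each `f`-invariant of dimension `a ≥ 1` on which `f` acts irreducibly (no `f`-invariant subspaces other than 0 and `U_j`). Let `0 < m < dim V` and `ℓ = m mod a`. Then `f` leaves some `m`-dimensional subspace invariant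 if and only if `dim C_V(f) ≥ m`, or `a ≤ m` and `dim C_V(f) ≥ ℓ`. -/
theorem result {F V : Type*} [Field F] [AddCommGroup V] [Module F V]
    [FiniteDimensional F V] (f : V →ₗ[F] V) (hf : Function.Bijective f) (hss : Module.End.IsSemisimple f)
    {s a : ℕ} (ha : 1 ≤ a) (U : Fin s → Submodule F V)
    (hUinv : ∀ j, (U j).map f ≤ U j) (hUdim : ∀ j, Module.finrank F ↥(U j) = a)
    (hUirr : ∀ j, ∀ W : Submodule F V, W ≤ U j → W.map f ≤ W → W = ⊥ ∨ W = U j)
    (hdec : DirectSum.IsInternal (fun o : Option (Fin s) => o.elim (Module.End.eigenspace f 1) U))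
    (m : ℕ) (hm : 0 < m) (hmV : m < Module.finrank F V) :
    (∃ W : Submodule F V, Module.finrank F ↥W = m ∧ W.map f ≤ W) ↔
    (m ≤ Module.finrank F ↥(Module.End.eigenspace f 1) ∨
      (a ≤ m ∧ m % a ≤ Module.finrank F ↥(Module.End.eigenspace f 1))) := by
  set_option maxSynthPendingDepth 3 in
  classical
  set C := Module.End.eigenspace f 1
  have dj : ∀ (S : Finset (Fin s)) j, j ∉ S → Disjoint (C ⊔ ⨆ i ∈ S, U i) (U j) := fun S j n =>
    (hdec.submodule_iSupIndep (some j)).symm.mono_left (sup_le (le_iSup₂_of_le none (by simp) le_rfl)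
      (iSup₂_le fun i h => le_iSup₂_of_le (some i) (fun z => n (by rwa [← Option.some.inj z])) le_rfl))
  have iv : ∀ C' ≤ C, ∀ S : Finset (Fin s), (C' ⊔ ⨆ i ∈ S, U i).map f ≤ C' ⊔ ⨆ i ∈ S, U i := fun C' l S => by
    simp only [Submodule.map_sup, Submodule.map_iSup]
    refine sup_le_sup ?_ (iSup₂_mono fun i _ => hUinv i)
    rintro _ ⟨v, h, rfl⟩
    rwa [Module.End.mem_eigenspace_iff.1 (l h), one_smul]
  have d1 : ∀ C' ≤ C, ∀ S : Finset (Fin s), finrank F (C' ⊔ ⨆ i ∈ S, U i : Submodule F V) = finrank F C' + a * S.card :=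
    fun C' l S => by
      induction S using Finset.induction_on with
      | empty => rw [show ⨆ i ∈ (∅ : Finset (Fin s)), U i = ⊥ by simp, sup_bot_eq]; rfl
      | insert j S n ih =>
        have := Submodule.finrank_sup_add_finrank_inf_eq (C' ⊔ ⨆ i ∈ S, U i) (U j)
        rw [((dj S j n).mono_left (sup_le_sup_right l _)).eq_bot, finrank_bot, ih, hUdim] at this
        rw [Finset.iSup_insert, sup_comm (U j), ← sup_assoc, Finset.card_insert_of_notMem n]; linarith
  have tp : C ⊔ ⨆ i ∈ Finset.univ, U i = ⊤ := eq_top_iff.2 (hdec.submodule_iSup_eq_top.ge.trans (iSup_le fun o => by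
    cases o
    exacts [le_sup_left, le_sup_of_le_right (le_iSup₂_of_le _ (Finset.mem_univ _) le_rfl)]))
  refine ⟨fun ⟨W, e, w⟩ => ?_, fun h => ?_⟩
  · have d2 : ∀ S : Finset (Fin s), ∃ t, finrank F (W ⊓ (C ⊔ ⨆ i ∈ S, U i) : Submodule F V) =
        finrank F (W ⊓ C : Submodule F V) + a * t := fun S => by
      induction S using Finset.induction_on with
      | empty => exact ⟨0, by rw [show ⨆ i ∈ (∅ : Finset (Fin s)), U i = ⊥ by simp, sup_bot_eq]; rfl⟩
      | insert j S n ih =>
        obtain ⟨t, ih⟩ := ih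
        set X := C ⊔ ⨆ i ∈ S, U i
        have e1 := Submodule.finrank_sup_add_finrank_inf_eq X (U j)
        have e2 := Submodule.finrank_sup_add_finrank_inf_eq W X
        have e3 := Submodule.finrank_sup_add_finrank_inf_eq W (X ⊔ U j)
        have e4 := Submodule.finrank_sup_add_finrank_inf_eq (W ⊔ X) (U j)
        rw [(dj S j n).eq_bot, finrank_bot] at e1
        rw [Finset.iSup_insert, sup_comm (U j), ← sup_assoc]
        change ∃ t, finrank F (W ⊓ (X ⊔ U j) : Submodule F V) = _
        rw [← sup_assoc] at e3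
        rcases hUirr j ((W ⊔ X) ⊓ U j) inf_le_right ((Submodule.map_inf_le f).trans (inf_le_inf (by
          rw [Submodule.map_sup]; exact sup_le_sup w (iv C le_rfl S)) (hUinv j))) with z | z <;> rw [z] at e4
        · exact ⟨t, by rw [finrank_bot] at e4; omega⟩
        · exact ⟨t + 1, by rw [hUdim] at e4 e1; rw [mul_add]; omega⟩
    obtain ⟨t, h⟩ := d2 Finset.univ
    rw [tp, inf_top_eq, e] at h
    have l : finrank F (W ⊓ C : Submodule F V) ≤ finrank F C := Submodule.finrank_mono inf_le_right
    rcases t with _ | t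
    · exact .inl (by omega)
    · exact .inr ⟨by rw [h, mul_add]; omega, by rw [h, Nat.add_mul_mod_self_left]; exact (Nat.mod_le _ _).trans l⟩
  · have k : ∀ r t, r ≤ finrank F C → t ≤ s → m = r + a * t → ∃ W : Submodule F V, finrank F W = m ∧ W.map f ≤ W :=
      fun r t l l' e => by
        obtain ⟨C', a1, a2⟩ := sub_dim C l
        obtain ⟨S, -, b⟩ := Finset.exists_subset_card_eq (s := Finset.univ) (l'.trans_eq (Finset.card_fin s).symm)
        exact ⟨_, by rw [d1 C' a1 S, a2, b, e], iv C' a1 S⟩
    rcases h with h | ⟨-, h⟩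
    · exact k m 0 h s.zero_le rfl
    rcases le_total (m / a) s with l | l
    · exact k _ _ h l (Nat.mod_add_div m a).symm
    · have := d1 C le_rfl Finset.univ
      rw [tp, finrank_top, Finset.card_fin] at this
      have := (Nat.mul_le_mul_left a l).trans (Nat.mul_div_le m a)
      exact k (m - a * s) s (by omega) le_rfl (by omega)

end Cfsg.Agent.S5952
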