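import Cfsg.Statements.S5959
import Cfsg.Agent.H4.ElH

set_option autoImplicit false
open scoped MatrixGroups
open Cfsg

namespace Cfsg.Agent.S5959


/-- Elements of order `p` of PSL_n(q) and imprimitive subgroups: a necessary condition. Here `T = PSL_n(F)` for a field `F` with `q = p^f` elements (`n ≥ 2`, `(n, q) ≠ (2, 2), (2, 3)`), `n = a·t` with `t ≥ 2`, and Ω is the set of direct-sum decompositions of `F^n` into `t` subspaces of dimension `a` (unordered; their number is the number of ordered ones divided by `t!`), whose stabilizers are the imprimitive subgroups of type GL_a(q) ≀ S_t (maximal except in some small cases; maximality is not assumed); an element of `T` of prime order `r` (a matrix `x` of determinant 1 with `x^r` scalar, `x` not scalar) fixes a point of Ω when it permutes the summands of some such decomposition. Suppose `p > 2` divides the number of such decompositions. If every element of `T` of order `p` stabilizes such a decomposition, then every partition of `n` into parts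 of size at most `p` in which the part `p` occurs fewer than `a` times contains (as a sub-multiset) a partition of `a`. -/
theorem result {F : Type*} [Field F] [Fintype F] {p : ℕ} [Fact p.Prime] [CharP F p] {q : ℕ} (hq : Fintype.card F = q)
    (n a t : ℕ) (hn : 2 ≤ n) (hT : (n, q) ≠ (2, 2) ∧ (n, q) ≠ (2, 3)) (hat : n = a * t) (ha : 1 ≤ a) (ht : 2 ≤ t)
    (hp : 2 < p) (hΩ : p ∣ Nat.card {D : Fin t → Submodule F (Fin n → F) // Cfsg.Geo.IsMDecomposition a D} / Nat.factorial t)
    (h : ∀ x : Matrix.SpecialLinearGroup (Fin n) F,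
      (∃ z : F, ((x ^ p : Matrix.SpecialLinearGroup (Fin n) F) : Matrix (Fin n) (Fin n) F) = z • (1 : Matrix (Fin n) (Fin n) F)) →
      (∀ z : F, (x : Matrix (Fin n) (Fin n) F) ≠ z • (1 : Matrix (Fin n) (Fin n) F)) →
      ∃ D : Fin t → Submodule F (Fin n → F), Cfsg.Geo.IsMDecomposition a D ∧
        ∃ σ : Equiv.Perm (Fin t), ∀ j, (D j).map (Matrix.toLin' (x : Matrix (Fin n) (Fin n) F)) = D (σ j)) :
    (∀ μ : Multiset ℕ, (∀ b ∈ μ, 0 < b ∧ b ≤ p) → μ.sum = n → μ.count p < a → ∃ ν : Multiset ℕ, ν ≤ μ ∧ ν.sum = a) := by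
  intro μ h1 h2 h3
  subst h2
  obtain ⟨N, hN⟩ := H4.Jd.jordan (F := F) μ
  have hb : ∀ b ∈ μ, b ≤ p := fun b hb => (h1 b hb).2
  haveI : Nonempty (Fin μ.sum) := ⟨⟨0, by omega⟩⟩
  haveI : CharP (Module.End F (Fin μ.sum → F)) p := charP_of_injective_algebraMap' F p
  have h4 : N ^ p = 0 := LinearMap.range_eq_bot.1 (Submodule.finrank_eq_zero.1 ((hN p).trans
    (Multiset.sum_eq_zero fun x hx => by
      obtain ⟨b, hb', rfl⟩ := Multiset.mem_map.1 hx
      exact Nat.sub_eq_zero_of_le (hb b hb'))))
  have h5 : (1 + N) ^ p = 1 := by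
    rw [add_pow_char_of_commute _ (Commute.one_left N), one_pow, h4, add_zero]
  have h6 : LinearMap.det (1 + N) = 1 := frobenius_inj F p (by
    rw [frobenius_def, ← map_pow, h5, map_one, map_one])
  let x : Matrix.SpecialLinearGroup (Fin μ.sum) F :=
    ⟨LinearMap.toMatrixAlgEquiv' (1 + N), (LinearMap.det_toMatrix' _).trans h6⟩
  have hx : Matrix.toLin' x.1 = 1 + N := Matrix.toLin'_toMatrix' (1 + N)
  have key : ∀ U W : Submodule F (Fin μ.sum → F), IsCompl U W → (∀ v ∈ U, (1 + N) v ∈ U) →
      (∀ v ∈ W, (1 + N) v ∈ W) → Module.finrank F U = a → ∃ ν ≤ μ, ν.sum = a :=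
    fun U W c hU hW e => e ▸ H4.Jd.split hb hN c
      (fun v hv => by simpa using sub_mem (hU v hv) hv) fun v hv => by
        simpa using sub_mem (hW v hv) hv
  by_cases h7 : ∀ z : F, x.1 ≠ z • 1
  swap
  · push Not at h7
    obtain ⟨z, hz⟩ := h7
    have h8 : ∀ (S : Submodule F (Fin μ.sum → F)), ∀ v ∈ S, (1 + N) v ∈ S := fun S v hv => by
      rw [← hx, hz]; simpa using S.smul_mem z hv
    obtain ⟨f, hf⟩ := exists_linearIndependent_of_le_finrank (R := F) (M := Fin μ.sum → F) (n := a)
      (by rw [Module.finrank_fin_fun]; nlinarith)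
    obtain ⟨W, c⟩ := (Submodule.span F (Set.range f)).exists_isCompl
    exact key _ W c (h8 _) (h8 _) (by rw [finrank_span_eq_card hf, Fintype.card_fin])
  obtain ⟨D, hD, σ, hσ⟩ := h x ⟨1, by
    rw [Matrix.SpecialLinearGroup.coe_pow, ← map_pow, h5, map_one, one_smul]⟩ h7
  rw [hx] at hσ
  have h8 : ∀ j, σ j = j := fun j => by_contra fun e => by
    have := H4.Jd.moved h5 hD.indep hσ (fun h0 => by
      have := hD.finrank_eq j
      rw [h0, finrank_bot] at this; omega) e
    rw [hD.finrank_eq, hN, H4.Jd.sum_top (zero_lt_two.trans hp) hb] at this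
    exact this.not_gt h3
  have h9 : ∀ j, ∀ v ∈ D j, (1 + N) v ∈ D j := fun j v hv => by
    have := (hσ j).le ⟨v, hv, rfl⟩
    rwa [h8] at this
  obtain ⟨W, c, hW⟩ := H4.Jd.exists_compl hD.indep hD.iSup_eq_top h9 ⟨0, zero_lt_two.trans_le ht⟩
  exact key _ W c (h9 _) hW (hD.finrank_eq _)

end Cfsg.Agent.S5959
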