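import Cfsg.Statements.S5963
import Cfsg.Agent.H4.ElE

set_option autoImplicit false
open scoped MatrixGroups
open Cfsg

namespace Cfsg.Agent.S5963


/-- Derangements of odd prime order of PSp_n(q), q odd, on pairs of complementary totally isotropic subspaces. Here `T = PSp_n(q)`, `n = 2d ≥ 4`, `q` odd, realised through the symplectic matrices over the field `F` with `q` elements; Ω is the set of unordered pairs `{U, W}` of complementary totally isotropic `d`-spaces (`F^n = U ⊕ W`), whose stabilizers are the subgroups of type GL_d(q).2 (maximal except in some small cases; maximality is not assumed); an element of `T` of prime order `r` (a symplectic matrix `x` with `x^r` scalar, `x` not scalar) fixes such a pair when it fixes or interchanges `U` and `W`. For every odd prime `r ≠ p` dividing the number of such pairs, some element of `T` of order `r` fixes no such pair (the action is never `r`-elusive for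 odd `r ≠ p`). -/
theorem result {F : Type*} [Field F] [Fintype F] {p : ℕ} [Fact p.Prime] [CharP F p] {q : ℕ} (hq : Fintype.card F = q)
    (d : ℕ) (hd : 2 ≤ d) (hT : (d, q) ≠ (2, 2)) (hodd : Odd q)
    (r : ℕ) [Fact r.Prime] (hr2 : r ≠ 2) (hrp : r ≠ p) (hΩ : r ∣ Nat.card {P : Submodule F (Fin d ⊕ Fin d → F) × Submodule F (Fin d ⊕ Fin d → F) // IsCompl P.1 P.2 ∧ (∀ u ∈ P.1, ∀ v ∈ P.1, Cfsg.sympForm d F u v = 0) ∧ (∀ u ∈ P.2, ∀ v ∈ P.2, Cfsg.sympForm d F u v = 0)} / 2) :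
    ∃ x : ↥(Matrix.symplecticGroup (Fin d) F),
      (∃ z : F, ((x ^ r : ↥(Matrix.symplecticGroup (Fin d) F)) : Matrix (Fin d ⊕ Fin d) (Fin d ⊕ Fin d) F) = z • (1 : Matrix (Fin d ⊕ Fin d) (Fin d ⊕ Fin d) F)) ∧
      (∀ z : F, (x : Matrix (Fin d ⊕ Fin d) (Fin d ⊕ Fin d) F) ≠ z • (1 : Matrix (Fin d ⊕ Fin d) (Fin d ⊕ Fin d) F)) ∧
      ¬ (∃ U W : Submodule F (Fin d ⊕ Fin d → F), IsCompl U W ∧ (∀ u ∈ U, ∀ v ∈ U, Cfsg.sympForm d F u v = 0) ∧ (∀ u ∈ W, ∀ v ∈ W, Cfsg.sympForm d F u v = 0) ∧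
        ((U.map (Matrix.toLin' (x : Matrix (Fin d ⊕ Fin d) (Fin d ⊕ Fin d) F)) = U ∧ W.map (Matrix.toLin' (x : Matrix (Fin d ⊕ Fin d) (Fin d ⊕ Fin d) F)) = W) ∨
         (U.map (Matrix.toLin' (x : Matrix (Fin d ⊕ Fin d) (Fin d ⊕ Fin d) F)) = W ∧ W.map (Matrix.toLin' (x : Matrix (Fin d ⊕ Fin d) (Fin d ⊕ Fin d) F)) = U))) := by
  subst hq
  have ts : ∀ U, (H4.spForm d F).TS U ↔ ∀ u ∈ U, ∀ v ∈ U, Cfsg.sympForm d F u v = 0 := fun U =>
    ⟨fun h u hu v hv => (H4.spForm_B d F u v).symm.trans (h.2 u hu v hv),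
      fun h => ⟨fun _ _ => rfl, fun u hu v hv => (H4.spForm_B d F u v).trans (h u hu v hv)⟩⟩
  simp only [← ts] at hΩ ⊢
  obtain ⟨x, h1, h2, h3⟩ := H4.Au.s5963 (by omega) hodd hr2 (fun e => by
    obtain ⟨n, h4, h5⟩ := FiniteField.card F p
    exact hrp ((Nat.prime_dvd_prime_iff_eq Fact.out h4).1
      ((Fact.out : r.Prime).dvd_of_dvd_pow (h5 ▸ e)))) hΩ
  obtain ⟨x, rfl⟩ := (H4.spEquiv d F).surjective x
  refine ⟨x, ⟨1, by
    rw [← map_pow, map_eq_one_iff _ (H4.spEquiv d F).injective] at h1; rw [h1]; simp⟩,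
    fun z e => h2 z fun v => by
      rw [H4.spEquiv_apply, e, Matrix.smul_mulVec, Matrix.one_mulVec], ?_⟩
  rintro ⟨U, W, c, hU, hW, H⟩
  exact h3 U W c hU hW (H.imp
    (fun h => ⟨fun u hu => h.1.le ⟨u, hu, rfl⟩, fun u hu => h.2.le ⟨u, hu, rfl⟩⟩)
    fun h => ⟨fun u hu => h.1.le ⟨u, hu, rfl⟩, fun u hu => h.2.le ⟨u, hu, rfl⟩⟩)

end Cfsg.Agent.S5963
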