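import Cfsg.Statements.S5968
import Cfsg.Agent.H4.ElG

set_option autoImplicit false
open scoped MatrixGroups
open Cfsg

namespace Cfsg.Agent.S5968


/-- Derangements of odd prime order of PSL_n(q) on the cosets of a symplectic-type subgroup. Here `T = PSL_n(F)` for a field `F` with `q` elements, `n ≥ 4` even, `f` is a nondegenerate alternating form on `F^n`, and `H` is the subgroup of matrices of determinant 1 preserving `f` up to a scalar — a maximal subgroup of type Sp_n(q); Ω is the set of `T`-conjugates of `H` (cosets of `H`), so an element of `T` of prime order `r` (a matrix `x` of determinant 1 with `x^r` scalar, `x` not scalar) fixes a point of Ω when some conjugate of `x` by a matrix of determinant 1 preserves `f` up to a scalar. For every odd prime `r` dividing the index of `H`, with `(n, r) ≠ (6, 3)`, there is an element of `T` of order `r` with no conjugate in `H`. (For `n = 6`, `r = 3` this can fail: when `(q − 1)_3 = 3` every element of order 3 is conjugate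 into `H`.) -/
theorem result {F : Type*} [Field F] [Fintype F] {p : ℕ} [Fact p.Prime] [CharP F p] {q : ℕ} (hq : Fintype.card F = q)
    (n : ℕ) (hn : 4 ≤ n) (he : Even n) (f : (Fin n → F) → (Fin n → F) → F) (hf : Cfsg.Geo.IsSymplecticForm f)
    (r : ℕ) [Fact r.Prime] (hr2 : r ≠ 2) (hgap : ¬ (n = 6 ∧ r = 3)) (hΩ : r ∣ ((Cfsg.Geo.similarityGroup f).comap (Matrix.SpecialLinearGroup.toGL : Matrix.SpecialLinearGroup (Fin n) F →* GL (Fin n) F)).index) :
    ∃ x : Matrix.SpecialLinearGroup (Fin n) F,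
      (∃ z : F, ((x ^ r : Matrix.SpecialLinearGroup (Fin n) F) : Matrix (Fin n) (Fin n) F) = z • (1 : Matrix (Fin n) (Fin n) F)) ∧
      (∀ z : F, (x : Matrix (Fin n) (Fin n) F) ≠ z • (1 : Matrix (Fin n) (Fin n) F)) ∧
      ∀ P : Matrix.SpecialLinearGroup (Fin n) F, P⁻¹ * x * P ∉ ((Cfsg.Geo.similarityGroup f).comap (Matrix.SpecialLinearGroup.toGL : Matrix.SpecialLinearGroup (Fin n) F →* GL (Fin n) F)) := by
  obtain ⟨m, rfl⟩ : ∃ m, n = 2 * m := he.two_dvd
  obtain ⟨X, ⟨h1, h2⟩, h3⟩ := H4.Au.s5968 (p := p) (by omega) hf hr2 hgap hΩ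
  let x : Matrix.SpecialLinearGroup (Fin (2 * m)) F :=
    ⟨LinearMap.toMatrixAlgEquiv' X, (LinearMap.det_toMatrix' X).trans h3⟩
  have hx : ∀ v, x.1.mulVec v = X v := fun v => LinearMap.toMatrix'_mulVec X v
  have hr : x ^ r = 1 := Subtype.ext (by
    rw [Matrix.SpecialLinearGroup.coe_pow, ← map_pow, h1, map_one]; rfl)
  have key : ∀ P : Matrix.SpecialLinearGroup (Fin (2 * m)) F, ∀ c : F,
      ¬ ∀ u v, f ((P⁻¹ * x * P).1.mulVec u) ((P⁻¹ * x * P).1.mulVec v) = c * f u v := fun P c H => by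
    have e : ∀ v, (P⁻¹ * x * P).1.mulVec ((P⁻¹).1.mulVec v) = (P⁻¹).1.mulVec (X v) := fun v => by
      rw [← hx, Matrix.mulVec_mulVec, Matrix.mulVec_mulVec, ← Matrix.SpecialLinearGroup.coe_mul,
        mul_inv_cancel_right]; rfl
    have e1 : ∀ v, (P⁻¹).1.mulVec (P.1.mulVec v) = v := fun v => by
      rw [Matrix.mulVec_mulVec, ← Matrix.SpecialLinearGroup.coe_mul, inv_mul_cancel]; simp
    have H' : ∀ u v, f ((P⁻¹).1.mulVec (X u)) ((P⁻¹).1.mulVec (X v)) =
        c * f ((P⁻¹).1.mulVec u) ((P⁻¹).1.mulVec v) := fun u v => by rw [← e, ← e, H]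
    have e2 : ∀ (k : ℕ) u v, f ((P⁻¹).1.mulVec ((X ^ k) u)) ((P⁻¹).1.mulVec ((X ^ k) v)) =
        c ^ k * f ((P⁻¹).1.mulVec u) ((P⁻¹).1.mulVec v) := fun k u v => by
      induction k with
      | zero => simp
      | succ k ih => rw [pow_succ', Module.End.mul_apply, Module.End.mul_apply, H', ih, pow_succ', mul_assoc]
    obtain ⟨y, hy⟩ := (H4.aForm_ND hf).exists_eq (x := fun _ => 1)
      (fun h => one_ne_zero (congrFun h ⟨0, by omega⟩)) 1
    refine h2 ((H4.bilinOf hf.bilinear).compl₁₂ (Matrix.toLin' (P⁻¹).1) (Matrix.toLin' (P⁻¹).1))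
      (fun v => hf.alternating _) (fun u hu => ?_) c ?_ H'
    · have : (P⁻¹).1.mulVec u = 0 := H4.aForm_ND hf _ fun v => by
        rw [← e1 v]; exact hu _
      have h4 := congrArg P.1.mulVec this
      rwa [Matrix.mulVec_mulVec, ← Matrix.SpecialLinearGroup.coe_mul, mul_inv_cancel,
        Matrix.SpecialLinearGroup.coe_one, Matrix.one_mulVec, Matrix.mulVec_zero] at h4
    · have := e2 r (P.1.mulVec fun _ => 1) (P.1.mulVec y)
      rw [h1, Module.End.one_apply, Module.End.one_apply, e1, e1, show f _ y = 1 from hy] at this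
      simpa using this.symm
  refine ⟨x, ⟨1, by rw [hr]; simp⟩, fun z h => key 1 (z * z) fun u v => ?_,
    fun P ⟨c, hc⟩ => key P c hc⟩
  rw [inv_one, one_mul, mul_one, h, Matrix.smul_mulVec, Matrix.smul_mulVec, Matrix.one_mulVec,
    Matrix.one_mulVec, hf.bilinear.smul_left, hf.bilinear.smul_right]
  simp [mul_assoc]

end Cfsg.Agent.S5968
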